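import Cfsg.Agent.Lib.Chev.OutTypes

/-!
Diagonal and field automorphisms inside the outer automorphism group of a split Chevalley group.
-/

set_option autoImplicit false
set_option linter.unusedSectionVars false

namespace Cfsg.Agent.Lib.Chev

open Cfsg.Lie Cfsg.Agent.Lib
open scoped commutatorElement

namespace Checked

variable {D : ChevalleyDatum} {T : Fast} {F : Type*} [Field F] [Fintype F] (C : Checked D T)
  (hen : ∀ i < D.rank, T.en i (D.simple i) = true)
include C hen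

theorem ker_toOut_le (hc : connCheck D = true) (h0 : 0 < D.rank) :
    (toOut D F).ker ≤ (C.nodePerm (F := F) hen).ker := by
  intro θ hθ
  obtain ⟨c, hcc⟩ := (C.ker_toOut θ).1 hθ
  refine (C.ker_nodePerm hen hc h0 θ).2 ⟨C.cartanMap c, 1, ?_⟩
  rw [map_one, mul_one]
  exact hcc.symm

theorem sup_eq_map (hc : connCheck D = true) (h0 : 0 < D.rank) :
    (C.diagHom (F := F)).range.map (QuotientGroup.mk' (Cfsg.Inn ↥(D.group F))) ⊔
      (C.fieldHom (F := F)).range.map (QuotientGroup.mk' (Cfsg.Inn ↥(D.group F))) =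
      ((C.nodePerm (F := F) hen).ker).map (toOut D F) := by
  refine le_antisymm (sup_le ?_ ?_) ?_
  · rintro _ ⟨_, ⟨c, rfl⟩, rfl⟩
    exact ⟨⟨C.diagHom c, C.diagHom_mem c⟩,
      (C.ker_nodePerm hen hc h0 _).2 ⟨c, 1, by rw [map_one, mul_one]⟩, rfl⟩
  · rintro _ ⟨_, ⟨τ, rfl⟩, rfl⟩
    exact ⟨⟨C.fieldHom τ, C.fieldHom_mem τ⟩,
      (C.ker_nodePerm hen hc h0 _).2 ⟨1, τ, by rw [map_one, one_mul]⟩, rfl⟩
  · rintro _ ⟨θ, hθ, rfl⟩
    obtain ⟨c, τ, e⟩ := (C.ker_nodePerm hen hc h0 θ).1 hθ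
    show QuotientGroup.mk' _ θ.1 ∈ _
    rw [e, map_mul]
    exact Subgroup.mul_mem_sup ⟨_, ⟨c, rfl⟩, rfl⟩ ⟨_, ⟨τ, rfl⟩, rfl⟩

/-- The general structure of `Out`. -/
theorem out_structure (hs : T.stepCheck = true) (p : ℕ) [Fact p.Prime] [CharP F p]
    (hD : D ∈ [chevG2, chevB2, chevD4, chevF4, chevE6, chevE7, chevE8])
    (Dbar Fbar : Subgroup (Cfsg.Out ↥(D.group F)))
    (hDbar : Dbar = (Subgroup.closure {φ : MulAut ↥(D.group F) | D.IsDiagonalAut φ}).map
      (QuotientGroup.mk' (Cfsg.Inn ↥(D.group F))))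
    (hFbar : Fbar = (Subgroup.closure {φ : MulAut ↥(D.group F) | D.IsFieldAut φ}).map
      (QuotientGroup.mk' (Cfsg.Inn ↥(D.group F)))) :
    Dbar.Normal ∧ IsMulCommutative ↥Dbar ∧ IsCyclic ↥Fbar ∧ (Dbar ⊔ Fbar).Normal ∧
      (Dbar ⊔ Fbar).index = Nat.card (C.nodePerm (F := F) hen).range ∧
      (commutator (Cfsg.Out ↥(D.group F)) ≤ Dbar ⊔ Fbar → ∀ a b : ↥(stabUV D F),
        C.nodePerm hen a * C.nodePerm hen b = C.nodePerm hen b * C.nodePerm hen a) := by
  obtain ⟨hc, h0⟩ := conn_all hD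
  rw [C.closure_diag hs] at hDbar
  rw [C.closure_field] at hFbar
  have hsurj : Function.Surjective (toOut D F) := C.toOut_surjective (F := F) p hD
  have hsup : Dbar ⊔ Fbar = ((C.nodePerm (F := F) hen).ker).map (toOut D F) := by
    rw [hDbar, hFbar, C.sup_eq_map hen hc h0]
  have hker := C.ker_toOut_le hen (F := F) hc h0
  refine ⟨⟨fun x hx q => ?_⟩, ?_, ?_, ?_, ?_, fun hle a b => ?_⟩
  · rw [hDbar] at hx ⊢
    obtain ⟨_, ⟨c, rfl⟩, rfl⟩ := hx
    obtain ⟨θ, rfl⟩ := hsurj q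
    refine ⟨_, C.diagHom_conj hen θ c, ?_⟩
    simp only [map_mul, map_inv]
    rfl
  · rw [hDbar, MonoidHom.map_range]
    refine ⟨⟨?_⟩⟩
    rintro ⟨_, a, rfl⟩ ⟨_, b, rfl⟩
    refine Subtype.ext ?_
    show _ * _ = _ * _
    rw [← map_mul, ← map_mul, mul_comm a b]
  · rw [hFbar, MonoidHom.map_range]
    obtain ⟨f, hF⟩ : ∃ f, Fintype.card F = p ^ f := by
      obtain ⟨n, -, hn⟩ := FiniteField.card F p
      exact ⟨n, hn⟩
    have hf : 1 ≤ f := Nat.one_le_iff_ne_zero.2 fun h => by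
      have := Fintype.one_lt_card (α := F)
      simp [hF, h] at this
    obtain ⟨e⟩ := Cfsg.Agent.Lib.AutPSL.ringAut_equiv (F := F) hf hF
    haveI : IsCyclic (RingAut F) :=
      isCyclic_of_surjective e.symm.toMonoidHom e.symm.surjective
    exact isCyclic_of_surjective _ (MonoidHom.rangeRestrict_surjective _)
  · rw [hsup]
    exact Subgroup.Normal.map inferInstance _ hsurj
  · rw [hsup, Subgroup.index_map_eq _ hsurj hker, Subgroup.index_ker]
  · rw [hsup] at hle
    obtain ⟨x, hx, e⟩ := hle (Subgroup.commutator_mem_commutator (Subgroup.mem_top (toOut D F a))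
      (Subgroup.mem_top (toOut D F b)))
    rw [← map_commutatorElement] at e
    have h1 : ⁅a, b⁆ * x⁻¹ ∈ (C.nodePerm (F := F) hen).ker :=
      hker (by rw [MonoidHom.mem_ker, map_mul, map_inv, e, mul_inv_cancel])
    have h2 : ⁅a, b⁆ ∈ (C.nodePerm (F := F) hen).ker := by simpa using mul_mem h1 hx
    rw [MonoidHom.mem_ker, map_commutatorElement, commutatorElement_eq_one_iff_mul_comm] at h2
    exact h2

end Checked

theorem exists_checked_out {D : ChevalleyDatum}
    (hD : D ∈ [chevG2, chevB2, chevD4, chevF4, chevE6, chevE7, chevE8]) :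
    ∃ T : Fast, Checked D T ∧ (∀ i < D.rank, T.en i (D.simple i) = true) ∧
      T.bondCheck D.bonds = true ∧ T.stepCheck = true ∧
      (D = chevD4 ∨ ∃ a b : List ℕ, symLists D.bonds D.rank D.rank = [a] ∨
        symLists D.bonds D.rank D.rank = [a, b]) := by
  simp only [List.mem_cons, List.not_mem_nil, or_false] at hD
  rcases hD with rfl | rfl | rfl | rfl | rfl | rfl | rfl
  exacts [⟨_, G2.checked, en_G2, bond_G2, step_G2, Or.inr ⟨_, _, Or.inr symLists_G2⟩⟩,
    ⟨_, B2.checked, en_simple_of B2.checked en_simple_B2, bond_B2, step_B2, Or.inr ⟨_, _, Or.inr symLists_B2⟩⟩,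
    ⟨_, D4.checked, en_D4, bond_D4, step_D4, Or.inl rfl⟩,
    ⟨_, F4.checked, en_F4, bond_F4, step_F4, Or.inr ⟨_, _, Or.inr symLists_F4⟩⟩,
    ⟨_, E6.checked, en_E6, bond_E6, step_E6, Or.inr ⟨_, _, Or.inr symLists_E6⟩⟩,
    ⟨_, E7.checked, en_E7, bond_E7, step_E7, Or.inr ⟨_, [], Or.inl symLists_E7⟩⟩,
    ⟨_, E8.checked, en_E8, bond_E8, step_E8, Or.inr ⟨_, [], Or.inl symLists_E8⟩⟩]

/-- Structure of `Out` for the seven types. -/
theorem out_structure_all {F : Type*} [Field F] [Finite F] (D : ChevalleyDatum)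
    (hD : D ∈ [chevG2, chevB2, chevD4, chevF4, chevE6, chevE7, chevE8])
    (Dbar Fbar : Subgroup (Cfsg.Out ↥(D.group F)))
    (hDbar : Dbar = (Subgroup.closure {φ : MulAut ↥(D.group F) | D.IsDiagonalAut φ}).map
      (QuotientGroup.mk' (Cfsg.Inn ↥(D.group F))))
    (hFbar : Fbar = (Subgroup.closure {φ : MulAut ↥(D.group F) | D.IsFieldAut φ}).map
      (QuotientGroup.mk' (Cfsg.Inn ↥(D.group F)))) :
    Dbar.Normal ∧ IsMulCommutative ↥Dbar ∧ IsCyclic ↥Fbar ∧ (Dbar ⊔ Fbar).Normal ∧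
      ((Dbar ⊔ Fbar).index = 1 ∨ (Dbar ⊔ Fbar).index = 2 ∨
        ((Dbar ⊔ Fbar).index = 6 ∧ ¬ commutator (Cfsg.Out ↥(D.group F)) ≤ Dbar ⊔ Fbar)) := by
  haveI : Fintype F := Fintype.ofFinite F
  haveI : Fact (ringChar F).Prime := ⟨CharP.char_is_prime F (ringChar F)⟩
  obtain ⟨T, C, hen, hb, hs, hcase⟩ := exists_checked_out hD
  rcases hcase with rfl | ⟨a, b, hS⟩
  · obtain ⟨h1, h2, h3, h4, h5, h6⟩ :=
      D4.checked.out_structure en_D4 step_D4 (ringChar F) hD Dbar Fbar hDbar hFbar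
    obtain ⟨hcard, a, b, hne⟩ := range_D4 (F := F)
    exact ⟨h1, h2, h3, h4, Or.inr (Or.inr ⟨h5.trans hcard, fun hle => hne (h6 hle a b)⟩)⟩
  · obtain ⟨h1, h2, h3, h4, h5, -⟩ := C.out_structure hen hs (ringChar F) hD Dbar Fbar hDbar hFbar
    refine ⟨h1, h2, h3, h4, ?_⟩
    have hpos : 0 < Nat.card (C.nodePerm (F := F) hen).range := Nat.card_pos
    have hle : Nat.card (C.nodePerm (F := F) hen).range ≤ 2 := by
      rcases hS with h | h
      · exact (C.card_range_le hen hb h).trans (by simp)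
      · exact C.card_range_le hen hb h
    rw [h5]
    rcases Nat.lt_or_ge (Nat.card (C.nodePerm (F := F) hen).range) 2 with h | h
    · left; omega
    · right; left; omega

theorem card_out_G2 {F : Type*} [Field F] [Fintype F] (p f : ℕ) [Fact p.Prime] [CharP F p]
    (hF : Fintype.card F = p ^ f) (hq : 3 ≤ p ^ f) :
    Nat.card (Cfsg.Out ↥(chevG2.group F)) = if p = 3 then 2 * f else f := by
  rw [G2.checked.card_out en_G2 p (by simp), range_G2 p (hF ▸ hq), card_ringAut p f hF,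
    G2.checked.card_ker_cartanMap smith_G2, show G2.fast.l = 2 from rfl]
  simp [Finset.prod_range_succ]

theorem card_out_F4 {F : Type*} [Field F] [Fintype F] (p f : ℕ) [Fact p.Prime] [CharP F p]
    (hF : Fintype.card F = p ^ f) :
    Nat.card (Cfsg.Out ↥(chevF4.group F)) = Nat.gcd 2 p * f := by
  rw [F4.checked.card_out en_F4 p (by simp), range_F4 p, card_ringAut p f hF,
    F4.checked.card_ker_cartanMap smith_F4, show F4.fast.l = 4 from rfl]
  simp [Finset.prod_range_succ]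

theorem card_out_E6 {F : Type*} [Field F] [Fintype F] (p f : ℕ) [Fact p.Prime] [CharP F p]
    (hF : Fintype.card F = p ^ f) :
    Nat.card (Cfsg.Out ↥(chevE6.group F)) = 2 * Nat.gcd 3 (p ^ f - 1) * f := by
  rw [E6.checked.card_out en_E6 p (by simp), range_E6, card_ringAut p f hF,
    E6.checked.card_ker_cartanMap smith_E6, show E6.fast.l = 6 from rfl, hF]
  simp [Finset.prod_range_succ, Nat.gcd_comm]
  ring

theorem card_out_E7 {F : Type*} [Field F] [Fintype F] (p f : ℕ) [Fact p.Prime] [CharP F p]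
    (hF : Fintype.card F = p ^ f) :
    Nat.card (Cfsg.Out ↥(chevE7.group F)) = Nat.gcd 2 (p ^ f - 1) * f := by
  rw [E7.checked.card_out en_E7 p (by simp), range_E7, card_ringAut p f hF,
    E7.checked.card_ker_cartanMap smith_E7, show E7.fast.l = 7 from rfl, hF]
  simp [Finset.prod_range_succ, Nat.gcd_comm, mul_comm]

theorem card_out_E8 {F : Type*} [Field F] [Fintype F] (p f : ℕ) [Fact p.Prime] [CharP F p]
    (hF : Fintype.card F = p ^ f) :
    Nat.card (Cfsg.Out ↥(chevE8.group F)) = f := by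
  rw [E8.checked.card_out en_E8 p (by simp), range_E8, card_ringAut p f hF,
    E8.checked.card_ker_cartanMap smith_E8, show E8.fast.l = 8 from rfl]
  simp [Finset.prod_range_succ]

end Cfsg.Agent.Lib.Chev
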