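import Cfsg.Agent.Lib.Chev.AutShape
import Cfsg.Agent.Lib.Chev.All
import Cfsg.Prelude.Def_ChevAutomorphisms

/-!
The diagram data needed for the automorphism theorem.
-/

set_option autoImplicit false

namespace Cfsg.Agent.Lib.Chev

open Cfsg.Lie Cfsg.Agent.Lib

/-- Partial symmetries of a bond function on `l` nodes. -/
def symLists (b : ℕ → ℕ → ℤ) (l : ℕ) : ℕ → List (List ℕ)
  | 0 => [[]]
  | k + 1 => (symLists b l k).flatMap fun L =>
      ((List.range l).filter fun a =>
        !L.contains a && allBelow k fun m => decide (b (L.getD m 0) a = b m k)).map fun a => L ++ [a]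

/-- The value of a permutation of the nodes at a number. -/
def permVal {l : ℕ} (π : Equiv.Perm (Fin l)) (m : ℕ) : ℕ := if h : m < l then (π ⟨m, h⟩).1 else 0

theorem symLists_complete (D : ChevalleyDatum) {π : Equiv.Perm (Fin D.rank)}
    (hπ : D.IsDiagramSymmetry π) :
    ∀ k ≤ D.rank, (List.range k).map (permVal π) ∈ symLists D.bonds D.rank k
  | 0, _ => by simp [symLists]
  | k + 1, hk => by
    have hk' : k < D.rank := hk
    simp only [symLists, List.mem_flatMap, List.mem_map, List.mem_filter, List.mem_range,
      Bool.and_eq_true, Bool.not_eq_true', allBelow_iff, decide_eq_true_eq]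
    refine ⟨_, symLists_complete D hπ k hk'.le, permVal π k, ⟨?_, ?_, fun m hm => ?_⟩, ?_⟩
    · simp [permVal, hk']
    · rw [List.contains_eq_mem, decide_eq_false_iff_not, List.mem_map]
      rintro ⟨m, hm, e⟩
      have hm' : m < D.rank := lt_trans (List.mem_range.1 hm) hk'
      simp only [permVal, dif_pos hm', dif_pos hk'] at e
      have := π.injective (Fin.ext e)
      have hmk := List.mem_range.1 hm
      simp only [Fin.mk.injEq] at this
      omega
    · have hm' : m < D.rank := lt_trans hm hk'
      rw [List.getD_eq_getElem?_getD, List.getElem?_map, List.getElem?_range hm]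
      simp only [Option.map_some, Option.getD_some, permVal, dif_pos hm', dif_pos hk']
      exact hπ ⟨m, hm'⟩ ⟨k, hk'⟩ fun e => (ne_of_lt hm) (Fin.ext_iff.1 e)
    · rw [List.range_succ, List.map_append]
      rfl

theorem perm_mem_symLists (D : ChevalleyDatum) {π : Equiv.Perm (Fin D.rank)}
    (hπ : D.IsDiagramSymmetry π) {S : List (List ℕ)} (hS : symLists D.bonds D.rank D.rank = S) :
    ∃ L ∈ S, ∀ i : Fin D.rank, (π i).1 = L.getD i 0 := by
  refine ⟨_, hS ▸ symLists_complete D hπ D.rank le_rfl, fun i => ?_⟩
  rw [List.getD_eq_getElem?_getD, List.getElem?_map, List.getElem?_range i.2]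
  simp [permVal]

/-- Equal orders of products of two reflections force equal bond numbers. -/
def Fast.bondCheck (T : Fast) (b : ℕ → ℕ → ℤ) : Bool :=
  allBelow T.l fun i => allBelow T.l fun j => allBelow T.l fun k => allBelow T.l fun m =>
    Nat.beq i j || Nat.beq k m || decide (b i j = b k m) ||
      ([2, 3, 4].any fun n => T.rotId i j n ^^ T.rotId k m n)

theorem bond_G2 : G2.fast.bondCheck chevG2.bonds = true := by decide +kernel
theorem bond_B2 : B2.fast.bondCheck chevB2.bonds = true := by decide +kernel
theorem bond_D4 : D4.fast.bondCheck chevD4.bonds = true := by decide +kernel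
theorem bond_F4 : F4.fast.bondCheck chevF4.bonds = true := by decide +kernel
theorem bond_E6 : E6.fast.bondCheck chevE6.bonds = true := by decide +kernel
theorem bond_E7 : E7.fast.bondCheck chevE7.bonds = true := by decide +kernel
theorem bond_E8 : E8.fast.bondCheck chevE8.bonds = true := by decide +kernel

theorem exists_checked_aut {D : ChevalleyDatum}
    (hD : D ∈ [chevG2, chevB2, chevD4, chevF4, chevE6, chevE7, chevE8]) :
    ∃ T : Fast, Checked D T ∧ (∀ i < D.rank, T.en i (D.simple i) = true) ∧
      T.bondCheck D.bonds = true := by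
  simp only [List.mem_cons, List.not_mem_nil, or_false] at hD
  rcases hD with rfl | rfl | rfl | rfl | rfl | rfl | rfl
  exacts [⟨_, G2.checked, en_simple_of G2.checked en_simple_G2, bond_G2⟩,
    ⟨_, B2.checked, en_simple_of B2.checked en_simple_B2, bond_B2⟩,
    ⟨_, D4.checked, en_simple_of D4.checked en_simple_D4, bond_D4⟩,
    ⟨_, F4.checked, en_simple_of F4.checked en_simple_F4, bond_F4⟩,
    ⟨_, E6.checked, en_simple_of E6.checked en_simple_E6, bond_E6⟩,
    ⟨_, E7.checked, en_simple_of E7.checked en_simple_E7, bond_E7⟩,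
    ⟨_, E8.checked, en_simple_of E8.checked en_simple_E8, bond_E8⟩]

namespace Checked

variable {D : ChevalleyDatum} {T : Fast} {F : Type*} [Field F] (C : Checked D T)
include C

theorem frame_isSymmetry (hen : ∀ i < D.rank, T.en i (D.simple i) = true)
    (hb : T.bondCheck D.bonds = true)
    {θ : ↥(D.group F) ≃* ↥(D.group F)} {π : Equiv.Perm (Fin D.rank)}
    {f g : Fin D.rank → F → F} (H : C.Frame θ π f g) : D.IsDiagramSymmetry π := by
  intro i j hij
  simp only [Fast.bondCheck, allBelow_iff, Bool.or_eq_true, decide_eq_true_eq, List.any_eq_true,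
    ← C.tables.rank, Nat.beq_eq] at hb
  rcases hb (π i) (π i).2 (π j) (π j).2 i i.2 j j.2 with ((h | h) | h) | ⟨n, -, h⟩
  · exact absurd (π.injective (Fin.ext h)) hij
  · exact absurd (Fin.ext h) hij
  · exact h
  · rw [C.frame_rotId_iff hen H, Bool.xor_self] at h
    exact absurd h Bool.false_ne_true

end Checked

end Cfsg.Agent.Lib.Chev
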