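import Cfsg.Agent.Lib.Chev.AutData
import Cfsg.Prelude.Def_LieTypes

/-!
The field automorphisms attached to the nodes by an automorphism come from a single one.
-/

set_option autoImplicit false

namespace Cfsg.Agent.Lib.Chev

open Cfsg.Lie Cfsg.Agent.Lib

section

variable {F : Type*} [Field F]

theorem char_of_pow_additive {n : ℕ} (hn : n = 2 ∨ n = 3)
    (h : ∀ x y : F, (x + y) ^ n = x ^ n + y ^ n) :
    ringChar F = n ∨ (n = 3 ∧ ringChar F = 2 ∧ ∀ x : F, x = 0 ∨ x = 1) := by
  have key : ∀ q : ℕ, q.Prime → (q : F) = 0 → ringChar F = q := fun q hq h0 => by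
    haveI := Fact.mk hq
    exact ringChar.eq_iff.2 ((CharP.charP_iff_prime_eq_zero hq).2 h0)
  rcases hn with rfl | rfl
  · exact Or.inl (key 2 Nat.prime_two (by have := h 1 1; push_cast; linear_combination this))
  · by_cases h3 : (3 : F) = 0
    · exact Or.inl (key 3 Nat.prime_three (by exact_mod_cast h3))
    · have hx : ∀ x : F, x * (x + 1) = 0 := fun x => by
        have := h x 1
        exact (mul_eq_zero.1 (show (3 : F) * (x * (x + 1)) = 0 by linear_combination this)).resolve_left h3
      have h2 : (2 : F) = 0 := by linear_combination hx 1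
      refine Or.inr ⟨rfl, key 2 Nat.prime_two (by exact_mod_cast h2), fun x => ?_⟩
      rcases mul_eq_zero.1 (hx x) with h1 | h1
      · exact Or.inl h1
      · exact Or.inr (by linear_combination h1 - h2)

end

/-- The relations between the field automorphisms of the nodes. -/
def NodeRel (D : ChevalleyDatum) {F : Type*} [Field F] (π : Equiv.Perm (Fin D.rank))
    (σ : Fin D.rank → F ≃+* F) : Prop :=
  ∀ i j : Fin D.rank, ∀ t : F, t ≠ 0 →
    σ j t ^ D.cartan i (D.simple j) = σ i t ^ D.cartan (π i) (D.simple (π j))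

variable {D : ChevalleyDatum} {F : Type*} [Field F] {π : Equiv.Perm (Fin D.rank)}
  {σ : Fin D.rank → F ≃+* F}

theorem NodeRel.eq_of_edge (h : NodeRel D π σ) {i j : Fin D.rank}
    (hA : D.cartan i (D.simple j) = -1) (hA' : D.cartan (π i) (D.simple (π j)) = -1) :
    σ j = σ i := by
  refine RingEquiv.ext fun t => ?_
  by_cases ht : t = 0
  · subst ht; simp
  · have := h i j t ht
    rw [hA, hA', zpow_neg_one, zpow_neg_one, inv_inj] at this
    exact this

theorem NodeRel.pow_of_edge (h : NodeRel D π σ) {i j : Fin D.rank} {n : ℕ} (hn : n ≠ 0)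
    (hA : D.cartan i (D.simple j) = -1) (hA' : D.cartan (π i) (D.simple (π j)) = -(n : ℤ)) :
    (∀ t, σ j t = σ i t ^ n) ∧ ∀ x y : F, (x + y) ^ n = x ^ n + y ^ n := by
  have key : ∀ t, σ j t = σ i t ^ n := fun t => by
    by_cases ht : t = 0
    · subst ht; simp [zero_pow hn]
    · have := h i j t ht
      rwa [hA, hA', zpow_neg_one, zpow_neg, zpow_natCast, inv_inj] at this
  refine ⟨key, fun x y => ?_⟩
  obtain ⟨x, rfl⟩ := (σ i).surjective x
  obtain ⟨y, rfl⟩ := (σ i).surjective y
  rw [← map_add, ← key, ← key, ← key, map_add]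

/-- The nodes joined to node `0` by at most `k` edges carrying a Cartan integer `-1`. -/
def reach (D : ChevalleyDatum) : ℕ → List ℕ
  | 0 => [0]
  | k + 1 => (List.range D.rank).filter fun j => (reach D k).contains j ||
      (reach D k).any fun i =>
        decide (D.cartan i (D.simple j) = -1) || decide (D.cartan j (D.simple i) = -1)

/-- Connected diagrams, by a check. -/
def connCheck (D : ChevalleyDatum) : Bool :=
  allBelow D.rank fun j => (reach D D.rank).contains j

theorem NodeRel.const (h : NodeRel D π σ) (h0 : 0 < D.rank)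
    (hedge : ∀ i j : Fin D.rank, D.cartan i (D.simple j) = -1 →
      D.cartan (π i) (D.simple (π j)) = -1)
    (hconn : connCheck D = true) : ∀ i, σ i = σ ⟨0, h0⟩ := by
  have key : ∀ k, ∀ j ∈ reach D k, ∃ hj : j < D.rank, σ ⟨j, hj⟩ = σ ⟨0, h0⟩ := by
    intro k
    induction k with
    | zero =>
      intro j hj
      obtain rfl : j = 0 := List.mem_singleton.1 hj
      exact ⟨h0, rfl⟩
    | succ k ih =>
      intro j hj
      simp only [reach, List.mem_filter, List.mem_range, Bool.or_eq_true, List.contains_eq_mem,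
        decide_eq_true_eq, List.any_eq_true] at hj
      obtain ⟨hj, hjk | ⟨i, hik, hA⟩⟩ := hj
      · exact ih j hjk
      · obtain ⟨hi, e⟩ := ih i hik
        refine ⟨hj, ?_⟩
        rcases hA with hA | hA
        · rw [h.eq_of_edge (i := ⟨i, hi⟩) (j := ⟨j, hj⟩) hA (hedge _ _ hA), e]
        · rw [← h.eq_of_edge (i := ⟨j, hj⟩) (j := ⟨i, hi⟩) hA (hedge _ _ hA), e]
  intro i
  simp only [connCheck, allBelow_iff, List.contains_eq_mem, decide_eq_true_eq] at hconn
  exact (key D.rank i (hconn i i.2)).2

/-- One root length and a symmetric Cartan matrix with entries `0`, `-1` off the diagonal. -/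
def lacedCheck (D : ChevalleyDatum) : Bool :=
  allBelow D.rank fun i => !D.isLong (D.simple i) && allBelow D.rank fun j =>
    bif Nat.beq i j then decide (D.cartan i (D.simple j) = 2) else
    decide (D.cartan i (D.simple j) = D.cartan j (D.simple i)) &&
      (decide (D.cartan i (D.simple j) = 0) || decide (D.cartan i (D.simple j) = -1))

theorem conn_all (hD : D ∈ [chevG2, chevB2, chevD4, chevF4, chevE6, chevE7, chevE8]) :
    connCheck D = true ∧ 0 < D.rank := by
  simp only [List.mem_cons, List.not_mem_nil, or_false] at hD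
  rcases hD with rfl | rfl | rfl | rfl | rfl | rfl | rfl <;> exact ⟨by decide +kernel, by decide⟩

theorem graphExp_self (c i : ℕ) : D.graphExp c i i = 1 := by simp [ChevalleyDatum.graphExp]

theorem graphExp_laced (h : lacedCheck D = true) (c : ℕ) (i j : Fin D.rank) :
    D.graphExp c i j = 1 := by
  simp only [lacedCheck, allBelow_iff, Bool.and_eq_true, Bool.not_eq_true'] at h
  simp [ChevalleyDatum.graphExp, (h j j.2).1]

theorem exists_field_laced (hl : lacedCheck D = true) (hc : connCheck D = true) (h0 : 0 < D.rank)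
    (hπ : D.IsDiagramSymmetry π) (h : NodeRel D π σ) :
    ∃ τ : F ≃+* F, ∀ i t, σ i t = τ t ^ D.graphExp (ringChar F) i (π i) := by
  have key : ∀ i j : Fin D.rank, i ≠ j → D.cartan i (D.simple j) = D.cartan j (D.simple i) ∧
      (D.cartan i (D.simple j) = 0 ∨ D.cartan i (D.simple j) = -1) := fun i j hij => by
    simp only [lacedCheck, allBelow_iff, Bool.and_eq_true] at hl
    have h1 := (hl i i.2).2 j j.2
    rw [show Nat.beq i.1 j.1 = false from Bool.eq_false_iff.2 fun e =>
      hij (Fin.ext (Nat.eq_of_beq_eq_true e)), cond_false] at h1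
    simpa using h1
  have hedge : ∀ i j : Fin D.rank, D.cartan i (D.simple j) = -1 →
      D.cartan (π i) (D.simple (π j)) = -1 := fun i j hA => by
    have hij : i ≠ j := by
      rintro rfl
      simp only [lacedCheck, allBelow_iff, Bool.and_eq_true] at hl
      have h1 := (hl i i.2).2 i i.2
      rw [show Nat.beq i.1 i.1 = true from Nat.beq_refl i.1, cond_true, decide_eq_true_eq, hA] at h1
      omega
    have hb := hπ i j hij
    simp only [ChevalleyDatum.bonds] at hb
    obtain ⟨e1, h1 | h1⟩ := key (π i) (π j) fun e => hij (π.injective e)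
    · rw [h1, ← (key i j hij).1, hA, zero_mul] at hb
      norm_num at hb
    · exact h1
  refine ⟨σ ⟨0, h0⟩, fun i t => ?_⟩
  rw [graphExp_laced hl, pow_one, h.const h0 hedge hc i]

theorem exists_field_id (hc : connCheck D = true) (h0 : 0 < D.rank) (h : NodeRel D π σ)
    (h1 : ∀ i, π i = i) :
    ∃ τ : F ≃+* F, ∀ i t, σ i t = τ t ^ D.graphExp (ringChar F) i (π i) :=
  ⟨σ ⟨0, h0⟩, fun i t => by
    rw [h1, graphExp_self, pow_one,
      h.const h0 (fun a b hA => by rw [h1, h1]; exact hA) hc i]⟩

theorem symLists_G2 : symLists chevG2.bonds chevG2.rank chevG2.rank = [[0, 1], [1, 0]] := by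
  decide +kernel
theorem symLists_B2 : symLists chevB2.bonds chevB2.rank chevB2.rank = [[0, 1], [1, 0]] := by
  decide +kernel
theorem symLists_F4 : symLists chevF4.bonds chevF4.rank chevF4.rank = [[0, 1, 2, 3], [3, 2, 1, 0]] := by
  decide +kernel

theorem exists_field_G2 {π : Equiv.Perm (Fin chevG2.rank)} {σ : Fin chevG2.rank → F ≃+* F}
    (hπ : chevG2.IsDiagramSymmetry π) (h : NodeRel chevG2 π σ) :
    (∃ τ : F ≃+* F, ∀ i t, σ i t = τ t ^ chevG2.graphExp (ringChar F) i (π i)) ∧
      ((∀ i, π i = i) ∨ ringChar F = 3 ∨ ∀ x : F, x = 0 ∨ x = 1) := by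
  obtain ⟨L, hL, hp⟩ := perm_mem_symLists chevG2 hπ symLists_G2
  simp only [List.mem_cons, List.not_mem_nil, or_false] at hL
  rcases hL with rfl | rfl
  · have h1 : ∀ i, π i = i := fun i => Fin.ext ((hp i).trans (by
      obtain ⟨i, hi⟩ := i
      have hi' : i < 2 := hi
      interval_cases i <;> rfl))
    exact ⟨exists_field_id (by decide +kernel) (by decide) h h1, Or.inl h1⟩
  · have p0 : π ⟨0, by decide⟩ = ⟨1, by decide⟩ := Fin.ext (hp _)
    have p1 : π ⟨1, by decide⟩ = ⟨0, by decide⟩ := Fin.ext (hp _)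
    obtain ⟨hσ, hadd⟩ := h.pow_of_edge (i := ⟨1, by decide⟩) (j := ⟨0, by decide⟩) (n := 3) (by decide)
      (show chevG2.cartan 1 (chevG2.simple 0) = -1 by decide +kernel)
      (by rw [p0, p1]; decide +kernel)
    have hL0 : chevG2.isLong (chevG2.simple 0) = false := by decide +kernel
    have hL1 : chevG2.isLong (chevG2.simple 1) = true := by decide +kernel
    refine ⟨⟨σ ⟨1, by decide⟩, ?_⟩, ?_⟩
    · rintro ⟨i, hi⟩ t
      have hi' : i < 2 := hi
      interval_cases i
      · rw [p0, hσ]
        simp only [ChevalleyDatum.graphExp, hL0, hL1, Bool.not_false, Bool.and_self, if_true]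
        rcases char_of_pow_additive (Or.inr rfl) hadd with hc | ⟨-, hc, hx⟩
        · rw [hc]
        · rw [hc]
          rcases hx (σ ⟨1, by decide⟩ t) with e | e <;> rw [e] <;> simp
      · rw [p1]
        simp [ChevalleyDatum.graphExp, hL0]
    · rcases char_of_pow_additive (Or.inr rfl) hadd with hc | ⟨-, -, hx⟩
      · exact Or.inr (Or.inl hc)
      · exact Or.inr (Or.inr hx)

theorem exists_field_B2 {π : Equiv.Perm (Fin chevB2.rank)} {σ : Fin chevB2.rank → F ≃+* F}
    (hπ : chevB2.IsDiagramSymmetry π) (h : NodeRel chevB2 π σ) :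
    (∃ τ : F ≃+* F, ∀ i t, σ i t = τ t ^ chevB2.graphExp (ringChar F) i (π i)) ∧
      ((∀ i, π i = i) ∨ ringChar F = 2) := by
  obtain ⟨L, hL, hp⟩ := perm_mem_symLists chevB2 hπ symLists_B2
  simp only [List.mem_cons, List.not_mem_nil, or_false] at hL
  rcases hL with rfl | rfl
  · have h1 : ∀ i, π i = i := fun i => Fin.ext ((hp i).trans (by
      obtain ⟨i, hi⟩ := i
      have hi' : i < 2 := hi
      interval_cases i <;> rfl))
    exact ⟨exists_field_id (by decide +kernel) (by decide) h h1, Or.inl h1⟩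
  · have p0 : π ⟨0, by decide⟩ = ⟨1, by decide⟩ := Fin.ext (hp _)
    have p1 : π ⟨1, by decide⟩ = ⟨0, by decide⟩ := Fin.ext (hp _)
    obtain ⟨hσ, hadd⟩ := h.pow_of_edge (i := ⟨1, by decide⟩) (j := ⟨0, by decide⟩) (n := 2) (by decide)
      (show chevB2.cartan 1 (chevB2.simple 0) = -1 by decide +kernel)
      (by rw [p0, p1]; decide +kernel)
    have hL0 : chevB2.isLong (chevB2.simple 0) = false := by decide +kernel
    have hL1 : chevB2.isLong (chevB2.simple 1) = true := by decide +kernel
    have hc : ringChar F = 2 := (char_of_pow_additive (Or.inl rfl) hadd).resolve_right fun e => by simp at e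
    refine ⟨⟨σ ⟨1, by decide⟩, ?_⟩, Or.inr hc⟩
    rintro ⟨i, hi⟩ t
    have hi' : i < 2 := hi
    interval_cases i
    · rw [p0, hσ]
      simp [ChevalleyDatum.graphExp, hL0, hL1, hc]
    · rw [p1]
      simp [ChevalleyDatum.graphExp, hL0]

theorem exists_field_F4 {π : Equiv.Perm (Fin chevF4.rank)} {σ : Fin chevF4.rank → F ≃+* F}
    (hπ : chevF4.IsDiagramSymmetry π) (h : NodeRel chevF4 π σ) :
    (∃ τ : F ≃+* F, ∀ i t, σ i t = τ t ^ chevF4.graphExp (ringChar F) i (π i)) ∧
      ((∀ i, π i = i) ∨ ringChar F = 2) := by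
  obtain ⟨L, hL, hp⟩ := perm_mem_symLists chevF4 hπ symLists_F4
  simp only [List.mem_cons, List.not_mem_nil, or_false] at hL
  rcases hL with rfl | rfl
  · have h1 : ∀ i, π i = i := fun i => Fin.ext ((hp i).trans (by
      obtain ⟨i, hi⟩ := i
      have hi' : i < 4 := hi
      interval_cases i <;> rfl))
    exact ⟨exists_field_id (by decide +kernel) (by decide) h h1, Or.inl h1⟩
  · have p0 : π ⟨0, by decide⟩ = ⟨3, by decide⟩ := Fin.ext (hp _)
    have p1 : π ⟨1, by decide⟩ = ⟨2, by decide⟩ := Fin.ext (hp _)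
    have p2 : π ⟨2, by decide⟩ = ⟨1, by decide⟩ := Fin.ext (hp _)
    have p3 : π ⟨3, by decide⟩ = ⟨0, by decide⟩ := Fin.ext (hp _)
    obtain ⟨hσ, hadd⟩ := h.pow_of_edge (i := ⟨2, by decide⟩) (j := ⟨1, by decide⟩) (n := 2) (by decide)
      (show chevF4.cartan 2 (chevF4.simple 1) = -1 by decide +kernel)
      (by rw [p2, p1]; decide +kernel)
    have e0 : σ ⟨1, by decide⟩ = σ ⟨0, by decide⟩ :=
      h.eq_of_edge (show chevF4.cartan 0 (chevF4.simple 1) = -1 by decide +kernel)
        (by rw [p0, p1]; decide +kernel)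
    have e3 : σ ⟨3, by decide⟩ = σ ⟨2, by decide⟩ :=
      h.eq_of_edge (show chevF4.cartan 2 (chevF4.simple 3) = -1 by decide +kernel)
        (by rw [p2, p3]; decide +kernel)
    have hL0 : chevF4.isLong (chevF4.simple 0) = false := by decide +kernel
    have hL1 : chevF4.isLong (chevF4.simple 1) = false := by decide +kernel
    have hL2 : chevF4.isLong (chevF4.simple 2) = true := by decide +kernel
    have hL3 : chevF4.isLong (chevF4.simple 3) = true := by decide +kernel
    have hc : ringChar F = 2 := (char_of_pow_additive (Or.inl rfl) hadd).resolve_right fun e => by simp at e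
    refine ⟨⟨σ ⟨2, by decide⟩, ?_⟩, Or.inr hc⟩
    rintro ⟨i, hi⟩ t
    have hi' : i < 4 := hi
    interval_cases i
    · rw [p0, ← e0, hσ]
      simp [ChevalleyDatum.graphExp, hL0, hL3, hc]
    · rw [p1, hσ]
      simp [ChevalleyDatum.graphExp, hL1, hL2, hc]
    · rw [p2]
      simp [ChevalleyDatum.graphExp, hL1]
    · rw [p3, e3]
      simp [ChevalleyDatum.graphExp, hL0]

/-- A single field automorphism serves all nodes. -/
theorem exists_field (hD : D ∈ [chevG2, chevB2, chevD4, chevF4, chevE6, chevE7, chevE8])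
    (hπ : D.IsDiagramSymmetry π) (h : NodeRel D π σ) :
    ∃ τ : F ≃+* F, ∀ i t, σ i t = τ t ^ D.graphExp (ringChar F) i (π i) := by
  obtain ⟨hc, h0⟩ := conn_all hD
  simp only [List.mem_cons, List.not_mem_nil, or_false] at hD
  rcases hD with rfl | rfl | rfl | rfl | rfl | rfl | rfl
  · exact (exists_field_G2 hπ h).1
  · exact (exists_field_B2 hπ h).1
  · exact exists_field_laced (by decide +kernel) hc h0 hπ h
  · exact (exists_field_F4 hπ h).1
  · exact exists_field_laced (by decide +kernel) hc h0 hπ h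
  · exact exists_field_laced (by decide +kernel) hc h0 hπ h
  · exact exists_field_laced (by decide +kernel) hc h0 hπ h

end Cfsg.Agent.Lib.Chev
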