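import Cfsg.Agent.Lib.Chev.AutBorel
import Cfsg.Agent.Lib.Chev.SLTwoHom
import Cfsg.Agent.Lib.Chev.FieldAut
import Cfsg.Agent.Lib.Chev.CoxeterType
import Cfsg.Agent.Lib.Chev.ClsBN
import Cfsg.Agent.Lib.Chev.Twist
import Cfsg.Agent.Lib.Chev.Diag

/-!
The shape of an automorphism fixing `U` and `V`: on fundamental root elements it is a permutation of the
nodes together with a scalar and a field automorphism for each node.
-/

set_option autoImplicit false

namespace Cfsg.Agent.Lib.Chev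

open Cfsg.Lie Cfsg.Agent.Lib

namespace Checked

variable {D : ChevalleyDatum} {T : Fast} {F : Type*} [Field F] (C : Checked D T)
include C

theorem xg_mem_group' (r : ℕ) (t : F) : C.xg r t ∈ D.group F := by
  by_cases hr : r < D.nroots
  · exact C.xg_mem_group hr t
  · rw [show C.xg r t = 1 from Units.ext (by simp [ChevalleyDatum.x, hr])]
    exact one_mem _

/-- A root element as an element of the group. -/
def xgG (r : ℕ) (t : F) : ↥(D.group F) := ⟨C.xg r t, C.xg_mem_group' r t⟩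

@[simp] theorem coe_xgG (r : ℕ) (t : F) : (C.xgG r t : GL D.Idx F) = C.xg r t := rfl

/-- `θ` permutes the fundamental root elements as `π` does, with parameters changed by `f` and `g`. -/
structure Frame (θ : ↥(D.group F) ≃* ↥(D.group F)) (π : Equiv.Perm (Fin D.rank))
    (f g : Fin D.rank → F → F) : Prop where
  pos : ∀ (i : Fin D.rank) (t : F),
    (θ (C.xgG (D.simple i) t) : GL D.Idx F) = C.xg (D.simple (π i)) (f i t)
  neg : ∀ (i : Fin D.rank) (t : F),
    (θ (C.xgG (D.neg (D.simple i)) t) : GL D.Idx F) = C.xg (D.neg (D.simple (π i))) (g i t)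
  f_bij : ∀ i, Function.Bijective (f i)
  g_bij : ∀ i, Function.Bijective (g i)

theorem xg_commute_neg {i k : ℕ} (hi : i < D.rank) (hk : k < D.rank) (h : i ≠ k) (t u : F) :
    Commute (C.xg (D.simple i) t) (C.xg (D.neg (D.simple k)) u) := by
  have hp := C.root.simple_lt i hi
  have hq := C.root.simple_lt k hk
  have hq' := C.root.neg_lt _ hq
  have hci : ∀ m < D.rank, T.cf (D.simple i) m = if m = i then 1 else 0 :=
    fun m hm => C.root.coef_simple i hi m hm
  have hck : ∀ m < D.rank, T.cf (D.neg (D.simple k)) m = -(if m = k then 1 else 0) := fun m hm => by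
    rw [show T.cf (D.neg (D.simple k)) m = T.aux.coef (D.neg (D.simple k)) m from rfl,
      C.root.coef_neg hq hm, C.root.coef_simple k hk m hm]
  have hne : D.neg (D.simple k) ≠ D.simple i := fun e => by
    have h1 := hck i hi
    rw [e, hci i hi, if_pos rfl, if_neg h] at h1
    simp at h1
  have hne' : D.neg (D.simple k) ≠ D.neg (D.simple i) := fun e =>
    h (C.root.simple_inj hi hk (C.root.neg_inj hq hp e).symm)
  have hnil : D.commTerms (D.simple i) (D.neg (D.simple k)) = [] := by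
    by_contra hne0
    obtain ⟨c, hc⟩ := List.exists_mem_of_ne_nil _ hne0
    have hlt := C.commTerms_lt hp hq' c hc
    obtain ⟨a, b, ha, hb, -, hcf⟩ := C.commTerms_comb hp hq' c hc
    have h1 : T.cf c.1 i = a := by rw [hcf i hi, hci i hi, hck i hi, if_pos rfl, if_neg h]; ring
    have h2 : T.cf c.1 k = -b := by
      rw [hcf k hk, hci k hk, hck k hk, if_pos rfl, if_neg (Ne.symm h)]; ring
    rcases C.key_trichotomy hlt with hpos | hneg
    · have := C.coef_nonneg hpos hk
      have h3 : T.aux.coef c.1 k = T.cf c.1 k := rfl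
      omega
    · have h4 := C.coef_nonneg ((C.neg_pos_iff hlt).2 hneg) hi
      rw [C.root.coef_neg hlt hi] at h4
      have h3 : T.aux.coef c.1 i = T.cf c.1 i := rfl
      omega
  have e := C.comm (F := F) hp hq' hne hne' t u
  simp only [ChevalleyDatum.commWord, hnil, List.map_nil, C.wg_nil, mul_one] at e
  exact e.symm

theorem diag_le_simple {K : Subgroup (GL D.Idx F)}
    (h : ∀ i < D.rank, ∀ a : F, a ≠ 0 → C.hg (D.simple i) a ∈ K) : D.diagonalSubgroup F ≤ K := by
  intro d hd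
  obtain ⟨c, rfl⟩ := C.exists_torus hd
  show c ∈ K.comap C.torusHom
  rw [← Finset.univ_prod_mulSingle c]
  refine Subgroup.prod_mem _ fun i _ => ?_
  show C.torus (Pi.mulSingle i (c i)) ∈ K
  convert h i i.2 (c i : F) (Units.ne_zero _)
  refine Units.ext ?_
  rw [C.val_torus, C.val_hg, C.hMat_simple i.2 (Units.ne_zero _)]
  refine dg_congr fun v _ => ?_
  rw [chrOf, Finset.prod_eq_single i (fun j _ hj => by rw [Pi.mulSingle_eq_of_ne hj, one_zpow])
    (fun hh => absurd (Finset.mem_univ i) hh), Pi.mulSingle_eq_same]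
  simp

variable (hen : ∀ i < D.rank, T.en i (D.simple i) = true)
include hen

theorem not_commute_neg {i : ℕ} (hi : i < D.rank) :
    ¬ ∀ t u : F, Commute (C.xg (D.simple i) t) (C.xg (D.neg (D.simple i)) u) := by
  intro h
  have hp := C.root.simple_lt i hi
  have e := (C.rootPair (F := F) hen hp).N_conj 1 one_ne_zero 1
  simp only [inv_one, one_pow, one_mul] at e
  have hc : Commute (C.xg (D.simple i) (1 : F) * C.xg (D.neg (D.simple i)) (-1) * C.xg (D.simple i) 1)
      (C.xg (D.simple i) 1) :=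
    ((Commute.refl _).mul_left (h 1 (-1)).symm).mul_left (Commute.refl _)
  rw [hc.eq, mul_inv_cancel_right] at e
  have h1 : C.xg (D.simple i) (1 : F) ∈ D.borelSubgroup F ⊓ D.negUnipotent F :=
    Subgroup.mem_inf.2 ⟨C.xg_mem_borel (C.root.pos_simple hi) _,
      e ▸ C.xg_mem_neg ((C.neg_neg_iff hp).2 (C.root.pos_simple hi)) _⟩
  rw [C.borel_inf_neg, Subgroup.mem_bot] at h1
  exact one_ne_zero (C.xg_eq_one hp h1)

/-- An automorphism fixing `U` and `V` has a frame. -/
theorem exists_frame {θ : ↥(D.group F) ≃* ↥(D.group F)}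
    (hU : Sends θ (D.posUnipotent F) (D.posUnipotent F))
    (hV : Sends θ (D.negUnipotent F) (D.negUnipotent F)) :
    ∃ π f g, C.Frame θ π f g := by
  obtain ⟨π', hπ'⟩ := C.exists_node_map (C.sends_borel hU)
  choose π hπ using C.exists_pos_map hU hV
  have key : ∀ {r s : ℕ}, r < D.nroots → s < D.nroots →
      Sends θ (D.rootSubgroup F r) (D.rootSubgroup F s) →
      ∃ h : F → F, Function.Bijective h ∧ ∀ t, (θ (C.xgG r t) : GL D.Idx F) = C.xg s (h t) := by
    intro r s hr hs hsd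
    have h1 : ∀ t, ∃ u, (θ (C.xgG r t) : GL D.Idx F) = C.xg s u := fun t =>
      (C.mem_rootSubgroup hs).1 ((hsd _).2 ((C.mem_rootSubgroup hr).2 ⟨t, rfl⟩))
    choose h hh using h1
    refine ⟨h, ⟨fun a b e => ?_, fun u => ?_⟩, hh⟩
    · have h2 : θ (C.xgG r a) = θ (C.xgG r b) := Subtype.ext (by rw [hh, hh, e])
      exact C.xg_inj hr (congrArg Subtype.val (θ.injective h2))
    · obtain ⟨x, hx⟩ := θ.surjective (C.xgG s u)
      obtain ⟨t, ht⟩ := (C.mem_rootSubgroup hr).1 ((hsd x).1 (by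
        rw [hx]; exact (C.mem_rootSubgroup hs).2 ⟨u, rfl⟩))
      obtain rfl : x = C.xgG r t := Subtype.ext ht
      exact ⟨t, C.xg_inj hs (by rw [← hh, hx]; rfl)⟩
  choose f hf hf' using fun i : Fin D.rank =>
    key (C.root.simple_lt i i.2) (C.root.simple_lt (π i) (π i).2) (hπ i)
  choose g hg hg' using fun i : Fin D.rank =>
    key (C.root.neg_lt _ (C.root.simple_lt i i.2)) (C.root.neg_lt _ (C.root.simple_lt (π' i) (π' i).2))
      (C.sends_neg_simple hV i.2 (π' i).2 (hπ' i))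
  have hne : ∀ i k, i ≠ k → π i ≠ π' k := by
    intro i k hik e
    refine C.not_commute_neg (F := F) hen (π i).2 fun t u => ?_
    obtain ⟨t', rfl⟩ := (hf i).2 t
    obtain ⟨u', rfl⟩ := (hg k).2 u
    rw [← hf' i t', e, ← hg' k u']
    have hc : Commute (C.xgG (D.simple i) t') (C.xgG (D.neg (D.simple k)) u') :=
      Subtype.ext (C.xg_commute_neg i.2 k.2 (fun h => hik (Fin.ext h)) t' u').eq
    exact congrArg Subtype.val (hc.map θ.toMonoidHom).eq
  have heq : ∀ i, π i = π' i := by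
    intro i
    obtain ⟨k, hk⟩ := π'.surjective (π i)
    obtain rfl : i = k := by_contra fun h => hne i k h hk.symm
    exact hk.symm
  exact ⟨π', f, g, ⟨fun i t => by rw [hf', heq], hg', hf, hg⟩⟩

variable {θ : ↥(D.group F) ≃* ↥(D.group F)} {π : Equiv.Perm (Fin D.rank)} {f g : Fin D.rank → F → F}
  (H : C.Frame θ π f g)
include H

theorem frame_add (i : Fin D.rank) (t u : F) : f i (t + u) = f i t + f i u := by
  refine C.xg_inj (C.root.simple_lt (π i) (π i).2) ?_
  rw [← H.pos, show C.xgG (D.simple i) (t + u) = C.xgG (D.simple i) t * C.xgG (D.simple i) u from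
      Subtype.ext (C.xg_add (C.root.simple_lt i i.2) t u).symm,
    map_mul, Subgroup.coe_mul, H.pos, H.pos, C.xg_add (C.root.simple_lt (π i) (π i).2)]

theorem frame_zero (i : Fin D.rank) : f i 0 = 0 := by
  have h := C.frame_add hen H i 0 0
  rw [add_zero] at h
  exact left_eq_add.1 h

theorem frame_ne {i : Fin D.rank} {t : F} (ht : t ≠ 0) : f i t ≠ 0 := fun e =>
  ht ((H.f_bij i).1 (e.trans (C.frame_zero hen H i).symm))

omit H in
/-- The element `n` is the only `x y x` which carries the root subgroup to its negative. -/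
theorem xyx_unique {i : ℕ} (hi : i < D.rank) {a b u : F} (hb : b ≠ 0) (hu : u ≠ 0)
    (h : C.xg (D.simple i) a * C.xg (D.neg (D.simple i)) b * C.xg (D.simple i) a * C.xg (D.simple i) u *
      (C.xg (D.simple i) a * C.xg (D.neg (D.simple i)) b * C.xg (D.simple i) a)⁻¹ ∈
        D.rootSubgroup F (D.neg (D.simple i))) : a = -b⁻¹ := by
  have hp := C.root.simple_lt i hi
  have hp' := C.root.neg_lt _ hp
  set P := C.rootPair (F := F) hen hp
  set X := fun t : F => C.xg (D.simple i) t with hX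
  set Y := fun t : F => C.xg (D.neg (D.simple i)) t with hY
  obtain ⟨w, hw⟩ := (C.mem_rootSubgroup hp').1 h
  set c := a + b⁻¹ with hc
  set v := -(b ^ 2 * u) with hv
  have hv0 : v ≠ 0 := by simp [hv, hb, hu]
  have hb' : -b⁻¹ ≠ 0 := by simp [hb]
  have e1 : Y b * X u * (Y b)⁻¹ = X b⁻¹ * Y v * (X b⁻¹)⁻¹ := by
    have hn := P.n_conj hb' u
    rw [P.Y_eq hb]
    have : P.nEl (-b⁻¹) * X u * (P.nEl (-b⁻¹))⁻¹ = Y v := by
      have h3 := P.N_conj _ hb' u
      simp only [RootPair.nEl]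
      rw [h3]
      congr 1
      rw [hv]; field_simp
    rw [← this]
    simp only [mul_inv_rev, ← mul_assoc]
    rw [mul_assoc (X b⁻¹ * P.nEl (-b⁻¹)), P.X_add, add_comm b⁻¹ u, ← P.X_add]
    group
  have e2 : X c * Y v * (X c)⁻¹ = Y w := by
    rw [← show _ = Y w from hw, hc]
    show X (a + b⁻¹) * Y v * (X (a + b⁻¹))⁻¹ = X a * Y b * X a * X u * (X a * Y b * X a)⁻¹
    rw [← P.X_add, mul_inv_rev, ← mul_assoc, mul_assoc (X a) (X b⁻¹), mul_assoc (X a) (X b⁻¹ * Y v),
      ← e1, mul_assoc (X a * Y b) (X a), P.X_add, add_comm a u, ← P.X_add]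
    group
  clear_value c v
  have hw0 : w ≠ 0 := by
    rintro rfl
    rw [P.Y_zero, mul_inv_eq_one, mul_eq_left] at e2
    exact hv0 (C.xg_eq_one hp' e2)
  rw [P.Y_eq hv0, P.Y_eq hw0, P.X_inv] at e2
  simp only [← mul_assoc] at e2
  rw [P.X_add, mul_assoc _ (X v⁻¹), P.X_add] at e2
  have hnw : ∀ z : F, P.nEl z = C.wg (D.nWord (D.simple i) z) := fun z => by
    simp only [RootPair.nEl, ChevalleyDatum.nWord, C.wg_cons, C.wg_nil, mul_one, mul_assoc, X, Y]
  simp only [hnw, C.nWord_eq_hg_mul] at e2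
  rw [← mul_assoc, ← mul_assoc] at e2
  have hB : ∀ y z : F, z ≠ 0 → X y * C.hg (D.simple i) z ∈ D.borelSubgroup F := fun y z hz =>
    mul_mem (C.xg_mem_borel (C.root.pos_simple hi) _) (Subgroup.mem_sup_right (C.hg_mem hp hz))
  have hIn : ∀ y : F, X y ∈ grp D F (C.inv (C.ng i : GL D.Idx F)) := fun y => by
    rw [C.inv_ng hi]; exact C.xg_mem (S := {D.simple i}) rfl y
  obtain ⟨hbb, huu⟩ := (C.bnu_unique (hB _ _ (by simp [hv0])) (hB _ _ (by simp [hw0]))
    (C.ng_mem hi) (C.ng_mem hi) (hIn _) (hIn _) e2).2 rfl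
  have h1 := C.xg_inj hp huu
  have hh : (X w⁻¹)⁻¹ * X (c + v⁻¹) = C.hg (D.simple i) (-w⁻¹) * (C.hg (D.simple i) (-v⁻¹))⁻¹ := by
    rw [eq_mul_inv_iff_mul_eq, mul_assoc, hbb, inv_mul_cancel_left]
  rw [P.X_inv, P.X_add] at hh
  have hh' : X (-w⁻¹ + (c + v⁻¹)) = 1 :=
    Subgroup.mem_bot.1 (C.pos_inf_diag (F := F) ▸ Subgroup.mem_inf.2
      ⟨C.xg_mem_pos (C.root.pos_simple hi) _,
        hh ▸ mul_mem (C.hg_mem hp (by simp [hw0])) (inv_mem (C.hg_mem hp (by simp [hv0])))⟩)
  rw [hh'] at hh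
  have h2 := C.xg_eq_one hp hh'
  have hsq : w⁻¹ ^ 2 = v⁻¹ ^ 2 := by
    have e := congrArg (fun z => z * X 1 * z⁻¹) (eq_mul_inv_iff_mul_eq.1 hh)
    simp only [one_mul] at e
    rw [C.hg_xg hp hp (by simp [hv0]), C.hg_xg hp hp (by simp [hw0]), C.pair_self hp] at e
    have := C.xg_inj hp e
    simpa using this.symm
  have hc0 : c = 0 := by
    have h3 : (w⁻¹ - v⁻¹) * (w⁻¹ + v⁻¹) = 0 := by linear_combination hsq
    rcases mul_eq_zero.1 h3 with h4 | h4
    · linear_combination h2 + h4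
    · have h5 : (4 : F) * v⁻¹ = 0 := by linear_combination h1 + h2 + 2 * h4
      rcases mul_eq_zero.1 h5 with h6 | h6
      · have h7 : (2 : F) = 0 := by
          have : (2 : F) * 2 = 0 := by linear_combination h6
          exact mul_self_eq_zero.1 this
        linear_combination h2 + h4 - v⁻¹ * h7
      · simp [hv0] at h6
  rw [hc] at hc0
  linear_combination hc0

theorem frame_neg {i : Fin D.rank} {t : F} (ht : t ≠ 0) : g i (-t⁻¹) = -(f i t)⁻¹ := by
  have hp := C.root.simple_lt i i.2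
  have hgne : g i (-t⁻¹) ≠ 0 := by
    intro e
    have h1 : θ (C.xgG (D.neg (D.simple i)) (-t⁻¹)) = 1 :=
      Subtype.ext (by rw [H.neg, e, C.xg_zero]; rfl)
    rw [MulEquiv.map_eq_one_iff] at h1
    exact ht (by simpa using C.xg_eq_one (C.root.neg_lt _ hp) (congrArg Subtype.val h1))
  have e : C.xgG (D.simple i) t * C.xgG (D.neg (D.simple i)) (-t⁻¹) * C.xgG (D.simple i) t *
      C.xgG (D.simple i) 1 * (C.xgG (D.simple i) t * C.xgG (D.neg (D.simple i)) (-t⁻¹) *
        C.xgG (D.simple i) t)⁻¹ = C.xgG (D.neg (D.simple i)) (-(t⁻¹ ^ 2 * 1)) :=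
    Subtype.ext (by simpa using (C.rootPair (F := F) hen hp).N_conj t ht 1)
  have e' := congrArg (fun x => (θ x : GL D.Idx F)) e
  simp only [map_mul, map_inv, Subgroup.coe_mul, Subgroup.coe_inv, H.pos, H.neg] at e'
  have h := C.xyx_unique hen (π i).2 hgne (C.frame_ne hen H one_ne_zero)
    (e' ▸ (C.mem_rootSubgroup (C.root.neg_lt _ (C.root.simple_lt (π i) (π i).2))).2 ⟨_, rfl⟩)
  rw [h, inv_neg, inv_inv, neg_neg]

/-- `θ` on `n_i(t)`. -/
theorem frame_nWord (i : Fin D.rank) {t : F} (ht : t ≠ 0) :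
    ∃ hm : C.wg (D.nWord (D.simple i) t) ∈ D.group F,
      (θ ⟨_, hm⟩ : GL D.Idx F) = C.wg (D.nWord (D.simple (π i)) (f i t)) := by
  have e : C.wg (D.nWord (D.simple i) t) =
      ((C.xgG (D.simple i) t * (C.xgG (D.neg (D.simple i)) (-t⁻¹) * C.xgG (D.simple i) t) :
        ↥(D.group F)) : GL D.Idx F) := by
    simp [ChevalleyDatum.nWord, C.wg_cons, C.wg_nil]
  have hm : C.wg (D.nWord (D.simple i) t) ∈ D.group F := by rw [e]; exact SetLike.coe_mem _
  refine ⟨hm, ?_⟩
  rw [show (⟨_, hm⟩ : ↥(D.group F)) = _ from Subtype.ext e, map_mul, map_mul,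
    Subgroup.coe_mul, Subgroup.coe_mul, H.pos, H.neg, C.frame_neg hen H ht]
  simp [ChevalleyDatum.nWord, C.wg_cons, C.wg_nil]

/-- `θ` on `h_i(t)`. -/
theorem frame_hg (i : Fin D.rank) {t : F} (ht : t ≠ 0) :
    ∃ hm : C.hg (D.simple i) t ∈ D.group F,
      (θ ⟨_, hm⟩ : GL D.Idx F) = C.hg (D.simple (π i)) (f i t * (f i 1)⁻¹) := by
  have hp := C.root.simple_lt (π i) (π i).2
  obtain ⟨h1, e1⟩ := C.frame_nWord hen H i ht
  obtain ⟨h2, e2⟩ := C.frame_nWord hen H i (t := -1) (by simp)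
  refine ⟨C.hg_eq_nWord (D.simple i) t ▸ mul_mem h1 h2, ?_⟩
  rw [show (⟨C.hg (D.simple i) t, C.hg_eq_nWord (D.simple i) t ▸ mul_mem h1 h2⟩ : ↥(D.group F)) =
      ⟨_, h1⟩ * ⟨_, h2⟩ from Subtype.ext (C.hg_eq_nWord _ t), map_mul, Subgroup.coe_mul, e1, e2]
  have hf1 : f i (-1) = -(f i 1) := by
    have h := C.frame_add hen H i (-1) 1
    rw [neg_add_cancel, C.frame_zero hen H] at h
    linear_combination -h
  have hc := C.frame_ne hen H (i := i) (one_ne_zero (α := F))
  rw [hf1, ← C.nWord_mul_nWord hp (t := f i t * (f i 1)⁻¹) (η := f i 1)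
    (mul_ne_zero (C.frame_ne hen H ht) (inv_ne_zero hc)) hc, mul_comm (f i 1),
    inv_mul_cancel_right₀ hc]

theorem frame_rel (i j : Fin D.rank) {t : F} (ht : t ≠ 0) (u : F) :
    f j (t ^ D.cartan i (D.simple j) * u) =
      (f i t * (f i 1)⁻¹) ^ D.cartan (π i) (D.simple (π j)) * f j u := by
  have hpi := C.root.simple_lt i i.2
  have hpj := C.root.simple_lt j j.2
  obtain ⟨hm, e⟩ := C.frame_hg hen H i ht
  have e1 : (⟨_, hm⟩ : ↥(D.group F)) * C.xgG (D.simple j) u * (⟨_, hm⟩ : ↥(D.group F))⁻¹ =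
      C.xgG (D.simple j) (t ^ D.cartan i (D.simple j) * u) :=
    Subtype.ext (by
      simp only [Subgroup.coe_mul, Subgroup.coe_inv, coe_xgG]
      rw [C.hg_xg hpi hpj ht, C.root.pair_simple i.2])
  have e2 := congrArg (fun x => (θ x : GL D.Idx F)) e1
  simp only [map_mul, map_inv, Subgroup.coe_mul, Subgroup.coe_inv, H.pos, e] at e2
  rw [C.hg_xg (C.root.simple_lt (π i) (π i).2) (C.root.simple_lt (π j) (π j).2)
    (mul_ne_zero (C.frame_ne hen H ht) (inv_ne_zero (C.frame_ne hen H one_ne_zero))),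
    C.root.pair_simple (π i).2] at e2
  exact (C.xg_inj (C.root.simple_lt (π j) (π j).2) e2).symm

/-- The parameters are scalar multiples of field automorphisms. -/
theorem exists_semilinear [Finite F] :
    ∃ (c : Fin D.rank → F) (σ : Fin D.rank → F ≃+* F), (∀ i, c i ≠ 0) ∧
      (∀ i t, f i t = c i * σ i t) ∧ (∀ i t, g i t = (c i)⁻¹ * σ i t) ∧
      ∀ i j : Fin D.rank, ∀ t : F, t ≠ 0 →
        σ j t ^ D.cartan i (D.simple j) = σ i t ^ D.cartan (π i) (D.simple (π j)) := by
  have hc : ∀ i, f i 1 ≠ 0 := fun i => C.frame_ne hen H one_ne_zero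
  let τ : Fin D.rank → F →+ F := fun i =>
    AddMonoidHom.mk' (fun t => f i t * (f i 1)⁻¹) fun a b => by rw [C.frame_add hen H, add_mul]
  have hτ : ∀ i t, τ i t = f i t * (f i 1)⁻¹ := fun i t => rfl
  have hrel : ∀ i j : Fin D.rank, ∀ t : F, t ≠ 0 → ∀ u,
      τ j (t ^ D.cartan i (D.simple j) * u) =
        τ i t ^ D.cartan (π i) (D.simple (π j)) * τ j u := fun i j t ht u => by
    rw [hτ, hτ, hτ, C.frame_rel hen H i j ht u, mul_assoc]
  have hτ1 : ∀ i, τ i 1 = 1 := fun i => mul_inv_cancel₀ (hc i)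
  have hmul : ∀ i a b, τ i (a * b) = τ i a * τ i b := by
    intro i
    have hsq : ∀ t u, τ i (t ^ 2 * u) = τ i t ^ 2 * τ i u := by
      intro t u
      by_cases ht : t = 0
      · subst ht; simp
      · have h := hrel i i t ht u
        rw [C.root.cartan_self i i.2, C.root.cartan_self (π i) (π i).2] at h
        simpa using h
    intro a b
    by_cases h2 : (2 : F) = 0
    · haveI : CharP F 2 := CharTwo.of_one_ne_zero_of_two_eq_zero one_ne_zero h2
      haveI : Fintype F := Fintype.ofFinite F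
      obtain ⟨s, rfl⟩ : ∃ s, s ^ 2 = a := by
        obtain ⟨s, hs⟩ := (isSquare_iff_exists_sq a).1 (FiniteField.isSquare_of_char_two (ringChar.eq F 2) a)
        exact ⟨s, hs.symm⟩
      have h := hsq s 1
      rw [mul_one, hτ1, mul_one] at h
      rw [hsq, h]
    · have h := hsq (a + 1) b
      rw [show (a + 1) ^ 2 * b = a ^ 2 * b + (a * b + a * b) + b by ring, map_add, map_add, map_add,
        map_add, hsq, hτ1] at h
      refine mul_left_cancel₀ h2 ?_
      linear_combination h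
  let σ : Fin D.rank → F ≃+* F := fun i => RingEquiv.ofBijective
    ({ toFun := τ i, map_one' := hτ1 i, map_mul' := hmul i, map_zero' := map_zero _,
       map_add' := map_add _ } : F →+* F)
    ((Finite.injective_iff_bijective).1 (RingHom.injective _))
  have hσ : ∀ i t, σ i t = τ i t := fun i t => rfl
  have hf : ∀ i t, f i t = f i 1 * σ i t := fun i t => by
    rw [hσ, hτ, mul_comm (f i t), ← mul_assoc, mul_inv_cancel₀ (hc i), one_mul]
  refine ⟨fun i => f i 1, σ, hc, hf, fun i t => ?_, fun i j t ht => ?_⟩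
  · by_cases ht : t = 0
    · subst ht
      rw [map_zero, mul_zero]
      refine C.xg_inj (C.root.neg_lt _ (C.root.simple_lt (π i) (π i).2)) ?_
      rw [← H.neg, C.xg_zero, show C.xgG (D.neg (D.simple i)) (0 : F) = 1 from
        Subtype.ext (C.xg_zero _), map_one]
      rfl
    · have h := C.frame_neg hen H (i := i) (t := -t⁻¹) (by simp [ht])
      rw [inv_neg, inv_inv, neg_neg] at h
      rw [h, hf, map_neg, map_inv₀, mul_inv_rev, inv_neg, inv_inv]
      ring
  · have h := hrel i j t ht 1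
    rw [mul_one, hτ1, mul_one] at h
    rw [← map_zpow₀, hσ, hσ, h]

/-- `θ` maps `H` into itself. -/
theorem frame_diag {d : ↥(D.group F)} (hd : (d : GL D.Idx F) ∈ D.diagonalSubgroup F) :
    (θ d : GL D.Idx F) ∈ D.diagonalSubgroup F := by
  have hle : D.diagonalSubgroup F ≤
      (((D.diagonalSubgroup F).subgroupOf (D.group F)).comap θ.toMonoidHom).map (D.group F).subtype := by
    refine C.diag_le_simple fun i hi a ha => ?_
    obtain ⟨hm, e⟩ := C.frame_hg hen H ⟨i, hi⟩ ha
    refine Subgroup.mem_map.2 ⟨⟨_, hm⟩, ?_, rfl⟩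
    show (θ ⟨_, hm⟩ : GL D.Idx F) ∈ D.diagonalSubgroup F
    rw [e]
    exact C.hg_mem (C.root.simple_lt _ (π ⟨i, hi⟩).2)
      (mul_ne_zero (C.frame_ne hen H ha) (inv_ne_zero (C.frame_ne hen H one_ne_zero)))
  obtain ⟨x, hx, e⟩ := Subgroup.mem_map.1 (hle hd)
  obtain rfl : x = d := Subtype.ext e
  exact hx

omit hen H in
theorem rotId_iff {i j : ℕ} (hi : i < D.rank) (hj : j < D.rank) {h h' : GL D.Idx F}
    (hh : h ∈ D.diagonalSubgroup F) (hh' : h' ∈ D.diagonalSubgroup F) (m : ℕ) :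
    (h * C.ng i * (h' * C.ng j)) ^ m ∈ D.diagonalSubgroup F ↔ T.rotId i j m = true := by
  have hN : h * C.ng i * (h' * C.ng j) ∈ D.monomialSubgroup F :=
    mul_mem (mul_mem (C.diag_le_monomial hh) (C.ng_mem hi))
      (mul_mem (C.diag_le_monomial hh') (C.ng_mem hj))
  have hs : ∀ {k : ℕ} (hk : k < D.rank) {d : GL D.Idx F} (hd : d ∈ D.diagonalSubgroup F),
      BN.cls _ (C.toN (d * C.ng k) (mul_mem (C.diag_le_monomial hd) (C.ng_mem hk))) =
        BN.si _ (C.toS F k hk) := by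
    intro k hk d hd
    refine (C.cls_toN_eq _ (C.ng_mem hk)).2 ?_
    rw [mul_inv_rev, mul_assoc]
    have := C.mono_conj_diag (inv_mem (C.ng_mem (F := F) hk)) _ (inv_mem hd)
    rwa [inv_inv, mul_assoc] at this
  have hpow : ∀ m : ℕ, BN.cls _ (C.toN ((h * C.ng i * (h' * C.ng j)) ^ m) (pow_mem hN m)) =
      ((BN.si _ (C.toS F i hi) * BN.si _ (C.toS F j hj)) ^ m : C.W F) := by
    intro m
    induction m with
    | zero =>
      simp only [pow_zero]
      exact (C.cls_toN_eq_one _).2 (one_mem _)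
    | succ m ih =>
      rw [pow_succ ((BN.si _ _ * BN.si _ _ : C.W F)), ← ih, ← hs hi hh, ← hs hj hh', C.cls_toN_mul,
        C.cls_toN_mul]
      simp only [pow_succ]
  rw [← C.pow_eq_one_iff_rotId (F := F) hi hj, ← hpow, C.cls_toN_eq_one]

theorem frame_rotId (i j : Fin D.rank) (m : ℕ) (h : T.rotId i j m = true) :
    T.rotId (π i) (π j) m = true := by
  have hng : ∀ k : Fin D.rank, (θ ⟨C.ng k, C.ng_mem_group k.2⟩ : GL D.Idx F) =
      C.hg (D.simple (π k)) (f k 1) * C.ng (π k) := by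
    intro k
    obtain ⟨hm, e⟩ := C.frame_nWord hen H k one_ne_zero
    rw [← C.nWord_eq_hg_mul, ← e]
    rfl
  have hH := fun k : Fin D.rank => C.hg_mem (C.root.simple_lt (π k) (π k).2)
    (C.frame_ne hen H (i := k) (one_ne_zero (α := F)))
  rw [← C.rotId_iff (F := F) i.2 j.2 (one_mem _) (one_mem _), one_mul, one_mul] at h
  have h1 := C.frame_diag hen H
    (d := (⟨C.ng i, C.ng_mem_group i.2⟩ * ⟨C.ng j, C.ng_mem_group j.2⟩) ^ m)
    (by simpa using h)
  rw [map_pow, map_mul, SubmonoidClass.coe_pow, Subgroup.coe_mul, hng, hng] at h1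
  exact (C.rotId_iff (π i).2 (π j).2 (hH i) (hH j) m).1 h1

theorem frame_symm : ∃ f' g', C.Frame θ.symm π.symm f' g' := by
  choose a ha using fun j => (H.f_bij (π.symm j)).2
  choose b hb using fun j => (H.g_bij (π.symm j)).2
  refine ⟨a, b, ⟨fun j t => ?_, fun j t => ?_, fun j => ?_, fun j => ?_⟩⟩
  · have h := H.pos (π.symm j) (a j t)
    rw [ha, π.apply_symm_apply] at h
    rw [show C.xgG (D.simple j) t = θ (C.xgG (D.simple (π.symm j)) (a j t)) from Subtype.ext h.symm,
      θ.symm_apply_apply, coe_xgG]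
  · have h := H.neg (π.symm j) (b j t)
    rw [hb, π.apply_symm_apply] at h
    rw [show C.xgG (D.neg (D.simple j)) t = θ (C.xgG (D.neg (D.simple (π.symm j))) (b j t)) from
      Subtype.ext h.symm, θ.symm_apply_apply, coe_xgG]
  · exact ⟨fun x y e => by rw [← ha j x, e, ha],
      fun y => ⟨f (π.symm j) y, (H.f_bij _).1 (ha j _)⟩⟩
  · exact ⟨fun x y e => by rw [← hb j x, e, hb],
      fun y => ⟨g (π.symm j) y, (H.g_bij _).1 (hb j _)⟩⟩

/-- `π` preserves the orders of products of two fundamental reflections. -/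
theorem frame_rotId_iff (i j : Fin D.rank) (m : ℕ) :
    T.rotId (π i) (π j) m = T.rotId i j m := by
  obtain ⟨f', g', H'⟩ := C.frame_symm hen H
  rw [Bool.eq_iff_iff]
  refine ⟨fun h => ?_, C.frame_rotId hen H i j m⟩
  simpa using C.frame_rotId hen H' (π i) (π j) m h

end Checked

end Cfsg.Agent.Lib.Chev
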