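import Cfsg.Agent.Lib.Chev.Bruhat
import Cfsg.Agent.Lib.Chev.All
import Cfsg.Prelude.Def_ChevAutomorphisms

/-!
Characters of the root lattice and diagonal elements in the group.
-/

set_option autoImplicit false

namespace Cfsg.Agent.Lib.Chev

open Cfsg.Lie Cfsg.Agent.Lib

/-- Consecutive members of a chain through `r` are one step apart. -/
def Fast.stepList (T : Fast) (r : ℕ) : List (ℕ × ℤ) → Bool
  | [] => true
  | [_] => true
  | a :: b :: l =>
    (match decode (T.code r a.1) with
      | [] => false
      | c :: _ => Nat.beq c.1 b.1) && Fast.stepList T r (b :: l)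

/-- Consecutive members of every chain are one step apart. -/
def Fast.stepCheck (T : Fast) : Bool :=
  allBelow T.n fun r => allBelow T.n fun s => T.stepList r (decode (T.code r s))

theorem step_G2 : G2.fast.stepCheck = true := by decide +kernel
theorem step_B2 : B2.fast.stepCheck = true := by decide +kernel
theorem step_D4 : D4.fast.stepCheck = true := by decide +kernel
theorem step_F4 : F4.fast.stepCheck = true := by decide +kernel
theorem step_E6 : E6.fast.stepCheck = true := by decide +kernel
theorem step_E7 : E7.fast.stepCheck = true := by decide +kernel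
theorem step_E8 : E8.fast.stepCheck = true := by decide +kernel

theorem exists_checked_step {D : ChevalleyDatum}
    (hD : D ∈ [chevG2, chevB2, chevD4, chevF4, chevE6, chevE7, chevE8]) :
    ∃ T : Fast, Checked D T ∧ T.stepCheck = true := by
  simp only [List.mem_cons, List.not_mem_nil, or_false] at hD
  rcases hD with rfl | rfl | rfl | rfl | rfl | rfl | rfl
  exacts [⟨_, G2.checked, step_G2⟩, ⟨_, B2.checked, step_B2⟩, ⟨_, D4.checked, step_D4⟩,
    ⟨_, F4.checked, step_F4⟩, ⟨_, E6.checked, step_E6⟩, ⟨_, E7.checked, step_E7⟩,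
    ⟨_, E8.checked, step_E8⟩]

namespace Checked

variable {D : ChevalleyDatum} {T : Fast} {F : Type*} [Field F] (C : Checked D T)
include C

theorem stepList_chain {r : ℕ} (hr : r < D.nroots) {χ : ℕ → F}
    (hstep : ∀ a b : ℕ, a < D.nroots → D.chainRoot r a 1 = some b → χ b = χ r * χ a) :
    ∀ (l : List (ℕ × ℤ)) (z : F), T.stepList r l = true → (∀ p ∈ l, p.1 < D.nroots) →
      (∀ a, l.head? = some a → χ a.1 = χ r * z) →
      ∀ k u m, l[k]? = some (u, m) → χ u = χ r ^ (k + 1) * z
  | [], _, _, _, _ => by simp
  | [a], z, _, _, hh => by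
    intro k u m hk
    cases k with
    | zero =>
      simp only [List.getElem?_cons_zero, Option.some.injEq] at hk
      subst hk
      simpa using hh _ rfl
    | succ k => simp at hk
  | a :: b :: l, z, hl, hlt, hh => by
    intro k u m hk
    simp only [Fast.stepList, Bool.and_eq_true] at hl
    have hb : χ b.1 = χ r * (χ r * z) := by
      rw [← hh a rfl]
      refine hstep _ _ (hlt a (by simp)) ?_
      have h1 := hl.1
      rw [ChevalleyDatum.chainRoot, C.tables.chain r hr a.1 (hlt a (by simp))]
      rcases hd : decode (T.code r a.1) with _ | ⟨c, cs⟩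
      · rw [hd] at h1; simp at h1
      · rw [hd] at h1
        simp [Nat.eq_of_beq_eq_true h1]
    cases k with
    | zero =>
      simp only [List.getElem?_cons_zero, Option.some.injEq] at hk
      subst hk
      simpa using hh _ rfl
    | succ k =>
      rw [List.getElem?_cons_succ] at hk
      rw [stepList_chain hr hstep (b :: l) (χ r * z) hl.2 (fun p hp => hlt p (by simp [hp]))
        (fun x hx => by simp only [List.head?_cons, Option.some.injEq] at hx; subst hx; exact hb) k u m hk]
      ring

theorem isChr_of_rootCharacter (hs : T.stepCheck = true) {χ : ℕ → Fˣ} (hχ : D.IsRootCharacter χ) :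
    IsChr D (fun r => (χ r : F)) where
  ne r _ := (χ r).ne_zero
  neg r hr := by rw [hχ.1 r hr]; simp
  chain r hr s hs' k u m h := by
    simp only [Fast.stepCheck, allBelow_iff, ← C.tables.nroots] at hs
    have hl := hs r hr s hs'
    rw [← C.tables.chain r hr s hs'] at hl
    refine C.stepList_chain hr (χ := fun r => (χ r : F))
      (fun a b ha hab => by rw [hχ.2 r a b hr ha hab, Units.val_mul]) _ _ hl (fun p hp => ?_)
      (fun a ha => ?_) k u m h
    · obtain ⟨j, hj⟩ := List.getElem?_of_mem hp
      exact (C.root.chain_get r hr s hs' j p.1 p.2 hj).1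
    · rw [hχ.2 r s a.1 hr hs' (by
        simp [ChevalleyDatum.chainRoot, ← List.head?_eq_getElem?, ha]), Units.val_mul]

omit C in
theorem charDiag_eq (D : ChevalleyDatum) (χ : ℕ → Fˣ) :
    D.charDiag F χ = dg D (fun r => (χ r : F)) := rfl

theorem mem_diag_of_dg {χ : ℕ → F} (hχ : IsChr D χ) {g : GL D.Idx F} (hg : g ∈ D.group F)
    (e : (g : Matrix D.Idx D.Idx F) = dg D χ) : g ∈ D.diagonalSubgroup F := by
  have hm := C.mo_dg hχ e
  have hB : g ∈ D.borelSubgroup F := by
    obtain ⟨b, hb, n, hn, u, hu, rfl⟩ := C.exists_bnu hg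
    have hub : u ∈ D.borelSubgroup F := Subgroup.mem_sup_left (by
      rw [posUnipotent_eq]; exact grp_mem_mono hu fun r hr => hr.1)
    have hnorm : ∀ x ∈ D.borelSubgroup F,
        b * n * u * x * (b * n * u)⁻¹ ∈ D.borelSubgroup F := by
      intro x hx
      obtain ⟨v, hv, h, hh, rfl⟩ := C.mem_borel.1 hx
      obtain ⟨ψ, -, e'⟩ := C.exists_chr hh
      have hcomm : b * n * u * h * (b * n * u)⁻¹ = h := by
        rw [mul_inv_eq_iff_eq_mul]
        refine Units.ext ?_
        rw [Units.val_mul (b * n * u) h, Units.val_mul h (b * n * u), e, e', dg_mul, dg_mul]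
        exact dg_congr fun v _ => mul_comm _ _
      rw [show b * n * u * (v * h) * (b * n * u)⁻¹ =
        (b * n * u * v * (b * n * u)⁻¹) * (b * n * u * h * (b * n * u)⁻¹) by group, hcomm]
      refine mul_mem (Subgroup.mem_sup_left ?_) (Subgroup.mem_sup_right hh)
      rw [posUnipotent_eq] at hv ⊢
      have hle : grp D F {r | D.IsPosRoot r} ≤
          (grp D F {r | D.IsPosRoot r}).comap (MulAut.conj (b * n * u)).toMonoidHom :=
        C.grp_le fun r hr t => by
          obtain ⟨c, -, hc⟩ := C.mo_conj hm hr.1
          show b * n * u * C.xg r t * (b * n * u)⁻¹ ∈ grp D F {r | D.IsPosRoot r}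
          rw [hc t]
          exact C.xg_mem (S := {r | D.IsPosRoot r}) hr _
      exact hle hv
    have key : ((C.toN n hn : ↥(D.group F)) : GL D.Idx F) ∈ D.borelSubgroup F := by
      refine BN.mem_of_conj_le (C.bnPair F) (M := (C.bnPair F).B) le_rfl (C.toN n hn) fun x hx => ?_
      show n * (x : GL D.Idx F) * n⁻¹ ∈ D.borelSubgroup F
      have := hnorm (u⁻¹ * x * u) (mul_mem (mul_mem (inv_mem hub) hx) hub)
      have h2 := mul_mem (mul_mem (inv_mem hb) this) hb
      convert h2 using 1
      group
    exact mul_mem (mul_mem hb key) hub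
  obtain ⟨u, hu, h, hh, rfl⟩ := C.mem_borel.1 hB
  obtain ⟨ψ, -, e'⟩ := C.exists_chr hh
  have hu1 : u = 1 := by
    refine Units.ext ?_
    have hU := C.isUni_of_mem hu
    have hdiag : (u : Matrix D.Idx D.Idx F) = dg D (fun r => χ r * (ψ r)⁻¹) := by
      have : (u : Matrix D.Idx D.Idx F) = dg D χ * ((h⁻¹ : GL D.Idx F) : Matrix D.Idx D.Idx F) := by
        rw [← e, ← Units.val_mul, mul_inv_cancel_right]
      obtain ⟨ψ', -, e''⟩ := C.exists_chr (inv_mem hh)
      rw [this, e'', dg_mul]
      refine dg_congr fun v hv => ?_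
      have h1 : dg D (fun r => ψ' r * ψ r) = dg D (fun _ => (1 : F)) := by
        rw [← dg_mul, ← e'', ← e', ← Units.val_mul, inv_mul_cancel, Units.val_one, dg_one]
      have := dg_inj h1 v hv
      rw [eq_inv_of_mul_eq_one_left this]
    funext a c
    by_cases hac : a = c
    · rw [(hU a c).1 hac, Units.val_one, hac, Matrix.one_apply_eq]
    · rw [hdiag, dg, Matrix.diagonal_apply_ne _ hac, Units.val_one, Matrix.one_apply_ne hac]
  rw [hu1, one_mul]
  exact hh

end Checked

end Cfsg.Agent.Lib.Chev
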