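import Cfsg.Agent.Lib.Chev.AutField
import Cfsg.Agent.Lib.Chev.Char

/-!
Steinberg's theorem on the automorphisms of the split Chevalley groups.
-/

set_option autoImplicit false

namespace Cfsg.Agent.Lib.Chev

open Cfsg.Lie Cfsg.Agent.Lib

namespace Checked

variable {D : ChevalleyDatum} {T : Fast} {F : Type*} [Field F] (C : Checked D T)
include C

omit C in
/-- The diagonal matrix of a character, as a unit. -/
def chrUnit (_ : Checked D T) {χ : ℕ → F} (hχ : IsChr D χ) : GL D.Idx F where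
  val := dg D χ
  inv := dg D (fun r => (χ r)⁻¹)
  val_inv := by
    rw [dg_mul, ← dg_one]
    exact dg_congr fun v hv => mul_inv_cancel₀ (hχ.ne v hv)
  inv_val := by
    rw [dg_mul, ← dg_one]
    exact dg_congr fun v hv => inv_mul_cancel₀ (hχ.ne v hv)

theorem chrUnit_conj_mem {χ : ℕ → F} (hχ : IsChr D χ) {g : GL D.Idx F} (hg : g ∈ D.group F) :
    C.chrUnit hχ * g * (C.chrUnit hχ)⁻¹ ∈ D.group F := by
  have hle : D.group F ≤ (D.group F).comap (MulAut.conj (C.chrUnit hχ)).toMonoidHom :=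
    C.group_le fun r hr t => by
      show C.chrUnit hχ * C.xg r t * (C.chrUnit hχ)⁻¹ ∈ D.group F
      rw [C.conj_xg_of_dg hχ rfl hr]
      exact C.xg_mem_group hr _
  exact hle hg

/-- The diagonal automorphism of a character. -/
def chrAut {χ : ℕ → F} (hχ : IsChr D χ) : ↥(D.group F) ≃* ↥(D.group F) where
  toFun g := ⟨C.chrUnit hχ * g * (C.chrUnit hχ)⁻¹, C.chrUnit_conj_mem hχ g.2⟩
  invFun g := ⟨(C.chrUnit hχ)⁻¹ * g * C.chrUnit hχ, by
    have h := C.chrUnit_conj_mem (C.isChr_inv hχ) g.2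
    have e : C.chrUnit (C.isChr_inv hχ) = (C.chrUnit hχ)⁻¹ := Units.ext rfl
    rwa [e, inv_inv] at h⟩
  left_inv g := Subtype.ext (by simp [mul_assoc])
  right_inv g := Subtype.ext (by simp [mul_assoc])
  map_mul' a b := Subtype.ext (by simp [mul_assoc])

theorem chrAut_xg {χ : ℕ → F} (hχ : IsChr D χ) {r : ℕ} (hr : r < D.nroots) (t : F) :
    (C.chrAut hχ (C.xgG r t) : GL D.Idx F) = C.xg r (χ r * t) :=
  C.conj_xg_of_dg hχ rfl hr t

theorem chrAut_symm_xg {χ : ℕ → F} (hχ : IsChr D χ) {r : ℕ} (hr : r < D.nroots) (t : F) :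
    ((C.chrAut hχ).symm (C.xgG r t) : GL D.Idx F) = C.xg r ((χ r)⁻¹ * t) := by
  have h : C.chrAut hχ (C.xgG r ((χ r)⁻¹ * t)) = C.xgG r t :=
    Subtype.ext (by rw [C.chrAut_xg hχ hr, mul_inv_cancel_left₀ (hχ.ne r hr)]; rfl)
  rw [← h, MulEquiv.symm_apply_apply]
  rfl

omit C in
/-- The character with prescribed values on the fundamental roots. -/
def simChr (_ : Checked D T) (c : Fin D.rank → Fˣ) (r : ℕ) : Fˣ :=
  ∏ i : Fin D.rank, c i ^ T.aux.coef r i

theorem simChr_simple (c : Fin D.rank → Fˣ) (j : Fin D.rank) : C.simChr c (D.simple j) = c j := by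
  rw [simChr, Finset.prod_eq_single j]
  · rw [C.root.coef_simple j j.2 j j.2, if_pos rfl, zpow_one]
  · intro i _ hij
    rw [C.root.coef_simple j j.2 i i.2, if_neg fun h => hij (Fin.ext h), zpow_zero]
  · exact fun h => absurd (Finset.mem_univ j) h

theorem simChr_isRootCharacter (c : Fin D.rank → Fˣ) : D.IsRootCharacter (C.simChr c) := by
  refine ⟨fun r hr => ?_, fun r s k hr hs hk => ?_⟩
  · rw [simChr, simChr, ← Finset.prod_inv_distrib]
    exact Finset.prod_congr rfl fun i _ => by rw [C.root.coef_neg hr i.2, zpow_neg]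
  · rw [simChr, simChr, simChr, ← Finset.prod_mul_distrib]
    refine Finset.prod_congr rfl fun i _ => ?_
    rw [show T.aux.coef k i = T.aux.coef r i + T.aux.coef s i by
      have := C.chainRoot_coef hr hs (k := 0) hk i.2
      simpa [Fast.aux] using this, zpow_add]

theorem simChr_isChr (c : Fin D.rank → Fˣ) : IsChr D (fun r => (C.simChr c r : F)) where
  ne r _ := Units.ne_zero _
  neg r hr := by rw [(C.simChr_isRootCharacter c).1 r hr, Units.val_inv_eq_inv_val]
  chain r hr s hs k u m h := by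
    obtain ⟨hu, hk⟩ := C.root.chain_get r hr s hs k u m h
    have hk3 : k < 3 := by
      have h1 := (List.getElem?_eq_some_iff.1 h).1
      have h2 := C.root.chain_len r hr s hs
      omega
    rw [← Units.val_pow_eq_pow_val, ← Units.val_mul]
    congr 1
    simp only [simChr]
    rw [← Finset.prod_pow, ← Finset.prod_mul_distrib]
    refine Finset.prod_congr rfl fun i _ => ?_
    rw [C.root.coef_of_key hu hr hs (a := ((k + 1 : ℕ) : ℤ)) (b := 1)
      (by rw [Nat.abs_cast, abs_one]; omega) (by rw [hk]; ring) i i.2, one_mul, zpow_add,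
      mul_comm ((k + 1 : ℕ) : ℤ), zpow_mul, zpow_natCast]

theorem simAut_isDiagonal (c : Fin D.rank → Fˣ) :
    D.IsDiagonalAut (C.chrAut (C.simChr_isChr c)) := by
  refine ⟨C.simChr c, C.simChr_isRootCharacter c, fun g => ?_⟩
  show ((C.chrUnit (C.simChr_isChr c) * (g : GL D.Idx F) * (C.chrUnit (C.simChr_isChr c))⁻¹ :
    GL D.Idx F) : Matrix D.Idx D.Idx F) = _
  rw [Units.val_mul, Units.val_mul, charDiag_eq, charDiag_eq]
  simp only [Units.val_inv_eq_inv_val]
  rfl

theorem fieldAut_xgG (τ : F ≃+* F) {r : ℕ} (hr : r < D.nroots) (t : F) :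
    (C.fieldAut τ (C.xgG r t) : GL D.Idx F) = C.xg r (τ t) :=
  C.gmap_xg τ.toRingHom hr t

theorem fieldAut_isField (τ : F ≃+* F) : D.IsFieldAut (C.fieldAut τ) := by
  refine ⟨τ, fun g r t hr e => ?_⟩
  obtain rfl : g = C.xgG r t := Subtype.ext (C.eq_xg e)
  rw [C.fieldAut_xgG τ hr, C.val_xg]

end Checked

variable {D : ChevalleyDatum} {F : Type*} [Field F] [Finite F]

/-- An automorphism fixing `U` and `V` is diagonal · graph · field. -/
theorem exists_diag_graph_field (hD : D ∈ [chevG2, chevB2, chevD4, chevF4, chevE6, chevE7, chevE8])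
    (θ : ↥(D.group F) ≃* ↥(D.group F))
    (hU : Sends θ (D.posUnipotent F) (D.posUnipotent F))
    (hV : Sends θ (D.negUnipotent F) (D.negUnipotent F)) :
    ∃ d g f : ↥(D.group F) ≃* ↥(D.group F), D.IsDiagonalAut d ∧ D.IsGraphAut g ∧ D.IsFieldAut f ∧
      ∀ y, θ y = d (g (f y)) := by
  obtain ⟨T, C, hen, hb⟩ := exists_checked_aut hD
  obtain ⟨π, f, g, H⟩ := C.exists_frame hen hU hV
  have hπ := C.frame_isSymmetry hen hb H
  obtain ⟨c, σ, hc, hf, hg, hrel⟩ := C.exists_semilinear hen H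
  obtain ⟨τ, hτ⟩ := exists_field hD hπ hrel
  set c' : Fin D.rank → Fˣ := fun j => Units.mk0 (c (π.symm j)) (hc _) with hc'
  set d := C.chrAut (C.simChr_isChr c') with hd
  have hcv : ∀ i, (C.simChr c' (D.simple (π i)) : F) = c i := fun i => by
    rw [C.simChr_simple, hc']; simp
  have hcn : ∀ i, (C.simChr c' (D.neg (D.simple (π i))) : F) = (c i)⁻¹ := fun i => by
    rw [(C.simChr_isRootCharacter c').1 _ (C.root.simple_lt _ (π i).2), Units.val_inv_eq_inv_val, hcv]
  refine ⟨d, ((C.fieldAut τ).symm.trans θ).trans d.symm, C.fieldAut τ, C.simAut_isDiagonal c',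
    ⟨π, hπ, fun y i t => ?_⟩, C.fieldAut_isField τ, fun y => by simp⟩
  have hp := C.root.simple_lt i i.2
  have hq := C.root.simple_lt (π i) (π i).2
  have hsy : ∀ r, r < D.nroots → (C.fieldAut τ).symm (C.xgG r t) = C.xgG r (τ.symm t) := fun r hr => by
    rw [MulEquiv.symm_apply_eq]
    exact Subtype.ext (by rw [C.fieldAut_xgG τ hr, τ.apply_symm_apply]; rfl)
  constructor <;> intro e <;>
    obtain rfl : y = C.xgG _ t := Subtype.ext (C.eq_xg e)
  · simp only [MulEquiv.trans_apply]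
    rw [hsy _ hp, show θ (C.xgG (D.simple i) (τ.symm t)) = C.xgG (D.simple (π i)) _ from
      Subtype.ext (H.pos i _), C.chrAut_symm_xg _ hq, C.val_xg, hf, hτ, τ.apply_symm_apply, hcv,
      inv_mul_cancel_left₀ (hc i)]
  · simp only [MulEquiv.trans_apply]
    rw [hsy _ (C.root.neg_lt _ hp), show θ (C.xgG (D.neg (D.simple i)) (τ.symm t)) =
      C.xgG (D.neg (D.simple (π i))) _ from Subtype.ext (H.neg i _),
      C.chrAut_symm_xg _ (C.root.neg_lt _ hq), C.val_xg, hg, hτ, τ.apply_symm_apply, hcn,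
      inv_mul_cancel_left₀ (inv_ne_zero (hc i))]

/-- Every automorphism is inner · diagonal · graph · field. -/
theorem exists_decomposition (hD : D ∈ [chevG2, chevB2, chevD4, chevF4, chevE6, chevE7, chevE8])
    (θ : ↥(D.group F) ≃* ↥(D.group F)) :
    ∃ (x : ↥(D.group F)) (d g f : ↥(D.group F) ≃* ↥(D.group F)),
      D.IsDiagonalAut d ∧ D.IsGraphAut g ∧ D.IsFieldAut f ∧
        ∀ y : ↥(D.group F), θ y = x * d (g (f y)) * x⁻¹ := by
  obtain ⟨T, C, -, -⟩ := exists_checked_aut hD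
  haveI : Fintype F := Fintype.ofFinite F
  haveI : Fact (ringChar F).Prime := ⟨CharP.char_is_prime F (ringChar F)⟩
  obtain ⟨x, hU, hV⟩ := C.exists_inner_fix (F := F) (ringChar F) hD θ
  obtain ⟨d, g, f, hd, hg, hf, h⟩ := exists_diag_graph_field hD _ hU hV
  refine ⟨x⁻¹, d, g, f, hd, hg, hf, fun y => ?_⟩
  rw [← h, MulEquiv.trans_apply, MulAut.conj_apply]
  group

end Cfsg.Agent.Lib.Chev
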