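import Cfsg.Agent.Lib.BN.Coxeter

/-!
Canonical representatives of Weyl group elements in a (B, N)-pair: if the distinguished generators satisfy
the braid relations in `G`, all reduced words of an element have the same product in `G`.
-/

set_option autoImplicit false

namespace Cfsg.Agent.Lib.Chev.BNLift

open Cfsg.Agent.Lib

variable {G : Type*} [Group G] (P : Cfsg.BNPair G)

/-- The word has least length. -/
def Red (L : List P.S) : Prop := BN.len P (BN.word P L) = L.length

theorem wordG_append (L L' : List P.S) :
    BN.wordG P (L ++ L') = BN.wordG P L * BN.wordG P L' := by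
  induction L with
  | nil => simp [BN.wordG]
  | cons s L ih => rw [List.cons_append, BN.wordG_cons, BN.wordG_cons, ih, mul_assoc]

theorem red_left {L L' : List P.S} (h : Red P (L ++ L')) : Red P L := by
  obtain ⟨R, hR, hRw⟩ := BN.exists_reduced P (BN.word P L)
  have h1 := BN.len_word_le P (R ++ L')
  have h2 := BN.len_word_le P L
  rw [BN.word_append, hRw, ← BN.word_append, h] at h1
  simp only [List.length_append] at h1
  show BN.len P (BN.word P L) = L.length
  omega

theorem red_right {L L' : List P.S} (h : Red P (L ++ L')) : Red P L' := by
  obtain ⟨R, hR, hRw⟩ := BN.exists_reduced P (BN.word P L')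
  have h1 := BN.len_word_le P (L ++ R)
  have h2 := BN.len_word_le P L'
  rw [BN.word_append, hRw, ← BN.word_append, h] at h1
  simp only [List.length_append] at h1
  show BN.len P (BN.word P L') = L'.length
  omega

theorem red_tail {a : P.S} {L : List P.S} (h : Red P (a :: L)) : Red P L :=
  red_right P (L := [a]) h

/-- A reduced word in two letters alternates. -/
theorem eq_alt : ∀ (L : List P.S) (a b : P.S), (∀ x ∈ L, x = a ∨ x = b) → Red P L →
    L = BN.alt a b L.length ∨ L = BN.alt b a L.length
  | [], _, _, _, _ => Or.inl rfl
  | c :: L, a, b, hL, hr => by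
    have key : ∀ d, ∀ L' : List P.S, L = d :: L' → d ≠ c := by
      rintro d L' rfl rfl
      have h1 := red_left P (L := [d, d]) (L' := L') hr
      simp [Red, BN.si_mul_self, BN.len_one] at h1
    have ih := eq_alt L a b (fun x hx => hL x (List.mem_cons_of_mem _ hx)) (red_tail P hr)
    rcases hL c (List.mem_cons_self) with rfl | rfl
    · refine Or.inl ?_
      rcases ih with h | h
      · cases L with
        | nil => rfl
        | cons d L' => exact absurd (List.cons.inj h).1 (key d L' rfl)
      · show c :: L = c :: BN.alt b c L.length
        exact congrArg _ h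
    · refine Or.inr ?_
      rcases ih with h | h
      · show c :: L = c :: BN.alt a c L.length
        exact congrArg _ h
      · cases L with
        | nil => rfl
        | cons d L' => exact absurd (List.cons.inj h).1 (key d L' rfl)

/-- The braid hypothesis: equal reduced alternating words have equal products. -/
def Braided : Prop :=
  ∀ a b : P.S, a ≠ b → ∀ n, Red P (BN.alt a b n) → BN.word P (BN.alt a b n) = BN.word P (BN.alt b a n) →
    BN.wordG P (BN.alt a b n) = BN.wordG P (BN.alt b a n)

variable {P}

theorem dihedral_lift (hP : Braided P) {a b : P.S} (hab : a ≠ b) {j : ℕ} {L : List P.S}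
    (hL : ∀ x ∈ L, x = a ∨ x = b) (hlen : L.length = j) (hred : Red P (BN.alt a b j))
    (h : BN.word P L = BN.word P (BN.alt a b j)) :
    BN.wordG P L = BN.wordG P (BN.alt a b j) := by
  have hr : Red P L := by
    rw [Red, h, hred, BN.length_alt, hlen]
  rcases eq_alt P L a b hL hr with e | e <;> rw [hlen] at e
  · rw [e]
  · rw [e] at h ⊢
    exact (hP a b hab j hred h.symm).symm

/-- All reduced words of an element have the same product in `G`. -/
theorem wordG_eq (hP : Braided P) : ∀ (k : ℕ) (A A' : List P.S), A.length = k → A'.length = k →
    BN.len P (BN.word P A) = k → BN.word P A = BN.word P A' → BN.wordG P A = BN.wordG P A' := by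
  intro k
  induction k with
  | zero =>
    intro A A' h h' _ _
    rw [List.length_eq_zero_iff] at h h'
    subst h h'
    rfl
  | succ k ih =>
    have same : ∀ (a : P.S) (A A' : List P.S), A.length = k → A'.length = k →
        BN.len P (BN.word P (a :: A)) = k + 1 → BN.word P (a :: A) = BN.word P (a :: A') →
        BN.wordG P (a :: A) = BN.wordG P (a :: A') := by
      intro a A A' h h' hl he
      rw [BN.word_cons, BN.word_cons] at he
      have h1 := BN.len_word_le P A
      have h2 := BN.len_si_mul_le P a (BN.word P A)
      rw [BN.word_cons] at hl
      rw [BN.wordG_cons, BN.wordG_cons, ih A A' h h' (by omega) (mul_left_cancel he)]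
    have claim : ∀ (d j : ℕ) (a b : P.S) (R C : List P.S), a ≠ b → j + d = k + 1 → 1 ≤ j →
        (BN.alt a b j ++ R).length = k + 1 → C.length = k →
        BN.len P (BN.word P (b :: C)) = k + 1 →
        BN.word P (BN.alt a b j ++ R) = BN.word P (b :: C) →
        BN.wordG P (BN.alt a b j ++ R) = BN.wordG P (b :: C) := by
      intro d
      induction d using Nat.strong_induction_on with
      | _ d ihd =>
        intro j a b R C hab hj hj1 hlen hC hl he
        set A := BN.alt a b j ++ R with hA
        have hredA : Red P A := by rw [Red, he, hl, hlen]
        have hlt : BN.len P (BN.si P b * BN.word P A) < BN.len P (BN.word P A) := by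
          rw [he, hl, BN.word_cons, BN.si_mul_cancel]
          have := BN.len_word_le P C
          omega
        obtain ⟨i, hi, hie⟩ := BN.exchange P b A hlt
        have hB : BN.word P (b :: A.eraseIdx i) = BN.word P A := by
          rw [BN.word_cons, ← hie, BN.si_mul_cancel]
        have hBlen : (A.eraseIdx i).length = k := by
          rw [List.length_eraseIdx_of_lt hi, hlen]; omega
        have hsame := same b (A.eraseIdx i) C hBlen hC (by rw [hB, he, hl]) (by rw [hB, he])
        rcases lt_or_ge i j with hij | hij
        · have hijl : i < (BN.alt a b j).length := by rwa [BN.length_alt]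
          rw [hA, List.eraseIdx_append_of_lt_length hijl] at hB hsame
          have hd : BN.wordG P (b :: (BN.alt a b j).eraseIdx i) = BN.wordG P (BN.alt a b j) := by
            refine dihedral_lift hP hab (fun x hx => ?_) ?_ (red_left P hredA) ?_
            · rcases List.mem_cons.1 hx with rfl | hx
              exacts [Or.inr rfl, BN.mem_alt j (List.mem_of_mem_eraseIdx hx)]
            · rw [List.length_cons, List.length_eraseIdx_of_lt hijl, BN.length_alt]; omega
            · simpa [← mul_assoc] using hB
          rw [← hsame, hA, ← List.cons_append, wordG_append, wordG_append, hd]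
        · have hijl : (BN.alt a b j).length ≤ i := by rwa [BN.length_alt]
          rw [hA, List.eraseIdx_append_of_length_le hijl] at hB hsame hBlen
          set R' := R.eraseIdx (i - (BN.alt a b j).length)
          have hnew : b :: (BN.alt a b j ++ R') = BN.alt b a (j + 1) ++ R' := rfl
          rcases d with _ | d
          · exfalso
            have : i < k + 1 := hlen ▸ hi
            omega
          · obtain ⟨j', rfl⟩ : ∃ j', j = j' + 1 := ⟨j - 1, by omega⟩
            rw [← hsame, hnew]
            refine (ihd d (by omega) (j' + 1 + 1) b a R' (BN.alt b a j' ++ R) hab.symm (by omega)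
              (by omega) (by rw [← hnew, List.length_cons, hBlen]) ?_ ?_ ?_).symm
            · simp [hA, BN.alt, BN.length_alt] at hlen ⊢
              omega
            · show BN.len P (BN.word P A) = k + 1
              rw [he, hl]
            · rw [← hnew, hB]; rfl
    intro A A' hA hA' hl he
    cases A with
    | nil => simp at hA
    | cons a A =>
      cases A' with
      | nil => simp at hA'
      | cons b A' =>
        by_cases hab : a = b
        · subst hab
          exact same a A A' (by simpa using hA) (by simpa using hA') hl he
        · exact claim k 1 a b A A' hab (by omega) le_rfl (by simpa [BN.alt] using hA)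
            (by simpa using hA') (by rw [← he]; exact hl) he

variable (P)

/-- The product of a reduced word. -/
noncomputable def lift (w : BN.Weyl P) : G := BN.wordG P (BN.exists_reduced P w).choose

theorem lift_mem (w : BN.Weyl P) : lift P w ∈ P.N := BN.wordG_mem_N P _

theorem cls_lift (w : BN.Weyl P) : BN.cls P ⟨lift P w, lift_mem P w⟩ = w :=
  (BN.cls_wordG P _).trans (BN.exists_reduced P w).choose_spec.2

variable {P}

theorem lift_word (hP : Braided P) {L : List P.S} (hL : Red P L) :
    lift P (BN.word P L) = BN.wordG P L := by
  obtain ⟨h1, h2⟩ := (BN.exists_reduced P (BN.word P L)).choose_spec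
  exact wordG_eq hP L.length _ L (by rw [h1, hL]) rfl (by rw [h2, hL]) h2

theorem lift_one (hP : Braided P) : lift P 1 = 1 := lift_word hP (L := []) (BN.len_one P)

theorem lift_si_mul (hP : Braided P) {s : P.S} {w : BN.Weyl P}
    (h : BN.len P (BN.si P s * w) = BN.len P w + 1) :
    lift P (BN.si P s * w) = (s : G) * lift P w := by
  obtain ⟨L, h1, rfl⟩ := BN.exists_reduced P w
  rw [lift_word hP h1.symm, ← BN.word_cons, lift_word hP, BN.wordG_cons]
  show BN.len P (BN.word P (s :: L)) = (s :: L).length
  rw [BN.word_cons, h, List.length_cons, h1]

end Cfsg.Agent.Lib.Chev.BNLift
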