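import Cfsg.Agent.Lib.Chev.RootLocal
import Cfsg.Agent.Lib.Chev.Radical
import Cfsg.Agent.Lib.Block.SingleBlockCrit
import Cfsg.Agent.Lib.Block.Green
import Cfsg.Agent.Lib.Block.Apply
import Cfsg.Agent.Lib.Block.DefectTwo

/-!
A split Chevalley group in its defining characteristic, with the local conditions at the highest long and
short roots, has exactly two blocks: the principal one and that of the Steinberg character.
-/

set_option autoImplicit false

namespace Cfsg.Agent.Lib.Chev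

open Cfsg Cfsg.Lie Cfsg.Agent.Lib.Block

section General

universe u

variable {p : ℕ} {M : Ideal AlgInt} [M.IsPrime] {G : Type u} [Group G] [Finite G]

theorem exists_block_at (hM : IsPModular p M) {B : Set (IrrCharacter G)} (hB : IsPBlock M B)
    {D : Subgroup G} (hD : IsDefectGroup p M B D) {x : G} (hx : x ∈ D) :
    ∃ b : Set (IrrCharacter (Subgroup.centralizer ({x} : Set G))),
      IsInducedBlock M (Subgroup.centralizer ({x} : Set G)) b B := by
  obtain ⟨hDp, -, -⟩ := IsDefectGroup.props hM hB hD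
  have hle : Subgroup.zpowers x ≤ D := Subgroup.zpowers_le.2 hx
  refine exists_inducing_block hM (P := Subgroup.zpowers x) (hDp.to_le hle) ?_
    (Subgroup.centralizer_le (by simp)) ?_ hB hD hle
  · rw [Subgroup.zpowers_le, Subgroup.mem_centralizer_singleton_iff]
  · refine le_trans ?_ (Subgroup.centralizer_le_normalizer _)
    intro g hg
    rw [Subgroup.mem_centralizer_singleton_iff] at hg
    refine Subgroup.mem_centralizer_iff.2 fun y hy => ?_
    obtain ⟨i, rfl⟩ := Subgroup.mem_zpowers_iff.1 hy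
    exact ((show Commute g x from hg).zpow_right i).eq.symm

theorem eq_principal_of_local (hM : IsPModular p M) {B : Set (IrrCharacter G)} (hB : IsPBlock M B)
    {D : Subgroup G} (hD : IsDefectGroup p M B D) {x : G} (hx : x ∈ D) {Q : Subgroup G}
    (hQ : IsPGroup p Q) (hQx : Q ≤ Subgroup.centralizer ({x} : Set G))
    (hn : Subgroup.centralizer ({x} : Set G) ≤ Subgroup.normalizer (Q : Set G))
    (hQc : Subgroup.centralizer ({x} : Set G) ⊓ Subgroup.centralizer (Q : Set G) ≤ Q) :
    B = principalBlock M G := by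
  obtain ⟨b, hb⟩ := exists_block_at hM hB hD hx
  haveI : (Q.subgroupOf (Subgroup.centralizer ({x} : Set G))).Normal :=
    Subgroup.normal_subgroupOf_of_le_normalizer hn
  refine (induced_principal_iff hM hb).2 ?_
  refine eq_principal_of_centralizer_le hM (Q := Q.subgroupOf _) hQ.comap_subtype ?_ hb.1
  intro z hz
  rw [Subgroup.mem_subgroupOf]
  refine hQc (Subgroup.mem_inf.2 ⟨z.2, Subgroup.mem_centralizer_iff.2 fun q hq => ?_⟩)
  exact congrArg Subtype.val
    (Subgroup.mem_centralizer_iff.1 hz ⟨q, hQx hq⟩ (Subgroup.mem_subgroupOf.2 hq))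

theorem exists_defect_of_local (hM : IsPModular p M) {B : Set (IrrCharacter G)} (hB : IsPBlock M B)
    {D : Subgroup G} (hD : IsDefectGroup p M B D) {x : G} (hx : x ∈ D) {Q : Subgroup G}
    (hQ : IsPGroup p Q) (hQx : Q ≤ Subgroup.centralizer ({x} : Set G))
    (hn : Subgroup.centralizer ({x} : Set G) ≤ Subgroup.normalizer (Q : Set G)) :
    ∃ E, IsDefectGroup p M B E ∧ Q ≤ E := by
  obtain ⟨b, hb⟩ := exists_block_at hM hB hD hx
  haveI : (Q.subgroupOf (Subgroup.centralizer ({x} : Set G))).Normal :=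
    Subgroup.normal_subgroupOf_of_le_normalizer hn
  obtain ⟨Db, hDb⟩ := exists_isDefectGroup hM hb.1
  obtain ⟨E, hE, hle⟩ := exists_defect_ge_of_induced hM hb hDb
  have h := le_defect_of_normal hM hb.1 (Q := Q.subgroupOf _) hQ.comap_subtype hDb
  exact ⟨E, hE, fun q hq => hle ⟨⟨q, hQx hq⟩, h (Subgroup.mem_subgroupOf.2 hq), rfl⟩⟩

end General

namespace Checked

variable {D : ChevalleyDatum} {T : Fast} (C : Checked D T) {F : Type*} [Field F]
include C

theorem exists_climb {R S : ℕ} (hR : R < D.nroots) (hS : S < D.nroots)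
    (h : T.climbCheck R S = true) {r : ℕ} (hr : r < D.nroots) :
    ∃ m ∈ D.monomialSubgroup F, C.sg (F := F) m r = R ∨ C.sg (F := F) m r = S := by
  suffices key : ∀ k r, r < D.nroots → D.nroots ≤ r + k →
      ∃ m ∈ D.monomialSubgroup F, C.sg (F := F) m r = R ∨ C.sg (F := F) m r = S from
    key D.nroots r hr (by omega)
  intro k
  induction k with
  | zero => intro r hr hk; omega
  | succ k ih =>
    intro r hr hk
    have h1 := (allBelow_iff.1 h) r (C.tables.nroots ▸ hr)
    simp only [Bool.or_eq_true, Nat.beq_eq, List.any_eq_true, List.mem_range, ltI_iff] at h1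
    rcases h1 with (rfl | rfl) | ⟨i, hi, hlt⟩
    · exact ⟨1, one_mem _, Or.inl (C.sg_one hr)⟩
    · exact ⟨1, one_mem _, Or.inr (C.sg_one hr)⟩
    · have hi' : i < D.rank := by rw [C.tables.rank]; exact hi
      have hw := C.root.refl_lt i hi' r hr
      rw [← C.refl i hi' r hr] at hlt
      have hgt : r < D.reflectRoot i r := (C.root.lt_iff_key hr hw).2 hlt
      obtain ⟨m, hm, hm'⟩ := ih _ hw (by omega)
      refine ⟨m * C.ng i, mul_mem hm (C.ng_mem hi'), ?_⟩
      rwa [C.sg_mul hm (C.ng_mem hi') hr, C.sg_ng hi' hr]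

theorem borel_pos {b u : GL D.Idx F} (hb : b ∈ D.borelSubgroup F) (hu : u ∈ D.posUnipotent F) :
    b * u * b⁻¹ ∈ D.posUnipotent F := by
  obtain ⟨v, hv, t, ht, rfl⟩ := C.mem_borel.1 hb
  rw [show v * t * u * (v * t)⁻¹ = v * (t * u * t⁻¹) * v⁻¹ by group]
  exact mul_mem (mul_mem hv (C.diag_normalizes_pos ht hu)) (inv_mem hv)

variable [Fintype F] (p : ℕ) [Fact p.Prime] [CharP F p] {M : Ideal AlgInt} [M.IsPrime]

theorem isPGroup_grp {S : Set ℕ} (hS : ∀ r ∈ S, D.IsPosRoot r) :
    IsPGroup p ((grp D F S).subgroupOf (D.group F)) := by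
  obtain ⟨a, -, ha⟩ := FiniteField.card F p
  have hU : IsPGroup p (D.posUnipotent F) := IsPGroup.of_card (n := (a : ℕ) * T.npos) (by
    rw [posUnipotent_eq, C.card_grp C.closedSet_pos, C.ncard_pos, ha, pow_mul])
  have h1 : IsPGroup p (grp D F S) := hU.to_le (by rw [posUnipotent_eq]; exact grp_mono hS)
  exact h1.comap_of_injective (D.group F).subtype (D.group F).subtype_injective

/-- A nontrivial defect group contains a conjugate of a root element at `R` or `S`. -/
theorem exists_root_in_defect (hD : D ∈ [chevG2, chevB2, chevD4, chevF4, chevE6, chevE7, chevE8])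
    (hM : IsPModular p M) {R S : ℕ} (hR : R < D.nroots) (hS : S < D.nroots)
    (hclimb : T.climbCheck R S = true) {B : Set (IrrCharacter ↥(D.group F))} (hB : IsPBlock M B)
    (hd : blockDefect p B ≠ 0) :
    ∃ (a : ℕ) (d : F) (E : Subgroup ↥(D.group F)), (a = R ∨ a = S) ∧ d ≠ 0 ∧
      IsDefectGroup p M B E ∧ ∃ x ∈ E, (x : GL D.Idx F) = C.xg a d := by
  obtain ⟨P, hP⟩ := Cfsg.Agent.S2326.result p D hD (F := F)
  obtain ⟨E₀, hE₀⟩ := exists_isDefectGroup hM hB
  obtain ⟨hp₀, -, -⟩ := IsDefectGroup.props hM hB hE₀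
  obtain ⟨Q, hQ⟩ := hp₀.exists_le_sylow
  obtain ⟨g, hg⟩ := MulAction.exists_smul_eq ↥(D.group F) Q P
  set E := E₀.map (MulAut.conj g).toMonoidHom with hEdef
  have hE : IsDefectGroup p M B E := IsDefectGroup.map_conj hM hB hE₀ g
  have hEP : E ≤ (P : Subgroup ↥(D.group F)) := by
    rw [← hg, Sylow.coe_subgroup_smul]
    exact Subgroup.map_mono hQ
  obtain ⟨-, hEc, -⟩ := IsDefectGroup.props hM hB hE
  have hE1 : E ≠ ⊥ := fun h => by
    rw [h, Subgroup.card_bot] at hEc
    exact hd ((Nat.pow_eq_one.1 hEc.symm).resolve_left hM.1.one_lt.ne')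
  obtain ⟨y, -, -, -, hyE⟩ := exists_sylow_inf_eq_defect hM hB hE P hEP
  have hmem : ∀ u : ↥(D.group F), u ∈ E ↔ (u : GL D.Idx F) ∈ D.posUnipotent F ∧
      (y : GL D.Idx F) * u * (y : GL D.Idx F)⁻¹ ∈ D.posUnipotent F := by
    intro u
    rw [← hyE, Subgroup.mem_inf, Subgroup.mem_map_equiv, hP, Subgroup.mem_subgroupOf,
      Subgroup.mem_subgroupOf]
    simp
  obtain ⟨b, hb, n, hn, v, hv, hy⟩ := C.exists_bnu y.2
  have hv' : v ∈ D.posUnipotent F := by rw [posUnipotent_eq]; exact grp_mem_mono hv fun r hr => hr.1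
  obtain ⟨r, hr, hnr⟩ : ∃ r, D.IsPosRoot r ∧ D.IsPosRoot (C.sg n r) := by
    by_contra hcon
    push Not at hcon
    refine hE1 ((Subgroup.eq_bot_iff_forall _).2 fun u hu => ?_)
    obtain ⟨h1, h2⟩ := (hmem u).1 hu
    have h3 : n * (v * u * v⁻¹) * n⁻¹ ∈ D.borelSubgroup F := by
      have h := C.borel_pos (inv_mem hb) h2
      rw [hy, show b⁻¹ * (b * n * v * u * (b * n * v)⁻¹) * b⁻¹⁻¹ =
        n * (v * u * v⁻¹) * n⁻¹ by group] at h
      exact Subgroup.mem_sup_left h
    obtain ⟨τ, hmo⟩ := C.sg_spec hn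
    have h4 := C.eq_one_of_conj_mem_borel C.closedSet_pos hmo
      (fun r hr => (C.key_trichotomy (C.sg_lt hn hr.1)).resolve_left (hcon r hr))
      (by rw [← posUnipotent_eq]; exact mul_mem (mul_mem hv' h1) (inv_mem hv')) h3
    exact Subtype.ext (conj_eq_one_iff.1 h4)
  obtain ⟨m, hm, hma⟩ := C.exists_climb (F := F) hR hS hclimb hr.1
  obtain ⟨d, hd0, hdm⟩ := C.sg_conj hm hr.1
  let z : ↥(D.group F) := ⟨v⁻¹ * C.xg r 1 * v, mul_mem (mul_mem (inv_mem (C.pos_le_group hv'))
    (C.xg_mem_group hr.1 1)) (C.pos_le_group hv')⟩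
  let k : ↥(D.group F) := ⟨m * v, mul_mem (C.monomial_le_group hm) (C.pos_le_group hv')⟩
  have hzE : z ∈ E := by
    refine (hmem z).2 ⟨mul_mem (mul_mem (inv_mem hv') (C.xg_mem_pos hr 1)) hv', ?_⟩
    rw [hy, show b * n * v * (v⁻¹ * C.xg r 1 * v) * (b * n * v)⁻¹ =
      b * (n * C.xg r 1 * n⁻¹) * b⁻¹ by group]
    obtain ⟨c, -, hc⟩ := C.sg_conj hn hr.1
    rw [hc]
    exact C.borel_pos hb (C.xg_mem_pos hnr _)
  refine ⟨C.sg m r, d, E.map (MulAut.conj k).toMonoidHom, hma, hd0, IsDefectGroup.map_conj hM hB hE k,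
    _, Subgroup.mem_map_of_mem _ hzE, ?_⟩
  show m * v * (v⁻¹ * C.xg r 1 * v) * (m * v)⁻¹ = _
  have h := hdm 1
  rw [mul_one] at h
  rw [← h]
  group

theorem cent_le {a R : ℕ} (hl : T.localCheck a R = true) {d : F} (hd : d ≠ 0) {x : ↥(D.group F)}
    (hx : (x : GL D.Idx F) = C.xg a d) :
    Subgroup.centralizer ({x} : Set ↥(D.group F)) ≤ Subgroup.normalizer
      (((grp D F {r | r ∈ T.qset a}).subgroupOf (D.group F) ⊓ Subgroup.centralizer {x} :
        Subgroup ↥(D.group F)) : Set ↥(D.group F)) := by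
  intro g hg
  have hg' := Subgroup.mem_centralizer_singleton_iff.1 hg
  have hn := C.cent_le_norm hl hd g.2 (by
    rw [← hx]; exact congrArg Subtype.val hg')
  refine Subgroup.mem_normalizer_iff.2 fun y => ?_
  simp only [Subgroup.mem_inf, Subgroup.mem_subgroupOf, Subgroup.coe_mul, Subgroup.coe_inv]
  refine and_congr ((Subgroup.mem_normalizer_iff.1 hn (y : GL D.Idx F))) ?_
  exact ⟨fun h => mul_mem (mul_mem hg h) (inv_mem hg), fun h => by
    have := mul_mem (mul_mem (inv_mem hg) h) hg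
    simpa [mul_assoc] using this⟩

theorem eq_principal_of_defect (hD : D ∈ [chevG2, chevB2, chevD4, chevF4, chevE6, chevE7, chevE8])
    (hM : IsPModular p M) {R S : ℕ} (hlR : T.localCheck R R = true) (hlS : T.localCheck S R = true)
    (hrad : T.radCheck R = true) (hclimb : T.climbCheck R S = true)
    {B : Set (IrrCharacter ↥(D.group F))} (hB : IsPBlock M B) (hd : blockDefect p B ≠ 0) :
    B = principalBlock M ↥(D.group F) := by
  have LR := C.localFacts (F := F) hlR
  have LS := C.localFacts (F := F) hlS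
  obtain ⟨a, d, E, ha, hd0, hE, x, hxE, hx⟩ :=
    C.exists_root_in_defect p hD hM LR.posA.1 LS.posA.1 hclimb hB hd
  -- reduce to the highest root
  obtain ⟨d', E', x', hd0', hE', hxE', hx'⟩ : ∃ (d' : F) (E' : Subgroup ↥(D.group F))
      (x' : ↥(D.group F)), d' ≠ 0 ∧ IsDefectGroup p M B E' ∧ x' ∈ E' ∧
        (x' : GL D.Idx F) = C.xg R d' := by
    rcases ha with rfl | rfl
    · exact ⟨d, E, x, hd0, hE, hxE, hx⟩
    · have hpos : ∀ r ∈ ({r | r ∈ T.qset a} : Set ℕ), D.IsPosRoot r :=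
        fun r hr => ((C.mem_qset LS.posA.1).1 hr).1
      obtain ⟨E', hE', hle⟩ := exists_defect_of_local hM hB hE hxE
        ((C.isPGroup_grp (F := F) p hpos).to_le inf_le_left) inf_le_right (C.cent_le hlS hd0 hx)
      refine ⟨1, E', ⟨C.xg R 1, C.xg_mem_group LR.posA.1 1⟩, one_ne_zero, hE', hle ⟨?_, ?_⟩, rfl⟩
      · exact Subgroup.mem_subgroupOf.2 (C.xg_mem (S := {r | r ∈ T.qset a}) LS.memR 1)
      · refine Subgroup.mem_centralizer_singleton_iff.2 (Subtype.ext ?_)
        show C.xg R (1 : F) * (x : GL D.Idx F) = (x : GL D.Idx F) * C.xg R (1 : F)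
        rw [hx]
        exact (LS.commR d 1).eq.symm
  have hpos : ∀ r ∈ ({r | r ∈ T.qset R} : Set ℕ), D.IsPosRoot r :=
    fun r hr => ((C.mem_qset LR.posA.1).1 hr).1
  have hQx : ∀ y ∈ grp D F {r | r ∈ T.qset R}, Commute (C.xg R d') y := by
    intro y hy
    have hle : grp D F {r | r ∈ T.qset R} ≤ Subgroup.centralizer {C.xg R d'} := C.grp_le fun r hr t => by
      rw [Subgroup.mem_centralizer_singleton_iff]
      by_cases hrR : r = R
      · subst hrR
        rw [C.xg_add LR.posA.1, C.xg_add LR.posA.1, add_comm]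
      · have hc := hrad
        simp only [Fast.radCheck, Bool.and_eq_true, allBelow_iff, Bool.or_eq_true, Nat.beq_eq,
          Bool.not_eq_true', Bool.eq_false_iff, ne_eq, ltI_iff] at hc
        have hrp := hpos r hr
        rcases hc.1.1.1 r (C.tables.nroots ▸ hrp.1) with (h | h) | h
        · exact absurd ((C.root.pos_iff r).1 hrp).2 h
        · exact absurd h hrR
        · exact (C.commute_of_empty hrp LR.posA h t d').eq
    exact (Subgroup.mem_centralizer_singleton_iff.1 (hle hy)).symm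
  refine eq_principal_of_local hM hB hE' hxE'
    ((C.isPGroup_grp (F := F) p hpos).to_le inf_le_left) inf_le_right (C.cent_le hlR hd0' hx') ?_
  rintro c ⟨hc1, hc2⟩
  refine ⟨Subgroup.mem_subgroupOf.2 (C.cent_radical hlR hrad c.2 fun y hy => ?_), hc1⟩
  have hyG : y ∈ D.group F := C.grp_le_group (fun r hr => (hpos r hr).1) hy
  have hyx : (⟨y, hyG⟩ : ↥(D.group F)) ∈ Subgroup.centralizer ({x'} : Set ↥(D.group F)) := by
    refine Subgroup.mem_centralizer_singleton_iff.2 (Subtype.ext ?_)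
    show y * (x' : GL D.Idx F) = x' * y
    rw [hx']
    exact (hQx y hy).eq.symm
  exact (congrArg Subtype.val
    (Subgroup.mem_centralizer_iff.1 hc2 ⟨y, hyG⟩ ⟨Subgroup.mem_subgroupOf.2 hy, hyx⟩)).symm

/-- There are exactly two blocks. -/
theorem card_blocks_two (hD : D ∈ [chevG2, chevB2, chevD4, chevF4, chevE6, chevE7, chevE8])
    (hM : IsPModular p M) {R S : ℕ} (hlR : T.localCheck R R = true) (hlS : T.localCheck S R = true)
    (hrad : T.radCheck R = true) (hclimb : T.climbCheck R S = true) :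
    Nat.card {B : Set (IrrCharacter ↥(D.group F)) // IsPBlock M B} = 2 := by
  classical
  have := Fintype.ofFinite ↥(D.group F)
  let st : IrrCharacter ↥(D.group F) := ⟨_, C.steinberg_isIrr (F := F)⟩
  set B₀ := blockOf M (st : ↥(D.group F) → ℂ)
  have h0 : blockDefect p B₀ = 0 := blockDefect_eq_zero_of_vanish hM (isPBlock_blockOf st)
    (mem_blockOf_self st) fun g hg => C.steinberg_vanishes p hD g hg
  have hst : ∀ {B : Set (IrrCharacter ↥(D.group F))}, IsPBlock M B → blockDefect p B = 0 →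
      ∀ χ ∈ B, χ = st := by
    intro B hB hB0 χ hχ
    refine Subtype.ext (C.eq_steinberg p hD χ.2
      (Char.apply_one_eq_charDegree (Char.isCharacter_of_isIrr χ.2)) ?_)
    rw [hM.1.pow_dvd_iff_le_factorization (charDegree_pos χ).ne']
    exact (Nat.sub_eq_zero_iff_le.1 hB0).trans (Nat.sInf_le ⟨χ, hχ, rfl⟩)
  have hne : principalBlock M ↥(D.group F) ≠ B₀ := by
    intro h
    have h1 := hst (isPBlock_blockOf st) h0 _ (h ▸ oneIrr_mem)
    have h2 := congrArg (fun χ : IrrCharacter ↥(D.group F) => (χ : ↥(D.group F) → ℂ) 1) h1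
    change (1 : ℂ) = D.steinbergCharacter F 1 at h2
    rw [C.steinberg_one, ← Nat.cast_pow, ← Nat.cast_one, Nat.cast_inj] at h2
    have hpos : 0 < D.nroots / 2 := by
      rw [← C.npos_eq, ← C.ncard_pos, Set.ncard_pos ((Set.finite_lt_nat D.nroots).subset fun r hr => hr.1)]
      exact ⟨R, (C.localFacts (F := F) hlR).posA⟩
    exact (Nat.one_lt_pow hpos.ne' Fintype.one_lt_card).ne h2
  have hall : {B : Set (IrrCharacter ↥(D.group F)) | IsPBlock M B} =
      {principalBlock M ↥(D.group F), B₀} := by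
    ext B
    constructor
    · intro hB
      by_cases hd : blockDefect p B = 0
      · obtain ⟨χ, hχ⟩ := isPBlock_nonempty hB
        refine Or.inr (eq_of_mem_of_mem hB (isPBlock_blockOf st) hχ ?_)
        rw [hst hB hd χ hχ]
        exact mem_blockOf_self st
      · exact Or.inl (C.eq_principal_of_defect p hD hM hlR hlS hrad hclimb hB hd)
    · rintro (rfl | rfl)
      · exact isPBlock_principalBlock
      · exact isPBlock_blockOf st
  show Nat.card ↥{B : Set (IrrCharacter ↥(D.group F)) | IsPBlock M B} = 2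
  rw [hall, Nat.card_coe_set_eq, Set.ncard_pair hne]

end Checked

end Cfsg.Agent.Lib.Chev
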