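import Cfsg.Agent.Lib.Chev.Parabolic
import Cfsg.Agent.Lib.Chev.Coord
import Cfsg.Agent.Lib.Chev.Simple
import Cfsg.Agent.S2326

/-!
The Borel–Tits property of the split groups, by the point of least norm of the building among those
whose unipotent group contains a given subgroup.
-/

set_option autoImplicit false

namespace Cfsg.Agent.Lib.Chev

open Cfsg.Lie

namespace Checked

variable {D : ChevalleyDatum} {T : Fast} {F : Type*} [Field F] (C : Checked D T)
include C

/-- The value of a point on a root. -/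
def rootVal (_ : Checked D T) (l : Fin D.rank → ℝ) (r : ℕ) : ℝ :=
  ∑ k : Fin D.rank, (T.aux.coef r k : ℝ) * l k

/-- The squared norm of a point. -/
def sqNorm (C : Checked D T) (l : Fin D.rank → ℝ) : ℝ :=
  ∑ r ∈ Finset.range D.nroots, C.rootVal l r ^ 2

/-- The positive roots of value at least one. -/
def above (C : Checked D T) (l : Fin D.rank → ℝ) : Set ℕ := {r | D.IsPosRoot r ∧ 1 ≤ C.rootVal l r}

/-- The point moved by an element of `N`. -/
noncomputable def pull (C : Checked D T) (n : GL D.Idx F) (l : Fin D.rank → ℝ) : Fin D.rank → ℝ :=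
  fun k => C.rootVal l (C.sg n (D.simple k))

theorem rootVal_comb {l : Fin D.rank → ℝ} {c r s : ℕ} {a b : ℤ}
    (h : ∀ j < D.rank, T.aux.coef c j = a * T.aux.coef r j + b * T.aux.coef s j) :
    C.rootVal l c = a * C.rootVal l r + b * C.rootVal l s := by
  unfold rootVal
  rw [Finset.mul_sum, Finset.mul_sum, ← Finset.sum_add_distrib]
  exact Finset.sum_congr rfl fun k _ => by rw [h k k.2]; push_cast; ring

theorem rootVal_simple (l : Fin D.rank → ℝ) {i : ℕ} (hi : i < D.rank) :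
    C.rootVal l (D.simple i) = l ⟨i, hi⟩ := by
  unfold rootVal
  rw [Finset.sum_eq_single ⟨i, hi⟩]
  · rw [C.root.coef_simple i hi i hi, if_pos rfl, Int.cast_one, one_mul]
  · intro k _ hk
    rw [C.root.coef_simple i hi k k.2, if_neg fun e : (k : ℕ) = i => hk (Fin.ext e), Int.cast_zero,
      zero_mul]
  · simp

theorem rootVal_neg (l : Fin D.rank → ℝ) {r : ℕ} (hr : r < D.nroots) :
    C.rootVal l (D.neg r) = - C.rootVal l r := by
  unfold rootVal
  rw [← Finset.sum_neg_distrib]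
  exact Finset.sum_congr rfl fun k _ => by rw [C.root.coef_neg hr k.2]; push_cast; ring

theorem rootVal_pull {n : GL D.Idx F} (hn : n ∈ D.monomialSubgroup F) (l : Fin D.rank → ℝ) {r : ℕ}
    (hr : r < D.nroots) : C.rootVal (C.pull n l) r = C.rootVal l (C.sg n r) := by
  obtain ⟨τ, h⟩ := C.sg_spec hn
  have e : ∀ j : Fin D.rank, (T.aux.coef (C.sg n r) j : ℝ) =
      ∑ k : Fin D.rank, (T.aux.coef r k : ℝ) * (T.aux.coef (C.sg n (D.simple k)) j : ℝ) := by
    intro j
    rw [h.lin r hr j j.2, ← Fin.sum_univ_eq_sum_range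
      (fun k => T.aux.coef r k * T.aux.coef (C.sg n (D.simple k)) j)]
    push_cast
    rfl
  unfold pull rootVal
  simp only [e, Finset.sum_mul, Finset.mul_sum]
  rw [Finset.sum_comm]
  exact Finset.sum_congr rfl fun j _ => Finset.sum_congr rfl fun k _ => by ring

theorem sqNorm_pull {n : GL D.Idx F} (hn : n ∈ D.monomialSubgroup F) (l : Fin D.rank → ℝ) :
    C.sqNorm (C.pull n l) = C.sqNorm l := by
  refine Finset.sum_nbij' (C.sg n) (C.sg n⁻¹) (fun r hr => ?_) (fun r hr => ?_) (fun r hr => ?_)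
    (fun r hr => ?_) fun r hr => ?_
  all_goals simp only [Finset.coe_range, Set.mem_Iio, Finset.mem_range] at hr ⊢
  · exact C.sg_lt hn hr
  · exact C.sg_lt (inv_mem hn) hr
  · exact C.sg_inv_sg hn hr
  · exact C.sg_sg_inv hn hr
  · rw [C.rootVal_pull hn l hr]

theorem above_closed (l : Fin D.rank → ℝ) : ClosedSet D (C.above l) where
  pos _ hr := hr.1
  closed r hr s hs _ c hc := by
    obtain ⟨a, b, ha, hb, -, hco⟩ := C.commTerms_comb hr.1.1 hs.1.1 c hc
    refine ⟨(C.commTerms_gt hr.1 hs.1 c hc).1, ?_⟩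
    rw [C.rootVal_comb (l := l) hco]
    have h1 : (1 : ℝ) ≤ a := by exact_mod_cast ha
    have h2 : (1 : ℝ) ≤ b := by exact_mod_cast hb
    nlinarith [hr.2, hs.2]

theorem rootVal_nonneg {l : Fin D.rank → ℝ} (hl : ∀ k, 0 ≤ l k) {r : ℕ} (hr : D.IsPosRoot r) :
    0 ≤ C.rootVal l r :=
  Finset.sum_nonneg fun k _ => mul_nonneg (Int.cast_nonneg (C.coef_nonneg hr k.2)) (hl k)

theorem borel_conj_above {l : Fin D.rank → ℝ} (hl : ∀ k, 0 ≤ l k) {b y : GL D.Idx F}
    (hb : b ∈ D.borelSubgroup F) (hy : y ∈ grp D F (C.above l)) :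
    b * y * b⁻¹ ∈ grp D F (C.above l) := by
  obtain ⟨u, hu, h, hh, rfl⟩ := C.mem_borel.1 hb
  have h1 := C.diag_normalizes (F := F) (S := C.above l) (fun r hr => hr.1.1) hh hy
  have h2 := C.conj_grp_ideal (F := F) (S := C.above l) (fun r hr => hr.1) ?_ hu h1
  · rw [show u * h * y * (u * h)⁻¹ = u * (h * y * h⁻¹) * u⁻¹ by group]
    exact h2
  intro m hm k hk _ c hc
  obtain ⟨a, b', ha, hb', -, hco⟩ := C.commTerms_comb hm.1 hk.1.1 c hc
  refine ⟨(C.commTerms_gt hm hk.1 c hc).1, ?_⟩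
  rw [C.rootVal_comb (l := l) hco]
  have h1 : (1 : ℝ) ≤ a := by exact_mod_cast ha
  have h2 : (1 : ℝ) ≤ b' := by exact_mod_cast hb'
  nlinarith [hk.2, C.rootVal_nonneg hl hm]

theorem conj_grp_le {n : GL D.Idx F} (hn : n ∈ D.monomialSubgroup F) {S S' : Set ℕ}
    (hS : ∀ r ∈ S, r < D.nroots) (h : ∀ r ∈ S, C.sg n r ∈ S') {y : GL D.Idx F}
    (hy : y ∈ grp D F S) : n * y * n⁻¹ ∈ grp D F S' := by
  have hle : grp D F S ≤ (grp D F S').comap (MulAut.conj n).toMonoidHom := C.grp_le fun r hr t => by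
    obtain ⟨c, -, hc⟩ := C.sg_conj hn (hS r hr)
    show n * C.xg r t * n⁻¹ ∈ grp D F S'
    rw [hc t]
    exact C.xg_mem (h r hr) _
  exact hle hy

/-- Some Weyl translate of a point is dominant, and the certificate follows it. -/
theorem exists_dominant (l : Fin D.rank → ℝ) (V : Set (GL D.Idx F))
    (hV : ∀ x ∈ V, x ∈ grp D F (C.above l)) :
    ∃ n ∈ D.monomialSubgroup F, ∃ l' : Fin D.rank → ℝ, (∀ k, 0 ≤ l' k) ∧ C.sqNorm l' = C.sqNorm l ∧
      ∀ x ∈ V, n * x * n⁻¹ ∈ grp D F (C.above l') := by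
  generalize hd : {r | D.IsPosRoot r ∧ C.rootVal l r < 0}.ncard = d
  induction d using Nat.strong_induction_on generalizing l V with
  | _ d ih =>
  by_cases hall : ∀ k, 0 ≤ l k
  · exact ⟨1, one_mem _, l, hall, rfl, fun x hx => by simpa using hV x hx⟩
  push Not at hall
  obtain ⟨⟨i, hi⟩, hneg⟩ := hall
  rw [← C.rootVal_simple l hi] at hneg
  have R := C.root
  have hp := R.pos_simple hi
  have hm := C.ng_mem (F := F) hi
  have hval : ∀ r < D.nroots, C.rootVal (C.pull (C.ng i : GL D.Idx F) l) r =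
      C.rootVal l (D.reflectRoot i r) := fun r hr => by rw [C.rootVal_pull hm l hr, C.sg_ng hi hr]
  set l₁ := C.pull (C.ng i : GL D.Idx F) l with hl₁
  have hfin : {r | D.IsPosRoot r ∧ C.rootVal l r < 0}.Finite :=
    (Set.finite_lt_nat D.nroots).subset fun _ hr => hr.1.1
  have hlt : {r | D.IsPosRoot r ∧ C.rootVal l₁ r < 0}.ncard < d := by
    have hne : ∀ r, D.IsPosRoot r → C.rootVal l₁ r < 0 → r ≠ D.simple i := by
      rintro r hr h rfl
      rw [hval _ hr.1, R.refl_simple hi, C.rootVal_neg l hr.1] at h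
      linarith
    have h1 : {r | D.IsPosRoot r ∧ C.rootVal l₁ r < 0}.ncard ≤
        ({r | D.IsPosRoot r ∧ C.rootVal l r < 0} \ {D.simple i}).ncard := by
      refine Set.ncard_le_ncard_of_injOn (D.reflectRoot i) (fun r hr => ?_) (fun a ha b hb h => ?_)
        hfin.sdiff
      · obtain ⟨h2, h3⟩ := C.refl_pos hi hr.1 (hne r hr.1 hr.2)
        exact ⟨⟨h2, (hval r hr.1.1) ▸ hr.2⟩, h3⟩
      · exact R.refl_inj hi ha.1.1 hb.1.1 h
    have h2 : ({r | D.IsPosRoot r ∧ C.rootVal l r < 0} \ {D.simple i}).ncard < d :=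
      hd ▸ Set.ncard_sdiff_singleton_lt_of_mem ⟨hp, hneg⟩ hfin
    omega
  obtain ⟨n, hn, l', hl', hQ, hn'⟩ := ih _ hlt l₁
    ((fun x => (C.ng i : GL D.Idx F) * x * (C.ng i)⁻¹) '' V) (by
      rintro _ ⟨x, hx, rfl⟩
      refine C.conj_grp_le hm (fun r hr => hr.1.1) (fun r hr => ?_) (hV x hx)
      rw [C.sg_ng hi hr.1.1]
      have hne : r ≠ D.simple i := by rintro rfl; linarith [hr.2]
      obtain ⟨h2, -⟩ := C.refl_pos hi hr.1 hne
      exact ⟨h2, by rw [hval _ h2.1, R.refl_refl i hi r hr.1.1]; exact hr.2⟩) rfl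
  refine ⟨n * C.ng i, mul_mem hn hm, l', hl', hQ.trans (C.sqNorm_pull hm l), fun x hx => ?_⟩
  have := hn' _ ⟨x, hx, rfl⟩
  simpa [mul_assoc] using this

/-- A monomial element fixing a dominant point lies in its parabolic subgroup. -/
theorem mem_parabolic_of_fix {l : Fin D.rank → ℝ} (hl : ∀ k, 0 ≤ l k) {n : GL D.Idx F}
    (hn : n ∈ D.monomialSubgroup F) (h : ∀ r < D.nroots, C.rootVal l (C.sg n r) = C.rootVal l r) :
    n ∈ D.parabolicSubgroup F {k | k < D.rank ∧ C.rootVal l (D.simple k) = 0} := by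
  generalize hk : (C.inv n).ncard = k
  induction k using Nat.strong_induction_on generalizing n with
  | _ k ih =>
  by_cases hall : ∀ i < D.rank, D.IsPosRoot (C.sg n (D.simple i))
  · exact Subgroup.mem_sup_left (Subgroup.mem_sup_right (C.mem_diag_of_simple_pos hn hall))
  push Not at hall
  obtain ⟨i, hi, hnp⟩ := hall
  have R := C.root
  have hp := R.simple_lt i hi
  have hneg := (C.key_trichotomy (C.sg_lt hn hp)).resolve_left hnp
  have hz : C.rootVal l (D.simple i) = 0 := by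
    refine le_antisymm ?_ (C.rootVal_nonneg hl (R.pos_simple hi))
    have h1 := C.rootVal_nonneg hl ((C.neg_pos_iff (C.sg_lt hn hp)).2 hneg)
    rw [C.rootVal_neg l (C.sg_lt hn hp)] at h1
    linarith [h _ hp]
  have hng : (C.ng i : GL D.Idx F) ∈
      D.parabolicSubgroup F {k | k < D.rank ∧ C.rootVal l (D.simple k) = 0} :=
    C.ng_mem_parabolic _ hi ⟨hi, hz⟩
  have hfix : ∀ r < D.nroots, C.rootVal l (D.reflectRoot i r) = C.rootVal l r := fun r hr => by
    have hc : ∀ j < D.rank, T.aux.coef (D.reflectRoot i r) j =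
        1 * T.aux.coef r j + (- D.cartan i r) * T.aux.coef (D.simple i) j := fun j hj => by
      rw [R.coef_refl hi hr hj, R.coef_simple i hi j hj]; ring
    rw [C.rootVal_comb (l := l) hc, hz]; simp
  set m := n * (C.ng i)⁻¹ with hm
  have hmm : m ∈ D.monomialSubgroup F := mul_mem hn (inv_mem (C.ng_mem hi))
  have e : m * C.ng i = n := by rw [hm]; group
  have hsg : ∀ r < D.nroots, C.sg m (D.reflectRoot i r) = C.sg n r := fun r hr => by
    rw [← e, C.sg_mul hmm (C.ng_mem hi) hr, C.sg_ng hi hr]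
  have hpos : D.IsPosRoot (C.sg m (D.simple i)) := by
    have h1 := hsg _ hp
    rw [R.refl_simple hi, C.sg_neg hmm hp] at h1
    rw [← h1] at hneg
    exact (C.neg_neg_iff (C.sg_lt hmm hp)).1 hneg
  have h1 := C.inv_step hi hmm hpos
  rw [e, hk] at h1
  have h2 := ih _ (by omega) hmm (fun r hr => by
    have hr' := R.refl_lt i hi r hr
    have h3 := hsg _ hr'
    rw [R.refl_refl i hi r hr] at h3
    rw [h3, h _ hr', hfix r hr]) rfl
  exact e ▸ mul_mem h2 hng

/-- The points and subgroups admitted in the minimisation. -/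
def Feasible (C : Checked D T) (U : Subgroup (GL D.Idx F)) (g : GL D.Idx F)
    (l : Fin D.rank → ℝ) : Prop :=
  g ∈ D.group F ∧ (∀ k, 0 ≤ l k) ∧ ∀ x ∈ U, g⁻¹ * x * g ∈ grp D F (C.above l)

theorem exists_optimal [Finite F] {U : Subgroup (GL D.Idx F)} {g₀ : GL D.Idx F}
    {l₀ : Fin D.rank → ℝ} (h₀ : C.Feasible U g₀ l₀) :
    ∃ g l, C.Feasible U g l ∧ ∀ g' l', C.Feasible U g' l' → C.sqNorm l ≤ C.sqNorm l' := by
  classical
  let B := C.sqNorm l₀
  let I := {p : ↥(D.group F) × Finset (Fin D.nroots) //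
    (∀ r ∈ p.2, D.IsPosRoot (r : ℕ)) ∧
      ∀ x ∈ U, (p.1 : GL D.Idx F)⁻¹ * x * p.1 ∈ grp D F ((fun r : Fin D.nroots => (r : ℕ)) '' p.2)}
  let K : I → Set (Fin D.rank → ℝ) := fun p =>
    {l | (∀ k, 0 ≤ l k) ∧ (∀ r ∈ p.1.2, 1 ≤ C.rootVal l r) ∧ C.sqNorm l ≤ B}
  have hcv : ∀ r : ℕ, Continuous fun l => C.rootVal l r := fun r => by
    unfold rootVal; fun_prop
  have hcQ : Continuous C.sqNorm := by
    unfold sqNorm; exact continuous_finsetSum _ fun r _ => (hcv r).pow 2
  have hbd : ∀ l, C.sqNorm l ≤ B → ∀ k, l k ≤ B + 1 := fun l hl k => by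
    have h1 : C.rootVal l (D.simple k) ^ 2 ≤ C.sqNorm l :=
      Finset.single_le_sum (f := fun r => C.rootVal l r ^ 2) (fun r _ => sq_nonneg _)
        (Finset.mem_range.2 (C.root.simple_lt k k.2))
    rw [C.rootVal_simple l k.2] at h1
    nlinarith [sq_nonneg (l k - 1), sq_nonneg (l k)]
  have hK : ∀ p, IsCompact (K p) := fun p => by
    refine IsCompact.of_isClosed_subset
      (isCompact_univ_pi fun _ : Fin D.rank => isCompact_Icc (a := (0 : ℝ)) (b := B + 1)) ?_
      fun l hl k _ => ⟨hl.1 k, hbd l hl.2.2 k⟩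
    refine IsClosed.inter ?_ (IsClosed.inter ?_ (isClosed_le hcQ continuous_const))
    · show IsClosed {l : Fin D.rank → ℝ | ∀ k, 0 ≤ l k}
      rw [Set.setOf_forall]
      exact isClosed_iInter fun k => isClosed_le continuous_const (continuous_apply k)
    · show IsClosed {l : Fin D.rank → ℝ | ∀ r ∈ p.1.2, 1 ≤ C.rootVal l r}
      simp only [Set.setOf_forall]
      exact isClosed_iInter fun r => isClosed_iInter fun _ => isClosed_le continuous_const (hcv r)
  have mem : ∀ g l, C.Feasible U g l → C.sqNorm l ≤ B → ∃ p, l ∈ K p := by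
    intro g l ⟨hg, hl, hU⟩ hB
    refine ⟨⟨(⟨g, hg⟩, Finset.univ.filter fun r : Fin D.nroots => (r : ℕ) ∈ C.above l), ?_, ?_⟩,
      hl, ?_, hB⟩
    · exact fun r hr => (Finset.mem_filter.1 hr).2.1
    · intro x hx
      refine grp_mem_mono (hU x hx) fun r hr => ⟨⟨r, hr.1.1⟩, ?_, rfl⟩
      simp [hr]
    · exact fun r hr => (Finset.mem_filter.1 hr).2.2
  obtain ⟨p₀, hp₀⟩ := mem g₀ l₀ h₀ le_rfl
  obtain ⟨l, hl, hmin⟩ := (isCompact_iUnion hK).exists_isMinOn
    ⟨l₀, Set.mem_iUnion.2 ⟨p₀, hp₀⟩⟩ hcQ.continuousOn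
  obtain ⟨⟨⟨g, S⟩, hS, hU⟩, hl0, hl1, hlB⟩ := Set.mem_iUnion.1 hl
  refine ⟨g, l, ⟨g.2, hl0, fun x hx => grp_mem_mono (hU x hx) ?_⟩, fun g' l' h' => ?_⟩
  · rintro _ ⟨r, hr, rfl⟩
    exact ⟨hS r hr, hl1 r hr⟩
  · by_cases hB : C.sqNorm l' ≤ B
    · obtain ⟨q, hq⟩ := mem g' l' h' hB
      exact hmin (Set.mem_iUnion.2 ⟨q, hq⟩)
    · exact hlB.trans (le_of_not_ge hB)

/-- Borel–Tits: the normaliser lies in the parabolic subgroup of an optimal point. -/
theorem borel_tits_of_feasible [Finite F] (hsupp : T.suppOK = true) {U : Subgroup (GL D.Idx F)}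
    (hne : U ≠ ⊥) {g₀ : GL D.Idx F} {l₀ : Fin D.rank → ℝ} (h₀ : C.Feasible U g₀ l₀) :
    ∃ g ∈ D.group F, ∃ J : Set ℕ, (∃ i, i < D.rank ∧ i ∉ J) ∧
      Subgroup.normalizer (U : Set (GL D.Idx F)) ⊓ D.group F ≤
        (D.parabolicSubgroup F J).map (MulAut.conj g).toMonoidHom ∧
      U ≤ (D.unipotentRadical F J).map (MulAut.conj g).toMonoidHom := by
  classical
  obtain ⟨g, l, hf, hmin⟩ := C.exists_optimal h₀
  obtain ⟨hg, hl, hU⟩ := hf
  set J : Set ℕ := {k | k < D.rank ∧ C.rootVal l (D.simple k) = 0}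
  have hzero : ∀ r, r < D.nroots → (∀ k < D.rank, k ∉ J → T.aux.coef r k = 0) → C.rootVal l r = 0 := by
    intro r hr h
    refine Finset.sum_eq_zero fun k _ => ?_
    by_cases hk : (k : ℕ) ∈ J
    · rw [show l k = 0 by rw [← C.rootVal_simple l k.2]; exact hk.2, mul_zero]
    · rw [h k k.2 hk, Int.cast_zero, zero_mul]
  refine ⟨g, hg, J, ?_, ?_, ?_⟩
  · by_contra hcon
    push Not at hcon
    refine hne ((Subgroup.eq_bot_iff_forall _).2 fun x hx => ?_)
    have h1 : grp D F (C.above l) ≤ ⊥ := C.grp_le fun r hr _ => by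
      have := hzero r hr.1.1 fun k hk hkJ => absurd (hcon k hk) hkJ
      linarith [hr.2]
    have h2 := Subgroup.mem_bot.1 (h1 (hU x hx))
    calc x = g * (g⁻¹ * x * g) * g⁻¹ := by group
      _ = 1 := by rw [h2]; group
  · rintro h ⟨hN, hhG⟩
    have hsub : D.borelSubgroup F ≤ D.parabolicSubgroup F J := le_sup_left
    suffices hP : g⁻¹ * h * g ∈ D.parabolicSubgroup F J from
      ⟨_, hP, by simp [mul_assoc]⟩
    obtain ⟨b, hb, n, hn, u, hu, e⟩ := C.exists_bnu (mul_mem (mul_mem (inv_mem hg) hhG) hg)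
    have huB : u ∈ D.borelSubgroup F := Subgroup.mem_sup_left (by
      rw [posUnipotent_eq]; exact grp_mem_mono hu fun r hr => hr.1)
    rw [e]
    suffices hnP : n ∈ D.parabolicSubgroup F J from mul_mem (mul_mem (hsub hb) hnP) (hsub huB)
    refine C.mem_parabolic_of_fix hl hn fun r hr => ?_
    set μ := C.pull (n⁻¹ : GL D.Idx F) l with hμ
    let ν : Fin D.rank → ℝ := fun k => (l k + μ k) / 2
    have hνval : ∀ r, C.rootVal ν r = (C.rootVal l r + C.rootVal μ r) / 2 := fun r => by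
      unfold rootVal
      rw [← Finset.sum_add_distrib, Finset.sum_div]
      exact Finset.sum_congr rfl fun k _ => by simp only [ν]; ring
    have hx : ∀ x ∈ U, (g * b)⁻¹ * x * (g * b) ∈ grp D F (C.above ν) := by
      intro x hx
      set y := (g * b)⁻¹ * x * (g * b) with hy
      have hy1 : y ∈ grp D F (C.above l) := by
        have := C.borel_conj_above hl (inv_mem hb) (hU x hx)
        simpa [hy, mul_assoc] using this
      have hhx : h⁻¹ * x * h ∈ U := by
        have := (Subgroup.mem_normalizer_iff.1 (inv_mem hN) x).1 hx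
        simpa using this
      have hy2 : n⁻¹ * y * n ∈ grp D F (C.above l) := by
        have h3 := C.borel_conj_above hl huB (hU _ hhx)
        have e' : g * b * n = h * g * u⁻¹ := by
          calc g * b * n = g * (b * n * u) * u⁻¹ := by group
            _ = _ := by rw [← e]; group
        have e'' : n⁻¹ * y * n = u * (g⁻¹ * (h⁻¹ * x * h) * g) * u⁻¹ := by
          calc n⁻¹ * y * n = (g * b * n)⁻¹ * x * (g * b * n) := by rw [hy]; group
            _ = _ := by rw [e']; group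
        rw [e'']
        exact h3
      have hB' : ClosedSet D {r | D.IsPosRoot r ∧ D.IsPosRoot (C.sg n r)} := by
        refine ⟨fun r hr => hr.1, fun r hr s hs _ c hc => ?_⟩
        obtain ⟨a, b', ha, hb', -, hco⟩ := C.commTerms_comb hr.1.1 hs.1.1 c hc
        have hcpos := (C.commTerms_gt hr.1 hs.1 c hc).1
        obtain ⟨τ, hmo⟩ := C.sg_spec hn
        refine ⟨hcpos, (C.root.pos_iff _).2 ⟨C.sg_lt hn hcpos.1, ?_⟩⟩
        show 0 < T.key (C.sg n c.1)
        have k1 : 0 < T.key (C.sg n r) := ((C.root.pos_iff _).1 hr.2).2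
        have k2 : 0 < T.key (C.sg n s) := ((C.root.pos_iff _).1 hs.2).2
        have hk : T.key (C.sg n c.1) = a * T.key (C.sg n r) + b' * T.key (C.sg n s) := by
          rw [C.key_sigma hmo hcpos.1, C.key_sigma hmo hr.1.1, C.key_sigma hmo hs.1.1, Finset.mul_sum,
            Finset.mul_sum, ← Finset.sum_add_distrib]
          refine Finset.sum_congr rfl fun k hk => ?_
          rw [show T.aux.coef c.1 k = _ from hco k (Finset.mem_range.1 hk)]
          simp only [Fast.aux]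
          ring
        rw [hk]
        positivity
      have hy3 : n⁻¹ * y * n ∈ grp D F {r | D.IsPosRoot r ∧ D.IsPosRoot (C.sg n r)} := by
        have hpos : n⁻¹ * y * n ∈ grp D F {r | D.IsPosRoot r ∧ 0 ≤ r} :=
          grp_mem_mono hy2 fun r hr => ⟨hr.1, Nat.zero_le r⟩
        obtain ⟨t, ht, s, hs, ets⟩ := C.grp_split 0 (C.inv n) hpos
        obtain ⟨τ, hmo⟩ := C.sg_spec hn
        have ht' : n * t * n⁻¹ ∈ D.posUnipotent F :=
          C.conj_noninv hn (grp_mem_mono ht fun r hr => ⟨hr.1.1, hr.2⟩)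
        have hs1 : s = 1 := by
          refine C.eq_one_of_conj_mem_borel (C.closedSet_inv hn) hmo (fun r hr => hr.2)
            (grp_mem_mono hs fun r hr => hr.2) (Subgroup.mem_sup_left ?_)
          have e3 : n * s * n⁻¹ = (n * t * n⁻¹)⁻¹ * y := by
            calc n * s * n⁻¹ = (n * t * n⁻¹)⁻¹ * (n * (t * s) * n⁻¹) := by group
              _ = _ := by rw [← ets]; group
          rw [e3]
          refine mul_mem (inv_mem ht') ?_
          rw [posUnipotent_eq]
          exact grp_mem_mono hy1 fun r hr => hr.1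
        rw [ets, hs1, mul_one]
        refine grp_mem_mono ht fun r hr => ⟨hr.1.1, ?_⟩
        exact (C.key_trichotomy (C.sg_lt hn hr.1.1.1)).resolve_right fun hneg => hr.2 ⟨hr.1.1, hneg⟩
      have hy4 : n * (n⁻¹ * y * n) * n⁻¹ ∈ grp D F (C.above μ) :=
        C.conj_grp_le hn (S := C.above l ∩ {r | D.IsPosRoot r ∧ D.IsPosRoot (C.sg n r)})
          (fun r hr => hr.1.1.1)
          (fun r hr => show C.sg n r ∈ C.above μ from ⟨hr.2.2, by
            rw [hμ, C.rootVal_pull (inv_mem hn) l hr.2.2.1, C.sg_inv_sg hn hr.1.1.1]; exact hr.1.2⟩)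
          (C.grp_inf_le (C.above_closed l) hB' (Subgroup.mem_inf.2 ⟨hy2, hy3⟩))
      rw [show n * (n⁻¹ * y * n) * n⁻¹ = y by group] at hy4
      refine grp_mem_mono (C.grp_inf_le (C.above_closed l) (C.above_closed μ)
        (Subgroup.mem_inf.2 ⟨hy1, hy4⟩)) fun r hr => ⟨hr.1.1, ?_⟩
      rw [hνval]
      linarith [hr.1.2, hr.2.2]
    obtain ⟨m, hm, l', hl', hQ, hm'⟩ := C.exists_dominant ν
      ((fun x => (g * b)⁻¹ * x * (g * b)) '' (U : Set (GL D.Idx F))) (by
        rintro _ ⟨x, hx', rfl⟩; exact hx x hx')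
    have hfeas : C.Feasible U (g * b * m⁻¹) l' := by
      refine ⟨mul_mem (mul_mem hg (C.borel_le_group hb)) (inv_mem (C.monomial_le_group hm)), hl',
        fun x hx' => ?_⟩
      have := hm' _ ⟨x, hx', rfl⟩
      simpa [mul_assoc] using this
    have hle := hmin _ _ hfeas
    rw [hQ] at hle
    have hQμ : C.sqNorm μ = C.sqNorm l := C.sqNorm_pull (inv_mem hn) l
    have hpar : ∑ r ∈ Finset.range D.nroots, (C.rootVal l r - C.rootVal μ r) ^ 2 =
        2 * C.sqNorm l + 2 * C.sqNorm μ - 4 * C.sqNorm ν := by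
      simp only [sqNorm, hνval, Finset.mul_sum, ← Finset.sum_add_distrib, ← Finset.sum_sub_distrib]
      exact Finset.sum_congr rfl fun r _ => by ring
    have hall : ∀ r < D.nroots, C.rootVal l r = C.rootVal μ r := fun r hr => by
      have h1 : (C.rootVal l r - C.rootVal μ r) ^ 2 ≤ 0 :=
        (Finset.single_le_sum (f := fun r => (C.rootVal l r - C.rootVal μ r) ^ 2)
          (fun r _ => sq_nonneg _) (Finset.mem_range.2 hr)).trans (by rw [hpar]; linarith)
      nlinarith [sq_nonneg (C.rootVal l r - C.rootVal μ r)]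
    have h5 := hall _ (C.sg_lt hn hr)
    rw [hμ, C.rootVal_pull (inv_mem hn) l (C.sg_lt hn hr), C.sg_inv_sg hn hr] at h5
    exact h5
  · intro x hx
    refine ⟨g⁻¹ * x * g, ?_, by simp [mul_assoc]⟩
    rw [SetLike.mem_coe, C.unipotentRadical_eq J]
    refine grp_mem_mono (hU x hx) fun r hr => ⟨hr.1, fun hin => ?_⟩
    have h1 := hzero r hr.1.1 ((C.inRootSub_iff hsupp J).1 hin).2
    linarith [hr.2]

/-- A `p`-subgroup has a feasible point. -/
theorem exists_feasible [Fintype F] (p : ℕ) [Fact p.Prime] [CharP F p]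
    (hD : D ∈ [chevG2, chevB2, chevD4, chevF4, chevE6, chevE7, chevE8])
    {U : Subgroup (GL D.Idx F)} (hUG : U ≤ D.group F) (hU : IsPGroup p ↥U) :
    ∃ g l, C.Feasible U g l := by
  obtain ⟨P, hP⟩ := Cfsg.Agent.S2326.result p D hD (F := F)
  have hU' : IsPGroup p ↥(U.subgroupOf (D.group F)) :=
    hU.of_equiv (Subgroup.subgroupOfEquivOfLe hUG).symm
  obtain ⟨Q, hQ⟩ := hU'.exists_le_sylow
  obtain ⟨a, ha⟩ := MulAction.exists_smul_eq ↥(D.group F) P Q
  refine ⟨a, fun _ => 1, a.2, fun _ => zero_le_one, fun x hx => ?_⟩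
  have hxQ : (⟨x, hUG hx⟩ : ↥(D.group F)) ∈ ((a • P : Sylow p ↥(D.group F)) : Subgroup ↥(D.group F)) :=
    ha ▸ hQ hx
  rw [Sylow.coe_subgroup_smul, Subgroup.mem_pointwise_smul_iff_inv_smul_mem, hP] at hxQ
  have hpos : (a : GL D.Idx F)⁻¹ * x * a ∈ D.posUnipotent F := by
    simpa [Subgroup.mem_subgroupOf, MulAut.smul_def, mul_assoc] using hxQ
  rw [posUnipotent_eq] at hpos
  refine grp_mem_mono hpos fun r hr => ⟨hr, ?_⟩
  have hsum : (1 : ℤ) ≤ ∑ k : Fin D.rank, T.aux.coef r k := by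
    by_contra hlt
    have h0 : ∑ k : Fin D.rank, T.aux.coef r k = 0 :=
      le_antisymm (by omega) (Finset.sum_nonneg fun k _ => C.coef_nonneg hr k.2)
    rw [Finset.sum_eq_zero_iff_of_nonneg fun k _ => C.coef_nonneg hr k.2] at h0
    have hk := ((C.root.pos_iff r).1 hr).2
    rw [show T.aux.key r = _ from C.root.key_eq r hr.1,
      enc_congr (g := fun _ => 0) fun j hj => h0 ⟨j, hj⟩ (Finset.mem_univ _)] at hk
    have : ∀ n, enc n (fun _ => (0 : ℤ)) = 0 := fun n => by induction n <;> simp [enc, *]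
    rw [this] at hk
    omega
  unfold rootVal
  simpa using (show ((1 : ℤ) : ℝ) ≤ ((∑ k : Fin D.rank, T.aux.coef r k : ℤ) : ℝ) from Int.cast_le.2 hsum)

end Checked

end Cfsg.Agent.Lib.Chev
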