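import Cfsg.Agent.Lib.Chev.BraidData
import Cfsg.Agent.Lib.Chev.BNLift
import Cfsg.Agent.Lib.Chev.Weyl
import Cfsg.Agent.Lib.Chev.Steinberg

/-!
The monomial elements `n_p` of the fundamental roots satisfy the braid relations, hence give canonical
representatives of the Weyl group.
-/

set_option autoImplicit false

namespace Cfsg.Agent.Lib.Chev

open Cfsg.Lie Cfsg.Agent.Lib

theorem altW_lt {i j l : ℕ} (hi : i < l) (hj : j < l) : ∀ (m : ℕ), ∀ x ∈ altW i j m, x < l := by
  intro m
  induction m generalizing i j with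
  | zero => intro x hx; simp [altW] at hx
  | succ m ih =>
    intro x hx
    rcases List.mem_cons.1 hx with rfl | hx
    exacts [hi, ih hj hi x hx]

theorem altW_snoc : ∀ (i j m : ℕ), altW i j m ++ [Fast.altLast i j m] = altW i j (m + 1)
  | _, _, 0 => rfl
  | i, j, m + 1 => by
    show i :: (altW j i m ++ [Fast.altLast j i m]) = i :: altW j i (m + 1)
    rw [altW_snoc j i m]

theorem altLast_lt {i j l : ℕ} (hi : i < l) (hj : j < l) : ∀ m, Fast.altLast i j m < l
  | 0 => hi
  | m + 1 => altLast_lt hj hi m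

namespace Checked

variable {D : ChevalleyDatum} {T : Fast} (C : Checked D T) {F : Type*} [Field F]
include C

/-- The product of the monomial elements of a word. -/
def nl (L : List ℕ) : GL D.Idx F := (L.map fun i => C.ng i).prod

theorem nl_cons (i : ℕ) (L : List ℕ) : C.nl (F := F) (i :: L) = C.ng i * C.nl L := rfl

theorem nl_mem : ∀ {L : List ℕ}, (∀ i ∈ L, i < D.rank) → C.nl (F := F) L ∈ D.monomialSubgroup F
  | [], _ => one_mem _
  | i :: L, h => by
    rw [C.nl_cons]
    exact mul_mem (C.ng_mem (h i (by simp))) (nl_mem fun j hj => h j (by simp [hj]))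

theorem wImg_lt : ∀ {L : List ℕ}, (∀ i ∈ L, i < D.rank) → ∀ {r : ℕ}, r < D.nroots →
    T.wImg L r < D.nroots
  | [], _, _, hr => hr
  | i :: L, h, r, hr => by
    have hi := h i (by simp)
    have hx := wImg_lt (fun j hj => h j (by simp [hj]) : ∀ j ∈ L, j < D.rank) hr
    show T.w i (T.wImg L r) < D.nroots
    rw [← C.refl i hi _ hx]
    exact C.root.refl_lt i hi _ hx

theorem nl_xg : ∀ {L : List ℕ}, (∀ i ∈ L, i < D.rank) → ∀ {r : ℕ}, r < D.nroots → ∀ t : F,
    C.nl L * C.xg r t = C.xg (T.wImg L r) (((sgn (T.wSg L r) : ℤ) : F) * t) * C.nl L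
  | [], _, r, _, t => by simp [nl, Fast.wImg, Fast.wSg, sgn]
  | i :: L, h, r, hr, t => by
    have hi := h i (by simp)
    have hL : ∀ j ∈ L, j < D.rank := fun j hj => h j (by simp [hj])
    have hx := C.wImg_lt hL hr
    rw [C.nl_cons, mul_assoc, nl_xg hL hr, ← mul_assoc, C.ng_xg hi hx, C.refl i hi _ hx]
    have hs : ((sgn (T.wSg (i :: L) r) : ℤ) : F) = eta T F i (T.wImg L r) * ((sgn (T.wSg L r) : ℤ) : F) := by
      show ((sgn (T.en i (T.wImg L r) ^^ T.wSg L r) : ℤ) : F) = _
      rw [eta, ← Int.cast_mul]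
      cases T.en i (T.wImg L r) <;> cases T.wSg L r <;> simp [sgn]
    rw [hs, mul_assoc, mul_assoc]
    rfl

theorem sg_nl : ∀ {L : List ℕ}, (∀ i ∈ L, i < D.rank) → ∀ {r : ℕ}, r < D.nroots →
    C.sg (C.nl (F := F) L) r = T.wImg L r
  | [], _, r, hr => C.sg_one hr
  | i :: L, h, r, hr => by
    have hi := h i (by simp)
    have hL : ∀ j ∈ L, j < D.rank := fun j hj => h j (by simp [hj])
    have hx := C.wImg_lt hL hr
    rw [C.nl_cons, C.sg_mul (C.ng_mem hi) (C.nl_mem hL) hr, sg_nl hL hr, C.sg_ng hi hx,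
      C.refl i hi _ hx]
    rfl

theorem nl_braid {i j m : ℕ} (hi : i < D.rank) (hj : j < D.rank) (h : T.braidAt i j m = true) :
    C.nl (F := F) (altW i j (m + 1)) = C.nl (altW j i (m + 1)) := by
  simp only [Fast.braidAt, Bool.and_eq_true, Nat.beq_eq, Bool.not_eq_true'] at h
  obtain ⟨⟨⟨h1, h2⟩, h3⟩, h4⟩ := h
  have hL := altW_lt hj hi m
  have hc : Fast.altLast j i m < D.rank := altLast_lt hj hi m
  have hp := C.root.simple_lt _ hc
  have ec : T.sp (Fast.altLast j i m) = D.simple (Fast.altLast j i m) := (C.tables.simple _ hc).symm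
  have ei : T.sp i = D.simple i := (C.tables.simple i hi).symm
  rw [ec, ← C.tables.neg _ hp, ei, ← C.tables.neg _ (C.root.simple_lt i hi)] at h3
  rw [ec] at h1 h2
  rw [ec, ← C.tables.neg _ hp] at h4
  rw [ei] at h1
  have hx : ∀ t : F, C.nl (altW j i m) * C.xg (D.simple (Fast.altLast j i m)) t =
      C.xg (D.simple i) t * C.nl (altW j i m) := fun t => by
    rw [C.nl_xg hL hp, h1, h2]; simp [sgn]
  have hy : ∀ t : F, C.nl (altW j i m) * C.xg (D.neg (D.simple (Fast.altLast j i m))) t =
      C.xg (D.neg (D.simple i)) t * C.nl (altW j i m) := fun t => by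
    rw [C.nl_xg hL (C.root.neg_lt _ hp), h3, h4]; simp [sgn]
  have key : C.nl (F := F) (altW j i m) * C.ng (Fast.altLast j i m) = C.ng i * C.nl (altW j i m) := by
    simp only [ng, ChevalleyDatum.nWord, C.wg_cons, C.wg_nil, mul_one]
    rw [← mul_assoc, hx, mul_assoc, ← mul_assoc (C.nl _), hy, mul_assoc, hx]
    simp only [mul_assoc]
  rw [← altW_snoc j i m]
  show C.nl (i :: altW j i m) = _
  rw [C.nl_cons, ← key]
  simp [nl]

/-- The generator of a node. -/
theorem alt_map {i j : ℕ} (hi : i < D.rank) (hj : j < D.rank) : ∀ n,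
    ((BN.wordG (C.bnPair F) (BN.alt (C.toS F i hi) (C.toS F j hj) n) : ↥(D.group F)) : GL D.Idx F) =
      C.nl (altW i j n) := by
  intro n
  induction n generalizing i j with
  | zero => rfl
  | succ n ih =>
    rw [BN.alt, BN.wordG_cons, Subgroup.coe_mul, ih hj hi]
    rfl

theorem act_alt {i j : ℕ} (hi : i < D.rank) (hj : j < D.rank) (n : ℕ) {r : ℕ} (hr : r < D.nroots) :
    C.act (BN.word (C.bnPair F) (BN.alt (C.toS F i hi) (C.toS F j hj) n)) r = T.wImg (altW i j n) r := by
  have hm := C.nl_mem (F := F) (altW_lt hi hj n)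
  have e : BN.word (C.bnPair F) (BN.alt (C.toS F i hi) (C.toS F j hj) n) =
      BN.cls _ (C.toN (C.nl (altW i j n)) hm) := by
    rw [← BN.cls_wordG]
    exact congrArg (BN.cls _) (Subtype.ext (Subtype.ext (C.alt_map hi hj n)))
  rw [e, C.act_cls hm hr, C.sg_nl (altW_lt hi hj n) hr]

theorem word_alt_iff {i j : ℕ} (hi : i < D.rank) (hj : j < D.rank) (n : ℕ) :
    BN.word (C.bnPair F) (BN.alt (C.toS F i hi) (C.toS F j hj) n) =
      BN.word (C.bnPair F) (BN.alt (C.toS F j hj) (C.toS F i hi) n) ↔ T.altEq i j n = true := by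
  simp only [Fast.altEq, allBelow_iff, Nat.beq_eq]
  constructor
  · intro h k hk
    have hk' : k < D.rank := by rw [C.tables.rank]; exact hk
    have := congrArg (fun w => C.act w (D.simple k)) h
    simp only [C.act_alt hi hj n (C.root.simple_lt k hk'), C.act_alt hj hi n (C.root.simple_lt k hk')]
      at this
    rwa [C.tables.simple k hk'] at this
  · intro h
    refine C.eq_of_act_simple fun k hk => ?_
    rw [C.act_alt hi hj n (C.root.simple_lt k hk), C.act_alt hj hi n (C.root.simple_lt k hk),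
      C.tables.simple k hk, h k (C.tables.rank ▸ hk)]

theorem braided (hb : T.braidCheck = true) : BNLift.Braided (C.bnPair F) := by
  intro a b hab n hred he
  obtain ⟨i, hi, rfl⟩ := C.exists_toS a
  obtain ⟨j, hj, rfl⟩ := C.exists_toS b
  have hij : i ≠ j := by rintro rfl; exact hab rfl
  simp only [Fast.braidCheck, allBelow_iff, Bool.or_eq_true, Nat.beq_eq, List.any_eq_true,
    List.mem_range, Bool.and_eq_true, Bool.not_eq_true'] at hb
  obtain ⟨m, -, ⟨hm1, hm2⟩, hm3⟩ :=
    ((hb i (C.tables.rank ▸ hi) j (C.tables.rank ▸ hj)).resolve_left hij)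
  have heq := (C.word_alt_iff hi hj n).1 he
  rcases lt_trichotomy n (m + 1) with h | rfl | h
  · rcases n with _ | n
    · rfl
    · exact absurd heq (by simpa using hm3 n (by omega))
  · exact Subtype.ext (by rw [C.alt_map hi hj, C.alt_map hj hi, C.nl_braid hi hj hm1])
  · exfalso
    have hw := (C.word_alt_iff (F := F) hi hj (m + 1)).2 hm2
    have snoc : ∀ (k : ℕ) (a b : (C.bnPair F).S), ∃ c, BN.alt a b (k + 1) = BN.alt a b k ++ [c] ∧
        (BN.alt b a (k + 2) = BN.alt b a (k + 1) ++ [c]) := by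
      intro k
      induction k with
      | zero => intro a b; exact ⟨a, rfl, rfl⟩
      | succ k ih =>
        intro a b
        obtain ⟨c, h1, h2⟩ := ih b a
        refine ⟨c, ?_, ?_⟩
        · show a :: BN.alt b a (k + 1) = a :: (BN.alt b a k ++ [c])
          rw [h1]
        · show b :: BN.alt a b (k + 2) = b :: (BN.alt a b (k + 1) ++ [c])
          rw [h2]
    obtain ⟨c, h1, h2⟩ := snoc m (C.toS F j hj) (C.toS F i hi)
    obtain ⟨R, hR⟩ : ∃ R, BN.alt (C.toS F i hi) (C.toS F j hj) n =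
        BN.alt (C.toS F i hi) (C.toS F j hj) (m + 2) ++ R := by
      have pre : ∀ (k d : ℕ) (a b : (C.bnPair F).S), ∃ R, BN.alt a b (k + d) = BN.alt a b k ++ R := by
        intro k
        induction k with
        | zero => intro d a b; exact ⟨_, rfl⟩
        | succ k ih =>
          intro d a b
          obtain ⟨R, hR⟩ := ih d b a
          refine ⟨R, ?_⟩
          rw [show k + 1 + d = (k + d) + 1 by omega]
          show a :: BN.alt b a (k + d) = a :: (BN.alt b a k ++ R)
          rw [hR]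
      obtain ⟨R, hR⟩ := pre (m + 2) (n - (m + 2)) (C.toS F i hi) (C.toS F j hj)
      exact ⟨R, by rw [← hR, show m + 2 + (n - (m + 2)) = n by omega]⟩
    have hr2 : BNLift.Red _ (BN.alt (C.toS F i hi) (C.toS F j hj) (m + 2)) :=
      BNLift.red_left _ (hR ▸ hred)
    rw [BNLift.Red, BN.length_alt, h2, BN.word_append, hw, h1, BN.word_append] at hr2
    simp only [BN.word_cons, BN.word_nil, mul_one, mul_assoc, BN.si_mul_self] at hr2
    have := BN.len_word_le _ (BN.alt (C.toS F j hj) (C.toS F i hi) m)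
    rw [BN.length_alt, hr2] at this
    omega

/-- The canonical representative. -/
noncomputable def nr (C : Checked D T) (w : C.W F) : ↥(D.group F) := BNLift.lift (C.bnPair F) w

theorem nr_mem (w : C.W F) : (C.nr w : GL D.Idx F) ∈ D.monomialSubgroup F := BNLift.lift_mem _ w

theorem cls_nr (w : C.W F) : BN.cls _ (C.toN (C.nr w) (C.nr_mem w)) = w := BNLift.cls_lift _ w

theorem act_nr (w : C.W F) {r : ℕ} (hr : r < D.nroots) : C.sg (C.nr w : GL D.Idx F) r = C.act w r := by
  conv_rhs => rw [← C.cls_nr w]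
  rw [C.act_cls (C.nr_mem w) hr]

theorem nr_one (hb : T.braidCheck = true) : C.nr (1 : C.W F) = 1 := BNLift.lift_one (C.braided hb)

theorem nr_si_mul (hb : T.braidCheck = true) {i : ℕ} (hi : i < D.rank) {w : C.W F}
    (h : D.IsPosRoot (C.act w⁻¹ (D.simple i))) :
    C.nr (BN.si _ (C.toS F i hi) * w) = (C.toS F i hi : ↥(D.group F)) * C.nr w :=
  BNLift.lift_si_mul (C.braided hb) (C.wlen_si_mul_pos hi h)

end Checked

end Cfsg.Agent.Lib.Chev
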