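import Cfsg.Agent.Lib.Chev.BraidData
import Cfsg.Agent.Lib.Chev.All

/-!
The braid relations hold for the seven tabulated data.
-/

set_option autoImplicit false

namespace Cfsg.Agent.Lib.Chev

theorem braid_G2 : G2.fast.braidCheck = true := by decide +kernel
theorem braid_B2 : B2.fast.braidCheck = true := by decide +kernel
theorem braid_D4 : D4.fast.braidCheck = true := by decide +kernel
theorem braid_F4 : F4.fast.braidCheck = true := by decide +kernel
theorem braid_E6 : E6.fast.braidCheck = true := by decide +kernel
theorem braid_E7 : E7.fast.braidCheck = true := by decide +kernel
theorem braid_E8 : E8.fast.braidCheck = true := by decide +kernel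

end Cfsg.Agent.Lib.Chev
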