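import Cfsg.Agent.Lib.Chev.Fast

/-!
Decidable braid relations for the monomial elements of the fundamental roots.
-/

set_option autoImplicit false

namespace Cfsg.Agent.Lib.Chev

/-- Alternating word starting with the first letter. -/
def altW (i j : ℕ) : ℕ → List ℕ
  | 0 => []
  | m + 1 => i :: altW j i m

namespace Fast

variable (T : Fast)

/-- The image of a root under a word. -/
def wImg (L : List ℕ) (r : ℕ) : ℕ := L.foldr (fun i x => T.w i x) r

/-- The sign acquired by a root along a word. -/
def wSg : List ℕ → ℕ → Bool
  | [], _ => false
  | i :: L, r => T.en i (T.wImg L r) ^^ wSg L r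

/-- The last letter of an alternating word. -/
def altLast (i j : ℕ) : ℕ → ℕ
  | 0 => i
  | m + 1 => altLast j i m

/-- The braid relation of length `m + 1`. -/
def braidAt (i j m : ℕ) : Bool :=
  Nat.beq (T.wImg (altW j i m) (T.sp (altLast j i m))) (T.sp i) &&
  !(T.wSg (altW j i m) (T.sp (altLast j i m))) &&
  Nat.beq (T.wImg (altW j i m) (T.ng (T.sp (altLast j i m)))) (T.ng (T.sp i)) &&
  !(T.wSg (altW j i m) (T.ng (T.sp (altLast j i m))))

/-- The alternating words of length `n` act alike on the fundamental roots. -/
def altEq (i j n : ℕ) : Bool :=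
  allBelow T.l fun k => Nat.beq (T.wImg (altW i j n) (T.sp k)) (T.wImg (altW j i n) (T.sp k))

/-- Every pair of fundamental roots satisfies a braid relation, at the first coincidence of the
alternating words. -/
def braidCheck : Bool :=
  allBelow T.l fun i => allBelow T.l fun j =>
    Nat.beq i j || (List.range 6).any fun m => T.braidAt i j m && T.altEq i j (m + 1) &&
      allBelow m fun n => !(T.altEq i j (n + 1))

end Fast

end Cfsg.Agent.Lib.Chev
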