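import Cfsg.Agent.Lib.Chev.ClsBN
import Cfsg.Agent.Lib.BN.Steinberg

/-!
The alternating sum of parabolic characters of the (B, N)-pair of a group of fixed points vanishes at
nontrivial unipotent elements.
-/

set_option autoImplicit false

namespace Cfsg.Agent.Lib.Chev

open Cfsg.Lie Cfsg.Agent.Lib

namespace Cls

variable {D : ChevalleyDatum} {T : Fast} {C : Checked D T} {K : Type*} [Field K] {τ : Twist C K}
  {S : ClsSpec} (O : Cls τ S) {G₁ : Subgroup (GL D.Idx K)} (G : O.Gens G₁)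
  (hH : D.diagonalSubgroup K ⊓ τ.fixed ≤ G₁)
include G hH

local notation "BP" => bnPairC O G hH

/-- An element of `N` making all positive roots negative has the longest class. -/
theorem isTop_of_neg (n : (BP).N) (hneg : ∀ r, D.IsPosRoot r → D.IsNegRoot
    (C.sg ((n : ↥G₁) : GL D.Idx K)⁻¹ r)) : BN.IsTop BP (BN.cls BP n) := by
  intro s
  rcases lt_or_gt_of_ne (BN.len_si_mul_ne BP s (BN.cls BP n)) with h | h
  · exact h
  exfalso
  obtain ⟨j, hj, es⟩ := s.2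
  obtain ⟨hnm, -⟩ := Subgroup.mem_inf.1 (Subgroup.mem_subgroupOf.1 n.2)
  set n' : GL D.Idx K := ((n : ↥G₁) : GL D.Idx K)
  have hE := O.eq_fixed G hH
  have hnf : n' ∈ τ.fixed := G.le_fixed (n : ↥G₁).2
  have hm := O.wN_mem_monomial hj
  have hsf := O.wN_fixed hj
  obtain ⟨x₀, hx₀, hx₀G, hne⟩ := O.exists_base_ne_one G hj
  have hx₀f : x₀ ∈ τ.fixed := G.le_fixed hx₀G
  obtain ⟨a, ha, haf, u, hu, huf, ez⟩ := O.NB_bruhat hj (O.wN_conj_B hj hx₀)
    (mul_mem (mul_mem hsf hx₀f) (inv_mem hsf)) (fun h0 => hne (conj_eq_one_iff.1 h0))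
  have hpos : ∀ r ∈ O.B j, D.IsPosRoot (C.sg (O.wN j * n')⁻¹ r) := by
    intro r hr
    have hr' := O.B_lt hj r hr
    have hl := C.sg_lt hm hr'
    rw [mul_inv_rev, C.sg_mul (inv_mem hnm) (inv_mem hm) hr', O.sg_wN_inv hj hr']
    have hneg' := (O.sg_wN_B hj hr).1
    have hp := (C.neg_pos_iff hl).2 hneg'
    have h1 := hneg _ hp
    rwa [C.sg_neg (inv_mem hnm) hl, C.neg_neg_iff (C.sg_lt (inv_mem hnm) hl)] at h1
  have hu' : (O.wN j * n')⁻¹ * u * (O.wN j * n') ∈ D.borelSubgroup K := by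
    refine Subgroup.mem_sup_left ?_
    rw [posUnipotent_eq]
    have := C.conj_mem_of_image (S' := {r | D.IsPosRoot r}) (inv_mem (mul_mem hm hnm)) (O.B_lt hj) hpos hu
    rwa [inv_inv] at this
  let x : ↥G₁ := ⟨x₀, hx₀G⟩
  have hxB : x ∈ (BP).B := Subgroup.mem_inf.2 ⟨Subgroup.mem_sup_left (by
    rw [posUnipotent_eq]; exact grp_mem_mono hx₀ (O.B_pos hj)), x.2⟩
  have h1 := BN.step_up BP h.le (BN.mul_mem_cell_left BP hxB (BN.self_mem_cell BP n))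
  have key : (s : ↥G₁) * (x * (n : ↥G₁)) ∈ BN.cell BP (BN.cls BP n) := by
    let b₁ : ↥G₁ := ⟨a * (O.wN j * O.wN j), hE.ge (mul_mem haf (mul_mem hsf hsf))⟩
    let b₂ : ↥G₁ := ⟨(O.wN j * n')⁻¹ * u * (O.wN j * n'),
      hE.ge (mul_mem (mul_mem (inv_mem (mul_mem hsf hnf)) huf) (mul_mem hsf hnf))⟩
    have h₁ : b₁ ∈ (BP).B := Subgroup.mem_inf.2
      ⟨mul_mem ha (Subgroup.mem_sup_right (O.wN_sq_mem hj)), b₁.2⟩
    have h₂ : b₂ ∈ (BP).B := Subgroup.mem_inf.2 ⟨hu', b₂.2⟩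
    have e : (s : ↥G₁) * (x * (n : ↥G₁)) = b₁ * n * b₂ := Subtype.ext (by
      push_cast [b₁, b₂, x]
      rw [es]
      calc O.wN j * (x₀ * n') = (O.wN j * x₀ * (O.wN j)⁻¹) * (O.wN j * n') := by group
        _ = _ := by rw [ez]; simp only [n']; group)
    rw [e]
    exact BN.mul_mem_cell_right BP h₂ (BN.mul_mem_cell_left BP h₁ (BN.self_mem_cell BP n))
  exact BN.si_ne_one BP s (mul_eq_right.1 (BN.eq_of_mem_cells BP h1 key))

/-- The (B, N)-pair is saturated. -/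
theorem saturatedC : BN.Saturated BP := by
  obtain ⟨n₀, hn₀, hneg₀⟩ := C.exists_longest K
  have hc₀ : τ.Comm n₀ := by
    have hneg' : ∀ r, D.IsPosRoot r → D.IsNegRoot (C.sg (τ.act n₀) r) := by
      intro r hr
      obtain ⟨s, hs, rfl⟩ := τ.ρ_surj hr.1
      rw [τ.sg_act hn₀ hs, τ.ρ_neg_iff (C.sg_lt hn₀ hs)]
      exact hneg₀ s ((τ.ρ_pos_iff hs).1 hr)
    have hd : n₀⁻¹ * τ.act n₀ ∈ D.diagonalSubgroup K := by
      have hm := mul_mem (inv_mem hn₀) (τ.act_monomial hn₀)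
      rw [← C.cls_toN_eq_one hm]
      refine BN.eq_one_of_len_eq_zero _ ?_
      rw [C.len_eq hm, Set.ncard_eq_zero (C.inv_finite _)]
      refine Set.eq_empty_of_forall_notMem fun r hr => ?_
      have h2 := hr.2
      have hm0 := C.sg_lt (τ.act_monomial hn₀) hr.1.1
      rw [C.sg_mul (inv_mem hn₀) (τ.act_monomial hn₀) hr.1.1] at h2
      have h3 := hneg' r hr.1
      have h4 := hneg₀ _ ((C.neg_pos_iff (C.sg_lt (inv_mem hn₀) hm0)).2 h2)
      rw [C.sg_neg hn₀ (C.sg_lt (inv_mem hn₀) hm0), C.sg_sg_inv hn₀ hm0, C.neg_neg_iff hm0] at h4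
      exact C.not_pos_and_neg h4 h3
    intro r hr
    have h1 := C.sg_mul hn₀ (C.diag_le_monomial hd) (τ.ρ_lt r hr)
    rw [mul_inv_cancel_left, C.sg_diag hd (τ.ρ_lt r hr), τ.sg_act hn₀ hr] at h1
    exact h1.symm
  obtain ⟨m, hmG, hm, hmf, hd⟩ := O.exists_rep G.wN_mem n₀ hn₀ hc₀
  have hnegm : ∀ r, D.IsPosRoot r → D.IsNegRoot (C.sg m r) := by
    intro r hr
    have h1 := C.sg_mul (C.diag_le_monomial hd) hm hr.1
    rw [inv_mul_cancel_right, C.sg_diag hd (C.sg_lt hm hr.1)] at h1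
    rw [← h1]
    exact hneg₀ r hr
  let n₁ : (BP).N := ⟨⟨m⁻¹, inv_mem hmG⟩, Subgroup.mem_inf.2 ⟨inv_mem hm, inv_mem hmG⟩⟩
  have htop := O.isTop_of_neg G hH n₁ fun r hr => by
    show D.IsNegRoot (C.sg (m⁻¹)⁻¹ r)
    rw [inv_inv]; exact hnegm r hr
  intro n hn b hb hconj
  obtain ⟨t, ht, et⟩ : ∃ t ∈ (BP).B, (n : ↥G₁) = (n₁ : ↥G₁) * t := by
    refine ⟨(n₁ : ↥G₁)⁻¹ * n, (BN.cls_eq_iff BP).1 (BN.top_unique BP hn htop).symm, ?_⟩
    group
  rw [et] at hconj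
  have h1 : (n₁ : ↥G₁)⁻¹ * b * n₁ ∈ (BP).B := by
    have := mul_mem (mul_mem ht hconj) (inv_mem ht)
    simpa [mul_assoc] using this
  obtain ⟨hb1, -⟩ := Subgroup.mem_inf.1 (Subgroup.mem_subgroupOf.1 hb)
  have h2 : m * (b : GL D.Idx K) * m⁻¹ ∈ D.borelSubgroup K := by
    have := (Subgroup.mem_inf.1 (Subgroup.mem_subgroupOf.1 h1)).1
    push_cast [n₁] at this
    rwa [inv_inv] at this
  obtain ⟨u, hu, h, hh, e⟩ := C.mem_borel.1 hb1
  have hu1 : u = 1 := by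
    obtain ⟨σ', hmo⟩ := C.sg_spec hm
    refine C.eq_one_of_conj_mem_borel C.closedSet_pos hmo hnegm (by rw [← posUnipotent_eq]; exact hu) ?_
    have h3 : m * h⁻¹ * m⁻¹ ∈ D.diagonalSubgroup K := C.mono_conj_diag hm _ (inv_mem hh)
    have := mul_mem h2 (Subgroup.mem_sup_right h3 : _ ∈ D.borelSubgroup K)
    rw [e] at this
    simpa [mul_assoc] using this
  rw [e, hu1, one_mul] at hb1
  refine Subgroup.mem_inf.2 ⟨?_, b.2⟩
  show (b : GL D.Idx K) ∈ D.monomialSubgroup K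
  rw [e, hu1, one_mul]
  exact C.diag_le_monomial hh

/-- The alternating sum vanishes at nontrivial unipotent elements. -/
theorem stC_eq_zero [Fintype ↥G₁] {x : ↥G₁} (hx : (x : GL D.Idx K) ∈ D.posUnipotent K) (hx1 : x ≠ 1) :
    BN.stChar BP x = 0 := by
  have hxB : x ∈ (BP).B := Subgroup.mem_inf.2 ⟨Subgroup.mem_sup_left hx, x.2⟩
  rw [BN.stChar_apply_B BP (O.saturatedC G hH) ⟨x, hxB⟩]
  show ((Nat.card _ : ℕ) : ℂ) = 0
  rw [Nat.cast_eq_zero, Nat.card_eq_zero]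
  refine Or.inl ⟨fun ⟨q, hq⟩ => ?_⟩
  induction q using QuotientGroup.induction_on with
  | _ b =>
    rw [MulAction.mem_fixedBy, MulAction.Quotient.smul_coe, QuotientGroup.eq,
      Subgroup.mem_subgroupOf] at hq
    obtain ⟨hq1, hq2⟩ := Subgroup.mem_inf.1 hq
    have hmem : ((b.1⁻¹ * x⁻¹ * b.1 : ↥G₁) : GL D.Idx K) ∈ D.diagonalSubgroup K := by
      rw [← C.borel_inf_monomial]
      simp only [smul_eq_mul, Subgroup.coe_mul, InvMemClass.coe_inv, mul_inv_rev] at hq1 hq2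
      exact Subgroup.mem_inf.2 ⟨(Subgroup.mem_inf.1 hq1).1, (Subgroup.mem_inf.1 hq2).1⟩
    obtain ⟨hbB, -⟩ := Subgroup.mem_inf.1 (Subgroup.mem_subgroupOf.1 b.2)
    have hd : ((x⁻¹ : ↥G₁) : GL D.Idx K) = 1 := by
      obtain ⟨v, hv, h, hh, e⟩ := C.mem_borel.1 hbB
      push_cast at hmem
      rw [e] at hmem
      have h1 : v⁻¹ * (x : GL D.Idx K)⁻¹ * v ∈ D.diagonalSubgroup K := by
        have := mul_mem (mul_mem hh hmem) (inv_mem hh)
        simpa [mul_assoc] using this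
      have h2 : v⁻¹ * (x : GL D.Idx K)⁻¹ * v ∈ D.posUnipotent K ⊓ D.diagonalSubgroup K :=
        Subgroup.mem_inf.2 ⟨mul_mem (mul_mem (inv_mem hv) (inv_mem hx)) hv, h1⟩
      rw [C.pos_inf_diag, Subgroup.mem_bot] at h2
      push_cast
      calc (x : GL D.Idx K)⁻¹ = v * (v⁻¹ * (x : GL D.Idx K)⁻¹ * v) * v⁻¹ := by group
        _ = 1 := by rw [h2]; group
    exact hx1 (inv_eq_one.1 (Subtype.ext hd))

end Cls

end Cfsg.Agent.Lib.Chev
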