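import Cfsg.Agent.Lib.Chev.CoxeterType
import Cfsg.Agent.Lib.Chev.All

/-!
Kernel checks identifying the Weyl groups with the Coxeter groups of the types.
-/

set_option autoImplicit false

namespace Cfsg.Agent.Lib.Chev

theorem cox_G2 : G2.fast.coxCheck (matNat CoxeterMatrix.G₂) = true := by decide +kernel
theorem cox_B2 : B2.fast.coxCheck (matNat (CoxeterMatrix.B 2)) = true := by decide +kernel
theorem cox_D4 : D4.fast.coxCheck (matNat Cfsg.Lie.coxeterD4) = true := by decide +kernel
theorem cox_F4 : F4.fast.coxCheck (matNat CoxeterMatrix.F₄) = true := by decide +kernel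
theorem cox_E6 : E6.fast.coxCheck (matNat CoxeterMatrix.E₆) = true := by decide +kernel
theorem cox_E7 : E7.fast.coxCheck (matNat CoxeterMatrix.E₇) = true := by decide +kernel
theorem cox_E8 : E8.fast.coxCheck (matNat CoxeterMatrix.E₈) = true := by decide +kernel

end Cfsg.Agent.Lib.Chev
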