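import Cfsg.Agent.Lib.BN.HeckeCenter
import Cfsg.Agent.Lib.Chev.CoxeterTables

/-!
The distinct constituents of the permutation character on the cosets of the Borel subgroup of a
split Chevalley group.
-/

set_option autoImplicit false

namespace Cfsg.Agent.Lib.Chev

open Cfsg.Lie
open scoped MatrixGroups

namespace Checked

variable {D : ChevalleyDatum} {T : Fast} (C : Checked D T) {F : Type*} [Field F] [Fintype F]

include C

theorem thick_eq (s : (C.bnPair F).S) : BN.thick (C.bnPair F) s = Fintype.card F := by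
  obtain ⟨i, hi, rfl⟩ := C.exists_toS s
  have hp := C.root.simple_lt i hi
  have hpp := C.root.pos_simple hi
  let ng' : ↥(D.group F) := ⟨C.ng i, C.ng_mem_group hi⟩
  let x : F → ↥(D.group F) := fun t => ⟨C.xg (D.simple i) t, C.xg_mem_group hp t⟩
  let f : F → {z : ↥(D.group F) ⧸ (C.bnPair F).B //
      BN.rel (C.bnPair F) (BN.si _ (C.toS F i hi))
        ((1 : ↥(D.group F)) : ↥(D.group F) ⧸ (C.bnPair F).B) z} := fun t =>
    ⟨((x t * ng' : ↥(D.group F)) : ↥(D.group F) ⧸ (C.bnPair F).B), by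
      rw [BN.rel_mk, inv_one, one_mul]
      exact BN.mul_mem_cell_left _ (C.xg_mem_borel hpp t) (BN.si_mem_cell _ (C.toS F i hi))⟩
  rw [BN.thick, ← Nat.card_eq_fintype_card (α := F)]
  refine (Nat.card_congr (Equiv.ofBijective f ⟨fun a b h => ?_, fun z => ?_⟩)).symm
  · have h1 := congrArg Subtype.val h
    simp only [f, QuotientGroup.eq] at h1
    have h2 : (C.ng i : GL D.Idx F)⁻¹ * C.xg (D.simple i) (b - a) * C.ng i ∈ D.borelSubgroup F := by
      rw [show b - a = -a + b by ring, ← C.xg_add hp, ← C.xg_inv]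
      have h1' : ((x a * ng')⁻¹ * (x b * ng') : ↥(D.group F)).1 ∈ D.borelSubgroup F := h1
      simpa [x, ng', mul_assoc] using h1'
    by_contra hne
    have hd : (C.ng i : GL D.Idx F) * C.ng i ∈ D.borelSubgroup F :=
      Subgroup.mem_sup_right (C.ng_sq_mem hi)
    have h3 := mul_mem (mul_mem hd h2) (inv_mem hd)
    rw [show (C.ng i : GL D.Idx F) * C.ng i * ((C.ng i)⁻¹ * C.xg (D.simple i) (b - a) * C.ng i) *
        (C.ng i * C.ng i)⁻¹ = C.ng i * C.xg (D.simple i) (b - a) * (C.ng i)⁻¹ by group,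
      C.ng_xg hi hp, mul_inv_cancel_right, C.root.refl_simple hi] at h3
    exact C.neg_xg_not_mem ((C.neg_neg_iff hp).2 hpp)
      (mul_ne_zero (eta_ne_zero _ _) (sub_ne_zero.2 (Ne.symm hne))) h3
  · obtain ⟨z, hz⟩ := z
    induction z using QuotientGroup.induction_on with
    | _ g =>
    rw [BN.rel_mk, inv_one, one_mul] at hz
    obtain ⟨b₁, h₁, b₂, h₂, e⟩ := (BN.mem_cell_cls _ (n := ⟨_, (C.bnPair F).subset (C.toS F i hi).2⟩)).1 hz
    obtain ⟨u, hu, h, hh, e1⟩ := C.mem_borel.1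
      (show (b₁ : GL D.Idx F) ∈ D.borelSubgroup F from h₁)
    obtain ⟨y, hy, a, hu'⟩ := C.exists_posBut_mul hi (inv_mem hu)
    refine ⟨-a, Subtype.ext ?_⟩
    simp only [f, QuotientGroup.eq]
    show ((x (-a) * ng')⁻¹ * g : ↥(D.group F)).1 ∈ D.borelSubgroup F
    have eg : (g : GL D.Idx F) = u * h * C.ng i * (b₂ : GL D.Idx F) := by
      rw [e, Subgroup.coe_mul, Subgroup.coe_mul, e1]; rfl
    have eu : u = C.xg (D.simple i) (-a) * y⁻¹ := by
      rw [← C.xg_inv, ← mul_inv_rev, ← hu', inv_inv]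
    have h3 : (C.ng i : GL D.Idx F)⁻¹ * y⁻¹ * C.ng i ∈ D.borelSubgroup F := by
      have hd : (C.ng i : GL D.Idx F) * C.ng i ∈ D.borelSubgroup F :=
        Subgroup.mem_sup_right (C.ng_sq_mem hi)
      have := mul_mem (mul_mem (inv_mem hd)
        (C.posBut_le_borel i (C.ng_conj_posBut hi (inv_mem hy)))) hd
      rwa [show (C.ng i * C.ng i : GL D.Idx F)⁻¹ * (C.ng i * y⁻¹ * (C.ng i)⁻¹) * (C.ng i * C.ng i) =
        (C.ng i)⁻¹ * y⁻¹ * C.ng i by group] at this
    have h4 : (C.ng i : GL D.Idx F)⁻¹ * h * C.ng i ∈ D.borelSubgroup F := by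
      have := C.mono_conj_diag (inv_mem (C.ng_mem hi)) h hh
      rw [inv_inv] at this
      exact Subgroup.mem_sup_right this
    have h5 := mul_mem (mul_mem h3 h4) (show (b₂ : GL D.Idx F) ∈ D.borelSubgroup F from h₂)
    rw [Subgroup.coe_mul, Subgroup.coe_inv, Subgroup.coe_mul, eg, eu]
    show (C.xg (D.simple i) (-a) * C.ng i)⁻¹ * _ ∈ _
    simpa [mul_assoc] using h5

theorem card_constituents_borel {n : ℕ} (M : CoxeterMatrix (Fin n))
    (hc : T.coxCheck (matNat M) = true) (hn : n = D.rank) :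
    Nat.card {χ : IrrCharacter ↥(D.group F) //
      ∃ φ : ↥(D.group F) → ℂ, IsCharacter ↥(D.group F) φ ∧
        fixedPointCharacter ((D.borelSubgroup F).subgroupOf (D.group F)) =
          (χ : ↥(D.group F) → ℂ) + φ} =
      Nat.card (ConjClasses M.Group) := by
  classical
  have := Fintype.ofFinite ↥(D.group F)
  have := Fintype.ofFinite (BN.Weyl (C.bnPair F))
  have := Fintype.ofFinite (↥(D.group F) ⧸ (C.bnPair F).B)
  have hW : Nat.card (ConjClasses (BN.Weyl (C.bnPair F))) = Nat.card (ConjClasses M.Group) := by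
    let e : BN.Weyl (C.bnPair F) ≃* M.Group := (C.coxSys F M hc hn).mulEquiv
    refine Nat.card_congr (Equiv.ofBijective (ConjClasses.map e.toMonoidHom) ⟨?_, ?_⟩)
    · intro a b
      obtain ⟨a, rfl⟩ := ConjClasses.mk_surjective a
      obtain ⟨b, rfl⟩ := ConjClasses.mk_surjective b
      show ConjClasses.mk (e a) = ConjClasses.mk (e b) → _
      rw [ConjClasses.mk_eq_mk_iff_isConj, ConjClasses.mk_eq_mk_iff_isConj]
      intro h
      simpa using e.symm.toMonoidHom.map_isConj h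
    · exact ConjClasses.map_surjective e.surjective
  rw [← hW, ← BN.card_constituents (P := C.bnPair F) C.thick_eq Fintype.card_pos]
  refine Nat.card_congr (Equiv.subtypeEquivRight fun χ => ?_)
  set π := fixedPointCharacter (C.bnPair F).B
  have hπ : IsCharacter ↥(D.group F) π := GLFlag.isCharacter_fixedPointCharacter _
  show (∃ φ, IsCharacter _ φ ∧ π = (χ : ↥(D.group F) → ℂ) + φ) ↔ classInner π χ ≠ 0
  constructor
  · rintro ⟨φ, hφ, he⟩
    obtain ⟨k, hk⟩ := Char.classInner_natCast hφ (Char.isCharacter_of_isIrr χ.2)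
    rw [he, Char.classInner_add_left, Char.classInner_irr_self χ.2, hk]
    exact_mod_cast (show 1 + k ≠ 0 by omega)
  · intro hne
    refine ⟨π - χ, Char.isCharacter_iff_natCast.2 ⟨Char.isClassFunction_sub
      (Char.isClassFunction_of_isCharacter hπ) (Char.isClassFunction_of_isIrr χ.2), fun ψ => ?_⟩,
      (add_sub_cancel _ _).symm⟩
    obtain ⟨k, hk⟩ := Char.classInner_natCast hπ (Char.isCharacter_of_isIrr ψ.2)
    rw [Char.classInner_sub_left, Char.classInner_irr χ.2 ψ.2, hk]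
    by_cases h : (χ : ↥(D.group F) → ℂ) = ψ
    · rw [if_pos h]
      rw [h, hk, Ne, Nat.cast_eq_zero] at hne
      exact ⟨k - 1, by rw [Nat.cast_sub (by omega), Nat.cast_one]⟩
    · rw [if_neg h]
      exact ⟨k, sub_zero _⟩

end Checked

end Cfsg.Agent.Lib.Chev
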