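import Cfsg.Agent.Lib.Chev.CoxeterType

/-!
Identities and the centre in the Coxeter groups of the tabulated types, checked through the action on roots.
-/

set_option autoImplicit false

namespace Cfsg.Agent.Lib.Chev

open Cfsg.Lie Cfsg.Agent.Lib

namespace Fast

variable (T : Fast)

/-- Apply a word in the fundamental reflections. -/
def word (L : List ℕ) (s : ℕ) : ℕ := L.foldr (fun i x => T.w i x) s

/-- Two words agree on the fundamental roots. -/
def eqWord (A B : List ℕ) : Bool := allBelow T.l fun k => Nat.beq (T.word A (T.sp k)) (T.word B (T.sp k))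

/-- A word negates the fundamental roots. -/
def negWord (A : List ℕ) : Bool := allBelow T.l fun k => Nat.beq (T.word A (T.sp k)) (T.ng (T.sp k))

/-- A word sends the fundamental roots to negative roots. -/
def w0Word (A : List ℕ) : Bool := allBelow T.l fun k => decide (T.key (T.word A (T.sp k)) < 0)

/-- Only `±α_i` is negated by the `i`-th reflection. -/
def fixCheck : Bool :=
  allBelow T.l fun i => allBelow T.n fun r =>
    !Nat.beq (T.w i r) (T.ng r) || Nat.beq r (T.sp i) || Nat.beq r (T.ng (T.sp i))

/-- `i` and `j` are joined. -/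
def edgeCheck (i j : ℕ) : Bool :=
  !beqI (T.cf (T.w i (T.sp j)) i) 0 &&
    allBelow T.l fun k => Nat.beq k i || Nat.beq k j || beqI (T.cf (T.w i (T.sp j)) k) 0

/-- The diagram is connected. -/
def connCheck : Bool :=
  let R := Nat.iterate (fun R => (List.range T.l).filter fun k => R.contains k || R.any fun p => T.edgeCheck p k)
    T.l [0]
  allBelow T.l fun k => R.contains k

end Fast

namespace Checked

variable {D : ChevalleyDatum} {T : Fast} {F : Type*} [Field F] (C : Checked D T)
include C

/-- The product of the generators along a list. -/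
noncomputable def wprod (C : Checked D T) (F : Type*) [Field F] (A : List (Fin D.rank)) : C.W F :=
  (A.map fun i : Fin D.rank => (BN.si _ (C.toS F i.1 i.2) : C.W F)).prod

theorem act_wprod (A : List (Fin D.rank)) {r : ℕ} (hr : r < D.nroots) :
    C.act (C.wprod F A) r = T.word (A.map Fin.val) r := C.act_prod A hr

theorem eq_of_act_rank {x y : C.W F} (h : ∀ k < D.rank, C.act x (D.simple k) = C.act y (D.simple k)) : x = y :=
  C.eq_of_act_simple fun k hk => congrArg T.key (h k hk)

theorem wprod_eq_iff (A B : List (Fin D.rank)) :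
    C.wprod F A = C.wprod F B ↔ T.eqWord (A.map Fin.val) (B.map Fin.val) = true := by
  simp only [Fast.eqWord, allBelow_iff, Nat.beq_eq, ← C.tables.rank]
  constructor
  · intro h k hk
    have hp := C.root.simple_lt k hk
    rw [← C.tables.simple k hk, ← C.act_wprod (F := F) A hp, ← C.act_wprod (F := F) B hp, h]
  · intro h
    refine C.eq_of_act_rank fun k hk => ?_
    have hp := C.root.simple_lt k hk
    rw [C.act_wprod A hp, C.act_wprod B hp, C.tables.simple k hk, h k hk]

theorem eq_one_of_pos {u : C.W F} (h : ∀ k < D.rank, D.IsPosRoot (C.act u (D.simple k))) : u = 1 := by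
  by_contra hu
  have hl : C.wlen u ≠ 0 := by
    intro h0
    obtain ⟨L, hl, hL⟩ := BN.exists_reduced _ u
    simp only [wlen] at h0
    rw [h0] at hl
    rw [List.length_eq_zero_iff.1 (by omega : L.length = 0), BN.word_nil] at hL
    exact hu hL.symm
  obtain ⟨i, hi, -, hneg, -⟩ := C.exists_right_descent (C.wsub_top (K := Set.univ) (fun _ _ => trivial) u) hl
  exact C.not_pos_and_neg (h i hi) hneg

theorem central_act (hf : T.fixCheck = true) {z : C.W F} (hz : ∀ x : C.W F, z * x = x * z)
    {i : ℕ} (hi : i < D.rank) :
    C.act z (D.simple i) = D.simple i ∨ C.act z (D.simple i) = D.neg (D.simple i) := by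
  have hp := C.root.simple_lt i hi
  have h := congrArg (fun x => C.act x (D.simple i)) (hz (BN.si _ (C.toS F i hi)))
  simp only [C.act_mul _ _ hp, C.act_si hi hp, C.act_si hi (C.act_lt z hp), C.root.refl_simple hi,
    C.act_neg z hp] at h
  simp only [Fast.fixCheck, allBelow_iff, Bool.or_eq_true, Bool.not_eq_true', ← C.tables.rank,
    ← C.tables.nroots] at hf
  have hr := C.act_lt z hp
  rw [C.refl i hi _ hr, C.tables.neg _ hr] at h
  rcases hf i hi _ hr with (h1 | h1) | h1
  · rw [← h] at h1; simp at h1
  · left; rw [Nat.eq_of_beq_eq_true h1, C.tables.simple i hi]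
  · right; rw [Nat.eq_of_beq_eq_true h1, C.tables.neg _ hp, C.tables.simple i hi]

theorem central_edge (hf : T.fixCheck = true) {z : C.W F} (hz : ∀ x : C.W F, z * x = x * z)
    {i j : ℕ} (hi : i < D.rank) (hj : j < D.rank) (he : T.edgeCheck i j = true) :
    (C.act z (D.simple i) = D.simple i ↔ C.act z (D.simple j) = D.simple j) := by
  simp only [Fast.edgeCheck, allBelow_iff, Bool.and_eq_true, Bool.or_eq_true, Bool.not_eq_true',
    ← C.tables.rank, Nat.beq_eq] at he
  have hpi := C.root.simple_lt i hi
  have hpj := C.root.simple_lt j hj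
  have hrdef : D.reflectRoot i (D.simple j) = T.w i (T.sp j) := by
    rw [C.refl i hi _ hpj, C.tables.simple j hj]
  rw [← hrdef] at he
  set r := D.reflectRoot i (D.simple j) with hrd
  have hr : r < D.nroots := C.root.refl_lt i hi _ hpj
  have hzr : C.act z r = D.reflectRoot i (C.act z (D.simple j)) := by
    have h := congrArg (fun x => C.act x (D.simple j)) (hz (BN.si _ (C.toS F i hi)))
    simp only [C.act_mul _ _ hpj, C.act_si hi hpj, C.act_si hi (C.act_lt z hpj)] at h
    exact h
  have hci : T.aux.coef r i ≠ 0 := fun h0 => by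
    have h1 := he.1
    rw [show T.cf r i = 0 from h0, beqI_self] at h1
    exact Bool.noConfusion h1
  by_cases hij : i = j
  · subst hij; exact Iff.rfl
  have hsum : ∀ f : ℕ → ℤ, (∑ k ∈ Finset.range D.rank, T.aux.coef r k * f k) =
      T.aux.coef r i * f i + T.aux.coef r j * f j := by
    intro f
    refine Finset.sum_eq_add i j hij (fun k hk hne => ?_) (fun h => absurd (Finset.mem_range.2 hi) h)
      (fun h => absurd (Finset.mem_range.2 hj) h)
    rcases he.2 k (Finset.mem_range.1 hk) with (h1 | h1) | h1
    · exact absurd h1 hne.1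
    · exact absurd h1 hne.2
    · rw [show T.aux.coef r k = 0 from beqI_eq h1, zero_mul]
  have hb := C.key_act (1 : C.W F) hr
  rw [hsum, C.act_one hr, C.act_one hpi, C.act_one hpj] at hb
  have hzk := C.key_act z hr
  rw [hsum, hzr] at hzk
  have hKi : T.key (D.simple i) ≠ 0 := C.root.key_ne _ hpi
  have hneg : ∀ s < D.nroots, T.key (D.neg s) = - T.key s := fun s hs => C.root.key_neg s hs
  rcases C.central_act hf hz hi with h1 | h1 <;> rcases C.central_act hf hz hj with h2 | h2
  · exact iff_of_true h1 h2
  · exfalso
    rw [h1, h2, C.root.refl_neg' hi hpj, hneg _ hr, hneg _ hpj, hb] at hzk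
    exact mul_ne_zero hci hKi (by linarith)
  · exfalso
    rw [h1, h2, hneg _ hpi] at hzk
    rw [hb] at hzk
    exact mul_ne_zero hci hKi (by linarith)
  · refine iff_of_false (fun h => ?_) (fun h => ?_) <;>
      · first
          | (have := congrArg T.key (h1.symm.trans h); rw [hneg _ hpi] at this; omega)
          | (have := congrArg T.key (h2.symm.trans h); rw [hneg _ hpj] at this
             have := C.root.key_ne _ hpj
             change T.key _ ≠ 0 at this
             omega)

theorem central_cases (hf : T.fixCheck = true) (hcn : T.connCheck = true) {z : C.W F}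
    (hz : ∀ x : C.W F, z * x = x * z) :
    z = 1 ∨ ∀ k < D.rank, C.act z (D.simple k) = D.neg (D.simple k) := by
  simp only [Fast.connCheck, allBelow_iff, List.contains_iff_mem, ← C.tables.rank] at hcn
  have hreach : ∀ m : ℕ, ∀ k ∈ Nat.iterate (fun R => (List.range D.rank).filter fun k =>
      R.contains k || R.any fun p => T.edgeCheck p k) m [0],
      k < D.rank ∧ (C.act z (D.simple k) = D.simple k ↔ C.act z (D.simple 0) = D.simple 0) := by
    intro m
    induction m with
    | zero =>
      intro k hk
      rw [Function.iterate_zero, id, List.mem_singleton] at hk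
      subst hk
      exact ⟨C.root.rank_pos, Iff.rfl⟩
    | succ m ih =>
      intro k hk
      rw [Function.iterate_succ_apply'] at hk
      simp only [List.mem_filter, List.mem_range, Bool.or_eq_true, List.contains_iff_mem, List.any_eq_true] at hk
      obtain ⟨hlt, h1 | ⟨p, hp, hpe⟩⟩ := hk
      · exact ih k h1
      · exact ⟨hlt, (C.central_edge hf hz (ih p hp).1 hlt hpe).symm.trans (ih p hp).2⟩
  have hiff : ∀ k, k < D.rank →
      (C.act z (D.simple k) = D.simple k ↔ C.act z (D.simple 0) = D.simple 0) :=
    fun k hk => (hreach _ k (hcn k hk)).2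
  by_cases h : C.act z (D.simple 0) = D.simple 0
  · left
    refine C.eq_of_act_rank fun k hk => ?_
    rw [C.act_one (C.root.simple_lt k hk)]
    exact (hiff k hk).2 h
  · exact Or.inr fun k hk => (C.central_act hf hz hk).resolve_left fun e => h ((hiff k hk).1 e)

/-! ### transfer to the presented group -/

theorem exists_iso {n : ℕ} (M : CoxeterMatrix (Fin n)) (hc : T.coxCheck (matNat M) = true) (hn : n = D.rank) :
    ∃ e : M.Group ≃* C.W (ZMod 2), ∀ A : List (Fin n),
      e ((A.map M.simple).prod) = C.wprod (ZMod 2) (A.map (Fin.cast hn)) := by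
  refine ⟨(C.coxSys (ZMod 2) M hc hn).mulEquiv.symm, fun A => ?_⟩
  rw [map_list_prod, wprod, List.map_map, List.map_map]
  congr 1
  refine List.map_congr_left fun i _ => ?_
  exact C.coxSys_simple (F := ZMod 2) M hc hn i

theorem prod_eq_iff {n : ℕ} (M : CoxeterMatrix (Fin n)) (hc : T.coxCheck (matNat M) = true) (hn : n = D.rank)
    (A B : List (Fin n)) :
    (A.map M.simple).prod = (B.map M.simple).prod ↔ T.eqWord (A.map Fin.val) (B.map Fin.val) = true := by
  subst hn
  obtain ⟨e, he⟩ := C.exists_iso M hc rfl
  rw [← e.injective.eq_iff, he, he, C.wprod_eq_iff]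
  simp

/-- A criterion for words to generate the Coxeter group. -/
theorem closure_eq_top {n : ℕ} (M : CoxeterMatrix (Fin n)) (hc : T.coxCheck (matNat M) = true) (hn : n = D.rank)
    (S : List (List (Fin n))) (ws : Fin n → List (Fin S.length))
    (h : ∀ k, T.eqWord (((ws k).map S.get).flatten.map Fin.val) [k.1] = true)
    (H : Subgroup M.Group) (hS : ∀ x ∈ S, (x.map M.simple).prod ∈ H) : H = ⊤ := by
  rw [eq_top_iff, ← M.toCoxeterSystem.subgroup_closure_range_simple, Subgroup.closure_le]
  rintro _ ⟨k, rfl⟩
  have he := (C.prod_eq_iff M hc hn ((ws k).map S.get).flatten [k]).2 (h k)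
  rw [List.map_singleton, List.prod_singleton] at he
  rw [CoxeterMatrix.toCoxeterSystem_simple, SetLike.mem_coe, ← he, List.map_flatten, List.prod_flatten]
  refine list_prod_mem fun x hx => ?_
  simp only [List.mem_map] at hx
  obtain ⟨y, ⟨z, ⟨i, -, rfl⟩, rfl⟩, rfl⟩ := hx
  exact hS _ (List.get_mem _ _)

/-- The centre, when some power of the Coxeter element negates all fundamental roots. -/
theorem center_two {n : ℕ} (M : CoxeterMatrix (Fin n)) (hc : T.coxCheck (matNat M) = true) (hn : n = D.rank)
    (hf : T.fixCheck = true) (hcn : T.connCheck = true) (m : ℕ)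
    (hneg : T.negWord ((List.replicate m (List.finRange n)).flatten.map Fin.val) = true)
    (hcomm : ∀ k : Fin n, T.eqWord (((List.replicate m (List.finRange n)).flatten ++ [k]).map Fin.val)
      (([k] ++ (List.replicate m (List.finRange n)).flatten).map Fin.val) = true) :
    Nat.card (Subgroup.center M.Group) = 2 ∧
      Subgroup.center M.Group ≤ Subgroup.zpowers ((List.finRange n).map M.simple).prod := by
  subst hn
  set A := (List.replicate m (List.finRange D.rank)).flatten with hA
  set w := (A.map M.simple).prod with hw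
  have hwc : w = ((List.finRange D.rank).map M.simple).prod ^ m := by
    rw [hw, hA, List.map_flatten, List.prod_flatten, List.map_replicate, List.map_replicate, List.prod_replicate]
  obtain ⟨e, he⟩ := C.exists_iso M hc rfl
  have hew : ∀ k < D.rank, C.act (e w) (D.simple k) = D.neg (D.simple k) := by
    intro k hk
    simp only [Fast.negWord, allBelow_iff, Nat.beq_eq, ← C.tables.rank] at hneg
    have hp := C.root.simple_lt k hk
    rw [he, C.act_wprod _ hp, C.tables.neg _ hp, C.tables.simple k hk]
    simpa using hneg k hk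
  have hwZ : w ∈ Subgroup.center M.Group := by
    suffices hC : Subgroup.centralizer ({w} : Set M.Group) = ⊤ from
      Subgroup.centralizer_eq_top_iff_subset.1 hC rfl
    rw [eq_top_iff, ← M.toCoxeterSystem.subgroup_closure_range_simple, Subgroup.closure_le]
    rintro _ ⟨k, rfl⟩
    rw [CoxeterMatrix.toCoxeterSystem_simple, SetLike.mem_coe, Subgroup.mem_centralizer_singleton_iff]
    have := (C.prod_eq_iff M hc rfl _ _).2 (hcomm k)
    simpa [List.prod_append] using this.symm
  have hw1 : w ≠ 1 := by
    intro h
    have h0 := hew 0 C.root.rank_pos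
    rw [h, map_one, C.act_one (C.root.simple_lt 0 C.root.rank_pos)] at h0
    have h1 := congrArg T.key h0
    have h2 : T.key (D.neg (D.simple 0)) = - T.key (D.simple 0) := C.root.key_neg _ (C.root.simple_lt 0 C.root.rank_pos)
    have h3 : T.key (D.simple 0) ≠ 0 := C.root.key_ne _ (C.root.simple_lt 0 C.root.rank_pos)
    omega
  have hZ : ∀ z ∈ Subgroup.center M.Group, z = 1 ∨ z = w := by
    intro z hz
    rcases C.central_cases hf hcn (z := e z) (fun x => by
      rw [← e.apply_symm_apply x, ← map_mul, ← map_mul, Subgroup.mem_center_iff.1 hz]) with h | h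
    · exact Or.inl (e.map_eq_one_iff.1 h)
    · exact Or.inr (e.injective (C.eq_of_act_rank fun k hk => (h k hk).trans (hew k hk).symm))
  refine ⟨?_, fun z hz => ?_⟩
  · rw [Nat.card_eq_two_iff]
    refine ⟨1, ⟨w, hwZ⟩, fun h => hw1 (congrArg Subtype.val h).symm, ?_⟩
    ext z
    simp only [Set.mem_insert_iff, Set.mem_singleton_iff, Set.mem_univ, iff_true]
    rcases hZ z z.2 with h | h
    exacts [Or.inl (Subtype.ext h), Or.inr (Subtype.ext h)]
  · rcases hZ z hz with rfl | rfl
    · exact one_mem _
    · rw [hwc]; exact Subgroup.npow_mem_zpowers _ _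

/-- The centre is trivial when the longest element does not negate all fundamental roots. -/
theorem center_one {n : ℕ} (M : CoxeterMatrix (Fin n)) (hc : T.coxCheck (matNat M) = true) (hn : n = D.rank)
    (hf : T.fixCheck = true) (hcn : T.connCheck = true) (A : List (Fin n))
    (hA : T.w0Word (A.map Fin.val) = true)
    (hne : T.eqWord ((A ++ A).map Fin.val) [] = true ∧ T.negWord (A.map Fin.val) = false) :
    Nat.card (Subgroup.center M.Group) = 1 := by
  subst hn
  rw [Subgroup.card_eq_one, eq_bot_iff]
  intro z hz
  obtain ⟨e, he⟩ := C.exists_iso M hc rfl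
  rw [Subgroup.mem_bot]
  rcases C.central_cases hf hcn (z := e z) (fun x => by
      rw [← e.apply_symm_apply x, ← map_mul, ← map_mul, Subgroup.mem_center_iff.1 hz]) with h | h
  · exact e.map_eq_one_iff.1 h
  exfalso
  set v := C.wprod (ZMod 2) A with hv
  have hvv : v * v = 1 := by
    have h2 := (C.prod_eq_iff M hc rfl (A ++ A) []).2 (by simpa using hne.1)
    have := congrArg e h2
    rw [he, he, List.map_append] at this
    simpa [hv, wprod, List.prod_append] using this
  simp only [Fast.w0Word, allBelow_iff, decide_eq_true_eq, ← C.tables.rank] at hA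
  have hu : v * e z = 1 := C.eq_one_of_pos fun k hk => by
    have hp := C.root.simple_lt k hk
    rw [C.act_mul _ _ hp, h k hk, C.act_neg _ hp, C.neg_pos_iff (C.act_lt _ hp), C.root.neg_iff]
    refine ⟨C.act_lt _ hp, ?_⟩
    rw [hv, C.act_wprod A hp, C.tables.simple k hk]
    exact hA k hk
  have hzv : e z = v := mul_left_cancel (hu.trans hvv.symm)
  have hn2 : T.negWord (A.map Fin.val) = true := by
    simp only [Fast.negWord, allBelow_iff, Nat.beq_eq, ← C.tables.rank]
    intro k hk
    have hp := C.root.simple_lt k hk
    rw [← C.tables.simple k hk, ← C.tables.neg _ hp, ← C.act_wprod (F := ZMod 2) A hp, ← hv, ← hzv]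
    exact h k hk
  rw [hne.2] at hn2
  exact Bool.noConfusion hn2

end Checked

end Cfsg.Agent.Lib.Chev
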