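import Cfsg.Agent.Lib.Chev.Sym

/-!
Graph automorphisms of the Chevalley groups.
-/

set_option autoImplicit false

namespace Cfsg.Agent.Lib.Chev

open Cfsg.Lie

namespace SymData

variable {D : ChevalleyDatum} {T : Fast} {S S' : Sym} (H : SymData D T S S')

/-- The graph automorphism of the group. -/
noncomputable def graphAut (C : Checked D T) (H' : SymData D T S' S) (F : Type*) [Field F] :
    ↥(D.group F) ≃* ↥(D.group F) :=
  have h : ∀ {A A' : Sym} (K : SymData D T A A') (K' : SymData D T A' A),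
      D.group F ≤ (D.group F).comap (MulAut.conj (K.unit K')).toMonoidHom := fun K K' =>
    C.group_le fun r hr t => by
      show K.unit K' * C.xg r t * (K.unit K')⁻¹ ∈ D.group F
      rw [K.unit_xg C K' hr]
      exact C.xg_mem_group (K.r_lt r hr) _
  { toFun := fun g => ⟨H.unit (F := F) H' * (g : GL D.Idx F) * (H.unit H')⁻¹, h H H' g.2⟩
    invFun := fun g => ⟨H'.unit (F := F) H * (g : GL D.Idx F) * (H'.unit H)⁻¹, h H' H g.2⟩
    left_inv := fun g => Subtype.ext (by
      have e : (H'.unit H : GL D.Idx F) = (H.unit H')⁻¹ := Units.ext rfl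
      show H'.unit H * (H.unit H' * (g : GL D.Idx F) * (H.unit H')⁻¹) * (H'.unit H)⁻¹ = _
      rw [e]; group)
    right_inv := fun g => Subtype.ext (by
      have e : (H'.unit H : GL D.Idx F) = (H.unit H')⁻¹ := Units.ext rfl
      show H.unit H' * (H'.unit H * (g : GL D.Idx F) * (H'.unit H)⁻¹) * (H.unit H')⁻¹ = _
      rw [e]; group)
    map_mul' := fun g g' => Subtype.ext (by
      show H.unit H' * ((g : GL D.Idx F) * (g' : GL D.Idx F)) * (H.unit H')⁻¹ =
        H.unit H' * (g : GL D.Idx F) * (H.unit H')⁻¹ * (H.unit H' * (g' : GL D.Idx F) * (H.unit H')⁻¹)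
      group) }

theorem graphAut_spec (C : Checked D T) (H' : SymData D T S' S) {F : Type*} [Field F]
    (g : ↥(D.group F)) (i : ℕ) (t : F) (hi : i < D.rank) :
    (((g : GL D.Idx F) : Matrix D.Idx D.Idx F) = D.x F (D.simple i) t →
      ((H.graphAut C H' F g : GL D.Idx F) : Matrix D.Idx D.Idx F) = D.x F (D.simple (S.p i)) t) ∧
    (((g : GL D.Idx F) : Matrix D.Idx D.Idx F) = D.x F (D.neg (D.simple i)) t →
      ((H.graphAut C H' F g : GL D.Idx F) : Matrix D.Idx D.Idx F) =
        D.x F (D.neg (D.simple (S.p i))) t) := by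
  have hp := C.root.simple_lt i hi
  constructor <;> intro h
  · show ((H.unit H' * (g : GL D.Idx F) * (H.unit H')⁻¹ : GL D.Idx F) : Matrix D.Idx D.Idx F) = _
    rw [C.eq_xg h, H.unit_xg C H' hp, H.e_simple i hi, H.simple i hi]
    simp [sgn]
  · show ((H.unit H' * (g : GL D.Idx F) * (H.unit H')⁻¹ : GL D.Idx F) : Matrix D.Idx D.Idx F) = _
    rw [C.eq_xg h, H.unit_xg C H' (C.root.neg_lt _ hp), H.e_neg _ hp, H.e_simple i hi, H.neg _ hp,
      H.simple i hi]
    simp [sgn]

end SymData

theorem exists_graph {F : Type*} [Field F] {D : ChevalleyDatum} {T : Fast} {S S' : Sym}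
    (H : SymData D T S S') (C : Checked D T) (H' : SymData D T S' S) (L : List ℕ)
    (hL : ∀ i < D.rank, S.p i = L.getD i 0) :
    ∃ α : ↥(D.group F) ≃* ↥(D.group F), ∀ (g : ↥(D.group F)) (i : ℕ) (t : F), i < D.rank →
      (((g : GL D.Idx F) : Matrix D.Idx D.Idx F) = D.x F (D.simple i) t →
        ((α g : GL D.Idx F) : Matrix D.Idx D.Idx F) = D.x F (D.simple (L.getD i 0)) t) ∧
      (((g : GL D.Idx F) : Matrix D.Idx D.Idx F) = D.x F (D.neg (D.simple i)) t →
        ((α g : GL D.Idx F) : Matrix D.Idx D.Idx F) = D.x F (D.neg (D.simple (L.getD i 0))) t) := by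
  refine ⟨H.graphAut C H' F, fun g i t hi => ?_⟩
  rw [← hL i hi]
  exact H.graphAut_spec C H' g i t hi

end Cfsg.Agent.Lib.Chev
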