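import Cfsg.Agent.Lib.Chev.All
import Cfsg.Agent.Lib.Chev.Orders
import Cfsg.Agent.Lib.Chev.G2TwoData

/-!
The Chevalley group of type G2 over two elements on its sixty-three long root vectors.
-/

set_option autoImplicit false

namespace Cfsg.Agent.Lib.Chev.G2Two

open Cfsg.Lie Cfsg.Agent.Lib

/-- a list of codes as terms -/
def toTms (l : List ℕ) : List Tm := l.map fun b => ⟨b, 0, 0, 1⟩

/-- the vector of a point -/
def pt (i : ℕ) : List Tm := toTms (ptCodes.getD i [])

/-- the parities of the coefficients, as a bit mask -/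
def mask : List Tm → ℕ
  | [] => 0
  | q :: l => bif Nat.beq (q.c.natAbs % 2) 1 then (2 ^ q.b) ^^^ mask l else mask l

theorem pt_checks : ∀ i : Fin 63, ((pt i.1).all fun q => Nat.blt q.b 14) = true ∧
    ∀ j : Fin 63, mask (pt i.1) = mask (pt j.1) → i = j := by decide +kernel

theorem pt_images : ∀ r : Fin 12, ∀ i : Fin 63,
    Nat.beq (mask (G2.fast.evalW [⟨r.1, 1, 0, 0⟩] (pt i.1)))
      (mask (pt ((ptPerms.getD r.1 []).getD i.1 0))) = true := by decide +kernel

theorem perm_checks : ∀ r : Fin 12, ∀ i : Fin 63, (ptPerms.getD r.1 []).getD i.1 0 < 63 ∧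
    (ptPerms.getD r.1 []).getD ((ptPerms.getD r.1 []).getD i.1 0) 0 = i.1 := by decide +kernel

/-- the permutation of a root -/
def perm (r : Fin 12) : Equiv.Perm (Fin 63) where
  toFun i := ⟨(ptPerms.getD r.1 []).getD i.1 0, (perm_checks r i).1⟩
  invFun i := ⟨(ptPerms.getD r.1 []).getD i.1 0, (perm_checks r i).1⟩
  left_inv i := Fin.ext (perm_checks r i).2
  right_inv i := Fin.ext (perm_checks r i).2

variable (F : Type*) [Field F]

/-- a basis index from a code -/
noncomputable def idxOf (b : Fin 14) : chevG2.Idx :=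
  if h : b.1 < 2 then Sum.inl ⟨b.1, h⟩ else Sum.inr ⟨b.1 - 2, show b.1 - 2 < 12 by omega⟩

/-- the vector of a list of terms -/
noncomputable def vec (l : List Tm) : chevG2.Idx → F := tmsVal chevG2 (1 : F) 1 l

variable [CharP F 2]

theorem vec_apply (l : List Tm) (h : ∀ q ∈ l, q.b < 14) (b : Fin 14) :
    vec F l (idxOf b) = if (mask l).testBit b.1 then 1 else 0 := by
  induction l with
  | nil => simp [vec, mask]
  | cons q l ih =>
    have hq := h q (by simp)
    have hv : vecOf chevG2 F q.b (idxOf b) = if q.b = b.1 then 1 else 0 := by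
      have hr : chevG2.rank = 2 := rfl
      simp only [vecOf, idxOf, hr]
      by_cases h1 : q.b < 2 <;> by_cases h2 : b.1 < 2
      · rw [if_pos h1, dif_pos h2, bh_apply]
        exact if_congr eq_comm rfl rfl
      · rw [if_pos h1, dif_neg h2, bh_apply]
        simp [show q.b ≠ b.1 by omega]
      · rw [if_neg h1, dif_pos h2, bv_apply]
        simp [show q.b ≠ b.1 by omega]
      · rw [if_neg h1, dif_neg h2, bv_apply]
        exact if_congr (by show b.1 - 2 = q.b - 2 ↔ q.b = b.1; omega) rfl rfl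
    rw [vec, tmsVal_cons, Pi.add_apply]
    rw [vec] at ih
    rw [ih fun x hx => h x (by simp [hx])]
    simp only [tmVal, one_pow, mul_one, Pi.smul_apply, smul_eq_mul, hv]
    have hc : ((q.c : ℤ) : F) = if q.c.natAbs % 2 = 1 then 1 else 0 := by
      rcases Nat.mod_two_eq_zero_or_one q.c.natAbs with e | e
      · rw [if_neg (by omega), CharP.intCast_eq_zero_iff F 2]
        omega
      · obtain ⟨k, hk⟩ : ∃ k, q.c = 2 * k + 1 := ⟨q.c / 2, by omega⟩
        rw [if_pos e, hk]
        push_cast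
        rw [CharTwo.two_eq_zero, zero_mul, zero_add]
    rw [hc, mask]
    rcases Nat.mod_two_eq_zero_or_one q.c.natAbs with e | e
    · simp [e, show Nat.beq 0 1 = false from rfl]
    · simp only [e, if_true, Nat.beq_refl, cond_true, Nat.testBit_xor, Nat.testBit_two_pow, one_mul]
      by_cases hb : q.b = b.1 <;> cases (mask l).testBit b.1 <;> simp [hb, CharTwo.add_self_eq_zero]

theorem idxOf_surj (a : chevG2.Idx) : ∃ b, idxOf b = a := by
  rcases a with j | u
  · have hj : j.1 < 2 := j.2
    exact ⟨⟨j.1, by omega⟩, by simp [idxOf, hj]⟩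
  · have hu : u.1 < 12 := u.2
    refine ⟨⟨u.1 + 2, by omega⟩, ?_⟩
    simp [idxOf, show ¬ u.1 + 2 < 2 by omega]

theorem mask_lt : ∀ l : List Tm, (∀ q ∈ l, q.b < 14) → mask l < 2 ^ 14
  | [], _ => by simp [mask]
  | q :: l, h => by
    have ih := mask_lt l fun x hx => h x (by simp [hx])
    unfold mask
    cases Nat.beq (q.c.natAbs % 2) 1
    · exact ih
    · exact Nat.xor_lt_two_pow (Nat.pow_lt_pow_right (by norm_num) (h q (by simp))) ih

theorem vec_eq_iff {v w : List Tm} (hv : ∀ q ∈ v, q.b < 14) (hw : ∀ q ∈ w, q.b < 14) :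
    vec F v = vec F w ↔ mask v = mask w := by
  refine ⟨fun h => Nat.eq_of_testBit_eq fun b => ?_, fun h => funext fun a => ?_⟩
  · by_cases hb : b < 14
    · have := congrFun h (idxOf ⟨b, hb⟩)
      rw [vec_apply F v hv, vec_apply F w hw] at this
      simp only at this
      cases hb1 : (mask v).testBit b <;> cases hb2 : (mask w).testBit b <;> simp [hb1, hb2] at this ⊢
    · have hp : (2 : ℕ) ^ 14 ≤ 2 ^ b := Nat.pow_le_pow_right (by norm_num) (by omega)
      rw [Nat.testBit_lt_two_pow ((mask_lt v hv).trans_le hp),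
        Nat.testBit_lt_two_pow ((mask_lt w hw).trans_le hp)]
  · obtain ⟨b, rfl⟩ := idxOf_surj a
    rw [vec_apply F v hv, vec_apply F w hw, h]

theorem pt_valid (i : Fin 63) : ∀ q ∈ pt i.1, q.b < 14 := fun q hq => by
  simpa [Nat.blt_eq] using List.all_eq_true.1 (pt_checks i).1 q hq

/-- `g` permutes the points as `σ` does. -/
def Acts (g : GL chevG2.Idx F) (σ : Equiv.Perm (Fin 63)) : Prop :=
  ∀ i, (g : Matrix chevG2.Idx chevG2.Idx F).mulVec (vec F (pt i.1)) = vec F (pt (σ i).1)

variable {F}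

theorem acts_unique {g : GL chevG2.Idx F} {σ τ : Equiv.Perm (Fin 63)} (h : Acts F g σ) (h' : Acts F g τ) :
    σ = τ :=
  Equiv.ext fun i => (pt_checks (σ i)).2 _
    ((vec_eq_iff F (pt_valid (σ i)) (pt_valid (τ i))).1 ((h i).symm.trans (h' i)))

theorem acts_mul {g h : GL chevG2.Idx F} {σ τ : Equiv.Perm (Fin 63)} (hg : Acts F g σ) (hh : Acts F h τ) :
    Acts F (g * h) (σ * τ) := fun i => by
  rw [Units.val_mul, ← Matrix.mulVec_mulVec, hh i, hg (τ i)]; rfl

theorem acts_gen (r : Fin 12) {g : GL chevG2.Idx F}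
    (hg : (g : Matrix chevG2.Idx chevG2.Idx F) = chevG2.x F r.1 1) : Acts F g (perm r) := fun i => by
  have h := evalW_sound (F := F) 1 1 G2.checked.tables G2.checked.root [⟨r.1, 1, 0, 0⟩]
    (fun L hL => by rw [List.mem_singleton.1 hL]; exact r.2) (pt i.1) (pt_valid i)
  have e : (g : Matrix chevG2.Idx chevG2.Idx F).mulVec (vec F (pt i.1)) =
      vec F (G2.fast.evalW [⟨r.1, 1, 0, 0⟩] (pt i.1)) := by
    rw [vec, vec, ← h.2, hg]
    congr 1
    simp [realize, wordMat_singleton]
  rw [e]
  exact (vec_eq_iff F h.1 (pt_valid (perm r i))).2 (Nat.eq_of_beq_eq_true (pt_images r i))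

theorem exists_acts {F : Type*} [Field F] [Fintype F] [CharP F 2] (hF : Fintype.card F = 2)
    {g : GL chevG2.Idx F} (hg : g ∈ chevG2.group F) : ∃ σ, Acts F g σ := by
  classical
  induction hg using Subgroup.closure_induction with
  | mem x hx =>
    obtain ⟨r, t, e⟩ := hx
    have ht : t = 0 ∨ t = 1 := by
      by_contra h
      push Not at h
      have : ({0, 1, t} : Finset F).card = 3 := by simp [h.1.symm, h.2.symm]
      have := Finset.card_le_univ ({0, 1, t} : Finset F)
      omega
    rcases ht with rfl | rfl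
    · have h1 : x = 1 := by
        refine Units.ext ?_
        rw [e, ← x_eq_xMat r.2, ← G2.checked.val_xg, G2.checked.xg_zero]
      exact ⟨1, fun i => by simp [h1]⟩
    · exact ⟨_, acts_gen ⟨r.1, r.2⟩ (by rw [e, ← x_eq_xMat r.2])⟩
  | one => exact ⟨1, fun i => by simp⟩
  | mul x y _ _ hx hy =>
    obtain ⟨σ, hσ⟩ := hx
    obtain ⟨τ, hτ⟩ := hy
    exact ⟨_, acts_mul hσ hτ⟩
  | inv x _ hx =>
    obtain ⟨σ, hσ⟩ := hx
    refine ⟨σ⁻¹, fun i => ?_⟩
    have := hσ (σ⁻¹ i)
    rw [show σ (σ⁻¹ i) = i from σ.apply_symm_apply i] at this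
    rw [← this, Matrix.mulVec_mulVec, ← Units.val_mul, inv_mul_cancel, Units.val_one, Matrix.one_mulVec]

theorem sign_two : Equiv.Perm.sign (perm 2) ≠ 1 := by decide +kernel

/-- The action, with the root elements in its image and a commutator subgroup of index at least two. -/
theorem exists_action {F : Type*} [Field F] [Fintype F] (hF : Fintype.card F = 2) :
    ∃ φ : ↥(chevG2.group F) →* Equiv.Perm (Fin 63), (∀ r, perm r ∈ φ.range) ∧
      Nat.card ↥(commutator ↥(chevG2.group F)) ≤ 6048 := by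
  classical
  haveI : CharP F 2 := charP_of_card_eq_prime hF
  choose f hf using fun g : ↥(chevG2.group F) => exists_acts hF g.2
  let φ : ↥(chevG2.group F) →* Equiv.Perm (Fin 63) :=
    MonoidHom.mk' f fun a b => acts_unique (hf (a * b)) (acts_mul (hf a) (hf b))
  have hr : ∀ r : Fin 12, perm r ∈ φ.range := fun r =>
    ⟨⟨G2.checked.xg r.1 1, G2.checked.xg_mem_group r.2 1⟩,
      acts_unique (hf _) (acts_gen r (G2.checked.val_xg _ _))⟩
  refine ⟨φ, hr, ?_⟩
  have hne : commutator ↥(chevG2.group F) ≠ ⊤ := fun htop => by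
    obtain ⟨g, hg⟩ := hr 2
    have hle := Abelianization.commutator_subset_ker (Equiv.Perm.sign.comp φ)
    have : g ∈ (Equiv.Perm.sign.comp φ).ker := hle (htop ▸ Subgroup.mem_top g)
    rw [MonoidHom.mem_ker, MonoidHom.comp_apply, hg] at this
    exact sign_two this
  have h2 : 2 ≤ (commutator ↥(chevG2.group F)).index := by
    have h0 : (commutator ↥(chevG2.group F)).index ≠ 1 := fun e => hne (Subgroup.index_eq_one.1 e)
    have h1 : (commutator ↥(chevG2.group F)).index ≠ 0 := Subgroup.index_ne_zero_of_finite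
    omega
  have hm := (commutator ↥(chevG2.group F)).card_mul_index
  have hc := card_G2 (F := F) hF
  norm_num at hc
  rw [Nat.card_eq_fintype_card (α := ↥(chevG2.group F)), hc] at hm
  nlinarith

end Cfsg.Agent.Lib.Chev.G2Two
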