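import Cfsg.Agent.Lib.Chev.InvolMono
import Cfsg.Agent.Lib.Chev.Poincare
import Cfsg.Agent.Lib.Chev.RootCent
import Cfsg.Agent.Lib.Chev.Orders

/-!
Classes of diagonal involutions and the order of the centralizer of the diagonal involution whose
character is the parity of one root coefficient.
-/

set_option autoImplicit false

namespace Cfsg.Agent.Lib.Chev

open Cfsg.Lie Cfsg.Agent.Lib

/-! ### bit masks -/

/-- A mask from a predicate. -/
def mkMask : ℕ → (ℕ → Bool) → ℕ
  | 0, _ => 0
  | l + 1, f => mkMask l f ||| bif f l then 2 ^ l else 0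

theorem testBit_mkMask (f : ℕ → Bool) : ∀ (l k : ℕ), (mkMask l f).testBit k = (decide (k < l) && f k)
  | 0, k => by simp [mkMask]
  | l + 1, k => by
    rw [mkMask, Nat.testBit_or, testBit_mkMask f l k]
    rcases lt_trichotomy k l with h | h | h
    · have : l ≠ k := by omega
      cases hf : f l <;> simp [Nat.testBit_two_pow, this, h, show k < l + 1 by omega]
    · subst h
      cases hf : f k <;> simp [Nat.testBit_two_pow]
    · have : l ≠ k := by omega
      cases hf : f l <;> simp [Nat.testBit_two_pow, this, show ¬ k < l by omega, show ¬ k < l + 1 by omega]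

/-- Membership of numbers. -/
def memB (a : ℕ) : List ℕ → Bool
  | [] => false
  | b :: l => Nat.beq a b || memB a l

theorem memB_iff {a : ℕ} : ∀ {l : List ℕ}, memB a l = true ↔ a ∈ l
  | [] => by simp [memB]
  | b :: l => by simp [memB, memB_iff (l := l)]

/-- Balanced base 32 digit. -/
def bal (z : ℤ) : ℤ := (z + 16) % 32 - 16

/-- Digits from the end. -/
def dgt : ℕ → ℤ → ℤ
  | 0, z => bal z
  | m + 1, z => dgt m ((z - bal z) / 32)

theorem dgt_enc : ∀ (l : ℕ) (f : ℕ → ℤ), (∀ k < l, |f k| ≤ 6) → ∀ j < l,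
    dgt (l - 1 - j) (enc l f) = f j
  | 0, _, _, j, hj => absurd hj (by omega)
  | l + 1, f, hf, j, hj => by
    have hl := abs_le.1 (hf l (by omega))
    have hb : bal (enc (l + 1) f) = f l := by simp only [bal, enc]; omega
    rcases Nat.eq_or_lt_of_le (Nat.lt_succ_iff.1 hj) with rfl | h
    · simpa [dgt] using hb
    · rw [show l + 1 - 1 - j = (l - 1 - j) + 1 by omega, dgt, hb,
        show (enc (l + 1) f - f l) / 32 = enc l f by simp only [enc]; omega]
      exact dgt_enc l f (fun k hk => hf k (by omega)) j h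

namespace Fast

variable (T : Fast)

/-- Parity mask of a row of Cartan integers. -/
def oddMask (i : ℕ) : ℕ := mkMask T.l fun k => (T.A i (T.sp k)).natAbs % 2 == 1

/-- A fundamental reflection on a sign mask. -/
def stp (i ψ : ℕ) : ℕ := bif ψ.testBit i then ψ ^^^ T.oddMask i else ψ

/-- New elements of an orbit. -/
def news (seen : List ℕ) : List ℕ → List ℕ → List ℕ
  | [], acc => acc
  | a :: l, acc => bif memB a seen || memB a acc then news seen l acc else news seen l (a :: acc)

/-- The orbit of a mask. -/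
def orbit : ℕ → List ℕ → List ℕ → List ℕ
  | 0, seen, _ => seen
  | f + 1, seen, front =>
    orbit f (news seen (front.flatMap fun ψ => (List.range T.l).map fun i => T.stp i ψ) [] ++ seen)
      (news seen (front.flatMap fun ψ => (List.range T.l).map fun i => T.stp i ψ) [])

/-- Every non-zero mask lies in one of two orbits. -/
def twoOrbits (f a b : ℕ) : Bool :=
  allBelow (2 ^ T.l) fun ψ =>
    Nat.beq ψ 0 || memB ψ (T.orbit f [a] [a]) || memB ψ (T.orbit f [b] [b])

/-- A sign vector realises a mask. -/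
def signsOK (b ψ : ℕ) : Bool :=
  allBelow T.l fun k =>
    ((sumB T.l fun i => bif b.testBit i then T.A i (T.sp k) else 0).natAbs % 2 == 1) == ψ.testBit k

/-- Parity of the coefficient at `j`, read from a key. -/
def oddAt (j : ℕ) (z : ℤ) : Bool := (dgt (T.l - 1 - j) z).natAbs % 2 == 1

/-- The state of a representative fixes the mask of node `j`. -/
def goodZ (j : ℕ) (z : List ℤ) : Bool :=
  allBelow T.l fun k => T.oddAt j (z.getD k 0) == Nat.beq k j

/-- The number of fixed inversions, read from a state. -/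
def bZ (j : ℕ) (z : List ℤ) : ℕ :=
  ((List.range T.n).filter fun s => ltI 0 (T.key s) &&
    ltI (sumB T.l fun k => T.cf s k * z.getD k 0) 0 &&
    ((sumB T.l fun k => T.cf s k * dgt (T.l - 1 - j) (z.getD k 0)).natAbs % 2 == 0)).length

/-- All states of a family of minimal representatives. -/
def collect (K J : List ℕ) : ℕ → List (List ℤ) → List (List ℤ)
  | 0, _ => []
  | _ + 1, [] => []
  | f + 1, L => L ++ collect K J f (T.nextLayer K J L)

/-- The weighted top factor. -/
def topPoly (j : ℕ) (J : List ℕ) : List ℤ :=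
  ((T.collect (List.range T.l) J (T.n + 1) [T.z0]).filter (T.goodZ j)).foldr
    (fun z a => addL (List.replicate (T.bZ j z) 0 ++ [1]) a) []

/-- The Poincaré series along a chain, top node first. -/
def polyO : List ℕ → List ℤ
  | [] => [1]
  | a :: l => mulL (T.sizes (a :: l) l (T.n + 1) [T.z0]) (polyO l)

/-- The number of positive roots with even coefficient at `j`. -/
def evenPos (j : ℕ) : ℕ :=
  ((List.range T.n).filter fun r => ltI 0 (T.key r) && (T.cf r j).natAbs % 2 == 0).length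

/-- The order formula of a centralizer. -/
def centCheckDeg (j : ℕ) (o : List ℕ) (N : ℕ) (degs : List ℕ) : Bool :=
  Nat.blt j T.l && Nat.beq (T.evenPos j) N && !memB j o && Nat.beq o.length (T.l - 1) &&
    (allBelow T.l fun i => Nat.beq i j || memB i o) && (o.all fun i => Nat.blt i T.l) &&
  decide (mulL ((List.range T.l).foldr (fun _ a => mulL [-1, 1] a) [1])
      (mulL (T.polyO o) (T.topPoly j o)) =
    degs.foldr (fun d a => mulL ((-1) :: (List.replicate (d - 1) 0 ++ [1])) a) [1])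

end Fast

namespace Checked

variable {D : ChevalleyDatum} {T : Fast} (C : Checked D T) {F : Type*} [Field F]
include C

/-! ### classes -/

/-- The mask of a torus element of order two. -/
def Bits (C : Checked D T) (c : Fin D.rank → Fˣ) (ψ : ℕ) : Prop :=
  ∀ k < D.rank, C.chrOf c (D.simple k) = if ψ.testBit k then -1 else 1

theorem torus_ext {c c' : Fin D.rank → Fˣ}
    (h : ∀ k < D.rank, C.chrOf c (D.simple k) = C.chrOf c' (D.simple k)) : C.torus c = C.torus c' := by
  refine Units.ext ?_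
  rw [C.val_torus, C.val_torus]
  refine dg_congr fun v hv => ?_
  rw [C.chrOf_lin c hv, C.chrOf_lin c' hv]
  refine congrArg Units.val (Finset.prod_congr rfl fun k _ => ?_)
  congr 1
  exact Units.ext (h k k.2)

theorem stp_step {c : Fin D.rank → Fˣ} {ψ : ℕ} (h : C.Bits c ψ) {i : ℕ} (hi : i < D.rank) :
    ∃ c' : Fin D.rank → Fˣ, C.Bits c' (T.stp i ψ) ∧
      C.ng i * C.torus c * (C.ng i)⁻¹ = C.torus c' := by
  refine ⟨_, fun k hk => ?_, mul_inv_eq_iff_eq_mul.2 (C.ng_torus hi c)⟩
  have hp := C.root.simple_lt k hk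
  rw [C.chrOf_mul, C.chrOf_single, Units.val_inv_eq_inv_val, Units.val_mk0, h i hi, h k hk, Fast.stp,
    C.tables.cartan i hi _ hp, C.tables.simple k hk]
  cases hb : ψ.testBit i
  · simp
  · rw [cond_true, Nat.testBit_xor, Fast.oddMask, testBit_mkMask]
    have hk' : k < T.l := C.tables.rank ▸ hk
    simp only [if_true, inv_neg, inv_one, decide_eq_true hk', Bool.true_and]
    rcases Int.even_or_odd (T.A i (T.sp k)) with he | ho
    · rw [he.neg_one_zpow, mul_one,
        show ((T.A i (T.sp k)).natAbs % 2 == 1) = false by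
          simpa [Nat.even_iff] using Int.natAbs_even.2 he, Bool.xor_false]
    · rw [ho.neg_one_zpow,
        show ((T.A i (T.sp k)).natAbs % 2 == 1) = true by
          simpa [Nat.odd_iff] using Int.natAbs_odd.2 ho]
      cases ψ.testBit k <;> simp

theorem news_mem {seen : List ℕ} : ∀ (l acc : List ℕ) (a : ℕ),
    a ∈ Fast.news seen l acc → a ∈ l ∨ a ∈ acc := by
  intro l
  induction l with
  | nil => intro acc a h; exact Or.inr h
  | cons b l ih =>
    intro acc a h
    rw [Fast.news] at h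
    cases hb : (memB b seen || memB b acc) <;> rw [hb] at h
    · rcases ih _ _ h with h | h
      · exact Or.inl (by simp [h])
      · rcases List.mem_cons.1 h with rfl | h
        · exact Or.inl (by simp)
        · exact Or.inr h
    · rcases ih _ _ h with h | h
      · exact Or.inl (by simp [h])
      · exact Or.inr h

/-- The orbit of a mask consists of conjugates. -/
theorem orbit_sound {c : Fin D.rank → Fˣ} : ∀ (f : ℕ) (seen front : List ℕ),
    (∀ ψ ∈ seen, ∃ y ∈ D.monomialSubgroup F, ∃ c', C.Bits c' ψ ∧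
      y * C.torus c * y⁻¹ = C.torus c') →
    (∀ ψ ∈ front, ψ ∈ seen) →
    ∀ ψ ∈ T.orbit f seen front, ∃ y ∈ D.monomialSubgroup F, ∃ c', C.Bits c' ψ ∧
      y * C.torus c * y⁻¹ = C.torus c' := by
  intro f
  induction f with
  | zero => intro seen front hs _ ψ h; exact hs ψ h
  | succ f ih =>
    intro seen front hs hf ψ h
    rw [Fast.orbit] at h
    refine ih _ _ ?_ (fun x hx => List.mem_append_left _ hx) ψ h
    intro x hx
    rcases List.mem_append.1 hx with hx | hx
    · rcases C.news_mem _ _ _ hx with hx | hx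
      · obtain ⟨φ, hφ, hx⟩ := List.mem_flatMap.1 hx
        obtain ⟨i, hi, rfl⟩ := List.mem_map.1 hx
        have hi' : i < D.rank := C.tables.rank ▸ List.mem_range.1 hi
        obtain ⟨y, hy, c', hc', e⟩ := hs φ (hf φ hφ)
        obtain ⟨c'', hc'', e'⟩ := C.stp_step hc' hi'
        refine ⟨C.ng i * y, mul_mem (C.ng_mem hi') hy, c'', hc'', ?_⟩
        rw [← e', ← e]; group
      · simp at hx
    · exact hs x hx

theorem exists_bits {b ψ : ℕ} (h : T.signsOK b ψ = true) :
    ∃ c : Fin D.rank → Fˣ, C.Bits c ψ ∧ C.torus c * C.torus c = 1 := by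
  refine ⟨fun i => (-1 : Fˣ) ^ (if b.testBit i.val then 1 else 0 : ℕ), fun k hk => ?_, ?_⟩
  · have hp := C.root.simple_lt k hk
    have hk' : k < T.l := C.tables.rank ▸ hk
    have h' := (allBelow_iff.1 h) k hk'
    simp only [beq_iff_eq] at h'
    rw [← h', chrOf]
    have e : ∀ i : Fin D.rank, ((-1 : Fˣ) ^ (if b.testBit i.val then 1 else 0 : ℕ)) ^ D.cartan i (D.simple k) =
        (-1 : Fˣ) ^ (bif b.testBit i.val then T.A i (T.sp k) else 0) := by
      intro i
      rw [C.tables.cartan i i.2 _ hp, C.tables.simple k hk]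
      cases b.testBit i.val <;> simp
    rw [Finset.prod_congr rfl fun i _ => e i, ← zpow_sum',
      Fin.sum_univ_eq_sum_range (fun i => bif b.testBit i then T.A i (T.sp k) else 0), ← sumB_eq]
    rw [show D.rank = T.l from C.tables.rank]
    generalize sumB T.l (fun i => bif b.testBit i then T.A i (T.sp k) else 0) = S
    rcases Int.even_or_odd S with he | ho
    · rw [show (S.natAbs % 2 == 1) = false by simpa [Nat.even_iff] using Int.natAbs_even.2 he,
        he.neg_one_zpow]
      simp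
    · rw [show (S.natAbs % 2 == 1) = true by simpa [Nat.odd_iff] using Int.natAbs_odd.2 ho,
        ho.neg_one_zpow]
      simp
  · rw [← C.torus_mul, C.torus_eq_one_iff]
    refine (map_mul _ _ _).trans ?_
    rw [← map_mul, ← map_one C.cartanMap]
    congr 1
    funext i
    simp only [Pi.mul_apply, Pi.one_apply]
    rw [← mul_pow]; simp

/-- Two classes of involutions. -/
theorem invol_classes [Fintype F] (h2F : (2 : F) ≠ 0) (hchk : orthChk T = true)
    (hinj : ∀ d : Fin D.rank → Fˣ, C.torus d = 1 → d = 1) {f a b : ℕ}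
    (horb : T.twoOrbits f a b = true) {ca cb : Fin D.rank → Fˣ} (hca : C.Bits ca a)
    (hcb : C.Bits cb b) {g : GL D.Idx F} (hg : g ∈ D.group F) (h2 : g * g = 1) (h1 : g ≠ 1) :
    ∃ y ∈ D.group F, y * g * y⁻¹ = C.torus ca ∨ y * g * y⁻¹ = C.torus cb := by
  obtain ⟨y, hy, hd⟩ := C.conj_diag_of_invol h2F hchk hinj hg h2
  obtain ⟨c, hc⟩ := C.exists_torus hd
  have hcc : C.torus (c * c) = 1 := by rw [C.torus_mul, hc, conj_mul, h2]; group
  have hsq : ∀ k < D.rank, C.chrOf c (D.simple k) = 1 ∨ C.chrOf c (D.simple k) = -1 := by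
    intro k hk
    refine mul_self_eq_one_iff.1 ?_
    rw [← C.chrOf_mul, hinj _ hcc]
    simp [chrOf]
  classical
  set ψ := mkMask T.l fun k => decide (C.chrOf c (D.simple k) = -1) with hψ
  have hne : (-1 : F) ≠ 1 := fun h => h2F (by linear_combination -h)
  have hbits : C.Bits c ψ := by
    intro k hk
    rw [hψ, testBit_mkMask, decide_eq_true (show k < T.l from C.tables.rank ▸ hk),
      Bool.true_and]
    rcases hsq k hk with e | e <;> simp [e, hne.symm]
  have hψ0 : ψ ≠ 0 := by
    intro h0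
    refine h1 ?_
    have : C.torus c = 1 := by
      have e := C.torus_ext (c := c) (c' := (1 : Fin D.rank → Fˣ)) fun k hk => by
        rw [hbits k hk, h0]; simp [chrOf]
      rw [e]; exact map_one (C.torusHom (F := F))
    rw [hc] at this
    exact conj_eq_one_iff.1 this
  have hlt : ψ < 2 ^ T.l := by
    refine Nat.lt_pow_two_of_testBit _ fun i hi => ?_
    rw [hψ, testBit_mkMask]
    simp [decide_eq_false (show ¬ i < T.l by omega)]
  have h := (allBelow_iff.1 horb) ψ hlt
  simp only [Bool.or_eq_true, Nat.beq_eq, hψ0, false_or, memB_iff] at h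
  have key : ∀ (a : ℕ) (ca : Fin D.rank → Fˣ), C.Bits ca a → ψ ∈ T.orbit f [a] [a] →
      ∃ z ∈ D.group F, z * g * z⁻¹ = C.torus ca := by
    intro a ca hca hmem
    obtain ⟨z, hz, c', hc', e⟩ := C.orbit_sound (c := ca) f [a] [a]
      (fun x hx => by
        rw [List.mem_singleton] at hx
        exact ⟨1, one_mem _, ca, hx ▸ hca, by group⟩)
      (fun x hx => hx) ψ hmem
    refine ⟨z⁻¹ * y, mul_mem (inv_mem (C.monomial_le_group hz)) hy, ?_⟩
    have e' : C.torus c' = C.torus c := C.torus_ext fun k hk => by rw [hc' k hk, hbits k hk]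
    calc z⁻¹ * y * g * (z⁻¹ * y)⁻¹ = z⁻¹ * (y * g * y⁻¹) * z := by group
      _ = z⁻¹ * (z * C.torus ca * z⁻¹) * z := by rw [← hc, ← e', ← e]
      _ = C.torus ca := by group
  rcases h with h | h
  · obtain ⟨z, hz, e⟩ := key a ca hca h
    exact ⟨z, hz, Or.inl e⟩
  · obtain ⟨z, hz, e⟩ := key b cb hcb h
    exact ⟨z, hz, Or.inr e⟩

/-! ### Weyl sums -/

theorem factor_evalO {R : Type*} [CommRing R] (q : R) {K J : List ℕ}
    (hK : ∀ i ∈ K, i < D.rank) (hJ : ∀ i ∈ J, i < D.rank) :
    evalL q (T.sizes K J (T.n + 1) [T.z0]) = ∑ x ∈ C.reps F K J, q ^ C.wlen x := by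
  rw [show [T.z0] = T.layer K J 0 from rfl, C.sizes_eval q _ _ _ _ (C.layer_empty hK hJ (by omega))]
  simp only [zero_add]
  rw [← Finset.sum_fiberwise_of_maps_to (t := Finset.range (T.n + 1)) (g := fun x => C.wlen x)
    (fun x _ => Finset.mem_range.2 (Nat.lt_succ_of_le (C.wlen_le x)))]
  refine Finset.sum_congr rfl fun m _ => ?_
  rw [Finset.sum_congr rfl (g := fun _ => q ^ m) fun x hx => by rw [(Finset.mem_filter.1 hx).2],
    Finset.sum_const, C.card_layer hK hJ, nsmul_eq_mul]

open Classical in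
theorem sum_wsubO {R : Type*} [CommRing R] (q : R) : ∀ o : List ℕ, (∀ i ∈ o, i < D.rank) →
    ∑ w ∈ (Finset.univ : Finset (C.W F)).filter (fun w => w ∈ C.wsub F {i | i ∈ o}),
      q ^ C.wlen w = evalL q (T.polyO o) := by
  intro o ho
  induction o with
  | nil =>
    have h : ∀ w, w ∈ C.wsub F {i | i ∈ ([] : List ℕ)} ↔ w = 1 := fun w => by
      constructor
      · intro hw
        by_contra hne
        obtain ⟨i, -, hi, -⟩ := C.exists_right_descent hw fun h =>
          hne (BN.eq_one_of_len_eq_zero _ h)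
        simp at hi
      · rintro rfl; exact one_mem _
    rw [Finset.sum_congr (Finset.ext (fun w => by simp only [Finset.mem_filter, Finset.mem_univ, true_and, h, Finset.mem_singleton]) : _ = ({1} : Finset (C.W F))) fun _ _ => rfl]
    simp [Fast.polyO, evalL, wlen, BN.len_one]
  | cons a o ih =>
    have ho' : ∀ i ∈ o, i < D.rank := fun i hi => ho i (by simp [hi])
    rw [Fast.polyO, evalL_mulL, ← ih ho', C.factor_evalO (F := F) q ho ho', Finset.sum_mul_sum,
      ← Finset.sum_product']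
    have hsub : {i | i ∈ o} ⊆ {i | i ∈ a :: o} := fun i hi => by
      simp only [Set.mem_setOf_eq, List.mem_cons] at hi ⊢; exact Or.inr hi
    have hlen : ∀ x ∈ C.minReps F {i | i ∈ a :: o} {i | i ∈ o},
        ∀ v ∈ C.wsub F {i | i ∈ o}, C.wlen (x * v) = C.wlen x + C.wlen v := by
      intro x hx v hv
      obtain ⟨x', hx', v', hv', e, el⟩ := C.exists_factor hsub (mul_mem hx.1 (C.wsub_mono hsub hv))
      obtain ⟨rfl, rfl⟩ := C.factor_unique hx hx' hv hv' e
      exact el
    refine (Finset.sum_bij (fun p _ => p.1 * p.2) ?_ ?_ ?_ ?_).symm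
    · rintro ⟨x, v⟩ h
      simp only [reps, Finset.mem_product, Finset.mem_filter, Finset.mem_univ, true_and] at h ⊢
      exact mul_mem h.1.1 (C.wsub_mono hsub h.2)
    · rintro ⟨x, v⟩ h ⟨x', v'⟩ h' e
      simp only [reps, Finset.mem_product, Finset.mem_filter, Finset.mem_univ, true_and] at h h'
      obtain ⟨rfl, rfl⟩ := C.factor_unique h.1 h'.1 h.2 h'.2 e
      rfl
    · intro w hw
      simp only [Finset.mem_filter, Finset.mem_univ, true_and] at hw
      obtain ⟨x, hx, v, hv, e, -⟩ := C.exists_factor hsub hw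
      exact ⟨(x, v), by simp only [reps, Finset.mem_product, Finset.mem_filter, Finset.mem_univ, true_and]; exact ⟨hx, hv⟩, e.symm⟩
    · rintro ⟨x, v⟩ h
      simp only [reps, Finset.mem_product, Finset.mem_filter, Finset.mem_univ, true_and] at h
      rw [hlen x h.1 v h.2, pow_add]

/-- The roots of even coefficient at `j`. -/
def Ev (_ : Checked D T) (j : ℕ) : Set ℕ := {r | Even (T.aux.coef r j)}

/-- A Weyl element fixes the parity character of `j`. -/
def Stab (C : Checked D T) (j : ℕ) (w : C.W F) : Prop :=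
  ∀ k < D.rank, (Even (T.aux.coef (C.act w⁻¹ (D.simple k)) j) ↔ k ≠ j)

theorem coef_act (w : C.W F) {r : ℕ} (hr : r < D.nroots) {j : ℕ} (hj : j < D.rank) :
    T.aux.coef (C.act w r) j =
      ∑ k ∈ Finset.range D.rank, T.aux.coef r k * T.aux.coef (C.act w (D.simple k)) j :=
  C.coef_sg (C.rep_mem w) hr hj

theorem coef_wsub {J : List ℕ} {j : ℕ} (hj : j < D.rank) (hjJ : j ∉ J) {v : C.W F}
    (hv : v ∈ C.wsub F {i | i ∈ J}) {r : ℕ} (hr : r < D.nroots) :
    T.aux.coef (C.act v r) j = T.aux.coef r j :=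
  C.coef_act_wsub hv hj hjJ hr

theorem pos_minRep {J : List ℕ} {j : ℕ} (hj : j < D.rank)
    (hcov : ∀ i < D.rank, i ≠ j → i ∈ J) {K : Set ℕ} {x : C.W F}
    (hx : x ∈ C.minReps F K {i | i ∈ J}) {r : ℕ} (hr : D.IsPosRoot r)
    (h0 : T.aux.coef r j = 0) : D.IsPosRoot (C.act x r) := by
  have hlt := C.act_lt x hr.1
  refine (C.key_trichotomy hlt).resolve_right fun hneg => ?_
  obtain ⟨k, hk, hne⟩ := C.exists_coef_ne hlt
  have h1 := C.coef_nonneg ((C.neg_pos_iff hlt).2 hneg) hk
  rw [C.root.coef_neg hlt hk] at h1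
  have h2 : 0 ≤ T.aux.coef (C.act x r) k := by
    rw [C.coef_act x hr.1 hk]
    refine Finset.sum_nonneg fun a ha => ?_
    have ha' := Finset.mem_range.1 ha
    by_cases haj : a = j
    · subst haj; rw [h0, zero_mul]
    · exact mul_nonneg (C.coef_nonneg hr ha') (C.coef_nonneg (hx.2 a (hcov a ha' haj) ha') hk)
  exact hne (le_antisymm (by linarith) h2)

theorem stab_factor {J : List ℕ} {j : ℕ} (hj : j < D.rank) (hjJ : j ∉ J) {x v : C.W F}
    (hv : v ∈ C.wsub F {i | i ∈ J}) : C.Stab j (x * v) ↔ C.Stab j x := by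
  refine forall₂_congr fun k hk => ?_
  have hp := C.root.simple_lt k hk
  rw [mul_inv_rev, C.act_mul _ _ hp, C.coef_wsub hj hjJ (inv_mem hv) (C.act_lt _ hp)]

open Classical in
/-- The weighted length is additive. -/
theorem ev_factor {J : List ℕ} {j : ℕ} (hj : j < D.rank) (hjJ : j ∉ J)
    (hcov : ∀ i < D.rank, i ≠ j → i ∈ J) {K : Set ℕ} {x v : C.W F}
    (hx : x ∈ C.minReps F K {i | i ∈ J}) (hv : v ∈ C.wsub F {i | i ∈ J}) :
    (C.inv (C.rep (x * v)) ∩ C.Ev j).ncard = C.wlen v + (C.inv (C.rep x) ∩ C.Ev j).ncard := by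
  have R := C.root
  have hmem : ∀ (w : C.W F) (r : ℕ), r ∈ C.inv (C.rep w) ↔
      D.IsPosRoot r ∧ D.IsNegRoot (C.act w r) := fun w r => Iff.rfl
  have hv0 : ∀ r, D.IsPosRoot r → D.IsNegRoot (C.act v r) → T.aux.coef r j = 0 := by
    intro r hr hn
    have hlt := C.act_lt v hr.1
    have h1 := C.coef_nonneg ((C.neg_pos_iff hlt).2 hn) hj
    rw [R.coef_neg hlt hj, C.coef_wsub hj hjJ hv hr.1] at h1
    linarith [C.coef_nonneg hr hj]
  have e : C.inv (C.rep (x * v)) ∩ C.Ev j =
      C.inv (C.rep v) ∪ C.act v⁻¹ '' (C.inv (C.rep x) ∩ C.Ev j) := by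
    ext r
    constructor
    · rintro ⟨h, he⟩
      obtain ⟨hr, hn⟩ := (hmem _ r).1 h
      rcases C.key_trichotomy (C.act_lt v hr.1) with hp | hp
      · refine Or.inr ⟨C.act v r, ⟨(hmem _ _).2 ⟨hp, ?_⟩, ?_⟩, C.act_inv_act v hr.1⟩
        · rwa [← C.act_mul _ _ hr.1]
        · show Even (T.aux.coef (C.act v r) j)
          rwa [C.coef_wsub hj hjJ hv hr.1]
      · exact Or.inl ((hmem _ r).2 ⟨hr, hp⟩)
    · rintro (h | ⟨s, ⟨hs, he⟩, rfl⟩)
      · obtain ⟨hr, hn⟩ := (hmem _ r).1 h
        have h0 := hv0 r hr hn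
        have hlt := C.act_lt v hr.1
        refine ⟨(hmem _ r).2 ⟨hr, ?_⟩, by show Even _; rw [h0]; exact Even.zero⟩
        have hp := C.pos_minRep hj hcov hx ((C.neg_pos_iff hlt).2 hn)
          (by rw [R.coef_neg hlt hj, C.coef_wsub hj hjJ hv hr.1, h0, neg_zero])
        rw [C.act_neg _ hlt, C.neg_pos_iff (C.act_lt _ hlt)] at hp
        rwa [C.act_mul _ _ hr.1]
      · obtain ⟨hsp, hsn⟩ := (hmem _ s).1 hs
        have hlt := C.act_lt v⁻¹ hsp.1
        have hpos : D.IsPosRoot (C.act v⁻¹ s) := by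
          refine (C.key_trichotomy hlt).resolve_right fun hn => ?_
          have h1 := C.coef_nonneg ((C.neg_pos_iff hlt).2 hn) hj
          rw [R.coef_neg hlt hj, C.coef_wsub hj hjJ (inv_mem hv) hsp.1] at h1
          exact C.not_pos_and_neg
            (C.pos_minRep hj hcov hx hsp (by linarith [C.coef_nonneg hsp hj])) hsn
        refine ⟨(hmem _ _).2 ⟨hpos, ?_⟩, ?_⟩
        · rwa [C.act_mul _ _ hlt, C.act_act_inv v hsp.1]
        · show Even _
          rwa [C.coef_wsub hj hjJ (inv_mem hv) hsp.1]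
  have hd : Disjoint (C.inv (C.rep v)) (C.act v⁻¹ '' (C.inv (C.rep x) ∩ C.Ev j)) := by
    rw [Set.disjoint_left]
    rintro r h ⟨s, ⟨hs, -⟩, rfl⟩
    have h' := ((hmem _ _).1 h).2
    rw [C.act_act_inv v hs.1.1] at h'
    exact C.not_pos_and_neg hs.1 h'
  rw [e, Set.ncard_union_eq hd (C.inv_finite _) (((C.inv_finite _).inter_of_left _).image _),
    C.wlen_eq, Set.ncard_image_of_injOn]
  intro a ha b hb h
  have := congrArg (C.act v) h
  rwa [C.act_act_inv v ha.1.1.1, C.act_act_inv v hb.1.1.1] at this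

theorem st_len (w : C.W F) : (C.st w).length = T.l := by simp [st]

/-- Parity read from a state. -/
theorem oddAt_spec (w : C.W F) {j : ℕ} (hj : j < D.rank) {k : ℕ} (hk : k < D.rank) :
    dgt (T.l - 1 - j) ((C.st w).getD k 0) = T.aux.coef (C.act w⁻¹ (D.simple k)) j := by
  have hlt := C.act_lt w⁻¹ (C.root.simple_lt k hk)
  rw [C.st_getD w hk, show T.key (C.act w⁻¹ (D.simple k)) = _ from C.root.key_eq _ hlt]
  simp only [C.tables.rank]
  exact dgt_enc _ _ (fun a ha => C.root.coef_le _ hlt a (C.tables.rank ▸ ha)) j (C.tables.rank ▸ hj)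

theorem goodZ_iff (w : C.W F) {j : ℕ} (hj : j < D.rank) :
    T.goodZ j (C.st w) = true ↔ C.Stab j w := by
  simp only [Fast.goodZ, allBelow_iff, beq_iff_eq, Stab, C.tables.rank]
  refine forall₂_congr fun k hk => ?_
  have hk' : k < D.rank := C.tables.rank ▸ hk
  rw [Fast.oddAt, C.oddAt_spec w hj hk']
  generalize T.aux.coef (C.act w⁻¹ (D.simple k)) j = e
  rcases Int.even_or_odd e with he | ho
  · rw [show (e.natAbs % 2 == 1) = false by simpa [Nat.even_iff] using Int.natAbs_even.2 he]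
    constructor
    · intro h; simp only [he, true_iff]; intro hkj; subst hkj; simp at h
    · intro h
      exact (Bool.eq_false_iff.2 fun e' => h.1 he (Nat.eq_of_beq_eq_true e')).symm
  · rw [show (e.natAbs % 2 == 1) = true by simpa [Nat.odd_iff] using Int.natAbs_odd.2 ho]
    constructor
    · intro h
      simp only [Int.not_even_iff_odd.2 ho, false_iff, ne_eq, not_not]
      exact Nat.eq_of_beq_eq_true h.symm
    · intro h
      simp only [Int.not_even_iff_odd.2 ho, false_iff, ne_eq, not_not] at h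
      subst h; exact (Nat.beq_refl k).symm

theorem bZ_spec (w : C.W F) {j : ℕ} (hj : j < D.rank) :
    T.bZ j (C.st w) = (C.inv (C.rep w) ∩ C.Ev j).ncard := by
  classical
  have R := C.root
  set l := (List.range T.n).filter fun s => Fast.ltI 0 (T.key s) &&
    Fast.ltI (sumB T.l fun k => T.cf s k * (C.st w).getD k 0) 0 &&
    ((sumB T.l fun k => T.cf s k * dgt (T.l - 1 - j) ((C.st w).getD k 0)).natAbs % 2 == 0) with hl
  have hnd : l.Nodup := List.nodup_range.filter _
  show l.length = _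
  rw [← List.toFinset_card_of_nodup hnd, ← Set.ncard_coe_finset]
  have key : ∀ s, s < D.nroots →
      (sumB T.l fun k => T.cf s k * (C.st w).getD k 0) = T.key (C.act w⁻¹ s) ∧
      (sumB T.l fun k => T.cf s k * dgt (T.l - 1 - j) ((C.st w).getD k 0)) =
        T.aux.coef (C.act w⁻¹ s) j := by
    intro s hs
    rw [C.key_act _ hs, C.coef_act _ hs hj, sumB_eq, sumB_eq, ← C.tables.rank]
    refine ⟨Finset.sum_congr rfl fun k hk => ?_, Finset.sum_congr rfl fun k hk => ?_⟩
    · rw [C.st_getD w (Finset.mem_range.1 hk)]; rfl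
    · rw [← C.oddAt_spec w hj (Finset.mem_range.1 hk), C.tables.rank]; rfl
  have hmem : ∀ s, s ∈ l ↔ s < D.nroots ∧ D.IsPosRoot s ∧ D.IsNegRoot (C.act w⁻¹ s) ∧
      Even (T.aux.coef (C.act w⁻¹ s) j) := by
    intro s
    rw [hl, List.mem_filter, List.mem_range, ← C.tables.nroots]
    refine and_congr_right fun hs => ?_
    simp only [Bool.and_eq_true, ltI_iff, (key s hs).1, (key s hs).2, beq_iff_eq, R.pos_iff, R.neg_iff,
      ← Nat.even_iff, Int.natAbs_even]
    exact ⟨fun ⟨⟨a, b⟩, c⟩ => ⟨⟨hs, a⟩, ⟨C.act_lt _ hs, b⟩, c⟩,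
      fun ⟨⟨_, a⟩, ⟨_, b⟩, c⟩ => ⟨⟨a, b⟩, c⟩⟩
  refine Set.ncard_congr (fun s _ => D.neg (C.act w⁻¹ s)) ?_ ?_ ?_
  · intro s hs
    obtain ⟨hlt, hp, hn, he⟩ := (hmem s).1 (List.mem_toFinset.1 hs)
    have hlt' := C.act_lt w⁻¹ hlt
    refine ⟨⟨(C.neg_pos_iff hlt').2 hn, ?_⟩, ?_⟩
    · show D.IsNegRoot (C.act w (D.neg (C.act w⁻¹ s)))
      rw [C.act_neg _ hlt', C.act_act_inv _ hlt, C.neg_neg_iff hlt]
      exact hp
    · show Even _
      rw [R.coef_neg hlt' hj]; exact he.neg
  · intro a b ha hb h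
    have hla := ((hmem a).1 (List.mem_toFinset.1 ha)).1
    have hlb := ((hmem b).1 (List.mem_toFinset.1 hb)).1
    have h2 := congrArg (fun x => C.act w x) (congrArg D.neg h)
    simp only [R.neg_neg' (C.act_lt _ hla), R.neg_neg' (C.act_lt _ hlb), C.act_act_inv _ hla,
      C.act_act_inv _ hlb] at h2
    exact h2
  · rintro r ⟨⟨hr, hn⟩, he⟩
    have hn' : D.IsNegRoot (C.act w r) := hn
    have hlt := C.act_lt w hr.1
    refine ⟨D.neg (C.act w r), List.mem_toFinset.2 ((hmem _).2 ⟨R.neg_lt _ hlt,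
      (C.neg_pos_iff hlt).2 hn', ?_, ?_⟩), ?_⟩
    · rw [C.act_neg _ hlt, C.act_inv_act _ hr.1, C.neg_neg_iff hr.1]; exact hr
    · rw [C.act_neg _ hlt, C.act_inv_act _ hr.1, R.coef_neg hr.1 hj]; exact he.neg
    · show D.neg (C.act w⁻¹ (D.neg (C.act w r))) = r
      rw [C.act_neg _ hlt, C.act_inv_act _ hr.1, R.neg_neg' hr.1]

theorem mem_collect (K J : List ℕ) :
    ∀ (f m : ℕ) (z : List ℤ), T.layer K J (m + f) = [] →
      (z ∈ T.collect K J f (T.layer K J m) ↔ ∃ i, i < f ∧ z ∈ T.layer K J (m + i)) := by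
  intro f
  induction f with
  | zero => intro m z _; simp [Fast.collect]
  | succ f ih =>
    intro m z hm
    rcases h : T.layer K J m with _ | ⟨a, L⟩
    · have hnil : ∀ i, T.layer K J (m + i) = [] := by
        intro i
        induction i with
        | zero => exact h
        | succ i ihi => rw [← add_assoc, Fast.layer, ihi]; simp [Fast.nextLayer]
      simp [Fast.collect, hnil]
    · have h1 : T.collect K J (f + 1) (a :: L) =
          (a :: L) ++ T.collect K J f (T.nextLayer K J (a :: L)) := rfl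
      rw [h1, ← h, show T.nextLayer K J (T.layer K J m) = T.layer K J (m + 1) from rfl, List.mem_append,
        ih (m + 1) z (by rw [← hm]; congr 1; omega)]
      constructor
      · rintro (h2 | ⟨i, hi, h2⟩)
        · exact ⟨0, by omega, by simpa using h2⟩
        · exact ⟨i + 1, by omega, by rwa [show m + (i + 1) = m + 1 + i by omega]⟩
      · rintro ⟨i, hi, h2⟩
        rcases i with _ | i
        · exact Or.inl (by simpa using h2)
        · exact Or.inr ⟨i, by omega, by rwa [show m + 1 + i = m + (i + 1) by omega]⟩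

theorem nodup_collect {K J : List ℕ} (hK : ∀ i ∈ K, i < D.rank) (hJ : ∀ i ∈ J, i < D.rank) :
    ∀ (f m : ℕ), T.layer K J (m + f) = [] → (T.collect K J f (T.layer K J m)).Nodup := by
  intro f
  induction f with
  | zero => intro m _; simp [Fast.collect]
  | succ f ih =>
    intro m hm
    rcases h : T.layer K J m with _ | ⟨a, L⟩
    · simp [Fast.collect]
    · have h1 : T.collect K J (f + 1) (a :: L) =
          (a :: L) ++ T.collect K J f (T.nextLayer K J (a :: L)) := rfl
      have hm' : T.layer K J (m + 1 + f) = [] := by rw [← hm]; congr 1; omega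
      rw [h1, ← h, show T.nextLayer K J (T.layer K J m) = T.layer K J (m + 1) from rfl]
      refine List.nodup_append.2 ⟨C.layer_nodup K J m, ih (m + 1) hm', fun z hz z' hz' e => ?_⟩
      subst e
      obtain ⟨i, -, hi⟩ := (C.mem_collect K J f (m + 1) z hm').1 hz'
      obtain ⟨x, -, hl, rfl⟩ := (C.mem_layer_iff (F := ZMod 2) hK hJ m z).1 hz
      obtain ⟨y, -, hl', e⟩ := (C.mem_layer_iff (F := ZMod 2) hK hJ _ _).1 hi
      rw [C.st_injective e] at hl'
      omega

open Classical in
/-- The weighted sum over the stabiliser. -/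
theorem sum_stab {R : Type*} [CommRing R] (q : R) {j : ℕ} {J : List ℕ} (hj : j < D.rank)
    (hjJ : j ∉ J) (hJ : ∀ i ∈ J, i < D.rank) (hcov : ∀ i < D.rank, i ≠ j → i ∈ J) :
    ∑ w ∈ (Finset.univ : Finset (C.W F)).filter (C.Stab j),
      q ^ (C.inv (C.rep w) ∩ C.Ev j).ncard = evalL q (mulL (T.polyO J) (T.topPoly j J)) := by
  have hK : ∀ i ∈ List.range T.l, i < D.rank := fun i hi => by
    rw [C.tables.rank]; exact List.mem_range.1 hi
  have hemp : T.layer (List.range T.l) J (0 + (T.n + 1)) = [] := C.layer_empty hK hJ (by omega)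
  have hfold : ∀ l : List (List ℤ), evalL q
      (l.foldr (fun z a => addL (List.replicate (T.bZ j z) 0 ++ [1]) a) []) =
      (l.map fun z => q ^ T.bZ j z).sum := by
    intro l
    induction l with
    | nil => simp [evalL]
    | cons z l ih => rw [List.foldr_cons, evalL_addL, evalL_replicate, ih, List.map_cons, List.sum_cons]
  have htop : evalL q (T.topPoly j J) =
      ∑ x ∈ (C.reps F (List.range T.l) J).filter (C.Stab j),
        q ^ (C.inv (C.rep x) ∩ C.Ev j).ncard := by
    have hnd := (C.nodup_collect hK hJ (T.n + 1) 0 hemp).filter (T.goodZ j)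
    rw [Fast.topPoly, hfold, show [T.z0] = T.layer (List.range T.l) J 0 from rfl,
      ← List.sum_toFinset _ hnd]
    refine (Finset.sum_bij (fun x _ => C.st x) ?_ ?_ ?_ ?_).symm
    · intro x hx
      simp only [reps, Finset.mem_filter, Finset.mem_univ, true_and] at hx
      rw [List.mem_toFinset, List.mem_filter, C.goodZ_iff x hj, C.mem_collect _ _ _ _ _ hemp]
      exact ⟨⟨C.wlen x, Nat.lt_succ_of_le (C.wlen_le x),
        (C.mem_layer_iff hK hJ _ _).2 ⟨x, hx.1, (Nat.zero_add _).symm, rfl⟩⟩, hx.2⟩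
    · intro x _ y _ e; exact C.st_injective e
    · intro z hz
      rw [List.mem_toFinset, List.mem_filter, C.mem_collect _ _ _ _ _ hemp] at hz
      obtain ⟨⟨i, -, hi⟩, hg⟩ := hz
      obtain ⟨x, hx, -, rfl⟩ := (C.mem_layer_iff (F := F) hK hJ _ _).1 hi
      refine ⟨x, ?_, rfl⟩
      simp only [reps, Finset.mem_filter, Finset.mem_univ, true_and]
      exact ⟨hx, (C.goodZ_iff x hj).1 hg⟩
    · intro x _; rw [C.bZ_spec x hj]
  rw [evalL_mulL, htop, ← C.sum_wsubO (F := F) q J hJ, Finset.sum_mul_sum, Finset.sum_comm,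
    ← Finset.sum_product']
  have hsub : {i | i ∈ J} ⊆ {i | i ∈ List.range T.l} := fun i hi => by
    simp only [Set.mem_setOf_eq, List.mem_range]; exact C.tables.rank ▸ hJ i hi
  have hall : ∀ w : C.W F, w ∈ C.wsub F {i | i ∈ List.range T.l} :=
    C.wsub_top fun i hi => List.mem_range.2 (C.tables.rank ▸ hi)
  refine (Finset.sum_bij (fun p _ => p.1 * p.2) ?_ ?_ ?_ ?_).symm
  · rintro ⟨x, v⟩ h
    simp only [reps, Finset.mem_product, Finset.mem_filter, Finset.mem_univ, true_and] at h ⊢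
    exact (C.stab_factor hj hjJ h.2).2 h.1.2
  · rintro ⟨x, v⟩ h ⟨x', v'⟩ h' e
    simp only [reps, Finset.mem_product, Finset.mem_filter, Finset.mem_univ, true_and] at h h'
    obtain ⟨rfl, rfl⟩ := C.factor_unique h.1.1 h'.1.1 h.2 h'.2 e
    rfl
  · intro w hw
    simp only [Finset.mem_filter, Finset.mem_univ, true_and] at hw
    obtain ⟨x, hx, v, hv, rfl, -⟩ := C.exists_factor hsub (hall w)
    refine ⟨(x, v), ?_, rfl⟩
    simp only [reps, Finset.mem_product, Finset.mem_filter, Finset.mem_univ, true_and]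
    exact ⟨⟨hx, (C.stab_factor hj hjJ hv).1 hw⟩, hv⟩
  · rintro ⟨x, v⟩ h
    simp only [reps, Finset.mem_product, Finset.mem_filter, Finset.mem_univ, true_and] at h
    rw [C.ev_factor hj hjJ hcov h.1.1 h.2, pow_add]

/-! ### the centralizer -/

theorem closedSet_ev {j : ℕ} (hj : j < D.rank) {S : Set ℕ} (hS : ClosedSet D S) :
    ClosedSet D (S ∩ C.Ev j) where
  pos r hr := hS.pos r hr.1
  closed r hr s hs hne c hc := by
    refine ⟨hS.closed r hr.1 s hs.1 hne c hc, ?_⟩
    obtain ⟨x, y, -, -, -, hco⟩ := C.commTerms_comb (hS.pos r hr.1).1 (hS.pos s hs.1).1 c hc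
    show Even _
    rw [show T.aux.coef c.1 j = _ from hco j hj]
    exact (hr.2.mul_left _).add (hs.2.mul_left _)

theorem chr_parity {c : Fin D.rank → Fˣ} {j : ℕ} (hj : j < D.rank) (hc : C.Bits c (2 ^ j)) {v : ℕ}
    (hv : v < D.nroots) : C.chrOf c v = (-1 : F) ^ T.aux.coef v j := by
  rw [C.chrOf_lin c hv, Finset.prod_eq_single ⟨j, hj⟩]
  · have h := hc j hj
    simp only [chrOf, Nat.testBit_two_pow, decide_true, if_true] at h
    rw [Units.val_zpow_eq_zpow_val]
    simp only [h]
  · intro k _ hk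
    have h := hc k k.2
    simp only [chrOf, Nat.testBit_two_pow, show ¬ j = k.val from fun e => hk (Fin.ext e.symm),
      decide_false, Bool.false_eq_true, if_false] at h
    rw [show (∏ i : Fin D.rank, c i ^ D.cartan i (D.simple k)) = 1 from Units.ext h, one_zpow]
  · simp

theorem chr_eq_one_iff (h2F : (2 : F) ≠ 0) {c : Fin D.rank → Fˣ} {j : ℕ} (hj : j < D.rank)
    (hc : C.Bits c (2 ^ j)) {v : ℕ} (hv : v < D.nroots) : C.chrOf c v = 1 ↔ v ∈ C.Ev j := by
  rw [C.chr_parity hj hc hv]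
  constructor
  · intro h
    by_contra he
    rw [(Int.not_even_iff_odd.1 he).neg_one_zpow] at h
    exact h2F (by linear_combination -h)
  · intro he; exact Even.neg_one_zpow he

theorem grp_cent (h2F : (2 : F) ≠ 0) {c : Fin D.rank → Fˣ} {j : ℕ} (hj : j < D.rank)
    (hc : C.Bits c (2 ^ j)) {S : Set ℕ} (hS : ClosedSet D S) {u : GL D.Idx F} :
    u ∈ grp D F (S ∩ C.Ev j) ↔ u ∈ grp D F S ∧ C.torus c * u * (C.torus c)⁻¹ = u := by
  classical
  constructor
  · intro hu
    refine ⟨grp_mono Set.inter_subset_left hu, ?_⟩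
    have hle : grp D F (S ∩ C.Ev j) ≤ Subgroup.centralizer {C.torus c} := C.grp_le fun r hr t => by
      rw [Subgroup.mem_centralizer_singleton_iff]
      have := C.torus_xg c (hS.pos r hr.1).1 t
      rw [(C.chr_eq_one_iff h2F hj hc (hS.pos r hr.1).1).2 hr.2, one_mul, mul_inv_eq_iff_eq_mul] at this
      exact this.symm
    have h := hle hu
    rw [Subgroup.mem_centralizer_singleton_iff] at h
    rw [mul_inv_eq_iff_eq_mul]
    exact h.symm
  · rintro ⟨hu, hfix⟩
    obtain ⟨t, rfl⟩ := C.exists_ordered hS hu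
    obtain ⟨χ, h1, h2⟩ := C.isChr_chrOf c
    have hdg : ((C.torus c : GL D.Idx F) : Matrix D.Idx D.Idx F) = dg D χ := by
      rw [C.val_torus]; exact dg_congr h2
    have hlt : ∀ r ∈ C.rootList S, r < D.nroots := fun r hr => (C.mem_rootList.1 hr).1
    rw [C.diag_conj_wg h1 hdg _ fun p hp => by
      obtain ⟨r, hr, rfl⟩ := List.mem_map.1 hp; exact hlt r hr, List.map_map] at hfix
    have hz := C.ordered_inj (C.rootList S) (C.rootList_sorted S)
      (fun x hx => hS.pos x (C.mem_rootList.1 hx).2) _ _ hfix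
    refine Subgroup.list_prod_mem _ fun x hx => ?_
    simp only [List.map_map, List.mem_map, Function.comp_apply] at hx
    obtain ⟨r, hr, rfl⟩ := hx
    by_cases he : r ∈ C.Ev j
    · exact C.xg_mem (S := S ∩ C.Ev j) ⟨(C.mem_rootList.1 hr).2, he⟩ _
    · have h3 := hz r hr
      have hne : χ r ≠ 1 := by
        rw [← h2 r (hlt r hr)]; exact fun h => he ((C.chr_eq_one_iff h2F hj hc (hlt r hr)).1 h)
      have ht : t r = 0 := by
        simp only [Function.comp_apply] at h3
        by_contra h0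
        exact hne (mul_right_cancel₀ h0 (h3.trans (one_mul _).symm))
      show C.xg r (t r) ∈ _
      rw [ht, C.xg_zero]; exact one_mem _

theorem stab_iff_commute (h2F : (2 : F) ≠ 0) {c : Fin D.rank → Fˣ} {j : ℕ} (hj : j < D.rank)
    (hc : C.Bits c (2 ^ j)) (w : C.W F) :
    C.Stab j w ↔ C.torus c * C.rep w = C.rep w * C.torus c := by
  have R := C.root
  set n := C.rep w
  have hn := C.rep_mem w
  obtain ⟨c', hc'⟩ := C.exists_torus (C.mono_conj_diag hn _ (C.torus_mem c))
  have hchr : ∀ k < D.rank, C.chrOf c' (D.simple k) = C.chrOf c (C.act w⁻¹ (D.simple k)) := by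
    intro k hk
    have hp := R.simple_lt k hk
    set r := C.act w⁻¹ (D.simple k)
    have hr : r < D.nroots := C.act_lt _ hp
    have hsr : C.sg n r = D.simple k := C.act_act_inv w hp
    obtain ⟨τ, h⟩ := C.sg_spec hn
    obtain ⟨d, hd, e⟩ := C.mo_conj h hr
    rw [hsr] at e
    have h1 : n * (C.torus c * C.xg r 1 * (C.torus c)⁻¹) * n⁻¹ =
        C.torus c' * (n * C.xg r 1 * n⁻¹) * (C.torus c')⁻¹ := by rw [hc']; simp only [n]; group
    rw [C.torus_xg c hr, e, e, C.torus_xg c' hp, mul_one, mul_one] at h1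
    have h2 : C.xg (D.simple k) (d * C.chrOf c r + -(C.chrOf c' (D.simple k) * d)) = 1 := by
      rw [← C.xg_add hp, ← C.xg_inv, h1, mul_inv_cancel]
    have h3 := C.xg_eq_one hp h2
    exact mul_right_cancel₀ hd (by linear_combination -h3)
  have hiff : C.Stab j w ↔ ∀ k < D.rank, C.chrOf c' (D.simple k) = C.chrOf c (D.simple k) := by
    refine forall₂_congr fun k hk => ?_
    rw [hchr k hk, C.chr_parity hj hc (C.act_lt _ (R.simple_lt k hk)),
      C.chr_parity hj hc (R.simple_lt k hk), R.coef_simple k hk j hj]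
    rcases Int.even_or_odd (T.aux.coef (C.act w⁻¹ (D.simple k)) j) with he | ho
    · rw [he.neg_one_zpow]
      by_cases hkj : j = k
      · subst hkj
        simp only [ne_eq, not_true_eq_false, iff_false, he, if_true, zpow_one]
        exact ⟨fun h => absurd h (by simp), fun h => absurd (by linear_combination h) h2F⟩
      · simp [he, Ne.symm hkj, hkj]
    · rw [ho.neg_one_zpow]
      by_cases hkj : j = k
      · subst hkj; simp [Int.not_even_iff_odd.2 ho]
      · simp only [ne_eq, Ne.symm hkj, not_false_eq_true, iff_true, hkj, if_false, zpow_zero,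
          Int.not_even_iff_odd.2 ho, false_iff]
        exact fun h => h2F (by linear_combination -h)
  rw [hiff]
  constructor
  · intro h
    have e := C.torus_ext h
    rw [hc'] at e
    rw [← mul_inv_eq_iff_eq_mul.1 e]
  · intro h k hk
    have e : C.torus c' = C.torus c := by rw [hc', ← h, mul_inv_cancel_right]
    have h3 := congrArg Units.val e
    rw [C.val_torus, C.val_torus] at h3
    exact dg_inj h3 _ (R.simple_lt k hk)

open Classical in
/-- The order of the centralizer as a weighted sum. -/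
theorem card_cent_sum [Fintype F] (h2F : (2 : F) ≠ 0) {c : Fin D.rank → Fˣ} {j : ℕ} (hj : j < D.rank)
    (hc : C.Bits c (2 ^ j)) :
    Nat.card ↥(D.group F ⊓ Subgroup.centralizer {C.torus c}) =
      Fintype.card F ^ ({r | D.IsPosRoot r} ∩ C.Ev j).ncard * Nat.card (D.diagonalSubgroup F) *
        ∑ w ∈ (Finset.univ : Finset (C.W F)).filter (C.Stab j),
          Fintype.card F ^ (C.inv (C.rep w) ∩ C.Ev j).ncard := by
  set h := C.torus c with hh
  have hhd : h ∈ D.diagonalSubgroup F := C.torus_mem c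
  let X := fun w : {w // w ∈ (Finset.univ : Finset (C.W F)).filter (C.Stab j)} =>
    (↥(grp D F ({r | D.IsPosRoot r} ∩ C.Ev j)) × ↥(D.diagonalSubgroup F)) ×
      ↥(grp D F (C.inv (C.rep w.1) ∩ C.Ev j))
  have hpos : ∀ {u : GL D.Idx F}, u ∈ grp D F ({r | D.IsPosRoot r} ∩ C.Ev j) →
      u ∈ D.posUnipotent F := fun hu => by
    rw [posUnipotent_eq]; exact grp_mono Set.inter_subset_left hu
  have hcomm : ∀ w : {w // w ∈ (Finset.univ : Finset (C.W F)).filter (C.Stab j)},
      h * C.rep w.1 = C.rep w.1 * h :=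
    fun w => (C.stab_iff_commute h2F hj hc w.1).1 (Finset.mem_filter.1 w.2).2
  let f : (Σ w, X w) → ↥(D.group F ⊓ Subgroup.centralizer {h}) := fun p =>
    ⟨(p.2.1.1 : GL D.Idx F) * p.2.1.2 * C.rep p.1.1 * p.2.2, by
      refine ⟨mul_mem (mul_mem (mul_mem (C.pos_le_group (hpos p.2.1.1.2)) (C.diag_le_group p.2.1.2.2))
        (C.monomial_le_group (C.rep_mem _))) (C.grp_le_group (fun r hr => hr.1.1.1) p.2.2.2), ?_⟩
      show _ ∈ Subgroup.centralizer {h}
      rw [Subgroup.mem_centralizer_singleton_iff]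
      have e1 := ((C.grp_cent h2F hj hc C.closedSet_pos).1 p.2.1.1.2).2
      have e2 := ((C.grp_cent h2F hj hc (C.closedSet_inv (C.rep_mem _))).1 p.2.2.2).2
      rw [mul_inv_eq_iff_eq_mul] at e1 e2
      have c1 : Commute h (p.2.1.1 : GL D.Idx F) := e1
      have c2 : Commute h (p.2.2 : GL D.Idx F) := e2
      have c3 : Commute h (p.2.1.2 : GL D.Idx F) := C.diag_comm hhd p.2.1.2.2
      exact (((c1.mul_right c3).mul_right (hcomm p.1)).mul_right c2).eq.symm⟩
  have hub : ∀ {a b : GL D.Idx F}, a ∈ D.posUnipotent F → b ∈ D.diagonalSubgroup F →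
      a * b ∈ D.borelSubgroup F := fun ha hb =>
    mul_mem (Subgroup.mem_sup_left ha) (Subgroup.mem_sup_right hb)
  have huniq : ∀ {u u' t t' : GL D.Idx F}, u ∈ D.posUnipotent F → u' ∈ D.posUnipotent F →
      t ∈ D.diagonalSubgroup F → t' ∈ D.diagonalSubgroup F → u * t = u' * t' → u = u' ∧ t = t' := by
    intro u u' t t' hu hu' ht ht' e
    have h1 : u'⁻¹ * u = t' * t⁻¹ := by
      rw [eq_mul_inv_iff_mul_eq, mul_assoc, e, inv_mul_cancel_left]
    have h2 : u'⁻¹ * u = 1 := Subgroup.mem_bot.1 (by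
      rw [← C.pos_inf_diag (F := F), Subgroup.mem_inf]
      exact ⟨mul_mem (inv_mem hu') hu, by rw [h1]; exact mul_mem ht' (inv_mem ht)⟩)
    obtain rfl := inv_mul_eq_one.1 h2
    exact ⟨rfl, mul_left_cancel e⟩
  have hf : Function.Bijective f := by
    constructor
    · rintro ⟨⟨w, hw⟩, ⟨⟨u, hu⟩, ⟨t, ht⟩⟩, ⟨v, hv⟩⟩ ⟨⟨w', hw'⟩, ⟨⟨u', hu'⟩, ⟨t', ht'⟩⟩, ⟨v', hv'⟩⟩ e
      have e' : u * t * C.rep w * v = u' * t' * C.rep w' * v' := congrArg Subtype.val e
      obtain ⟨h1, h2⟩ := C.bnu_unique (hub (hpos hu) ht) (hub (hpos hu') ht') (C.rep_mem w)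
        (C.rep_mem w') (grp_mono Set.inter_subset_left hv) (grp_mono Set.inter_subset_left hv') e'
      obtain rfl : w = w' := by
        rw [← C.cls_rep w, ← C.cls_rep w']
        exact (C.cls_toN_eq (C.rep_mem w) (C.rep_mem w')).2 h1
      obtain ⟨h3, rfl⟩ := h2 rfl
      obtain ⟨rfl, rfl⟩ := huniq (hpos hu) (hpos hu') ht ht' h3
      rfl
    · rintro ⟨g, hg, hgc⟩
      replace hgc : g ∈ Subgroup.centralizer {h} := hgc
      rw [Subgroup.mem_centralizer_singleton_iff] at hgc
      obtain ⟨b, hb, n, hn, v, hv, rfl⟩ := C.exists_bnu hg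
      set w := BN.cls _ (C.toN n hn)
      have hinv : C.inv n = C.inv (C.rep w) :=
        C.inv_congr fun r hr => C.sg_cls_congr hn (C.rep_mem w) (C.cls_rep w).symm hr
      have hh' := (C.cls_toN_eq (C.rep_mem w) hn).1 (C.cls_rep w)
      obtain ⟨t0, ht0, hn'⟩ : ∃ t0 ∈ D.diagonalSubgroup F, n = t0 * C.rep w := by
        refine ⟨C.rep w * ((C.rep w)⁻¹ * n) * (C.rep w)⁻¹, C.mono_conj_diag (C.rep_mem w) _ hh', ?_⟩
        group
      obtain ⟨u, hu, t1, ht1, hbe⟩ := C.mem_borel.1 (mul_mem hb (Subgroup.mem_sup_right ht0))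
      set m := C.rep w
      have hm := C.rep_mem w
      rw [hinv] at hv
      have e : b * n * v = u * t1 * m * v := by rw [hn', ← mul_assoc b, hbe]
      have hu1 := C.diag_normalizes_pos hhd hu
      have hv1 := C.diag_normalizes (fun r hr => ((C.closedSet_inv hm).pos r hr).1) hhd hv
      have hk : m⁻¹ * (h * m * h⁻¹) ∈ D.diagonalSubgroup F := by
        rw [show m⁻¹ * (h * m * h⁻¹) = (m⁻¹ * h * m⁻¹⁻¹) * h⁻¹ by group]
        exact mul_mem (C.mono_conj_diag (inv_mem hm) _ hhd) (inv_mem hhd)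
      have hk' : h * m * h⁻¹ * m⁻¹ ∈ D.diagonalSubgroup F := by
        rw [show h * m * h⁻¹ * m⁻¹ = h * (m * h⁻¹ * m⁻¹) by group]
        exact mul_mem hhd (C.mono_conj_diag hm _ (inv_mem hhd))
      have e2 : u * t1 * m * v =
          (h * u * h⁻¹) * (t1 * (h * m * h⁻¹ * m⁻¹)) * m * (h * v * h⁻¹) := by
        have hgh : h * (u * t1 * m * v) * h⁻¹ = u * t1 * m * v := by
          rw [mul_inv_eq_iff_eq_mul, ← e]; exact hgc.symm
        conv_lhs => rw [← hgh]
        rw [show h * (u * t1 * m * v) * h⁻¹ =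
          (h * u * h⁻¹) * (h * t1) * h⁻¹ * (h * m * h⁻¹ * m⁻¹) * m * (h * v * h⁻¹) by group,
          C.diag_comm hhd ht1]
        group
      obtain ⟨e3, e4⟩ := (C.bnu_unique (hub hu ht1) (hub hu1 (mul_mem ht1 hk')) hm hm hv hv1 e2).2 rfl
      obtain ⟨e5, e6⟩ := huniq hu hu1 ht1 (mul_mem ht1 hk') e3
      have hst : C.Stab j w := by
        rw [C.stab_iff_commute h2F hj hc w]
        have h7 : h * m * h⁻¹ * m⁻¹ = 1 := mul_left_cancel (e6.symm.trans (mul_one t1).symm)
        calc h * m = h * m * h⁻¹ * m⁻¹ * (m * h) := by group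
          _ = m * h := by rw [h7, one_mul]
      refine ⟨⟨⟨w, Finset.mem_filter.2 ⟨Finset.mem_univ _, hst⟩⟩,
        ⟨⟨u, (C.grp_cent h2F hj hc C.closedSet_pos).2 ⟨by rwa [← posUnipotent_eq], e5.symm⟩⟩,
          ⟨t1, ht1⟩⟩, ⟨v, (C.grp_cent h2F hj hc (C.closedSet_inv hm)).2 ⟨hv, e4.symm⟩⟩⟩,
        Subtype.ext e.symm⟩
  rw [← Nat.card_congr (Equiv.ofBijective f hf), Nat.card_sigma, Finset.mul_sum]
  rw [← Finset.sum_coe_sort ((Finset.univ : Finset (C.W F)).filter (C.Stab j))]
  refine Finset.sum_congr rfl fun w _ => ?_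
  rw [Nat.card_prod, Nat.card_prod, C.card_grp (C.closedSet_ev hj C.closedSet_pos),
    C.card_grp (C.closedSet_ev hj (C.closedSet_inv (C.rep_mem _)))]

theorem ncard_evenPos {j : ℕ} :
    ({r | D.IsPosRoot r} ∩ C.Ev j).ncard = T.evenPos j := by
  classical
  have hl : ((List.range T.n).filter fun r =>
      Fast.ltI 0 (T.key r) && (T.cf r j).natAbs % 2 == 0).Nodup := List.nodup_range.filter _
  rw [Fast.evenPos, ← List.toFinset_card_of_nodup hl, ← Set.ncard_coe_finset]
  congr 1
  ext r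
  simp only [List.coe_toFinset, Set.mem_inter_iff, Set.mem_setOf_eq, List.mem_filter, List.mem_range,
    Bool.and_eq_true, ltI_iff, C.root.pos_iff, ← C.tables.nroots, beq_iff_eq, ← Nat.even_iff,
    Int.natAbs_even, Ev, and_assoc]
  exact Iff.rfl

/-- The order formula of the centralizer. -/
theorem card_cent_eq [Fintype F] (h2F : (2 : F) ≠ 0) {j N : ℕ} {o degs : List ℕ}
    (hchk : T.centCheckDeg j o N degs = true) (hd1 : ∀ d ∈ degs, 1 ≤ d)
    (hker : Nat.card (C.cartanMap (F := F)).ker = 1)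
    {c : Fin D.rank → Fˣ} (hc : C.Bits c (2 ^ j)) :
    (Nat.card ↥(D.group F ⊓ Subgroup.centralizer {C.torus c}) : ℤ) =
      (Fintype.card F : ℤ) ^ N * (degs.map fun e => (Fintype.card F : ℤ) ^ e - 1).prod := by
  classical
  simp only [Fast.centCheckDeg, Bool.and_eq_true, Bool.not_eq_true', decide_eq_true_eq,
    allBelow_iff, List.all_eq_true, Bool.or_eq_true, Nat.beq_eq, memB_iff] at hchk
  obtain ⟨⟨⟨⟨⟨⟨hjl, hN⟩, hjo⟩, -⟩, hcov⟩, ho⟩, hpoly⟩ := hchk
  have hj : j < D.rank := by rw [C.tables.rank]; exact Nat.le_of_ble_eq_true hjl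
  have hjo' : j ∉ o := fun h => by rw [memB_iff.2 h] at hjo; exact Bool.noConfusion hjo
  have ho' : ∀ i ∈ o, i < D.rank := fun i hi => by rw [C.tables.rank]; exact Nat.le_of_ble_eq_true (ho i hi)
  have hcov' : ∀ i < D.rank, i ≠ j → i ∈ o := fun i hi hne =>
    ((hcov i (C.tables.rank ▸ hi)).resolve_left hne)
  have h1 := C.card_diag (F := F)
  rw [hker, one_mul] at h1
  rw [C.card_cent_sum h2F hj hc, C.ncard_evenPos, hN, h1]
  push_cast [Nat.cast_sub Fintype.card_pos]
  rw [C.sum_stab (F := F) ((Fintype.card F : ℕ) : ℤ) hj hjo' ho' hcov', ← evalL_degs _ _ hd1, ← hpoly,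
    evalL_mulL, evalL_mulL]
  simp only [evalL_mulL, evalL_range, C.tables.rank]
  ring

/-- Injectivity of the torus parametrisation. -/
theorem torus_inj [Fintype F] (hker : Nat.card (C.cartanMap (F := F)).ker = 1)
    (d : Fin D.rank → Fˣ) (h : C.torus d = 1) : d = 1 := by
  have hb : (C.cartanMap (F := F)).ker = ⊥ := Subgroup.card_eq_one.1 hker
  have hd : d ∈ (C.cartanMap (F := F)).ker := MonoidHom.mem_ker.2 ((C.torus_eq_one_iff d).1 h)
  rw [hb] at hd
  exact Subgroup.mem_bot.1 hd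

end Checked

end Cfsg.Agent.Lib.Chev
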