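import Cfsg.Agent.Lib.Chev.InvolCent
import Cfsg.Agent.Lib.Chev.Data.F4
import Cfsg.Agent.Lib.Chev.Data.E8

/-!
Two classes of involutions, with centralizer orders, for F4 and E8 in odd characteristic.
-/

set_option autoImplicit false

namespace Cfsg.Agent.Lib.Chev

open Cfsg.Lie Cfsg.Agent.Lib

/-- Centralizers in a subgroup. -/
theorem card_cent_subtype {H : Type*} [Group H] (K : Subgroup H) (s : K) :
    Nat.card ↥(Subgroup.centralizer ({s} : Set K)) =
      Nat.card ↥(K ⊓ Subgroup.centralizer {(s : H)}) := by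
  refine Nat.card_congr
    { toFun := fun x => ⟨(x.1 : H), x.1.2, ?_⟩
      invFun := fun x => ⟨⟨x.1, x.2.1⟩, ?_⟩
      left_inv := fun x => rfl
      right_inv := fun x => rfl }
  · show (x.1 : H) ∈ Subgroup.centralizer {(s : H)}
    rw [Subgroup.mem_centralizer_singleton_iff]
    exact congrArg Subtype.val (Subgroup.mem_centralizer_singleton_iff.1 x.2)
  · rw [Subgroup.mem_centralizer_singleton_iff]
    exact Subtype.ext (Subgroup.mem_centralizer_singleton_iff.1 x.2.2)

/-- Conjugate elements have centralizers of the same order. -/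
theorem card_cent_congr {G : Type*} [Group G] {s t : G} (h : IsConj s t) :
    Nat.card ↥(Subgroup.centralizer ({s} : Set G)) =
      Nat.card ↥(Subgroup.centralizer ({t} : Set G)) := by
  obtain ⟨g, rfl⟩ := isConj_iff.1 h
  have e : (Subgroup.centralizer ({s} : Set G)).map (MulAut.conj g).toMonoidHom =
      Subgroup.centralizer {g * s * g⁻¹} := by
    ext x
    simp only [Subgroup.mem_map_equiv, Subgroup.mem_centralizer_singleton_iff, MulAut.conj_symm_apply]
    constructor
    · intro h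
      calc x * (g * s * g⁻¹) = g * (g⁻¹ * x * g * s) * g⁻¹ := by group
        _ = g * (s * (g⁻¹ * x * g)) * g⁻¹ := by rw [h]
        _ = g * s * g⁻¹ * x := by group
    · intro h
      calc g⁻¹ * x * g * s = g⁻¹ * (x * (g * s * g⁻¹)) * g := by group
        _ = g⁻¹ * (g * s * g⁻¹ * x) * g := by rw [h]
        _ = s * (g⁻¹ * x * g) := by group
  rw [← e]
  exact Nat.card_congr (Subgroup.equivMapOfInjective _ _ (MulEquiv.injective _)).toEquiv

namespace Checked

variable {D : ChevalleyDatum} {T : Fast} (C : Checked D T) {F : Type*} [Field F]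
include C

/-- Two classes of involutions and their centralizer orders. -/
theorem two_invol_classes [Fintype F] (hF : Odd (Fintype.card F)) (horth : orthChk T = true)
    (hker : Nat.card (C.cartanMap (F := F)).ker = 1) {f j₁ j₂ b₁ b₂ N₁ N₂ : ℕ} {o₁ o₂ d₁ d₂ : List ℕ}
    (horb : T.twoOrbits f (2 ^ j₁) (2 ^ j₂) = true)
    (hs₁ : T.signsOK b₁ (2 ^ j₁) = true) (hs₂ : T.signsOK b₂ (2 ^ j₂) = true)
    (hc₁ : T.centCheckDeg j₁ o₁ N₁ d₁ = true) (hc₂ : T.centCheckDeg j₂ o₂ N₂ d₂ = true)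
    (hd₁ : ∀ d ∈ d₁, 1 ≤ d) (hd₂ : ∀ d ∈ d₂, 1 ≤ d) (hj₁ : j₁ < D.rank) (hj₂ : j₂ < D.rank)
    (hne : (Fintype.card F : ℤ) ^ N₁ * (d₁.map fun e => (Fintype.card F : ℤ) ^ e - 1).prod ≠
      (Fintype.card F : ℤ) ^ N₂ * (d₂.map fun e => (Fintype.card F : ℤ) ^ e - 1).prod) :
    ∃ s t : ↥(D.group F), orderOf s = 2 ∧ orderOf t = 2 ∧ ¬ IsConj s t ∧
      (∀ u : ↥(D.group F), orderOf u = 2 → IsConj u s ∨ IsConj u t) ∧
      (Nat.card ↥(Subgroup.centralizer ({s} : Set ↥(D.group F))) : ℤ) =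
        (Fintype.card F : ℤ) ^ N₁ * (d₁.map fun e => (Fintype.card F : ℤ) ^ e - 1).prod ∧
      (Nat.card ↥(Subgroup.centralizer ({t} : Set ↥(D.group F))) : ℤ) =
        (Fintype.card F : ℤ) ^ N₂ * (d₂.map fun e => (Fintype.card F : ℤ) ^ e - 1).prod := by
  have h2F : (2 : F) ≠ 0 := Ring.two_ne_zero fun h => by
    have h' := FiniteField.even_card_of_char_two h
    rw [Nat.odd_iff] at hF
    omega
  have hinj := C.torus_inj (F := F) hker
  have mk : ∀ {j b : ℕ}, j < D.rank → T.signsOK b (2 ^ j) = true →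
      ∃ c : Fin D.rank → Fˣ, C.Bits c (2 ^ j) ∧ ∃ s : ↥(D.group F),
        (s : GL D.Idx F) = C.torus c ∧ orderOf s = 2 := by
    intro j b hj hb
    obtain ⟨c, hc, hsq⟩ := C.exists_bits (F := F) hb
    refine ⟨c, hc, ⟨C.torus c, C.diag_le_group (C.torus_mem c)⟩, rfl,
      orderOf_eq_prime (Subtype.ext (by rw [Subgroup.coe_pow, pow_two]; exact hsq)) ?_⟩
    intro h
    have h1 : c = 1 := hinj c (congrArg Subtype.val h)
    have h3 := hc j hj
    rw [h1, Nat.testBit_two_pow_self, if_pos rfl] at h3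
    simp [chrOf] at h3
    exact h2F (by linear_combination h3)
  obtain ⟨ca, hca, s, hs, hs2⟩ := mk hj₁ hs₁
  obtain ⟨cb, hcb, t, ht, ht2⟩ := mk hj₂ hs₂
  have es : (Nat.card ↥(Subgroup.centralizer ({s} : Set ↥(D.group F))) : ℤ) =
      (Fintype.card F : ℤ) ^ N₁ * (d₁.map fun e => (Fintype.card F : ℤ) ^ e - 1).prod := by
    rw [card_cent_subtype, hs]; exact C.card_cent_eq h2F hc₁ hd₁ hker hca
  have et : (Nat.card ↥(Subgroup.centralizer ({t} : Set ↥(D.group F))) : ℤ) =
      (Fintype.card F : ℤ) ^ N₂ * (d₂.map fun e => (Fintype.card F : ℤ) ^ e - 1).prod := by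
    rw [card_cent_subtype, ht]; exact C.card_cent_eq h2F hc₂ hd₂ hker hcb
  refine ⟨s, t, hs2, ht2, fun h => hne ?_, fun u hu => ?_, es, et⟩
  · rw [← es, ← et, card_cent_congr h]
  · have hu2 : (u : GL D.Idx F) * u = 1 := by
      have h := pow_orderOf_eq_one u
      rw [hu, pow_two] at h
      exact congrArg Subtype.val h
    have hu1 : (u : GL D.Idx F) ≠ 1 := fun h => by
      have : u = 1 := Subtype.ext h
      rw [this, orderOf_one] at hu
      omega
    obtain ⟨y, hy, h⟩ := C.invol_classes h2F horth hinj horb hca hcb u.2 hu2 hu1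
    rcases h with h | h
    · exact Or.inl (isConj_iff.2 ⟨⟨y, hy⟩, Subtype.ext (h.trans hs.symm)⟩)
    · exact Or.inr (isConj_iff.2 ⟨⟨y, hy⟩, Subtype.ext (h.trans ht.symm)⟩)

end Checked

theorem f4_orth : orthChk F4.fast = true := by decide +kernel
theorem f4_orbits : F4.fast.twoOrbits 10 (2 ^ 0) (2 ^ 3) = true := by decide +kernel
theorem f4_signs_s : F4.fast.signsOK 2 (2 ^ 0) = true := by decide +kernel
theorem f4_signs_t : F4.fast.signsOK 5 (2 ^ 3) = true := by decide +kernel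
theorem f4_cent_s : F4.fast.centCheckDeg 0 [1, 2, 3] 16 [2, 4, 6, 8] = true := by decide +kernel
theorem f4_cent_t : F4.fast.centCheckDeg 3 [2, 1, 0] 10 [2, 2, 4, 6] = true := by decide +kernel

theorem e8_orth : orthChk E8.fast = true := by decide +kernel
theorem e8_orbits : E8.fast.twoOrbits 32 (2 ^ 0) (2 ^ 7) = true := by decide +kernel
theorem e8_signs_s : E8.fast.signsOK 6 (2 ^ 0) = true := by decide +kernel
theorem e8_signs_t : E8.fast.signsOK 82 (2 ^ 7) = true := by decide +kernel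
theorem e8_cent_s :
    E8.fast.centCheckDeg 0 [1, 2, 3, 4, 5, 6, 7] 56 [2, 4, 6, 8, 8, 10, 12, 14] = true := by
  decide +kernel
theorem e8_cent_t :
    E8.fast.centCheckDeg 7 [6, 5, 4, 3, 2, 1, 0] 64 [2, 2, 6, 8, 10, 12, 14, 18] = true := by
  decide +kernel

end Cfsg.Agent.Lib.Chev
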