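import Cfsg.Agent.Lib.Chev.Braid
import Cfsg.Agent.Lib.Chev.Order
import Cfsg.Agent.Lib.Chev.Extra
import Cfsg.Agent.Lib.Chev.SLTwoHom
import Cfsg.Agent.Lib.Chev.RootCent
import Cfsg.Agent.Lib.Chev.Diag

/-!
Rank-one elements, the torus and the unipotent subgroups inside a split Chevalley group, for the module
theory in the defining characteristic.
-/

set_option autoImplicit false

namespace Cfsg.Agent.Lib.Chev

open Cfsg.Lie Cfsg.Agent.Lib

namespace RootPair

variable {G F : Type*} [Group G] [Field F] {X Y : F → G} (P : RootPair X Y)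
include P

theorem sq_one : P.hEl (-1) * P.hEl (-1) = 1 := by
  rw [P.h_mul (neg_ne_zero.2 one_ne_zero) (neg_ne_zero.2 one_ne_zero), neg_one_mul, neg_neg, P.h_one]

theorem n_inv_one : (P.nEl 1)⁻¹ = P.hEl (-1) * P.nEl 1 :=
  inv_eq_of_mul_eq_one_left (by rw [mul_assoc, P.h_neg_one, P.sq_one])

theorem n_mul_h {u : F} (hu : u ≠ 0) : P.nEl 1 * P.hEl u = P.hEl u⁻¹ * P.nEl 1 := by
  obtain ⟨φ, -, hφ⟩ := P.exists_hom
  have e : (upT 1 * loT (-1) * upT 1) * ((upT u * loT (-u⁻¹) * upT u) * (upT (-1) * loT 1 * upT (-1))) =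
      ((upT u⁻¹ * loT (-u) * upT u⁻¹) * (upT (-1) * loT 1 * upT (-1))) * (upT 1 * loT (-1) * upT 1) := by
    ext i j
    fin_cases i <;> fin_cases j <;>
      simp [val_upT, val_loT, Matrix.SpecialLinearGroup.coe_mul, Matrix.mul_apply, Fin.sum_univ_two] <;>
      field_simp <;> (try ring) <;> (try simp)
  have h := congrArg φ e
  simp only [map_mul, fun t => (hφ t).1, fun t => (hφ t).2] at h
  rw [P.hEl_eq, P.hEl_eq, inv_inv]
  simpa [nEl] using h

theorem n_Y (t : F) : P.nEl 1 * Y t = X (-t) * P.nEl 1 := by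
  obtain ⟨φ, -, hφ⟩ := P.exists_hom
  have e : (upT 1 * loT (-1) * upT 1) * loT t = upT (-t) * (upT 1 * loT (-1) * upT 1) := by
    ext i j
    fin_cases i <;> fin_cases j <;>
      simp [val_upT, val_loT, Matrix.SpecialLinearGroup.coe_mul, Matrix.mul_apply, Fin.sum_univ_two]
  have h := congrArg φ e
  simp only [map_mul, fun t => (hφ t).1, fun t => (hφ t).2] at h
  simpa [nEl] using h

theorem n_X (t : F) : P.nEl 1 * X t = Y (-t) * P.nEl 1 := by
  have h := P.n_conj one_ne_zero t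
  rw [inv_one, one_pow, one_mul, mul_inv_eq_iff_eq_mul] at h
  exact h

theorem Y_decomp {a : F} (ha : a ≠ 0) :
    Y a = X a⁻¹ * (P.hEl (-a⁻¹) * P.nEl 1) * X a⁻¹ := by rw [← P.n_eq, P.Y_eq ha]

end RootPair

namespace Checked

variable {D : ChevalleyDatum} {T : Fast} (C : Checked D T) {F : Type*} [Field F]
include C

/-- Fundamental root element. -/
def Xs (C : Checked D T) (i : Fin D.rank) (t : F) : ↥(D.group F) :=
  ⟨C.xg (D.simple i) t, C.xg_mem_group (C.root.simple_lt i i.2) t⟩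

/-- Negative fundamental root element. -/
def Ys (C : Checked D T) (i : Fin D.rank) (t : F) : ↥(D.group F) :=
  ⟨C.xg (D.neg (D.simple i)) t, C.xg_mem_group (C.root.neg_lt _ (C.root.simple_lt i i.2)) t⟩

theorem rankOne (i : Fin D.rank) : RootPair (C.Xs (F := F) i) (C.Ys (F := F) i) where
  X_add t u := Subtype.ext ((C.rootPair C.root.en_simple (C.root.simple_lt i i.2)).X_add t u)
  Y_add t u := Subtype.ext ((C.rootPair C.root.en_simple (C.root.simple_lt i i.2)).Y_add t u)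
  N_conj t ht u := Subtype.ext ((C.rootPair C.root.en_simple (C.root.simple_lt i i.2)).N_conj t ht u)
  H_conj t ht u := Subtype.ext ((C.rootPair C.root.en_simple (C.root.simple_lt i i.2)).H_conj t ht u)
  H_mul s t hs ht := Subtype.ext ((C.rootPair C.root.en_simple (C.root.simple_lt i i.2)).H_mul s t hs ht)

/-- The monomial element of a node. -/
def ns (C : Checked D T) (F : Type*) [Field F] (i : Fin D.rank) : ↥(D.group F) :=
  (C.toS F i i.2).1

theorem coe_ns (i : Fin D.rank) : ((C.ns F i : ↥(D.group F)) : GL D.Idx F) = C.ng i := rfl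

theorem nEl_one (i : Fin D.rank) : (C.rankOne (F := F) i).nEl (1 : F) = C.ns F i := by
  refine Subtype.ext ?_
  simp only [RootPair.nEl, Xs, Ys, Subgroup.coe_mul, coe_ns, ng, ChevalleyDatum.nWord, C.wg_cons,
    C.wg_nil, mul_one, mul_assoc]

/-- The torus. -/
def tor (C : Checked D T) (F : Type*) [Field F] : (Fin D.rank → Fˣ) →* ↥(D.group F) :=
  C.torusHom.codRestrict (D.group F) fun c =>
    C.diag_le_group (C.range_torusHom (F := F) ▸ ⟨c, rfl⟩)

theorem coe_tor (c : Fin D.rank → Fˣ) : (C.tor F c : GL D.Idx F) = C.torus c := rfl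

theorem tor_diag (c : Fin D.rank → Fˣ) : (C.tor F c : GL D.Idx F) ∈ D.diagonalSubgroup F :=
  C.range_torusHom (F := F) ▸ ⟨c, rfl⟩

theorem exists_tor {g : ↥(D.group F)} (hg : (g : GL D.Idx F) ∈ D.diagonalSubgroup F) :
    ∃ c, C.tor F c = g := by
  obtain ⟨c, hc⟩ := C.exists_torus hg
  exact ⟨c, Subtype.ext hc⟩

theorem tor_injective (hker : (C.cartanMap (F := F)).ker = ⊥) : Function.Injective (C.tor F) := by
  rw [← MonoidHom.ker_eq_bot_iff, tor, MonoidHom.ker_codRestrict, C.ker_torusHom, hker]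

theorem hEl_eq_tor (i : Fin D.rank) (u : Fˣ) :
    (C.rankOne i).hEl (u : F) = C.tor F (Pi.mulSingle i u) := by
  have hp := C.root.simple_lt i i.2
  refine Subtype.ext ?_
  have h1 : (((C.rankOne i).hEl (u : F) : ↥(D.group F)) : GL D.Idx F) = C.hg (D.simple i) (u : F) := by
    simp only [RootPair.hEl, RootPair.nEl, Xs, Ys, Subgroup.coe_mul, Checked.hg, ChevalleyDatum.hWord,
      C.val_wg_append, ChevalleyDatum.nWord, C.wg_cons, C.wg_nil, mul_one, mul_assoc]
  rw [h1, coe_tor]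
  refine Units.ext ?_
  rw [C.val_torus, C.val_hg, C.hMat_simple i.2 (Units.ne_zero _)]
  refine dg_congr fun v _ => ?_
  rw [chrOf, Finset.prod_eq_single i (fun j _ hj => by rw [Pi.mulSingle_eq_of_ne hj, one_zpow])
    (fun hh => absurd (Finset.mem_univ i) hh), Pi.mulSingle_eq_same]
  simp

/-- The value of the fundamental root on a torus element. -/
def rootVal (C : Checked D T) (i : Fin D.rank) (c : Fin D.rank → Fˣ) : Fˣ :=
  ∏ j : Fin D.rank, c j ^ D.cartan j (D.simple i)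

theorem tor_xg (c : Fin D.rank → Fˣ) {r : ℕ} (hr : r < D.nroots) (t : F) :
    (C.tor F c : GL D.Idx F) * C.xg r t = C.xg r (C.chrOf c r * t) * (C.tor F c : GL D.Idx F) := by
  obtain ⟨χ, h1, e⟩ := C.exists_chr (C.tor_diag c)
  rw [coe_tor] at e ⊢
  have h2 := dg_inj ((C.val_torus c).symm.trans e)
  rw [h2 r hr, ← mul_inv_eq_iff_eq_mul]
  exact C.diag_xg h1 e hr t

theorem tor_X (i : Fin D.rank) (c : Fin D.rank → Fˣ) (t : F) :
    C.tor F c * C.Xs i t = C.Xs i ((C.rootVal i c : F) * t) * C.tor F c :=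
  Subtype.ext (C.tor_xg c (C.root.simple_lt i i.2) t)

theorem tor_Y (i : Fin D.rank) (c : Fin D.rank → Fˣ) (t : F) :
    C.tor F c * C.Ys i t = C.Ys i ((C.rootVal i c : F)⁻¹ * t) * C.tor F c := by
  have hp := C.root.simple_lt i i.2
  obtain ⟨χ, h1, e⟩ := C.exists_chr (C.tor_diag c)
  rw [coe_tor] at e
  have h2 := dg_inj ((C.val_torus c).symm.trans e)
  have e' : C.chrOf c (D.neg (D.simple i)) = (C.chrOf c (D.simple i))⁻¹ := by
    rw [h2 _ hp, h2 _ (C.root.neg_lt _ hp), h1.neg _ hp]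
  refine Subtype.ext ((C.tor_xg c (C.root.neg_lt _ hp) t).trans ?_)
  rw [e']
  rfl

/-- Conjugating a torus element by `n_p`. -/
theorem tor_mul_ns (i : Fin D.rank) (c : Fin D.rank → Fˣ) :
    C.tor F c * C.ns F i = C.ns F i * C.tor F (Pi.mulSingle i (C.rootVal i c)⁻¹ * c) := by
  set P := C.rankOne (F := F) i
  set b := C.rootVal i c
  have h : C.tor F c * P.nEl 1 = P.nEl (b : F) * C.tor F c := by
    simp only [RootPair.nEl, ← mul_assoc, C.tor_X, mul_one]
    rw [mul_assoc _ (C.tor F c) (C.Ys i _), C.tor_Y, ← mul_assoc, mul_assoc _ (C.tor F c), C.tor_X,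
      mul_one, ← mul_assoc, inv_one, mul_neg, mul_one]
  rw [← C.nEl_one, h, P.n_eq, map_mul, ← mul_assoc, ← C.hEl_eq_tor,
    P.n_mul_h (Units.ne_zero _), Units.val_inv_eq_inv_val, inv_inv]

/-- The positive unipotent subgroup. -/
def Up (_ : Checked D T) (F : Type*) [Field F] : Subgroup ↥(D.group F) :=
  (D.posUnipotent F).subgroupOf (D.group F)

/-- The negative unipotent subgroup. -/
def Um (_ : Checked D T) (F : Type*) [Field F] : Subgroup ↥(D.group F) :=
  (D.negUnipotent F).subgroupOf (D.group F)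

theorem Xs_mem (i : Fin D.rank) (t : F) : C.Xs i t ∈ C.Up F :=
  C.xg_mem_pos (C.root.pos_simple i.2) t

theorem Ys_mem (i : Fin D.rank) (t : F) : C.Ys i t ∈ C.Um F :=
  C.xg_mem_neg ((C.neg_neg_iff (C.root.simple_lt i i.2)).2 (C.root.pos_simple i.2)) t

theorem tor_conj_Up (c : Fin D.rank → Fˣ) {u : ↥(D.group F)} (hu : u ∈ C.Up F) :
    C.tor F c * u * (C.tor F c)⁻¹ ∈ C.Up F :=
  C.diag_normalizes_pos (C.tor_diag c) hu

theorem tor_conj_Um (c : Fin D.rank → Fˣ) {u : ↥(D.group F)} (hu : u ∈ C.Um F) :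
    C.tor F c * u * (C.tor F c)⁻¹ ∈ C.Um F := by
  have hu' : (u : GL D.Idx F) ∈ D.negUnipotent F := hu
  show (C.tor F c : GL D.Idx F) * u * (C.tor F c : GL D.Idx F)⁻¹ ∈ D.negUnipotent F
  rw [negUnipotent_eq] at hu' ⊢
  exact C.diag_normalizes (fun r hr => hr.1) (C.tor_diag c) hu'

/-- `U = X_p (U ∩ n_p U n_p⁻¹)`. -/
theorem Up_decomp (i : Fin D.rank) {u : ↥(D.group F)} (hu : u ∈ C.Up F) :
    ∃ a : F, ∃ y : ↥(D.group F), (y : GL D.Idx F) ∈ grp D F (C.posBut i) ∧ u = C.Xs i a * y := by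
  obtain ⟨y, hy, a, e⟩ := C.exists_posBut_mul i.2 (show (u : GL D.Idx F) ∈ D.posUnipotent F from hu)
  have hy' := C.xg_norm_posBut i.2 a hy
  refine ⟨a, ⟨_, C.grp_le_group (fun r hr => hr.1.1) hy'⟩, hy', Subtype.ext ?_⟩
  show (u : GL D.Idx F) = C.xg (D.simple i) a * (C.xg (D.simple i) (-a) * y * C.xg (D.simple i) a)
  rw [← mul_assoc, ← mul_assoc, C.xg_add (C.root.simple_lt i i.2), add_neg_cancel, C.xg_zero,
    one_mul, e]

theorem posBut_X (i : Fin D.rank) (s : F) {y : ↥(D.group F)}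
    (hy : (y : GL D.Idx F) ∈ grp D F (C.posBut i)) :
    ∃ y' : ↥(D.group F), (y' : GL D.Idx F) ∈ grp D F (C.posBut i) ∧ y * C.Xs i s = C.Xs i s * y' := by
  have hy' := C.xg_norm_posBut i.2 s hy
  refine ⟨⟨_, C.grp_le_group (fun r hr => hr.1.1) hy'⟩, hy', Subtype.ext ?_⟩
  show (y : GL D.Idx F) * C.xg (D.simple i) s =
    C.xg (D.simple i) s * (C.xg (D.simple i) (-s) * y * C.xg (D.simple i) s)
  rw [← mul_assoc, ← mul_assoc, C.xg_add (C.root.simple_lt i i.2), add_neg_cancel, C.xg_zero, one_mul]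

theorem posBut_ns (i : Fin D.rank) {y : ↥(D.group F)}
    (hy : (y : GL D.Idx F) ∈ grp D F (C.posBut i)) :
    ∃ y' : ↥(D.group F), y' ∈ C.Up F ∧ y * C.ns F i = C.ns F i * y' := by
  have h1 := C.ng_conj_posBut i.2 hy
  have h2 := inv_mem (C.ng_sq_mem (F := F) i.2)
  have h3 := C.diag_normalizes (S := C.posBut i) (fun r hr => hr.1.1) h2 h1
  refine ⟨(C.ns F i)⁻¹ * y * C.ns F i, ?_, by group⟩
  show ((C.ns F i : GL D.Idx F))⁻¹ * y * C.ns F i ∈ D.posUnipotent F
  rw [posUnipotent_eq, C.coe_ns]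
  refine grp_mem_mono (S := C.posBut i) ?_ fun r hr => hr.1
  convert h3 using 1
  group

theorem Xs_eq_of_posBut (i : Fin D.rank) {a : F}
    (h : (C.Xs i a : GL D.Idx F) ∈ grp D F (C.posBut i)) : a = 0 := by
  by_contra ha
  have h1 := C.ng_conj_posBut i.2 h
  have hp := C.root.simple_lt i i.2
  rw [Xs, C.ng_xg i.2 hp, mul_inv_cancel_right, C.root.refl_simple i.2] at h1
  exact C.neg_xg_not_mem ((C.neg_neg_iff hp).2 (C.root.pos_simple i.2))
    (mul_ne_zero (eta_ne_zero _ _) ha) (C.posBut_le_borel i h1)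

/-- Conjugation of a negative root element by `x_p(t) n_p` stays negative. -/
theorem XN_neg (i : Fin D.rank) {r : ℕ} (hr : D.IsNegRoot r) (hne : r ≠ D.neg (D.simple i)) (t a : F) :
    C.xg (D.simple i) t * C.ng i * C.xg r a * (C.xg (D.simple i) t * C.ng i)⁻¹ ∈ D.negUnipotent F := by
  have hp := C.root.simple_lt i i.2
  have hw := C.root.refl_lt i i.2 r hr.1
  set r' := D.reflectRoot i r
  have hr' : D.IsNegRoot r' := by
    rw [← C.neg_pos_iff hw, ← C.root.refl_neg' i.2 hr.1]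
    refine (C.refl_pos i.2 ((C.neg_pos_iff hr.1).2 hr) fun h => hne ?_).1
    rw [← h, C.root.neg_neg' hr.1]
  have hne' : r' ≠ D.neg (D.simple i) := by
    intro h
    have h2 := congrArg (D.reflectRoot i) h
    rw [C.root.refl_refl i i.2 r hr.1, C.root.refl_neg' i.2 hp, C.root.refl_simple i.2,
      C.root.neg_neg' hp] at h2
    exact C.not_pos_and_neg (h2 ▸ C.root.pos_simple i.2) hr
  have hm : r' ≠ D.simple i := fun h => C.not_pos_and_neg (h ▸ C.root.pos_simple i.2) hr'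
  have e : C.xg (D.simple i) t * C.ng i * C.xg r a * (C.xg (D.simple i) t * C.ng i)⁻¹ =
      C.xg (D.simple i) (- -t) * C.xg r' (eta T F i r * a) * C.xg (D.simple i) (-t) := by
    rw [neg_neg, ← C.xg_inv, mul_assoc _ (C.ng (F := F) i), C.ng_xg i.2 hr.1]
    simp only [r']
    group
  rw [e, C.xg_conj_eq hp hw hm hne', negUnipotent_eq]
  refine mul_mem (C.xg_mem (S := {r | D.IsNegRoot r}) hr' _) (C.wg_mem _ fun q hq => ?_)
  obtain ⟨c, hc, rfl⟩ := List.mem_map.1 hq
  obtain ⟨α, β, hα, hβ, -, hco⟩ := C.commTerms_comb hp hw c hc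
  have hclt := C.commTerms_lt hp hw c hc
  refine (C.key_trichotomy hclt).resolve_left fun hpos => ?_
  have hn : D.IsPosRoot (D.neg r') := (C.neg_pos_iff hw).2 hr'
  have hne2 : D.neg r' ≠ D.simple i := fun h => hne' (by rw [← h, C.root.neg_neg' hw])
  obtain ⟨j, hj, hji, hjne⟩ : ∃ j, j < D.rank ∧ j ≠ i.1 ∧ T.aux.coef r' j ≠ 0 := by
    by_contra h
    push Not at h
    refine hne2 (C.eq_simple_of_coef i.2 hn fun j hj hji => ?_)
    rw [C.root.coef_neg hw hj, h j hj hji, neg_zero]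
  have h1 : 0 ≤ T.aux.coef c.1 j := C.coef_nonneg hpos hj
  have h2 : 0 ≤ - T.aux.coef r' j := by rw [← C.root.coef_neg hw hj]; exact C.coef_nonneg hn hj
  have h3 := hco j hj
  have h4 : T.cf (D.simple i) j = 0 := by
    have := C.root.coef_simple i i.2 j hj
    rw [if_neg hji] at this
    exact this
  rw [h4, mul_zero, zero_add] at h3
  have h5 : T.aux.coef c.1 j = β * T.aux.coef r' j := h3
  rcases (lt_or_eq_of_le h2) with h6 | h6
  · nlinarith
  · exact hjne (by linarith)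

end Checked

end Cfsg.Agent.Lib.Chev
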