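import Cfsg.Agent.Lib.Chev.ModBasic
import Mathlib.LinearAlgebra.Eigenspace.Triangularizable
import Mathlib.RepresentationTheory.Basic

/-!
The rank-one operators on the fixed space of the unipotent subgroup, in the defining characteristic,
and the existence of a common eigenvector.
-/

set_option autoImplicit false
set_option linter.unusedSectionVars false

namespace Cfsg.Agent.Lib.Chev

open Cfsg.Lie Cfsg.Agent.Lib

namespace Checked

variable {D : ChevalleyDatum} {T : Fast} (C : Checked D T) {F : Type*} [Field F] [Fintype F]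
  {k : Type*} [Field k] {V : Type*} [AddCommGroup V] [Module k V]
  (π : Representation k ↥(D.group F) V)
include C

/-- The operator of a node: the sum over `x_p(t) n_p`. -/
noncomputable def Aop (C : Checked D T) (i : Fin D.rank) : Module.End k V :=
  ∑ t : F, π (C.Xs i t * C.ns F i)

/-- The fixed space of `U`. -/
def invU (C : Checked D T) : Submodule k V where
  carrier := {v | ∀ u ∈ C.Up F, π u v = v}
  add_mem' ha hb u hu := by rw [map_add, ha u hu, hb u hu]
  zero_mem' u _ := map_zero _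
  smul_mem' a v hv u hu := by rw [map_smul, hv u hu]

/-- An eigenvector of the torus. -/
def Eig (C : Checked D T) (v : V) : Prop := ∀ c, ∃ a : k, π (C.tor F c) v = a • v

omit C [Fintype F] in
theorem rep_mul (a b : ↥(D.group F)) (v : V) : π (a * b) v = π a (π b v) := by
  rw [map_mul]; rfl

theorem Aop_apply (i : Fin D.rank) (v : V) :
    C.Aop π i v = ∑ t : F, π (C.Xs i t * C.ns F i) v := by simp [Aop, LinearMap.sum_apply]

theorem X_fix {v : V} (hv : v ∈ C.invU π) (i : Fin D.rank) (t : F) : π (C.Xs i t) v = v :=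
  hv _ (C.Xs_mem i t)

theorem tor_mem {v : V} (hv : v ∈ C.invU π) (c : Fin D.rank → Fˣ) :
    π (C.tor F c) v ∈ C.invU π := by
  intro u hu
  have h := C.tor_conj_Up c⁻¹ hu
  rw [map_inv, inv_inv] at h
  rw [← rep_mul π, show u * C.tor F c = C.tor F c * ((C.tor F c)⁻¹ * u * C.tor F c) by group, rep_mul π,
    hv _ h]

theorem Aop_mem {v : V} (hv : v ∈ C.invU π) (i : Fin D.rank) : C.Aop π i v ∈ C.invU π := by
  intro u hu
  obtain ⟨a, y, hy, rfl⟩ := C.Up_decomp i hu
  rw [C.Aop_apply, map_sum]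
  refine Fintype.sum_equiv (Equiv.addLeft a) _ _ fun t => ?_
  obtain ⟨y', hy', e⟩ := C.posBut_X i t hy
  obtain ⟨y'', hy'', e'⟩ := C.posBut_ns i hy'
  have key : C.Xs i a * y * (C.Xs i t * C.ns F i) = C.Xs i (a + t) * C.ns F i * y'' := by
    rw [mul_assoc, ← mul_assoc y, e, mul_assoc (C.Xs i t), e', ← mul_assoc, ← mul_assoc,
      (C.rankOne (F := F) i).X_add]
  rw [← rep_mul π, key, rep_mul π, hv _ hy'']
  rfl

theorem tor_Aop (i : Fin D.rank) (c : Fin D.rank → Fˣ) (v : V) :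
    π (C.tor F c) (C.Aop π i v) =
      C.Aop π i (π (C.tor F (Pi.mulSingle i (C.rootVal i c)⁻¹ * c)) v) := by
  rw [C.Aop_apply, C.Aop_apply, map_sum]
  refine Fintype.sum_equiv (Equiv.mulLeft₀ (C.rootVal i c : F) (Units.ne_zero _)) _ _ fun t => ?_
  rw [← rep_mul π, ← rep_mul π, ← mul_assoc, C.tor_X, mul_assoc, C.tor_mul_ns, ← mul_assoc]
  rfl

theorem Eig_Aop {v : V} (hv : C.Eig π v) (i : Fin D.rank) : C.Eig π (C.Aop π i v) := by
  intro c
  obtain ⟨a, ha⟩ := hv (Pi.mulSingle i (C.rootVal i c)⁻¹ * c)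
  exact ⟨a, by rw [C.tor_Aop, ha, map_smul]⟩

variable {p : ℕ} [CharP F p] [CharP k p]

theorem card_cast_zero (hp : p.Prime) : (Fintype.card F : k) = 0 := by
  haveI := Fact.mk hp
  obtain ⟨a, -, ha⟩ := FiniteField.card F p
  rw [ha, Nat.cast_pow, CharP.cast_eq_zero, zero_pow a.ne_zero]

open scoped Classical in
/-- The quadratic relation of an operator. -/
theorem Aop_Aop (hp : p.Prime) {v : V} (hv : v ∈ C.invU π) (i : Fin D.rank) :
    C.Aop π i (C.Aop π i v) =
      C.Aop π i (∑ u : Fˣ, π (C.tor F (Pi.mulSingle i u)) v) := by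
  set P := C.rankOne (F := F) i
  set n := C.ns F i
  have hn : P.nEl (1 : F) = n := C.nEl_one i
  have hm1 : P.hEl (-1) = C.tor F (Pi.mulSingle i (-1 : Fˣ)) := by
    rw [← C.hEl_eq_tor, Units.val_neg, Units.val_one]
  have hf : π (P.hEl (-1)) v ∈ C.invU π := by rw [hm1]; exact C.tor_mem π hv _
  have hnn : n * n = P.hEl (-1) := by rw [← hn]; exact P.h_neg_one
  have h0 : C.Aop π i (π n v) = 0 := by
    rw [C.Aop_apply]
    have : ∀ t : F, π (C.Xs i t * n) (π n v) = π (P.hEl (-1)) v := fun t => by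
      rw [← rep_mul π, mul_assoc, hnn, rep_mul π, C.X_fix π hf]
    rw [Finset.sum_congr rfl fun t _ => this t, Finset.sum_const, Finset.card_univ,
      ← Nat.cast_smul_eq_nsmul k, C.card_cast_zero hp, zero_smul]
  have h1 : ∀ s : F, s ≠ 0 →
      C.Aop π i (π (C.Xs i s * n) v) = C.Aop π i (π (P.hEl (-s)) v) := by
    intro s hs
    rw [C.Aop_apply, C.Aop_apply]
    refine Fintype.sum_equiv (Equiv.addRight (-s⁻¹)) _ _ fun t => ?_
    show π (C.Xs i t * n) (π (C.Xs i s * n) v) = π (C.Xs i (t + -s⁻¹) * n) (π (P.hEl (-s)) v)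
    have hY : C.Ys i (-s) = C.Xs i (-s⁻¹) * (P.hEl s⁻¹ * n) * C.Xs i (-s⁻¹) := by
      rw [P.Y_decomp (neg_ne_zero.2 hs), hn, inv_neg, neg_neg]
    have e : C.Xs i t * n * (C.Xs i s * n) =
        C.Xs i (t + -s⁻¹) * (P.hEl s⁻¹ * n) * (C.Xs i (-s⁻¹) * P.hEl (-1)) := by
      calc C.Xs i t * n * (C.Xs i s * n) = C.Xs i t * (n * C.Xs i s) * n := by group
        _ = C.Xs i t * C.Ys i (-s) * (n * n) := by rw [← hn, P.n_X]; group
        _ = _ := by rw [hY, hnn, ← P.X_add]; group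
    rw [← rep_mul π, e, rep_mul π, rep_mul π (C.Xs i (-s⁻¹)), C.X_fix π hf]
    have e2 : P.hEl s⁻¹ * n = n * P.hEl s := by rw [← hn, ← P.n_mul_h hs]
    have e3 : P.hEl (-s) = P.hEl s * P.hEl (-1) := by
      rw [P.h_mul hs (neg_ne_zero.2 one_ne_zero), mul_neg_one]
    rw [e2, e3, ← rep_mul π, ← rep_mul π]
    congr 2
    group
  have hsum : C.Aop π i v = π n v + ∑ u : Fˣ, π (C.Xs i (u : F) * n) v := by
    rw [C.Aop_apply, ← Finset.add_sum_erase _ _ (Finset.mem_univ (0 : F)), P.X_zero, one_mul]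
    congr 1
    refine Finset.sum_bij' (fun x hx => Units.mk0 x (Finset.mem_erase.1 hx).1) (fun u _ => (u : F))
      (fun x _ => Finset.mem_univ _) (fun u _ => Finset.mem_erase.2 ⟨u.ne_zero, Finset.mem_univ _⟩)
      (fun x _ => rfl) (fun u _ => Units.ext rfl) (fun x _ => rfl)
  conv_lhs => rw [hsum, map_add, h0, zero_add, map_sum]
  rw [map_sum]
  refine Fintype.sum_equiv (Equiv.mulLeft (-1 : Fˣ)) _ _ fun u => ?_
  rw [h1 _ u.ne_zero, ← C.hEl_eq_tor]
  simp [P]

/-! ### the operators of Weyl group elements -/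

/-- The roots made negative by `w⁻¹`. -/
def Nw (C : Checked D T) (w : C.W F) : Set ℕ := C.inv (C.rep w⁻¹)

/-- The unipotent group of a Weyl group element. -/
def Uw (C : Checked D T) (w : C.W F) : Subgroup ↥(D.group F) :=
  (grp D F (C.Nw w)).subgroupOf (D.group F)

/-- The operator of a Weyl group element. -/
noncomputable def Op (C : Checked D T) (w : C.W F) : Module.End k V :=
  letI := Fintype.ofFinite ↥(C.Uw (F := F) w)
  ∑ u : ↥(C.Uw (F := F) w), π ((u : ↥(D.group F)) * C.nr w)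

theorem card_Uw (w : C.W F) : Nat.card ↥(C.Uw w) = Fintype.card F ^ C.wlen w := by
  have hle : grp D F (C.Nw w) ≤ D.group F := C.grp_le_group fun r hr => hr.1.1
  rw [show Nat.card ↥(C.Uw w) = Nat.card (grp D F (C.Nw w)) from
    Nat.card_congr (Subgroup.subgroupOfEquivOfLe hle).toEquiv,
    C.card_grp (S := C.Nw w) (C.closedSet_inv (C.rep_mem _)), ← C.wlen_inv w, C.wlen_eq]
  rfl

theorem Op_one (hb : T.braidCheck = true) (v : V) : C.Op π 1 v = v := by
  letI := Fintype.ofFinite ↥(C.Uw (1 : C.W F))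
  have h : Nat.card ↥(C.Uw (1 : C.W F)) = 1 := by
    rw [C.card_Uw, show C.wlen (1 : C.W F) = 0 from BN.len_one _, pow_zero]
  obtain ⟨hs, ⟨d⟩⟩ := Nat.card_eq_one_iff_unique.1 h
  haveI : Unique ↥(C.Uw (1 : C.W F)) := { default := 1, uniq := fun a => Subsingleton.elim _ _ }
  rw [Op, LinearMap.sum_apply, Fintype.sum_unique]
  rw [C.nr_one hb, mul_one, show ((default : ↥(C.Uw (1 : C.W F))) : ↥(D.group F)) = 1 from
    congrArg Subtype.val (Subsingleton.elim (default : ↥(C.Uw (1 : C.W F))) 1), map_one]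
  rfl

/-- Ascent of the operators. -/
theorem Aop_Op (hb : T.braidCheck = true) (i : Fin D.rank) {w : C.W F}
    (h : D.IsPosRoot (C.act w⁻¹ (D.simple i))) (v : V) :
    C.Aop π i (C.Op π w v) = C.Op π (BN.si _ (C.toS F i i.2) * w) v := by
  set w' := BN.si _ (C.toS F i i.2) * w with hw'
  letI := Fintype.ofFinite ↥(C.Uw w)
  letI := Fintype.ofFinite ↥(C.Uw w')
  have hp := C.root.simple_lt i i.2
  set n := C.ns F i
  have hact : ∀ r < D.nroots, C.act w'⁻¹ r = C.act w⁻¹ (D.reflectRoot i r) := fun r hr => by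
    rw [hw', mul_inv_rev, BN.si_inv, C.act_mul _ _ hr, C.act_si i.2 hr]
  have hsub : ∀ r ∈ C.Nw w, r ∈ C.posBut i := fun r hr => ⟨hr.1, fun e => by
    have hh : D.IsNegRoot (C.act w⁻¹ r) := hr.2
    rw [e] at hh
    exact C.not_pos_and_neg h hh⟩
  have hself : D.simple i ∈ C.Nw w' := by
    refine ⟨C.root.pos_simple i.2, ?_⟩
    show D.IsNegRoot (C.act w'⁻¹ (D.simple i))
    rw [hact _ hp, C.root.refl_simple i.2, C.act_neg _ hp, C.neg_neg_iff (C.act_lt _ hp)]
    exact h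
  have hconj : ∀ u : ↥(C.Uw w), ((n * (u : ↥(D.group F)) * n⁻¹ : ↥(D.group F)) : GL D.Idx F) ∈
      grp D F (C.Nw w') := by
    intro u
    refine C.conj_mem_of_image (n := (n : GL D.Idx F)) (C.ng_mem i.2) (S := C.Nw w)
      (fun r hr => hr.1.1) (fun r hr => ?_) u.2
    show C.sg (C.ng i : GL D.Idx F) r ∈ C.Nw w'
    rw [C.sg_ng i.2 hr.1.1]
    obtain ⟨h1, h2⟩ := hsub r hr
    refine ⟨(C.refl_pos i.2 h1 h2).1, ?_⟩
    show D.IsNegRoot (C.act w'⁻¹ (D.reflectRoot i r))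
    rw [hact _ (C.root.refl_lt i i.2 r h1.1), C.root.refl_refl i i.2 r h1.1]
    exact hr.2
  let f : F × ↥(C.Uw w) → ↥(C.Uw w') := fun q =>
    ⟨C.Xs i q.1 * (n * (q.2 : ↥(D.group F)) * n⁻¹), mul_mem (C.xg_mem hself q.1) (hconj q.2)⟩
  have hinj : Function.Injective f := by
    rintro ⟨t, u⟩ ⟨t', u'⟩ e
    have e' : C.Xs i t * (n * (u : ↥(D.group F)) * n⁻¹) =
        C.Xs i t' * (n * (u' : ↥(D.group F)) * n⁻¹) := congrArg Subtype.val e
    have h1 : C.Xs i (-t' + t) = n * ((u' : ↥(D.group F)) * (u : ↥(D.group F))⁻¹) * n⁻¹ := by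
      rw [← (C.rankOne (F := F) i).X_add, ← (C.rankOne (F := F) i).X_inv, inv_mul_eq_iff_eq_mul]
      calc C.Xs i t = C.Xs i t * (n * (u : ↥(D.group F)) * n⁻¹) * (n * (u : ↥(D.group F))⁻¹ * n⁻¹) := by
            group
        _ = _ := by rw [e']; group
    have h2 : ((u' : ↥(D.group F)) * (u : ↥(D.group F))⁻¹ : GL D.Idx F) ∈ grp D F (C.posBut i) :=
      grp_mem_mono (S := C.Nw w) (mul_mem u'.2 (inv_mem u.2)) hsub
    have h3 := C.ng_conj_posBut i.2 h2
    have ht : -t' + t = 0 := C.Xs_eq_of_posBut i (by rw [h1]; exact h3)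
    obtain rfl : t = t' := by linear_combination ht
    have h4 := mul_left_cancel e'
    exact Prod.ext rfl (Subtype.ext (mul_left_cancel (mul_right_cancel h4)))
  have hbij : Function.Bijective f := by
    rw [Fintype.bijective_iff_injective_and_card]
    refine ⟨hinj, ?_⟩
    rw [Fintype.card_prod, ← Nat.card_eq_fintype_card (α := ↥(C.Uw w)),
      ← Nat.card_eq_fintype_card (α := ↥(C.Uw w')), C.card_Uw, C.card_Uw,
      C.wlen_si_mul_pos i.2 h, pow_succ']
  rw [C.Aop_apply]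
  simp only [Op, LinearMap.sum_apply, map_sum]
  rw [← Fintype.sum_prod_type' (fun t (u : ↥(C.Uw w)) => π (C.Xs i t * n)
    (π ((u : ↥(D.group F)) * C.nr w) v))]
  refine Fintype.sum_equiv (Equiv.ofBijective f hbij) _ _ fun q => ?_
  rw [← rep_mul π, C.nr_si_mul hb i.2 h]
  show π _ v = π (C.Xs i q.1 * (n * (q.2 : ↥(D.group F)) * n⁻¹) * (n * C.nr w)) v
  congr 2
  group

theorem Op_mem (hb : T.braidCheck = true) {W : Submodule k V}
    (hA : ∀ i, ∀ x ∈ W, C.Aop π i x ∈ W) {v : V} (hv : v ∈ W) (hev : C.Eig π v) :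
    ∀ w : C.W F, C.Op π w v ∈ W ∧ C.Eig π (C.Op π w v) := by
  suffices key : ∀ (m : ℕ) (w : C.W F), C.wlen w = m → C.Op π w v ∈ W ∧ C.Eig π (C.Op π w v) from
    fun w => key _ w rfl
  intro m
  induction m using Nat.strong_induction_on with
  | _ m ih =>
    intro w hm
    by_cases h0 : C.wlen w = 0
    · rw [BN.eq_one_of_len_eq_zero _ h0, C.Op_one π hb]; exact ⟨hv, hev⟩
    obtain ⟨i, hi, -, hneg, -⟩ :=
      C.exists_left_descent (C.wsub_top (K := Set.univ) (fun _ _ => trivial) w) h0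
    have hl := C.wlen_si_mul_neg hi hneg
    obtain ⟨h1, h2⟩ := ih _ (by omega) (BN.si _ (C.toS F i hi) * w) rfl
    have hpos : D.IsPosRoot (C.act (BN.si _ (C.toS F i hi) * w)⁻¹ (D.simple i)) := by
      have hp := C.root.simple_lt i hi
      rw [mul_inv_rev, BN.si_inv, C.act_mul _ _ hp, C.act_si hi hp, C.root.refl_simple hi,
        C.act_neg _ hp, C.neg_pos_iff (C.act_lt _ hp)]
      exact hneg
    have e := C.Aop_Op π hb ⟨i, hi⟩ hpos v
    rw [BN.si_mul_cancel] at e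
    rw [← e]
    exact ⟨hA _ _ h1, C.Eig_Aop π h2 _⟩

/-- A nonzero subspace of fixed vectors stable under torus and operators has a common eigenvector. -/
theorem exists_common [IsAlgClosed k] [FiniteDimensional k V] (hp : p.Prime)
    (hb : T.braidCheck = true) {W : Submodule k V} (hW : W ≤ C.invU π) (hne : W ≠ ⊥)
    (hH : ∀ c, ∀ x ∈ W, π (C.tor F c) x ∈ W) (hA : ∀ i, ∀ x ∈ W, C.Aop π i x ∈ W) :
    ∃ v ∈ W, v ≠ 0 ∧ C.Eig π v ∧ ∀ i, ∃ a : k, C.Aop π i v = a • v := by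
  classical
  obtain ⟨v, hvW, hv0, hev⟩ : ∃ v ∈ W, v ≠ 0 ∧ C.Eig π v := by
    have hex : ∃ n, ∃ X : Submodule k V, X ≤ W ∧ X ≠ ⊥ ∧ (∀ c, ∀ x ∈ X, π (C.tor F c) x ∈ X) ∧
        Module.finrank k X = n := ⟨_, W, le_rfl, hne, hH, rfl⟩
    obtain ⟨X, hXW, hX0, hXH, hXn⟩ := Nat.find_spec hex
    obtain ⟨v, hvX, hv0⟩ := Submodule.exists_mem_ne_zero_of_ne_bot hX0
    refine ⟨v, hXW hvX, hv0, fun c => ?_⟩
    haveI : Nontrivial X := Submodule.nontrivial_iff_ne_bot.2 hX0
    obtain ⟨μ, hμ⟩ := Module.End.exists_eigenvalue ((π (C.tor F c)).restrict (hXH c))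
    let Y := (Module.End.eigenspace ((π (C.tor F c)).restrict (hXH c)) μ).map X.subtype
    have hYH : ∀ d, ∀ x ∈ Y, π (C.tor F d) x ∈ Y := by
      rintro d _ ⟨x, hx, rfl⟩
      refine ⟨⟨π (C.tor F d) x, hXH d x x.2⟩, ?_, rfl⟩
      rw [SetLike.mem_coe, Module.End.mem_eigenspace_iff] at hx ⊢
      refine Subtype.ext ?_
      show π (C.tor F c) (π (C.tor F d) x) = μ • π (C.tor F d) x
      rw [← map_smul, show μ • (x : V) = π (C.tor F c) x from (congrArg Subtype.val hx).symm,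
        ← rep_mul π, ← rep_mul π, ← map_mul, ← map_mul, mul_comm]
    have hY0 : Y ≠ ⊥ := fun h => hμ (Submodule.map_injective_of_injective X.injective_subtype
      (h.trans (Submodule.map_bot X.subtype).symm))
    have hYX : Y ≤ X := Submodule.map_subtype_le X _
    have hle : Nat.find hex ≤ Module.finrank k Y :=
      Nat.find_min' hex ⟨Y, hYX.trans hXW, hY0, hYH, rfl⟩
    have heq : Y = X := Submodule.eq_of_le_of_finrank_le hYX (hXn ▸ hle)
    obtain ⟨x, hx, hxv⟩ : v ∈ Y := heq.symm ▸ hvX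
    rw [SetLike.mem_coe, Module.End.mem_eigenspace_iff] at hx
    exact ⟨μ, by rw [← hxv]; exact congrArg Subtype.val hx⟩
  obtain ⟨w, hw, hmax⟩ := (Finset.univ.filter fun w : C.W F => C.Op π w v ≠ 0).exists_max_image
    C.wlen ⟨1, Finset.mem_filter.2 ⟨Finset.mem_univ _, by rwa [C.Op_one π hb]⟩⟩
  have hw0 := (Finset.mem_filter.1 hw).2
  obtain ⟨hxW, hxe⟩ := C.Op_mem π hb hA hvW hev w
  refine ⟨_, hxW, hw0, hxe, fun i => ?_⟩
  rcases C.key_trichotomy (C.act_lt w⁻¹ (C.root.simple_lt i i.2)) with hpos | hneg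
  · refine ⟨0, ?_⟩
    rw [C.Aop_Op π hb i hpos, zero_smul]
    by_contra h
    have h1 := hmax _ (Finset.mem_filter.2 ⟨Finset.mem_univ _, h⟩)
    have h2 := C.wlen_si_mul_pos i.2 hpos
    omega
  · set w1 := BN.si _ (C.toS F i i.2) * w
    have hpos : D.IsPosRoot (C.act w1⁻¹ (D.simple i)) := by
      have hp := C.root.simple_lt i i.2
      rw [mul_inv_rev, BN.si_inv, C.act_mul _ _ hp, C.act_si i.2 hp, C.root.refl_simple i.2,
        C.act_neg _ hp, C.neg_pos_iff (C.act_lt _ hp)]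
      exact hneg
    have e : C.Aop π i (C.Op π w1 v) = C.Op π w v := by
      rw [C.Aop_Op π hb i hpos, BN.si_mul_cancel]
    obtain ⟨hzW, hze⟩ := C.Op_mem π hb hA hvW hev w1
    choose a ha using hze
    refine ⟨∑ u : Fˣ, a (Pi.mulSingle i u), ?_⟩
    rw [← e, C.Aop_Aop π hp (hW hzW) i, Finset.sum_congr rfl fun u _ => ha (Pi.mulSingle i u),
      ← Finset.sum_smul, map_smul]

end Checked

end Cfsg.Agent.Lib.Chev
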