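import Cfsg.Agent.Lib.Chev.ModUnique

/-!
Every type is the type of an irreducible representation in the defining characteristic.
-/

set_option autoImplicit false
set_option linter.unusedSectionVars false

namespace Cfsg.Agent.Lib.Chev

open Cfsg.Lie Cfsg.Agent.Lib

namespace Checked

variable {D : ChevalleyDatum} {T : Fast} (C : Checked D T) {F : Type*} [Field F] [Fintype F]
  {k : Type*} [Field k]
include C

theorem act_nr_inv (w : C.W F) {r : ℕ} (hr : r < D.nroots) :
    C.sg ((C.nr w : GL D.Idx F))⁻¹ r = C.act w⁻¹ r := by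
  conv_rhs => rw [← C.cls_nr w, C.cls_toN_inv (C.nr_mem w)]
  rw [C.act_cls (inv_mem (C.nr_mem w)) hr]

/-- Ascent: a fundamental root element passes to the right of the representative. -/
theorem X_nr (i : Fin D.rank) {w : C.W F} (h : D.IsPosRoot (C.act w⁻¹ (D.simple i))) (t : F) :
    ∃ u' ∈ C.Up F, C.Xs i t * C.nr w = C.nr w * u' := by
  refine ⟨(C.nr w)⁻¹ * C.Xs i t * C.nr w, ?_, by group⟩
  have hp := C.root.simple_lt i i.2
  have h1 := C.conj_mem_of_image (inv_mem (C.nr_mem w)) (S := {D.simple i})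
    (S' := {r | D.IsPosRoot r}) (fun r hr => hr ▸ hp)
    (fun r hr => by
      obtain rfl := hr
      show D.IsPosRoot (C.sg ((C.nr w : GL D.Idx F))⁻¹ (D.simple i))
      rwa [C.act_nr_inv w hp]) (C.xg_mem (S := {D.simple i}) rfl t)
  rw [inv_inv, ← posUnipotent_eq] at h1
  exact h1

theorem exists_dec (g : ↥(D.group F)) : ∃ u ∈ C.Up F, ∃ (c : Fin D.rank → Fˣ) (w : C.W F),
    ∃ u' ∈ C.Up F, g = u * C.tor F c * C.nr w * u' := by
  obtain ⟨b, hb, n, hn, u, hu, e⟩ := C.exists_bnu g.2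
  obtain ⟨u0, hu0, h, hh, rfl⟩ := C.mem_borel.1 hb
  set w := BN.cls _ (C.toN n hn) with hw
  have hd := (C.cls_toN_eq hn (C.nr_mem w)).1 (C.cls_nr w).symm
  set d := n⁻¹ * (C.nr w : GL D.Idx F) with hdd
  have hd' := C.mono_conj_diag (C.nr_mem w) d⁻¹ (inv_mem hd)
  let H : ↥(D.group F) := ⟨h * ((C.nr w : GL D.Idx F) * d⁻¹ * (C.nr w : GL D.Idx F)⁻¹),
    C.diag_le_group (mul_mem hh hd')⟩
  obtain ⟨c, hc⟩ := C.exists_tor (g := H) (mul_mem hh hd')
  have hpu : u ∈ D.posUnipotent F := by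
    rw [posUnipotent_eq]; exact grp_mem_mono hu fun r hr => hr.1
  refine ⟨⟨u0, C.pos_le_group hu0⟩, hu0, c, w, ⟨u, C.pos_le_group hpu⟩, hpu, ?_⟩
  rw [hc]
  refine Subtype.ext ?_
  rw [e]
  show u0 * h * n * u = u0 * (h * ((C.nr w : GL D.Idx F) * d⁻¹ * (C.nr w : GL D.Idx F)⁻¹)) *
    (C.nr w : GL D.Idx F) * u
  rw [hdd]
  group

theorem dec_unique (hker : (C.cartanMap (F := F)).ker = ⊥) {u u' v v' : ↥(D.group F)}
    (hu : u ∈ C.Up F) (hu' : u' ∈ C.Up F) (hv : v ∈ C.Up F) (hv' : v' ∈ C.Up F)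
    {c d : Fin D.rank → Fˣ} {w x : C.W F}
    (e : u * C.tor F c * C.nr w * u' = v * C.tor F d * C.nr x * v') : w = x ∧ c = d := by
  have hcell : ∀ {a a' : ↥(D.group F)} (b : Fin D.rank → Fˣ) (y : C.W F), a ∈ C.Up F → a' ∈ C.Up F →
      a * C.tor F b * C.nr y * a' ∈ BN.cell (C.bnPair F) y := by
    intro a a' b y ha ha'
    rw [show BN.cell (C.bnPair F) y =
      BN.cell (C.bnPair F) (BN.cls _ (C.toN (C.nr y) (C.nr_mem y))) by rw [C.cls_nr y]]
    exact (BN.mem_cell_cls (C.bnPair F) (n := C.toN (C.nr y) (C.nr_mem y))).2 ⟨a * C.tor F b,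
      mul_mem (Subgroup.mem_sup_left ha : (a : GL D.Idx F) ∈ D.borelSubgroup F)
        (Subgroup.mem_sup_right (C.tor_diag b)), a', (Subgroup.mem_sup_left ha' : (a' : GL D.Idx F) ∈ D.borelSubgroup F), rfl⟩
  obtain rfl : w = x := BN.eq_of_mem_cells _ (hcell c w hu hu') (e ▸ hcell d x hv hv')
  refine ⟨rfl, C.tor_injective hker (mul_inv_eq_one.1 ?_)⟩
  set N := (C.nr w : GL D.Idx F)
  have hN : N ∈ D.monomialSubgroup F := C.nr_mem w
  have e' : (u : GL D.Idx F) * (C.tor F c : GL D.Idx F) * N * (u' : GL D.Idx F) =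
      (v : GL D.Idx F) * (C.tor F d : GL D.Idx F) * N * (v' : GL D.Idx F) := congrArg Subtype.val e
  have hz : (v' : GL D.Idx F) * (u' : GL D.Idx F)⁻¹ ∈ grp D F {r | D.IsPosRoot r ∧ 0 ≤ r} := by
    have h := mul_mem (show (v' : GL D.Idx F) ∈ D.posUnipotent F from hv')
      (inv_mem (show (u' : GL D.Idx F) ∈ D.posUnipotent F from hu'))
    rw [posUnipotent_eq] at h
    exact grp_mem_mono h fun r hr => ⟨hr, Nat.zero_le r⟩
  obtain ⟨t, ht, s, hs, ets⟩ := C.grp_split 0 (C.inv N) hz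
  have ht' := C.conj_noninv hN (grp_mem_mono ht fun r hr => ⟨hr.1.1, hr.2⟩)
  have hs' : s ∈ grp D F (C.inv N) := grp_mem_mono hs fun r hr => hr.2
  have hb : N * ((v' : GL D.Idx F) * (u' : GL D.Idx F)⁻¹) * N⁻¹ =
      (C.tor F d : GL D.Idx F)⁻¹ * ((v : GL D.Idx F)⁻¹ * u) * (C.tor F c : GL D.Idx F) := by
    calc _ = (C.tor F d : GL D.Idx F)⁻¹ * (v : GL D.Idx F)⁻¹ *
          ((v : GL D.Idx F) * (C.tor F d : GL D.Idx F) * N * (v' : GL D.Idx F)) *
          (u' : GL D.Idx F)⁻¹ * N⁻¹ := by group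
      _ = _ := by rw [← e']; group
  have hbB : N * ((v' : GL D.Idx F) * (u' : GL D.Idx F)⁻¹) * N⁻¹ ∈ D.borelSubgroup F := by
    rw [hb]
    exact mul_mem (mul_mem (inv_mem (Subgroup.mem_sup_right (C.tor_diag d)))
      (Subgroup.mem_sup_left (mul_mem (inv_mem hv) hu : ((v⁻¹ * u : ↥(D.group F)) : GL D.Idx F) ∈ _)))
      (Subgroup.mem_sup_right (C.tor_diag c))
  obtain ⟨τ, hm⟩ := C.sg_spec hN
  have hs1 : s = 1 := by
    refine C.eq_one_of_conj_mem_borel (C.closedSet_inv hN) hm (fun r hr => hr.2) hs' ?_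
    have : N * s * N⁻¹ = (N * t * N⁻¹)⁻¹ * (N * (t * s) * N⁻¹) := by group
    rw [this, ← ets]
    exact mul_mem (inv_mem (Subgroup.mem_sup_left ht')) hbB
  rw [ets, hs1, mul_one] at hb
  have hu3 := C.tor_conj_Up d⁻¹ (mul_mem (inv_mem hv) hu)
  rw [map_inv, inv_inv] at hu3
  have h1 : C.tor F (d⁻¹ * c) = 1 := by
    refine Subtype.ext (C.eq_one_of_uni_mono ?_ (C.diag_le_monomial (C.tor_diag _)))
    have : (C.tor F (d⁻¹ * c) : GL D.Idx F) =
        ((((C.tor F d)⁻¹ * (v⁻¹ * u) * C.tor F d : ↥(D.group F)) : GL D.Idx F))⁻¹ *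
          (N * t * N⁻¹) := by
      rw [hb]; simp only [Subgroup.coe_mul, Subgroup.coe_inv, map_mul, map_inv]; group
    rw [this]
    exact mul_mem (inv_mem hu3) ht'
  rw [map_mul, map_inv, inv_mul_eq_one] at h1
  rw [h1, mul_inv_cancel]

/-! ### the function of a type -/

/-- Nodes of trivial character and vanishing operator. -/
def kSet (_ : Checked D T) (τ : Ty D F k) : Set ℕ :=
  {j | ∃ h : j < D.rank, tyTh τ ⟨j, h⟩ = 1 ∧ (τ ⟨j, h⟩).isSome}

/-- The longest element of the Weyl group. -/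
noncomputable def topW (C : Checked D T) (F : Type*) [Field F] : C.W F :=
  BN.cls _ (C.toN (C.exists_longest F).choose (C.exists_longest F).choose_spec.1)

theorem act_topW {r : ℕ} (hr : D.IsPosRoot r) : D.IsNegRoot (C.act (C.topW F) r) := by
  rw [topW, C.act_cls _ hr.1]
  exact (C.exists_longest F).choose_spec.2 r hr

/-- The cells carrying the function of a type. -/
def supp (C : Checked D T) (τ : Ty D F k) : Set (C.W F) :=
  {w | w * C.topW F ∈ C.wsub F (C.kSet τ)}

theorem not_supp (τ : Ty D F k) {i : Fin D.rank} (hi : (i : ℕ) ∉ C.kSet τ) {w : C.W F}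
    (h : D.IsPosRoot (C.act w⁻¹ (D.simple i))) : w ∉ C.supp τ := by
  intro hw
  have hp := C.root.simple_lt i i.2
  set v := w * C.topW F
  have e : w⁻¹ = C.topW F * v⁻¹ := by simp [v]
  rw [e, C.act_mul _ _ hp] at h
  refine C.not_pos_and_neg h (C.act_topW ?_)
  have hr := C.act_lt v⁻¹ hp
  have hc : T.aux.coef (C.act v⁻¹ (D.simple i)) i = 1 := by
    rw [C.coef_act_wsub (inv_mem hw) i.2 hi hp, C.root.coef_simple i i.2 i i.2, if_pos rfl]
  refine (C.key_trichotomy hr).resolve_right fun hneg => ?_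
  have := C.coef_nonneg ((C.neg_pos_iff hr).2 hneg) i.2
  rw [C.root.coef_neg hr i.2, hc] at this
  omega

theorem supp_si (τ : Ty D F k) {i : Fin D.rank} (hi : (i : ℕ) ∈ C.kSet τ) (w : C.W F) :
    BN.si _ (C.toS F i i.2) * w ∈ C.supp τ ↔ w ∈ C.supp τ := by
  show BN.si _ (C.toS F i i.2) * w * C.topW F ∈ C.wsub F (C.kSet τ) ↔
    w * C.topW F ∈ C.wsub F (C.kSet τ)
  rw [mul_assoc]
  exact Subgroup.mul_mem_cancel_left _ (C.si_mem_wsub i.2 hi)

/-- The torus component. -/
noncomputable def decC (C : Checked D T) (g : ↥(D.group F)) : Fin D.rank → Fˣ :=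
  (C.exists_dec g).choose_spec.2.choose

/-- The Weyl component. -/
noncomputable def decW (C : Checked D T) (g : ↥(D.group F)) : C.W F :=
  (C.exists_dec g).choose_spec.2.choose_spec.choose

open scoped Classical in
/-- The function of a type. -/
noncomputable def tyFun (C : Checked D T) (τ : Ty D F k) (g : ↥(D.group F)) : k :=
  if C.decW g ∈ C.supp τ then ((tyChi τ (C.decC g))⁻¹ : kˣ) else 0

open scoped Classical in
theorem tyFun_eval (hker : (C.cartanMap (F := F)).ker = ⊥) (τ : Ty D F k) {u u' : ↥(D.group F)}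
    (hu : u ∈ C.Up F) (hu' : u' ∈ C.Up F) (c : Fin D.rank → Fˣ) (w : C.W F) :
    C.tyFun τ (u * C.tor F c * C.nr w * u') =
      if w ∈ C.supp τ then (((tyChi τ c)⁻¹ : kˣ) : k) else 0 := by
  have h := (C.exists_dec (u * C.tor F c * C.nr w * u')).choose_spec
  obtain ⟨u2, hu2, e⟩ := h.2.choose_spec.choose_spec
  obtain ⟨e1, e2⟩ := C.dec_unique hker hu hu' h.1 hu2 e
  have e1' : C.decW (u * C.tor F c * C.nr w * u') = w := e1.symm
  have e2' : C.decC (u * C.tor F c * C.nr w * u') = c := e2.symm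
  simp only [tyFun, e1', e2']

/-- The left regular action. -/
def leftReg (_ : Checked D T) (F k : Type*) [Field F] [Field k] :
    Representation k ↥(D.group F) (↥(D.group F) → k) where
  toFun g := LinearMap.funLeft k k fun y => g⁻¹ * y
  map_one' := LinearMap.ext fun f => funext fun y => by simp
  map_mul' a b := LinearMap.ext fun f => funext fun y => by simp [mul_assoc]

theorem leftReg_apply (g : ↥(D.group F)) (f : ↥(D.group F) → k) (y : ↥(D.group F)) :
    C.leftReg F k g f y = f (g⁻¹ * y) := rfl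

variable {p : ℕ} [CharP F p] [CharP k p]

open scoped Classical in
theorem hasTy_tyFun (hp : p.Prime) (hb : T.braidCheck = true)
    (hker : (C.cartanMap (F := F)).ker = ⊥) (τ : Ty D F k) :
    C.HasTy (C.leftReg F k) τ (C.tyFun τ) := by
  set f := C.tyFun τ with hf
  have ev := fun {u u' : ↥(D.group F)} (hu : u ∈ C.Up F) (hu' : u' ∈ C.Up F) =>
    C.tyFun_eval hker τ hu hu'
  have hfix : f ∈ C.invU (C.leftReg F k) := fun u hu => funext fun y => by
    obtain ⟨a, ha, c, w, a', ha', rfl⟩ := C.exists_dec y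
    rw [C.leftReg_apply, ← mul_assoc, ← mul_assoc, ← mul_assoc, hf, ev (mul_mem (inv_mem hu) ha) ha',
      ev ha ha']
  have htor : ∀ c, C.leftReg F k (C.tor F c) f = (tyChi τ c : k) • f := fun c => funext fun y => by
    obtain ⟨a, ha, d, w, a', ha', rfl⟩ := C.exists_dec y
    have h := C.tor_conj_Up c⁻¹ ha
    rw [map_inv, inv_inv] at h
    rw [C.leftReg_apply, Pi.smul_apply, show (C.tor F c)⁻¹ * (a * C.tor F d * C.nr w * a') =
      ((C.tor F c)⁻¹ * a * C.tor F c) * C.tor F (c⁻¹ * d) * C.nr w * a' by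
        rw [map_mul, map_inv]; group, hf, ev h ha', ev ha ha']
    split_ifs with hw
    · rw [map_mul, map_inv, mul_inv, inv_inv, Units.val_mul, smul_eq_mul]
    · rw [smul_zero]
  refine ⟨hfix, fun h0 => ?_, htor, fun i => ?_⟩
  · have h := congrFun h0 (C.nr (C.topW F)⁻¹)
    have e : C.nr (C.topW F)⁻¹ = 1 * C.tor F 1 * C.nr (C.topW F)⁻¹ * 1 := by simp
    rw [e, hf, ev (one_mem _) (one_mem _), if_pos (show _ ∈ C.supp τ by
      show (C.topW F)⁻¹ * C.topW F ∈ C.wsub F (C.kSet τ); rw [inv_mul_cancel]; exact one_mem _),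
      Pi.zero_apply] at h
    exact Units.ne_zero _ h
  set P := C.rankOne (F := F) i
  set e := C.ns F i
  have he1 : P.nEl (1 : F) = e := C.nEl_one i
  have hAval : ∀ y, C.Aop (C.leftReg F k) i f y = ∑ t : F, f (e⁻¹ * C.Xs i (-t) * y) := fun y => by
    rw [C.Aop_apply, Finset.sum_apply]
    refine Finset.sum_congr rfl fun t _ => ?_
    rw [C.leftReg_apply, mul_inv_rev, P.X_inv]
  have hpnt : ∀ w : C.W F, C.Aop (C.leftReg F k) i f (C.nr w) =
      tyLam τ i * (if w ∈ C.supp τ then 1 else 0) := by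
    intro w
    rw [hAval]
    have hK : (i : ℕ) ∈ C.kSet τ ↔ tyTh τ i = 1 ∧ (τ i).isSome :=
      ⟨fun ⟨_, h⟩ => h, fun h => ⟨i.2, h⟩⟩
    rcases C.key_trichotomy (C.act_lt w⁻¹ (C.root.simple_lt i i.2)) with hpos | hneg
    · have hconst : ∀ t : F, f (e⁻¹ * C.Xs i (-t) * C.nr w) = f (e⁻¹ * C.nr w) := fun t => by
        obtain ⟨u', hu', h⟩ := C.X_nr i hpos (-t)
        rw [mul_assoc, h, ← mul_assoc]
        obtain ⟨a, ha, c, x, a', ha', hy⟩ := C.exists_dec (e⁻¹ * C.nr w)
        rw [hy, mul_assoc _ a' u', hf, ev ha (mul_mem ha' hu'), ev ha ha']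
      rw [Finset.sum_congr rfl fun t _ => hconst t, Finset.sum_const, Finset.card_univ, nsmul_eq_mul,
        C.card_cast_zero (k := k) hp, zero_mul]
      by_cases hs : (τ i).isSome
      · rw [tyLam, if_pos hs, zero_mul]
      · rw [if_neg (C.not_supp τ (fun h => hs (hK.1 h).2) hpos), mul_zero]
    · set w1 := BN.si _ (C.toS F i i.2) * w with hw1
      have hpos : D.IsPosRoot (C.act w1⁻¹ (D.simple i)) := by
        have hp := C.root.simple_lt i i.2
        rw [hw1, mul_inv_rev, BN.si_inv, C.act_mul _ _ hp, C.act_si i.2 hp, C.root.refl_simple i.2,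
          C.act_neg _ hp, C.neg_pos_iff (C.act_lt _ hp)]
        exact hneg
      have hNw : C.nr w = e * C.nr w1 := by
        have := C.nr_si_mul hb i.2 hpos
        rw [hw1, BN.si_mul_cancel] at this
        exact this
      have hu : ∀ u : Fˣ, f (e⁻¹ * C.Xs i (-(u : F)) * C.nr w) =
          if w ∈ C.supp τ then (((tyTh τ i (-u⁻¹))⁻¹ : kˣ) : k) else 0 := by
        intro u
        obtain ⟨u', hu', h⟩ := C.X_nr i hpos (u : F)⁻¹
        have e1 : e⁻¹ * C.Xs i (-(u : F)) * C.nr w =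
            C.Xs i (u : F)⁻¹ * C.tor F (Pi.mulSingle i (-u⁻¹)) * C.nr w * u' := by
          have h1 : C.Xs i (-(u : F)) * e = e * C.Ys i (u : F) := by rw [← he1, P.n_Y]
          rw [hNw, ← mul_assoc _ e, mul_assoc e⁻¹, h1, inv_mul_cancel_left,
            P.Y_decomp u.ne_zero, he1, mul_assoc _ (C.Xs i (u : F)⁻¹) (C.nr w1), h, ← C.hEl_eq_tor,
            Units.val_neg, Units.val_inv_eq_inv_val]
          group
        rw [e1, hf, ev (C.Xs_mem i _) hu', tyChi_single]
      have h0 : f (e⁻¹ * C.Xs i (-0) * C.nr w) = if w1 ∈ C.supp τ then 1 else 0 := by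
        have e0 : e⁻¹ * C.Xs i (-0) * C.nr w = 1 * C.tor F 1 * C.nr w1 * 1 := by
          rw [neg_zero, P.X_zero, mul_one, hNw, inv_mul_cancel_left, map_one, one_mul, one_mul, mul_one]
        rw [e0, hf, ev (one_mem _) (one_mem _)]
        simp
      have hsum : ∑ t : F, f (e⁻¹ * C.Xs i (-t) * C.nr w) =
          (if w1 ∈ C.supp τ then 1 else 0) +
            (if w ∈ C.supp τ then 1 else 0) * ∑ u : Fˣ, (((tyTh τ i)⁻¹ : Fˣ →* kˣ) u : k) := by
        rw [← Finset.add_sum_erase _ _ (Finset.mem_univ (0 : F)), h0, Finset.mul_sum]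
        congr 1
        refine (Finset.sum_bij' (fun x hx => Units.mk0 x (Finset.mem_erase.1 hx).1) (fun u _ => (u : F))
          (fun x _ => Finset.mem_univ _) (fun u _ => Finset.mem_erase.2 ⟨u.ne_zero, Finset.mem_univ _⟩)
          (fun x _ => rfl) (fun u _ => Units.ext rfl) fun x hx => ?_).trans
          (Fintype.sum_equiv ((Equiv.inv Fˣ).trans (Equiv.neg Fˣ)) (fun u : Fˣ =>
              (if w ∈ C.supp τ then 1 else 0) * (((tyTh τ i)⁻¹ : Fˣ →* kˣ) (-u⁻¹) : k))
            _ fun u => rfl)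
        have := hu (Units.mk0 x (Finset.mem_erase.1 hx).1)
        rw [Units.val_mk0] at this
        rw [this]
        split_ifs <;> simp
      rw [hsum]
      have hS := sum_th (tyTh τ i)⁻¹ (C.card_cast_zero (F := F) (k := k) hp)
      have hinv : (tyTh τ i)⁻¹ = 1 ↔ tyTh τ i = 1 := by simp [DFunLike.ext_iff]
      by_cases hs : (τ i).isSome
      · rw [tyLam, if_pos hs, zero_mul]
        by_cases hth : tyTh τ i = 1
        · have hw : w1 ∈ C.supp τ ↔ w ∈ C.supp τ := C.supp_si τ (hK.2 ⟨hth, hs⟩) w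
          rw [hS, if_pos (hinv.2 hth)]
          simp only [hw]
          ring
        · rw [hS, if_neg (fun h : (tyTh τ i)⁻¹ = 1 => hth (hinv.1 h)), mul_zero, add_zero,
            if_neg (C.not_supp τ (fun h => hth (hK.1 h).1) hpos)]
      · have hth : tyTh τ i = 1 := by
          rw [Option.not_isSome_iff_eq_none] at hs
          simp [tyTh, hs]
        rw [tyLam, if_neg hs, hS, if_pos (hinv.2 hth),
          if_neg (C.not_supp τ (fun h => hs (hK.1 h).2) hpos)]
        ring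
  funext y
  obtain ⟨a, ha, d, w, a', ha', rfl⟩ := C.exists_dec y
  rw [Pi.smul_apply, smul_eq_mul, hf, ev ha ha', ← hf]
  have hAinv := C.Aop_mem (C.leftReg F k) hfix i
  have hA1 : C.Aop (C.leftReg F k) i f (a * C.tor F d * C.nr w * a') =
      C.Aop (C.leftReg F k) i f (C.tor F d * C.nr w) := by
    have hr : ∀ z, C.Aop (C.leftReg F k) i f (z * a') = C.Aop (C.leftReg F k) i f z := fun z => by
      rw [hAval, hAval]
      refine Finset.sum_congr rfl fun t _ => ?_
      obtain ⟨b, hb', c, x, b', hb'', hy⟩ := C.exists_dec (e⁻¹ * C.Xs i (-t) * z)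
      rw [← mul_assoc, hy, mul_assoc _ b' a', hf, ev hb' (mul_mem hb'' ha'), ev hb' hb'']
    rw [hr, mul_assoc a]
    have := congrFun (hAinv a⁻¹ (inv_mem ha)) (C.tor F d * C.nr w)
    rw [C.leftReg_apply, inv_inv] at this
    exact this
  have hA2 : C.Aop (C.leftReg F k) i f (C.tor F d * C.nr w) =
      (tyChi τ (Pi.mulSingle i (C.rootVal i d⁻¹)⁻¹ * d⁻¹) : k) *
        C.Aop (C.leftReg F k) i f (C.nr w) := by
    have h := congrFun (C.tor_Aop (C.leftReg F k) i d⁻¹ f) (C.nr w)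
    rw [C.leftReg_apply, map_inv, inv_inv, htor, map_smul, Pi.smul_apply, smul_eq_mul] at h
    exact h
  rw [hA1, hA2, hpnt]
  by_cases hs : (τ i).isSome
  · rw [tyLam, if_pos hs, zero_mul, mul_zero, zero_mul]
  · have hth : tyTh τ i = 1 := by
      rw [Option.not_isSome_iff_eq_none] at hs
      simp [tyTh, hs]
    rw [map_mul, tyChi_single, hth, MonoidHom.one_apply, one_mul, map_inv]
    split_ifs <;> ring

/-- Every type is realised. -/
theorem exists_irreducible (hp : p.Prime) (hb : T.braidCheck = true)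
    (hker : (C.cartanMap (F := F)).ker = ⊥) (τ : Ty D F k) :
    ∃ (d : ℕ) (π : Representation k ↥(D.group F) (Fin d → k)), π.IsIrreducible ∧
      ∃ v, C.HasTy π τ v := by
  classical
  set R := C.leftReg F k
  set f := C.tyFun τ
  have hf := C.hasTy_tyFun hp hb hker τ
  let M₀ := Submodule.span k (Set.range fun g => R g f)
  have hM₀ : ∀ g, M₀ ≤ M₀.comap (R g) := fun g => by
    refine Submodule.span_le.2 ?_
    rintro _ ⟨g', rfl⟩
    exact Submodule.subset_span ⟨g * g', rep_mul R g g' f⟩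
  have hfM : f ∈ M₀ := Submodule.subset_span ⟨1, by simp⟩
  let fM : M₀ := ⟨f, hfM⟩
  let R₁ : Representation k ↥(D.group F) M₀ :=
    { toFun := fun g => (R g).restrict (fun x hx => hM₀ g hx)
      map_one' := LinearMap.ext fun x => Subtype.ext (by simp)
      map_mul' := fun a b => LinearMap.ext fun x => Subtype.ext (by simp) }
  have hgen : ∀ X : Submodule k M₀, (∀ g, ∀ x ∈ X, R₁ g x ∈ X) → fM ∈ X → X = ⊤ := by
    intro X hX hfX
    rw [eq_top_iff]
    rintro ⟨x, hx⟩ -
    have hle : M₀ ≤ X.map M₀.subtype := by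
      refine Submodule.span_le.2 ?_
      rintro _ ⟨g, rfl⟩
      exact ⟨R₁ g fM, hX g _ hfX, rfl⟩
    obtain ⟨y, hy, e⟩ := hle hx
    obtain rfl : y = ⟨x, hx⟩ := Subtype.ext e
    exact hy
  let P : ℕ → Prop := fun n => ∃ X : Submodule k M₀, (∀ g, ∀ x ∈ X, R₁ g x ∈ X) ∧ fM ∉ X ∧
    Module.finrank k (M₀ ⧸ X) = n
  have hP : ∃ n, P n := ⟨_, ⊥, fun g x hx => by simp_all, fun h =>
    hf.ne (congrArg Subtype.val ((Submodule.mem_bot k).1 h)), rfl⟩
  obtain ⟨X, hX, hfX, hXn⟩ := Nat.find_spec hP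
  let Q : Representation k ↥(D.group F) (M₀ ⧸ X) :=
    { toFun := fun g => X.mapQ X (R₁ g) (hX g)
      map_one' := Submodule.linearMap_qext _ (LinearMap.ext fun x => by simp)
      map_mul' := fun a b => Submodule.linearMap_qext _ (LinearMap.ext fun x => by simp) }
  let b := (Module.finBasis k (M₀ ⧸ X)).equivFun
  let π : Representation k ↥(D.group F) (Fin (Module.finrank k (M₀ ⧸ X)) → k) :=
    { toFun := fun g => b.conj (Q g)
      map_one' := by rw [map_one]; exact b.conj_id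
      map_mul' := fun a c => by rw [map_mul]; exact b.conj_comp _ _ }
  let j : M₀ →ₗ[k] (Fin (Module.finrank k (M₀ ⧸ X)) → k) := b.toLinearMap ∘ₗ X.mkQ
  have hj : ∀ g x, j (R₁ g x) = π g (j x) := fun g x => by
    show b (X.mkQ (R₁ g x)) = b.conj (Q g) (b (X.mkQ x))
    rw [LinearEquiv.conj_apply_apply, b.symm_apply_apply]
    rfl
  have hj0 : j fM ≠ 0 := fun h => hfX ((Submodule.Quotient.mk_eq_zero X).1 (b.map_eq_zero_iff.1 h))
  refine ⟨_, π, ?_, j fM, ?_⟩
  · haveI : Nontrivial (Subrepresentation π) := ⟨⟨⊥, ⊤, fun e => hj0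
      ((Submodule.mem_bot k).1 (show j fM ∈ (⊥ : Subrepresentation π).toSubmodule by
        rw [e]; exact Submodule.mem_top))⟩⟩
    refine ⟨fun U => ?_⟩
    let X' := U.toSubmodule.comap j
    have hX' : ∀ g, ∀ x ∈ X', R₁ g x ∈ X' := fun g x hx => by
      show j (R₁ g x) ∈ U.toSubmodule
      rw [hj]; exact U.apply_mem_toSubmodule g hx
    have hsurj : Function.Surjective j := b.surjective.comp (Submodule.mkQ_surjective X)
    by_cases hfU : fM ∈ X'
    · refine Or.inr (Subrepresentation.toSubmodule_injective ?_)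
      refine (eq_top_iff.2 fun y _ => ?_)
      obtain ⟨x, rfl⟩ := hsurj y
      exact (hgen X' hX' hfU).ge (Submodule.mem_top : x ∈ _)
    · refine Or.inl (Subrepresentation.toSubmodule_injective ?_)
      have hle : X ≤ X' := fun x hx => by
        show j x ∈ U.toSubmodule
        rw [show j x = 0 from by
          show b (X.mkQ x) = 0
          rw [show X.mkQ x = 0 from (Submodule.Quotient.mk_eq_zero X).2 hx, map_zero]]
        exact zero_mem _
      have hmin : Nat.find hP ≤ Module.finrank k (M₀ ⧸ X') :=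
        Nat.find_min' hP ⟨X', hX', hfU, rfl⟩
      have h1 := X.finrank_quotient_add_finrank
      have h2 := X'.finrank_quotient_add_finrank
      have heq : X = X' := Submodule.eq_of_le_of_finrank_le hle (by omega)
      refine (Submodule.eq_bot_iff _).2 fun y hy => ?_
      obtain ⟨x, rfl⟩ := hsurj y
      have hx : x ∈ X := heq ▸ (hy : x ∈ X')
      show b (X.mkQ x) = 0
      rw [show X.mkQ x = 0 from (Submodule.Quotient.mk_eq_zero X).2 hx, map_zero]
  · have h1 : C.HasTy R₁ τ fM :=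
      { fixed := fun u hu => Subtype.ext (hf.fixed u hu)
        ne := fun h => hf.ne (congrArg Subtype.val h)
        tor := fun c => Subtype.ext (hf.tor c)
        op := fun i => by
          refine Subtype.ext ?_
          rw [C.Aop_apply, Submodule.coe_sum, Submodule.coe_smul, ← hf.op i, C.Aop_apply]
          rfl }
    exact C.map_hasTy R₁ π j hj h1 hj0

end Checked

end Cfsg.Agent.Lib.Chev
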