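import Cfsg.Agent.Lib.Chev.ModEigen
import Cfsg.Agent.Lib.Perm.Modules
import Mathlib.RepresentationTheory.Irreducible
import Mathlib.FieldTheory.Finite.Basic
import Mathlib.RingTheory.IntegralDomain

/-!
An irreducible module in the defining characteristic has a single line fixed by `U`, and is determined
by the type of that line.
-/

set_option autoImplicit false
set_option linter.unusedSectionVars false

namespace Cfsg.Agent.Lib.Chev

open Cfsg.Lie Cfsg.Agent.Lib

variable {D : ChevalleyDatum} {T : Fast} {F : Type*} [Field F] {k : Type*} [Field k]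

/-- A type: at each node the Steinberg type or a character of the rank-one torus. -/
abbrev Ty (D : ChevalleyDatum) (F k : Type*) [Field F] [Field k] :=
  Fin D.rank → Option (Fˣ →* kˣ)

/-- The character at a node. -/
def tyTh (τ : Ty D F k) (i : Fin D.rank) : Fˣ →* kˣ := (τ i).getD 1

/-- The eigenvalue of the operator at a node. -/
def tyLam (τ : Ty D F k) (i : Fin D.rank) : k := if (τ i).isSome then 0 else -1

/-- The torus character of a type. -/
def tyChi (τ : Ty D F k) : (Fin D.rank → Fˣ) →* kˣ :=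
  ∏ i : Fin D.rank, (tyTh τ i).comp (Pi.evalMonoidHom (fun _ => Fˣ) i)

theorem tyChi_apply (τ : Ty D F k) (c : Fin D.rank → Fˣ) :
    tyChi τ c = ∏ i : Fin D.rank, tyTh τ i (c i) := by
  simp [tyChi, MonoidHom.finsetProd_apply]

theorem tyChi_single (τ : Ty D F k) (i : Fin D.rank) (u : Fˣ) :
    tyChi τ (Pi.mulSingle i u) = tyTh τ i u := by
  rw [tyChi_apply, Finset.prod_eq_single i (fun j _ hj => by rw [Pi.mulSingle_eq_of_ne hj, map_one])
    (fun h => absurd (Finset.mem_univ i) h), Pi.mulSingle_eq_same]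

open scoped Classical in
theorem sum_th [Fintype F] (θ : Fˣ →* kˣ) (hq : (Fintype.card F : k) = 0) :
    (∑ u : Fˣ, (θ u : k)) = if θ = 1 then -1 else 0 := by
  split_ifs with h
  · subst h
    simp only [MonoidHom.one_apply, Units.val_one, Finset.sum_const, nsmul_eq_mul, mul_one,
      Finset.card_univ, Fintype.card_units]
    rw [Nat.cast_sub Fintype.card_pos, hq, Nat.cast_one, zero_sub]
  · have h' : (Units.coeHom k).comp θ ≠ 1 := fun e =>
      h (MonoidHom.ext fun u => Units.ext (DFunLike.congr_fun e u))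
    exact sum_hom_units_eq_zero ((Units.coeHom k).comp θ) h'

namespace Checked

variable (C : Checked D T) [Fintype F] {V : Type*} [AddCommGroup V] [Module k V]
  (π : Representation k ↥(D.group F) V)
include C

/-- `v` is a fixed line of type `τ`. -/
structure HasTy (C : Checked D T) (τ : Ty D F k) (v : V) : Prop where
  fixed : v ∈ C.invU π
  ne : v ≠ 0
  tor : ∀ c, π (C.tor F c) v = (tyChi τ c : k) • v
  op : ∀ i, C.Aop π i v = tyLam τ i • v

variable {p : ℕ} [CharP F p] [CharP k p]

theorem exists_hasTy (hp : p.Prime) {v : V} (hv : v ∈ C.invU π) (h0 : v ≠ 0) (he : C.Eig π v)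
    (hA : ∀ i, ∃ a : k, C.Aop π i v = a • v) : ∃ τ : Ty D F k, C.HasTy π τ v := by
  classical
  choose a ha using he
  choose lam hlam using hA
  have inj : ∀ {x y : k}, x • v = y • v → x = y := fun h => smul_left_injective k h0 h
  have ha1 : a 1 = 1 := inj (by rw [← ha, map_one, map_one, one_smul]; rfl)
  have ham : ∀ c d, a (c * d) = a c * a d := fun c d => inj (by
    rw [← ha, map_mul, rep_mul π, ha d, map_smul, ha c, smul_smul, mul_comm])
  have hne : ∀ c, a c ≠ 0 := fun c hc => by
    have := ham c c⁻¹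
    rw [mul_inv_cancel, ha1, hc, zero_mul] at this
    exact one_ne_zero this
  let φ : (Fin D.rank → Fˣ) →* kˣ :=
    { toFun := fun c => Units.mk0 (a c) (hne c)
      map_one' := Units.ext ha1
      map_mul' := fun c d => Units.ext (ham c d) }
  let θ : Fin D.rank → (Fˣ →* kˣ) := fun i => φ.comp (MonoidHom.mulSingle (fun _ => Fˣ) i)
  have hcase : ∀ i, lam i = 0 ∨ (lam i = -1 ∧ θ i = 1) := by
    intro i
    have h := C.Aop_Aop π hp hv i
    have hsum : ∑ u : Fˣ, π (C.tor F (Pi.mulSingle i u)) v = (∑ u : Fˣ, (θ i u : k)) • v := by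
      rw [Finset.sum_smul]
      exact Finset.sum_congr rfl fun u _ => ha _
    rw [hsum, sum_th (θ i) (C.card_cast_zero hp), hlam, map_smul, map_smul, hlam, smul_smul,
      smul_smul] at h
    have h' := inj h
    by_cases hl : lam i = 0
    · exact Or.inl hl
    · have h'' := mul_right_cancel₀ hl h'
      split_ifs at h'' with hth
      · exact Or.inr ⟨h'', hth⟩
      · exact absurd h'' hl
  let τ : Ty D F k := fun i => if lam i = 0 then some (θ i) else none
  have hth : ∀ i, tyTh τ i = θ i := fun i => by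
    by_cases hl : lam i = 0
    · simp [tyTh, τ, hl]
    · rw [((hcase i).resolve_left hl).2]; simp [tyTh, τ, hl]
  refine ⟨τ, hv, h0, fun c => ?_, fun i => ?_⟩
  · have hc : φ c = tyChi τ c := by
      conv_lhs => rw [← Finset.univ_prod_mulSingle c]
      rw [map_prod, tyChi_apply]
      exact Finset.prod_congr rfl fun i _ => by rw [hth]; rfl
    rw [← hc]
    exact ha c
  · rw [hlam]
    by_cases hl : lam i = 0
    · simp [tyLam, τ, hl]
    · rw [((hcase i).resolve_left hl).1]; simp [tyLam, τ, hl]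

variable {π}

theorem HasTy.unique {τ τ' : Ty D F k} {v : V} (h : C.HasTy π τ v) (h' : C.HasTy π τ' v) :
    τ = τ' := by
  funext i
  have hth : tyTh τ i = tyTh τ' i := MonoidHom.ext fun u => Units.ext (by
    rw [← tyChi_single τ, ← tyChi_single τ']
    exact smul_left_injective k h.ne ((h.tor _).symm.trans (h'.tor _)))
  have hl : tyLam τ i = tyLam τ' i := smul_left_injective k h.ne ((h.op i).symm.trans (h'.op i))
  simp only [tyTh, tyLam] at hth hl
  rcases hτ : τ i with _ | θ <;> rcases hτ' : τ' i with _ | θ' <;> rw [hτ, hτ'] at hth hl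
  all_goals simp_all

theorem HasTy.smul {τ : Ty D F k} {v : V} (h : C.HasTy π τ v) {a : k} (ha : a ≠ 0) :
    C.HasTy π τ (a • v) where
  fixed := Submodule.smul_mem _ a h.fixed
  ne := smul_ne_zero ha h.ne
  tor c := by rw [map_smul, h.tor, smul_comm]
  op i := by rw [map_smul, h.op, smul_comm]

variable (π)

/-- The span of the translates under the negative unipotent subgroup. -/
def Wm (C : Checked D T) (v : V) : Submodule k V :=
  Submodule.span k ((fun u => π u v) '' (C.Um F : Set ↥(D.group F)))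

theorem Um_Wm {v y : V} (hy : y ∈ C.Wm π v) {u : ↥(D.group F)} (hu : u ∈ C.Um F) :
    π u y ∈ C.Wm π v := by
  have hle : C.Wm π v ≤ (C.Wm π v).comap (π u) := by
    refine Submodule.span_le.2 ?_
    rintro _ ⟨u', hu', rfl⟩
    show π u (π u' v) ∈ C.Wm π v
    rw [← rep_mul π]
    exact Submodule.subset_span ⟨u * u', mul_mem hu hu', rfl⟩
  exact hle hy

theorem ncard_mul_ng {j : ℕ} (hi : j < D.rank) {m : GL D.Idx F} (hm : m ∈ D.monomialSubgroup F)
    (hneg : D.IsNegRoot (C.sg m (D.simple j))) :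
    (C.inv (m * C.ng j)).ncard + 1 = (C.inv m).ncard := by
  have R := C.root
  have hp := R.simple_lt j hi
  have hm' := mul_mem hm (C.ng_mem (F := F) hi)
  have h1 : C.sg (m * C.ng j) (D.simple j) = D.neg (C.sg m (D.simple j)) := by
    rw [C.sg_mul hm (C.ng_mem hi) hp, C.sg_ng hi hp, R.refl_simple hi, C.sg_neg hm hp]
  have h := C.inv_step hi hm' (by rw [h1, C.neg_pos_iff (C.sg_lt hm hp)]; exact hneg)
  rw [← h]
  congr 1
  refine C.inv_congr fun r hr => ?_
  rw [C.sg_mul hm' (C.ng_mem hi) hr, C.sg_mul hm (C.ng_mem hi) (C.sg_lt (C.ng_mem hi) hr),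
    C.sg_ng hi hr, C.sg_ng hi (R.refl_lt j hi r hr), R.refl_refl j hi r hr]

/-- A fixed eigenvector: the translates by monomial elements lie in `k V v`. -/
theorem mono_Wm {v : V} (hv : v ∈ C.invU π) (he : C.Eig π v)
    (hA : ∀ i, ∃ a : k, C.Aop π i v = a • v) (n : ↥(D.group F))
    (hn : (n : GL D.Idx F) ∈ D.monomialSubgroup F) : π n v ∈ C.Wm π v := by
  classical
  suffices key : ∀ (m : ℕ) (n : ↥(D.group F)), (n : GL D.Idx F) ∈ D.monomialSubgroup F →
      (C.inv (n : GL D.Idx F)).ncard = m → π n v ∈ C.Wm π v from key _ n hn rfl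
  intro m
  induction m using Nat.strong_induction_on with
  | _ m ih =>
    intro n hn hm
    by_cases hall : ∀ i < D.rank, D.IsPosRoot (C.sg (n : GL D.Idx F) (D.simple i))
    · obtain ⟨c, rfl⟩ := C.exists_tor (C.mem_diag_of_simple_pos hn hall)
      obtain ⟨a, ha⟩ := he c
      rw [ha]
      exact Submodule.smul_mem _ _ (Submodule.subset_span ⟨1, one_mem _, by simp⟩)
    push Not at hall
    obtain ⟨j, hj, hnp⟩ := hall
    have hneg := (C.key_trichotomy (C.sg_lt hn (C.root.simple_lt j hj))).resolve_left hnp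
    let i : Fin D.rank := ⟨j, hj⟩
    set P := C.rankOne (F := F) i
    set e := C.ns F i
    have he1 : P.nEl (1 : F) = e := C.nEl_one i
    have hm1 : P.hEl (-1) = C.tor F (Pi.mulSingle i (-1 : Fˣ)) := by
      rw [← C.hEl_eq_tor, Units.val_neg, Units.val_one]
    set M := Submodule.span k (Set.range fun t : F => π (C.Ys i t) v) with hM
    have hterm : ∀ u : Fˣ, π (C.Xs i (u : F) * e) v ∈ M := by
      intro u
      obtain ⟨a, ha⟩ := he (Pi.mulSingle i u)
      obtain ⟨b, hb⟩ := he (Pi.mulSingle i (-1 : Fˣ))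
      have e1 : C.Xs i (u : F) * e =
          e * C.Xs i (-(u : F)⁻¹) * e * P.hEl (u : F) * C.Xs i (-(u : F)⁻¹) := by
        calc C.Xs i (u : F) * e = e * C.Ys i (-(u : F)) := by rw [← he1, P.n_Y, neg_neg]
          _ = e * (C.Xs i (-(u : F)⁻¹) * (P.hEl (u : F)⁻¹ * e) * C.Xs i (-(u : F)⁻¹)) := by
            rw [P.Y_decomp (neg_ne_zero.2 u.ne_zero), he1, inv_neg, neg_neg]
          _ = _ := by rw [← he1, ← P.n_mul_h u.ne_zero]; group
      have e2 : e * C.Xs i (-(u : F)⁻¹) * e = C.Ys i (u : F)⁻¹ * P.hEl (-1) := by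
        rw [← he1, P.n_X, neg_neg, mul_assoc, P.h_neg_one]
      rw [e1, e2, rep_mul π, C.X_fix π hv, rep_mul π, C.hEl_eq_tor, ha, map_smul, rep_mul π, hm1, hb,
        map_smul]
      exact Submodule.smul_mem _ _ (Submodule.smul_mem _ _ (Submodule.subset_span ⟨_, rfl⟩))
    have hnv : π e⁻¹ v ∈ M := by
      obtain ⟨b, hb⟩ := he (Pi.mulSingle i (-1 : Fˣ))
      have e3 : e⁻¹ = e * P.hEl (-1) := by
        have h := P.n_mul_h (neg_ne_zero.2 (one_ne_zero (α := F)))
        rw [inv_neg, inv_one, ← P.n_inv_one, he1] at h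
        exact h.symm
      rw [e3, rep_mul π, hm1, hb, map_smul]
      refine Submodule.smul_mem _ _ ?_
      obtain ⟨a, ha⟩ := hA i
      have hsum : C.Aop π i v = π e v + ∑ u : Fˣ, π (C.Xs i (u : F) * e) v := by
        rw [C.Aop_apply, ← Finset.add_sum_erase _ _ (Finset.mem_univ (0 : F)), P.X_zero, one_mul]
        congr 1
        refine Finset.sum_bij' (fun x hx => Units.mk0 x (Finset.mem_erase.1 hx).1) (fun u _ => (u : F))
          (fun x _ => Finset.mem_univ _) (fun u _ => Finset.mem_erase.2 ⟨u.ne_zero, Finset.mem_univ _⟩)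
          (fun x _ => rfl) (fun u _ => Units.ext rfl) (fun x _ => rfl)
      rw [eq_sub_of_add_eq hsum.symm, ha]
      refine sub_mem (Submodule.smul_mem _ _ (Submodule.subset_span ⟨0, ?_⟩))
        (Submodule.sum_mem _ fun u _ => hterm u)
      show π (C.Ys i 0) v = v
      rw [P.Y_zero, map_one]; rfl
    set n' := n * e
    have hn' : (n' : GL D.Idx F) ∈ D.monomialSubgroup F := mul_mem hn (C.ng_mem hj)
    have hlt : (C.inv (n' : GL D.Idx F)).ncard < m := by
      have h1 := C.ncard_mul_ng hj hn hneg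
      show (C.inv ((n : GL D.Idx F) * C.ng j)).ncard < m
      omega
    have hmap : M ≤ (C.Wm π v).comap (π n') := by
      refine Submodule.span_le.2 ?_
      rintro _ ⟨t, rfl⟩
      show π n' (π (C.Ys i t) v) ∈ C.Wm π v
      rw [← rep_mul π, show n' * C.Ys i t = (n' * C.Ys i t * n'⁻¹) * n' by group, rep_mul π]
      refine C.Um_Wm π (ih _ hlt n' hn' rfl) ?_
      have hp := C.root.simple_lt j hj
      have hnp' := C.root.neg_lt _ hp
      show (n' : GL D.Idx F) * C.xg (D.neg (D.simple j)) t * (n' : GL D.Idx F)⁻¹ ∈ D.negUnipotent F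
      rw [negUnipotent_eq]
      refine C.conj_mem_of_image hn' (S := {D.neg (D.simple j)}) (fun r hr => hr ▸ hnp')
        (fun r hr => ?_) (C.xg_mem (S := {D.neg (D.simple j)}) rfl t)
      obtain rfl := hr
      show D.IsNegRoot (C.sg ((n : GL D.Idx F) * C.ng j) (D.neg (D.simple j)))
      rw [C.sg_mul hn (C.ng_mem hj) hnp', C.sg_ng hj hnp', C.root.refl_neg' hj hp,
        C.root.refl_simple hj, C.root.neg_neg' hp]
      exact hneg
    have := hmap hnv
    rw [Submodule.mem_comap, ← rep_mul π, mul_inv_cancel_right] at this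
    exact this

theorem group_Wm {v : V} (hv : v ∈ C.invU π) (he : C.Eig π v)
    (hA : ∀ i, ∃ a : k, C.Aop π i v = a • v) (g : ↥(D.group F)) : π g v ∈ C.Wm π v := by
  obtain ⟨m, hm, -, hmap⟩ := C.exists_pos_to_neg F
  let m' : ↥(D.group F) := ⟨m, C.monomial_le_group hm⟩
  obtain ⟨b, hb, n, hn, u, hu, e⟩ := C.exists_bnu (m'⁻¹ * g).2
  obtain ⟨u0, hu0, h, hh, rfl⟩ := C.mem_borel.1 hb
  let U0 : ↥(D.group F) := ⟨u0, C.pos_le_group hu0⟩
  let N0 : ↥(D.group F) := ⟨h * n, mul_mem (C.diag_le_group hh) (C.monomial_le_group hn)⟩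
  let U1 : ↥(D.group F) := ⟨u, C.grp_le_group (fun r hr => hr.1.1) hu⟩
  have hU1 : U1 ∈ C.Up F := by
    show u ∈ D.posUnipotent F
    rw [posUnipotent_eq]
    exact grp_mem_mono hu fun r hr => hr.1
  have eg : g = (m' * U0 * m'⁻¹) * (m' * N0) * U1 := by
    have : m'⁻¹ * g = U0 * N0 * U1 := Subtype.ext (by
      show ((m'⁻¹ * g : ↥(D.group F)) : GL D.Idx F) = u0 * (h * n) * u
      rw [e]; group)
    rw [eq_comm, ← eq_inv_mul_iff_mul_eq] at this
    calc g = m' * (m'⁻¹ * g) := by group
      _ = _ := by rw [show m'⁻¹ * g = U0 * N0 * U1 from Subtype.ext (by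
            show ((m'⁻¹ * g : ↥(D.group F)) : GL D.Idx F) = u0 * (h * n) * u
            rw [e]; group)]; group
  rw [eg, rep_mul π, hv _ hU1, rep_mul π]
  refine C.Um_Wm π (C.mono_Wm π hv he hA _ ?_) ?_
  · exact mul_mem hm (mul_mem (C.diag_le_monomial hh) hn)
  · show m * u0 * m⁻¹ ∈ D.negUnipotent F
    rw [← hmap]
    exact ⟨u0, hu0, rfl⟩

theorem Wm_eq_top [hπ : π.IsIrreducible] {v : V} (hv : v ∈ C.invU π) (h0 : v ≠ 0) (he : C.Eig π v)
    (hA : ∀ i, ∃ a : k, C.Aop π i v = a • v) : C.Wm π v = ⊤ := by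
  let S : Subrepresentation π :=
    { toSubmodule := Submodule.span k (Set.range fun g => π g v)
      apply_mem_toSubmodule := fun g x hx => by
        have hle : Submodule.span k (Set.range fun g => π g v) ≤
            (Submodule.span k (Set.range fun g => π g v)).comap (π g) := by
          refine Submodule.span_le.2 ?_
          rintro _ ⟨g', rfl⟩
          exact Submodule.subset_span ⟨g * g', rep_mul π g g' v⟩
        exact hle hx }
  have hS : S.toSubmodule = ⊤ := by
    rcases eq_bot_or_eq_top S with h | h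
    · have h1 : v ∈ S.toSubmodule := Submodule.subset_span ⟨1, by simp⟩
      rw [h] at h1
      exact absurd ((Submodule.mem_bot k).1 h1) h0
    · rw [h]; rfl
  rw [eq_top_iff, ← hS]
  refine Submodule.span_le.2 ?_
  rintro _ ⟨g, rfl⟩
  exact C.group_Wm π hv he hA g

theorem isPGroup_Um (hp : p.Prime) : IsPGroup p ↥(C.Um F) := by
  haveI := Fact.mk hp
  obtain ⟨a, -, ha⟩ := FiniteField.card F p
  have hU : IsPGroup p (D.posUnipotent F) := IsPGroup.of_card (n := (a : ℕ) * T.npos) (by
    rw [posUnipotent_eq, C.card_grp C.closedSet_pos, C.ncard_pos, ha, pow_mul])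
  obtain ⟨m, -, -, hmap⟩ := C.exists_pos_to_neg F
  have h2 : IsPGroup p (D.negUnipotent F) := hmap ▸ hU.map _
  exact h2.comap_of_injective (D.group F).subtype (D.group F).subtype_injective

theorem isPGroup_Up (hp : p.Prime) : IsPGroup p ↥(C.Up F) := by
  haveI := Fact.mk hp
  obtain ⟨a, -, ha⟩ := FiniteField.card F p
  have hU : IsPGroup p (D.posUnipotent F) := IsPGroup.of_card (n := (a : ℕ) * T.npos) (by
    rw [posUnipotent_eq, C.card_grp C.closedSet_pos, C.ncard_pos, ha, pow_mul])
  exact hU.comap_of_injective (D.group F).subtype (D.group F).subtype_injective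

theorem invU_ne_bot (hp : p.Prime) [Nontrivial V] : C.invU π ≠ ⊥ := by
  haveI := Fact.mk hp
  obtain ⟨v, hv⟩ := exists_ne (0 : V)
  obtain ⟨w, -, hw0, hw⟩ := Perm.exists_fixed_of_pGroup (C.isPGroup_Up (F := F) hp)
    (π.comp (C.Up F).subtype) hv ⊤ trivial (fun _ _ _ => trivial)
  exact fun h => hw0 ((Submodule.mem_bot k).1 (h ▸ fun u hu => hw ⟨u, hu⟩))

/-- The fixed space of `U` of an irreducible representation is a line. -/
theorem exists_functional [IsAlgClosed k] [FiniteDimensional k V] [hπ : π.IsIrreducible]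
    (hp : p.Prime) (hb : T.braidCheck = true) {τ : Ty D F k} {v : V} (hv : C.HasTy π τ v) :
    ∃ φ : V →ₗ[k] k, (∀ u ∈ C.Um F, ∀ y, φ (π u y) = φ y) ∧ φ v = 1 ∧
      ∀ y ∈ C.invU π, y = φ y • v := by
  haveI := Fact.mk hp
  haveI : Nontrivial V := ⟨⟨v, 0, hv.ne⟩⟩
  have he : C.Eig π v := fun c => ⟨_, hv.tor c⟩
  have hA : ∀ i, ∃ a : k, C.Aop π i v = a • v := fun i => ⟨_, hv.op i⟩
  have htop := C.Wm_eq_top π hv.fixed hv.ne he hA
  obtain ⟨φ0, hφ0⟩ := exists_ne (0 : Module.Dual k V)
  obtain ⟨φ, -, hφne, hφ⟩ := Perm.exists_fixed_of_pGroup (C.isPGroup_Um (F := F) hp)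
    (π.dual.comp (C.Um F).subtype) hφ0 ⊤ trivial (fun _ _ _ => trivial)
  have hinv : ∀ u ∈ C.Um F, ∀ y, φ (π u y) = φ y := fun u hu y => by
    have := LinearMap.congr_fun (hφ ⟨u, hu⟩⁻¹) y
    simp only [MonoidHom.coe_comp, Function.comp_apply, Subgroup.coe_subtype] at this
    simpa [Representation.dual_apply, Module.Dual.transpose_apply] using this
  have hprop : ∀ ψ : V →ₗ[k] k, (∀ u ∈ C.Um F, ∀ y, ψ (π u y) = ψ y) → ψ v = 0 → ψ = 0 := by
    intro ψ hψ h0
    refine LinearMap.ker_eq_top.1 (eq_top_iff.2 ?_)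
    rw [← htop]
    refine Submodule.span_le.2 ?_
    rintro _ ⟨u, hu, rfl⟩
    show ψ (π u v) = 0
    rw [hψ u hu, h0]
  have hφv : φ v ≠ 0 := fun h => hφne (hprop φ hinv h)
  set φ' := (φ v)⁻¹ • φ
  have hinv' : ∀ u ∈ C.Um F, ∀ y, φ' (π u y) = φ' y := fun u hu y => by
    simp [φ', hinv u hu y]
  have hφ'v : φ' v = 1 := by simp [φ', hφv]
  have hscal : ∀ ψ : V →ₗ[k] k, (∀ u ∈ C.Um F, ∀ y, ψ (π u y) = ψ y) → ψ = ψ v • φ' := by
    intro ψ hψ
    rw [← sub_eq_zero]
    refine hprop _ (fun u hu y => by simp [hψ u hu y, hinv' u hu y]) ?_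
    simp [hφ'v]
  refine ⟨φ', hinv', hφ'v, fun y hy => ?_⟩
  let K : Submodule k V := C.invU π ⊓ LinearMap.ker φ'
  have hKH : ∀ c, ∀ x ∈ K, π (C.tor F c) x ∈ K := by
    rintro c x ⟨hx, hx0⟩
    refine ⟨C.tor_mem π hx c, ?_⟩
    have h := hscal (φ' ∘ₗ π (C.tor F c)) fun u hu z => by
      show φ' (π (C.tor F c) (π u z)) = φ' (π (C.tor F c) z)
      rw [← rep_mul π, show C.tor F c * u = (C.tor F c * u * (C.tor F c)⁻¹) * C.tor F c by group,
        rep_mul π, hinv' _ (C.tor_conj_Um c hu)]
    have := LinearMap.congr_fun h x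
    simp only [LinearMap.comp_apply, LinearMap.smul_apply] at this
    rw [SetLike.mem_coe, LinearMap.mem_ker] at hx0 ⊢
    rw [this, hx0, smul_zero]
  have hKA : ∀ i, ∀ x ∈ K, C.Aop π i x ∈ K := by
    rintro i x ⟨hx, hx0⟩
    refine ⟨C.Aop_mem π hx i, ?_⟩
    have h := hscal (φ' ∘ₗ C.Aop π i) fun u hu z => by
      let S : Subgroup ↥(D.group F) :=
        { carrier := {u | ∀ z, φ' (C.Aop π i (π u z)) = φ' (C.Aop π i z)}
          one_mem' := fun z => by simp
          mul_mem' := fun {a b} ha hb z => by rw [rep_mul π, ha, hb]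
          inv_mem' := fun {a} ha z => by
            rw [← ha (π a⁻¹ z), ← rep_mul π, mul_inv_cancel, map_one]; rfl }
      have hle : D.negUnipotent F ≤ S.map (D.group F).subtype := by
        rw [negUnipotent_eq]
        refine C.grp_le fun r hr a => ⟨⟨C.xg r a, C.xg_mem_group hr.1 a⟩, fun z => ?_, rfl⟩
        simp only [C.Aop_apply, map_sum]
        by_cases hne : r = D.neg (D.simple i)
        · refine Fintype.sum_equiv (Equiv.addRight (-a)) _ _ fun t => ?_
          have e : C.Xs i t * C.ns F i * C.Ys i a = C.Xs i (t + -a) * C.ns F i := by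
            rw [mul_assoc, ← C.nEl_one, (C.rankOne (F := F) i).n_Y, ← mul_assoc,
              (C.rankOne (F := F) i).X_add]
          rw [← rep_mul π, show (⟨C.xg r a, C.xg_mem_group hr.1 a⟩ : ↥(D.group F)) = C.Ys i a from
            Subtype.ext (by subst hne; rfl), e]
          rfl
        · refine Finset.sum_congr rfl fun t _ => ?_
          set g := C.Xs i t * C.ns F i
          set x : ↥(D.group F) := ⟨C.xg r a, C.xg_mem_group hr.1 a⟩
          rw [← rep_mul π, show g * x = (g * x * g⁻¹) * g by group, rep_mul π,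
            hinv' _ (C.XN_neg i hr hne t a)]
      obtain ⟨u', hu', e⟩ := hle (show (u : GL D.Idx F) ∈ D.negUnipotent F from hu)
      obtain rfl : u' = u := Subtype.ext e
      exact hu' z
    have := LinearMap.congr_fun h x
    simp only [LinearMap.comp_apply, LinearMap.smul_apply] at this
    rw [SetLike.mem_coe, LinearMap.mem_ker] at hx0 ⊢
    rw [this, hx0, smul_zero]
  have hK : K = ⊥ := by
    by_contra hne
    obtain ⟨w, hw, hw0, hwe, hwA⟩ := C.exists_common π hp hb inf_le_left hne hKH hKA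
    have htop' := C.Wm_eq_top π hw.1 hw0 hwe hwA
    have : φ' v = 0 := by
      have hle : C.Wm π w ≤ LinearMap.ker φ' := by
        refine Submodule.span_le.2 ?_
        rintro _ ⟨u, hu, rfl⟩
        show φ' (π u w) = 0
        rw [hinv' u hu]; exact hw.2
      exact hle (htop' ▸ Submodule.mem_top)
    exact one_ne_zero (hφ'v ▸ this)
  have : y - φ' y • v ∈ K := by
    refine ⟨sub_mem hy (Submodule.smul_mem _ _ hv.fixed), ?_⟩
    rw [SetLike.mem_coe, LinearMap.mem_ker, map_sub, map_smul, hφ'v, smul_eq_mul, mul_one, sub_self]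
  rw [hK, Submodule.mem_bot, sub_eq_zero] at this
  exact this

/-- Every irreducible representation has a type. -/
theorem exists_ty [IsAlgClosed k] [FiniteDimensional k V] [hπ : π.IsIrreducible]
    (hp : p.Prime) (hb : T.braidCheck = true) : ∃ (τ : Ty D F k) (v : V), C.HasTy π τ v := by
  haveI : Nontrivial V := by
    by_contra h
    rw [not_nontrivial_iff_subsingleton] at h
    exact (not_nontrivial_iff_subsingleton.2 ⟨fun a b : Subrepresentation π =>
      Subrepresentation.toSubmodule_injective (Subsingleton.elim _ _)⟩) inferInstance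
  obtain ⟨v, hv, hv0, he, hA⟩ := C.exists_common π hp hb le_rfl (C.invU_ne_bot π hp)
    (fun c x hx => C.tor_mem π hx c) (fun i x hx => C.Aop_mem π hx i)
  obtain ⟨τ, hτ⟩ := C.exists_hasTy π hp hv hv0 he hA
  exact ⟨τ, v, hτ⟩

variable {V' : Type*} [AddCommGroup V'] [Module k V'] (π' : Representation k ↥(D.group F) V')

theorem map_hasTy (f : V →ₗ[k] V') (hf : ∀ g y, f (π g y) = π' g (f y)) {τ : Ty D F k} {v : V}
    (hv : C.HasTy π τ v) (h0 : f v ≠ 0) : C.HasTy π' τ (f v) where
  fixed u hu := by rw [← hf, hv.fixed u hu]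
  ne := h0
  tor c := by rw [← hf, hv.tor, map_smul]
  op i := by
    rw [← map_smul, ← hv.op i, C.Aop_apply, C.Aop_apply, map_sum]
    exact Finset.sum_congr rfl fun t _ => (hf _ _).symm

/-- Equal types give equivalent representations. -/
theorem equiv_of_hasTy [IsAlgClosed k] [FiniteDimensional k V] [FiniteDimensional k V']
    [hπ : π.IsIrreducible] [hπ' : π'.IsIrreducible] (hp : p.Prime) (hb : T.braidCheck = true)
    {τ : Ty D F k} {v : V} {v' : V'} (hv : C.HasTy π τ v) (hv' : C.HasTy π' τ v') :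
    Nonempty (Representation.Equiv π π') := by
  obtain ⟨φ, hφi, hφ, -⟩ := C.exists_functional π hp hb hv
  obtain ⟨φ', hφi', hφ', -⟩ := C.exists_functional π' hp hb hv'
  let ρ₂ := π.prod π'
  have hW : ∀ g, ρ₂ g (v, v') = (π g v, π' g v') := fun g => rfl
  have hinv : (v, v') ∈ C.invU ρ₂ := fun u hu => by rw [hW, hv.fixed u hu, hv'.fixed u hu]
  have he : C.Eig ρ₂ (v, v') := fun c => ⟨(tyChi τ c : k), by rw [hW, hv.tor, hv'.tor]; rfl⟩
  have hA : ∀ i, ∃ a : k, C.Aop ρ₂ i (v, v') = a • (v, v') := fun i => ⟨tyLam τ i, by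
    rw [C.Aop_apply]
    refine Prod.ext ?_ ?_
    · rw [Prod.fst_sum]
      exact ((C.Aop_apply π i v).symm.trans (hv.op i))
    · rw [Prod.snd_sum]
      exact ((C.Aop_apply π' i v').symm.trans (hv'.op i))⟩
  let M := Submodule.span k (Set.range fun g => ρ₂ g (v, v'))
  have hMg : ∀ g, ∀ x ∈ M, ρ₂ g x ∈ M := fun g x hx => by
    have hle : M ≤ M.comap (ρ₂ g) := by
      refine Submodule.span_le.2 ?_
      rintro _ ⟨g', rfl⟩
      exact Submodule.subset_span ⟨g * g', rep_mul ρ₂ g g' _⟩
    exact hle hx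
  have hMΦ : ∀ x ∈ M, φ x.1 = φ' x.2 := by
    have hle : C.Wm ρ₂ (v, v') ≤ LinearMap.ker (φ ∘ₗ LinearMap.fst k V V' - φ' ∘ₗ LinearMap.snd k V V') := by
      refine Submodule.span_le.2 ?_
      rintro _ ⟨u, hu, rfl⟩
      show φ (π u v) - φ' (π' u v') = 0
      rw [hφi u hu, hφi' u hu, hφ, hφ', sub_self]
    intro x hx
    have h : x ∈ C.Wm ρ₂ (v, v') := (Submodule.span_le.2 (by
      rintro _ ⟨g, rfl⟩; exact C.group_Wm ρ₂ hinv he hA g)) hx
    exact sub_eq_zero.1 (hle h)
  have hvM : (v, v') ∈ M := Submodule.subset_span ⟨1, by simp⟩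
  have hk1 : ∀ x : V', ((0 : V), x) ∈ M → x = 0 := by
    intro x hx
    by_contra hne
    let S : Subrepresentation π' :=
      { toSubmodule := M.comap (LinearMap.inr k V V')
        apply_mem_toSubmodule := fun g y hy => by
          have := hMg g _ hy
          simpa [ρ₂] using this }
    rcases eq_bot_or_eq_top S with h | h
    · have h1 : x ∈ S.toSubmodule := hx
      rw [h] at h1
      exact hne ((Submodule.mem_bot k).1 h1)
    · have h1 : v' ∈ S.toSubmodule := by rw [h]; exact Submodule.mem_top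
      have h2 := hMΦ _ (show ((0 : V), v') ∈ M from h1)
      simp only [map_zero, hφ'] at h2
      exact zero_ne_one h2
  have hk2 : ∀ x : V, (x, (0 : V')) ∈ M → x = 0 := by
    intro x hx
    by_contra hne
    let S : Subrepresentation π :=
      { toSubmodule := M.comap (LinearMap.inl k V V')
        apply_mem_toSubmodule := fun g y hy => by
          have := hMg g _ hy
          simpa [ρ₂] using this }
    rcases eq_bot_or_eq_top S with h | h
    · have h1 : x ∈ S.toSubmodule := hx
      rw [h] at h1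
      exact hne ((Submodule.mem_bot k).1 h1)
    · have h1 : v ∈ S.toSubmodule := by rw [h]; exact Submodule.mem_top
      have h2 := hMΦ _ (show (v, (0 : V')) ∈ M from h1)
      simp only [map_zero, hφ] at h2
      exact one_ne_zero h2
  let p1 : M →ₗ[k] V := LinearMap.fst k V V' ∘ₗ M.subtype
  let p2 : M →ₗ[k] V' := LinearMap.snd k V V' ∘ₗ M.subtype
  have b1 : Function.Bijective p1 := by
    refine ⟨(injective_iff_map_eq_zero p1).2 fun x hx => Subtype.ext (Prod.ext hx ?_), ?_⟩
    · have hx' : x.1.1 = 0 := hx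
      exact hk1 _ (by rw [← hx', Prod.mk.eta]; exact x.2)
    · let S : Subrepresentation π :=
        { toSubmodule := LinearMap.range p1
          apply_mem_toSubmodule := fun g y hy => by
            obtain ⟨x, rfl⟩ := hy
            exact ⟨⟨ρ₂ g x, hMg g _ x.2⟩, rfl⟩ }
      rcases eq_bot_or_eq_top S with h | h
      · have h1 : v ∈ S.toSubmodule := ⟨⟨_, hvM⟩, rfl⟩
        rw [h] at h1
        exact absurd ((Submodule.mem_bot k).1 h1) hv.ne
      · exact LinearMap.range_eq_top.1 (congrArg Subrepresentation.toSubmodule h)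
  have b2 : Function.Bijective p2 := by
    refine ⟨(injective_iff_map_eq_zero p2).2 fun x hx => Subtype.ext (Prod.ext ?_ hx), ?_⟩
    · have hx' : x.1.2 = 0 := hx
      exact hk2 _ (by rw [← hx', Prod.mk.eta]; exact x.2)
    · let S : Subrepresentation π' :=
        { toSubmodule := LinearMap.range p2
          apply_mem_toSubmodule := fun g y hy => by
            obtain ⟨x, rfl⟩ := hy
            exact ⟨⟨ρ₂ g x, hMg g _ x.2⟩, rfl⟩ }
      rcases eq_bot_or_eq_top S with h | h
      · have h1 : v' ∈ S.toSubmodule := ⟨⟨_, hvM⟩, rfl⟩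
        rw [h] at h1
        exact absurd ((Submodule.mem_bot k).1 h1) hv'.ne
      · exact LinearMap.range_eq_top.1 (congrArg Subrepresentation.toSubmodule h)
  let e1 := LinearEquiv.ofBijective p1 b1
  let e2 := LinearEquiv.ofBijective p2 b2
  refine ⟨Representation.Equiv.mk (e1.symm.trans e2) fun g => LinearMap.ext fun y => ?_⟩
  obtain ⟨x, rfl⟩ := e1.surjective y
  show e2 (e1.symm (π g (e1 x))) = π' g (e2 (e1.symm (e1 x)))
  rw [e1.symm_apply_apply, show π g (e1 x) = e1 ⟨ρ₂ g x, hMg g _ x.2⟩ from rfl, e1.symm_apply_apply]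
  rfl

end Checked

end Cfsg.Agent.Lib.Chev
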