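import Cfsg.Agent.Lib.Chev.BN
import Cfsg.Agent.Lib.Chev.CoxWord
import Cfsg.Prelude.Def_ChevAutomorphisms

/-!
Generation of the group by the monomial subgroup and root subgroups, checked through orbits on roots.
-/

set_option autoImplicit false

namespace Cfsg.Agent.Lib.Chev

open Cfsg.Lie Cfsg.Agent.Lib

namespace Fast

variable (T : Fast)

/-- One root is added to a set of roots (as a bit mask) if a reflection maps it into the set. -/
def grow (R r : ℕ) : ℕ :=
  bif (List.range T.l).any (fun j => Nat.testBit R (T.w j r)) then R ||| (1 <<< r) else R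

/-- Sweep `m` times. -/
def sweep : ℕ → ℕ → ℕ
  | 0, R => R
  | m + 1, R => (List.range T.n).foldl T.grow (sweep m R)

/-- All targets lie in the orbits of the starting roots. -/
def orbitCheck (m : ℕ) (starts targets : List ℕ) : Bool :=
  let R := T.sweep m (starts.foldl (fun R r => R ||| (1 <<< r)) 0)
  targets.all fun r => Nat.testBit R r

end Fast

theorem testBit_set {R a r : ℕ} (h : Nat.testBit (R ||| (1 <<< a)) r = true) :
    Nat.testBit R r = true ∨ r = a := by
  rw [Nat.testBit_lor, Bool.or_eq_true, Nat.one_shiftLeft, Nat.testBit_two_pow, decide_eq_true_eq] at h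
  exact h.imp_right Eq.symm

namespace Checked

variable {D : ChevalleyDatum} {T : Fast} {F : Type*} [Field F] (C : Checked D T)
include C

theorem orbit_induction (P : ℕ → Prop) (hP : ∀ i < D.rank, ∀ s < D.nroots, P s → P (D.reflectRoot i s))
    (m : ℕ) (starts targets : List ℕ) (hs : ∀ s ∈ starts, P s) (hlt : ∀ s ∈ starts, s < D.nroots)
    (hc : T.orbitCheck m starts targets = true) : ∀ r ∈ targets, P r := by
  have hinit : ∀ (L : List ℕ) (R : ℕ), (∀ r, Nat.testBit R r = true → P r ∧ r < D.nroots) →
      (∀ s ∈ L, P s ∧ s < D.nroots) →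
      ∀ r, Nat.testBit (L.foldl (fun R r => R ||| (1 <<< r)) R) r = true → P r ∧ r < D.nroots := by
    intro L
    induction L with
    | nil => exact fun R hR _ => hR
    | cons a L ih =>
      intro R hR hL
      rw [List.foldl_cons]
      refine ih _ (fun r hr => ?_) fun s hs' => hL s (List.mem_cons_of_mem _ hs')
      rcases testBit_set hr with h | rfl
      exacts [hR r h, hL r (List.mem_cons_self ..)]
  have hgrow : ∀ (L : List ℕ) (R : ℕ), (∀ a ∈ L, a < D.nroots) →
      (∀ r, Nat.testBit R r = true → P r ∧ r < D.nroots) →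
      ∀ r, Nat.testBit (L.foldl T.grow R) r = true → P r ∧ r < D.nroots := by
    intro L
    induction L with
    | nil => exact fun R _ hR => hR
    | cons a L ih =>
      intro R hL hR
      rw [List.foldl_cons]
      refine ih _ (fun x hx => hL x (List.mem_cons_of_mem _ hx)) fun r hr => ?_
      rw [Fast.grow] at hr
      cases hb : (List.range T.l).any (fun j => Nat.testBit R (T.w j a)) with
      | false => rw [hb] at hr; exact hR r hr
      | true =>
        rw [hb] at hr
        rcases testBit_set hr with h | rfl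
        · exact hR r h
        · obtain ⟨j, hj, hjb⟩ := List.any_eq_true.1 hb
          rw [List.mem_range, ← C.tables.rank] at hj
          have ha := hL r (List.mem_cons_self ..)
          rw [← C.refl j hj r ha] at hjb
          have := hP j hj _ (hR _ hjb).2 (hR _ hjb).1
          rw [C.root.refl_refl j hj r ha] at this
          exact ⟨this, ha⟩
  have hsweep : ∀ (m : ℕ) (R : ℕ), (∀ r, Nat.testBit R r = true → P r ∧ r < D.nroots) →
      ∀ r, Nat.testBit (T.sweep m R) r = true → P r ∧ r < D.nroots := by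
    intro m
    induction m with
    | zero => exact fun R hR => hR
    | succ m ih =>
      intro R hR
      exact hgrow _ _ (fun a ha => by rw [C.tables.nroots]; exact List.mem_range.1 ha) (ih R hR)
  intro r hr
  simp only [Fast.orbitCheck, List.all_eq_true] at hc
  exact (hsweep m _ (hinit starts 0 (by simp) fun s h => ⟨hs s h, hlt s h⟩) r (hc r hr)).1

theorem xg_mem_rootSubgroup (r : ℕ) (t : F) : C.xg r t ∈ D.rootSubgroup F r :=
  Subgroup.subset_closure ⟨t, C.val_xg r t⟩

theorem step_mem {H : Subgroup (GL D.Idx F)} (hN : D.monomialSubgroup F ≤ H) {i : ℕ} (hi : i < D.rank)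
    {s : ℕ} (hs : s < D.nroots) (h : ∀ t : F, C.xg s t ∈ H) (t : F) : C.xg (D.reflectRoot i s) t ∈ H := by
  have h1 := C.ng_xg hi hs (eta T F i s * t)
  rw [← mul_assoc, eta_sq, one_mul, ← mul_inv_eq_iff_eq_mul] at h1
  rw [← h1]
  exact mul_mem (mul_mem (hN (C.ng_mem hi)) (h _)) (inv_mem (hN (C.ng_mem hi)))

theorem group_le_of_orbits {H : Subgroup (GL D.Idx F)} (hN : D.monomialSubgroup F ≤ H)
    (m : ℕ) (starts : List ℕ) (hs : ∀ s ∈ starts, ∀ t : F, C.xg s t ∈ H) (hlt : ∀ s ∈ starts, s < D.nroots)
    (hc : T.orbitCheck m starts (List.range D.nroots) = true) : D.group F ≤ H :=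
  C.group_le fun r hr => C.orbit_induction (fun r => ∀ t : F, C.xg r t ∈ H)
    (fun _ hi _ hs' h => C.step_mem hN hi hs' h) m starts _ hs hlt hc r (List.mem_range.2 hr)

/-- A commutator of two roots in the orbit gives a root in another orbit. -/
theorem group_le_of_comm {H : Subgroup (GL D.Idx F)} (hN : D.monomialSubgroup F ≤ H) {p : ℕ}
    (hp : p < D.nroots) (hX : D.rootSubgroup F p ≤ H) (m : ℕ) {r s k : ℕ} {c : ℤ}
    (hrs : T.orbitCheck m [p] [r, s] = true ∧ r < D.nroots ∧ s < D.nroots ∧ k < D.nroots ∧ s ≠ r ∧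
      s ≠ D.neg r ∧ D.commTerms r s = [(k, c, 1, 1)] ∧
      T.orbitCheck m [p, k] (List.range D.nroots) = true)
    (hc : (c : F) ≠ 0) : D.group F ≤ H := by
  obtain ⟨ho, hr, hs, hk, hne, hneg, hcomm, hall⟩ := hrs
  have h0 : ∀ q ∈ [r, s], ∀ t : F, C.xg q t ∈ H :=
    C.orbit_induction (fun r => ∀ t : F, C.xg r t ∈ H) (fun _ hi _ hs' h => C.step_mem hN hi hs' h) m [p] [r, s]
      (fun q hq t => by rw [List.mem_singleton] at hq; subst hq; exact hX (C.xg_mem_rootSubgroup _ t))
      (by simpa using hp) ho
  have hkH : ∀ t : F, C.xg k t ∈ H := by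
    intro t
    have h1 := C.comm hr hs hne hneg (-((c : F)⁻¹ * t)) (1 : F)
    rw [ChevalleyDatum.commWord, hcomm, List.map_singleton, wg, List.map_singleton, List.prod_singleton] at h1
    simp only [neg_neg, pow_one, mul_one, ← mul_assoc, mul_inv_cancel₀ hc, one_mul] at h1
    have h2 : C.xg k t =
        (C.xg r (-((c : F)⁻¹ * t)) * C.xg s (1 : F))⁻¹ * (C.xg s 1 * C.xg r (-((c : F)⁻¹ * t))) := by
      rw [h1]; group
    rw [h2]
    exact mul_mem (inv_mem (mul_mem (h0 r (by simp) _) (h0 s (by simp) _)))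
      (mul_mem (h0 s (by simp) _) (h0 r (by simp) _))
  refine C.group_le_of_orbits hN m [p, k] (fun q hq t => ?_) (fun q hq => ?_) hall
  · simp only [List.mem_cons, List.not_mem_nil, or_false] at hq
    rcases hq with rfl | rfl
    exacts [hX (C.xg_mem_rootSubgroup _ t), hkH t]
  · simp only [List.mem_cons, List.not_mem_nil, or_false] at hq
    rcases hq with rfl | rfl
    exacts [hp, hk]

end Checked

end Cfsg.Agent.Lib.Chev
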