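import Cfsg.Agent.Lib.Chev.AutThm
import Cfsg.Agent.Lib.Chev.FoldIso
import Cfsg.Prelude.Def_KGroupFacts

/-!
The outer automorphism group of a split Chevalley group: the automorphisms fixing `U` and `V`, the homomorphism
to the permutations of the nodes, its kernel, and the inner automorphisms among them.
-/

set_option autoImplicit false
set_option linter.unusedSectionVars false

namespace Cfsg.Agent.Lib.Chev

open Cfsg.Lie Cfsg.Agent.Lib

section defs

variable (D : ChevalleyDatum) (F : Type*) [Field F]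

/-- The automorphisms fixing `U` and `V`. -/
def stabUV : Subgroup (MulAut ↥(D.group F)) where
  carrier := {θ | Sends θ (D.posUnipotent F) (D.posUnipotent F) ∧
    Sends θ (D.negUnipotent F) (D.negUnipotent F)}
  one_mem' := ⟨fun _ => Iff.rfl, fun _ => Iff.rfl⟩
  mul_mem' := fun {a b} ha hb => ⟨fun g => (ha.1 (b g)).trans (hb.1 g), fun g => (ha.2 (b g)).trans (hb.2 g)⟩
  inv_mem' := fun {a} ha => ⟨ha.1.symm, ha.2.symm⟩

/-- The image in `Out`. -/
def toOut : ↥(stabUV D F) →* Cfsg.Out ↥(D.group F) :=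
  (QuotientGroup.mk' (Cfsg.Inn ↥(D.group F))).comp (stabUV D F).subtype

end defs

namespace Checked

variable {D : ChevalleyDatum} {T : Fast} {F : Type*} [Field F] (C : Checked D T)
  (hen : ∀ i < D.rank, T.en i (D.simple i) = true)
include C

theorem aut_ext {θ η : ↥(D.group F) ≃* ↥(D.group F)}
    (h : ∀ (i : Fin D.rank) (t : F), θ (C.xgG (D.simple i) t) = η (C.xgG (D.simple i) t) ∧
      θ (C.xgG (D.neg (D.simple i)) t) = η (C.xgG (D.neg (D.simple i)) t)) : θ = η := by
  have hle : D.group F ≤ (θ.toMonoidHom.eqLocus η.toMonoidHom).map (D.group F).subtype :=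
    C.group_le_simple (fun i hi t => ⟨C.xgG (D.simple i) t, (h ⟨i, hi⟩ t).1, rfl⟩)
      (fun i hi t => ⟨C.xgG (D.neg (D.simple i)) t, (h ⟨i, hi⟩ t).2, rfl⟩)
  refine MulEquiv.ext fun g => ?_
  obtain ⟨x, hx, e⟩ := Subgroup.mem_map.1 (hle g.2)
  obtain rfl : x = g := Subtype.ext e
  exact hx

theorem simple_unique {a b : Fin D.rank} {u v : F} (hu : u ≠ 0)
    (e : C.xg (D.simple a) u = C.xg (D.simple b) v) : a = b := by
  have hpa := C.root.pos_simple (X := T.aux) a.2
  have hpb := C.root.pos_simple (X := T.aux) b.2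
  by_contra hne
  have hne' : D.simple a ≠ D.simple b := fun h => hne (Fin.ext (C.root.simple_inj a.2 b.2 h))
  rcases lt_or_gt_of_ne hne' with h | h
  · have := C.ordered_inj [D.simple a, D.simple b] (by simp [h]) (by simp [hpa, hpb])
      (fun r => if r = D.simple a then u else 0) (fun r => if r = D.simple b then v else 0)
      (by simp [C.wg_cons, C.wg_nil, hne', hne'.symm, C.xg_zero, e]) (D.simple a) (by simp)
    simp [hne'] at this
    exact hu this
  · have := C.ordered_inj [D.simple b, D.simple a] (by simp [h]) (by simp [hpa, hpb])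
      (fun r => if r = D.simple a then u else 0) (fun r => if r = D.simple b then v else 0)
      (by simp [C.wg_cons, C.wg_nil, hne', hne'.symm, C.xg_zero, e]) (D.simple a) (by simp)
    simp [hne'] at this
    exact hu this

/-- The diagonal automorphisms, as a homomorphism. -/
def diagHom : (Fin D.rank → Fˣ) →* MulAut ↥(D.group F) where
  toFun c := C.chrAut (C.simChr_isChr c)
  map_one' := C.aut_ext fun i t => by
    constructor <;> refine Subtype.ext ?_
    · rw [C.chrAut_xg _ (C.root.simple_lt i i.2), C.simChr_simple]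
      simp
    · rw [C.chrAut_xg _ (C.root.neg_lt _ (C.root.simple_lt i i.2)),
        (C.simChr_isRootCharacter _).1 _ (C.root.simple_lt i i.2), C.simChr_simple]
      simp
  map_mul' a b := C.aut_ext fun i t => by
    have hp := C.root.simple_lt i i.2
    have hq := C.root.neg_lt _ hp
    constructor <;> refine Subtype.ext ?_
    · rw [MulAut.mul_apply, show C.chrAut (C.simChr_isChr b) (C.xgG (D.simple i) t) = C.xgG (D.simple i) _ from
        Subtype.ext (C.chrAut_xg _ hp t), C.chrAut_xg _ hp, C.chrAut_xg _ hp]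
      simp only [C.simChr_simple, Pi.mul_apply, Units.val_mul, mul_assoc]
    · rw [MulAut.mul_apply, show C.chrAut (C.simChr_isChr b) (C.xgG (D.neg (D.simple i)) t) =
        C.xgG (D.neg (D.simple i)) _ from Subtype.ext (C.chrAut_xg _ hq t), C.chrAut_xg _ hq,
        C.chrAut_xg _ hq]
      simp only [(C.simChr_isRootCharacter _).1 _ hp, C.simChr_simple, Pi.mul_apply, mul_inv_rev,
        Units.val_mul]
      ring_nf

/-- The field automorphisms, as a homomorphism. -/
noncomputable def fieldHom : RingAut F →* MulAut ↥(D.group F) where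
  toFun τ := C.fieldAut τ
  map_one' := MulEquiv.ext fun g => Subtype.ext (gmap_id (g : GL D.Idx F))
  map_mul' a b := MulEquiv.ext fun g => Subtype.ext (gmap_gmap (D := D) a.toRingHom b.toRingHom (g : GL D.Idx F)).symm

theorem diagHom_pos (c : Fin D.rank → Fˣ) (i : Fin D.rank) (t : F) :
    (C.diagHom c (C.xgG (D.simple i) t) : GL D.Idx F) = C.xg (D.simple i) ((c i : F) * t) := by
  show (C.chrAut (C.simChr_isChr c) _ : GL D.Idx F) = _
  rw [C.chrAut_xg _ (C.root.simple_lt i i.2), C.simChr_simple]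

theorem diagHom_neg (c : Fin D.rank → Fˣ) (i : Fin D.rank) (t : F) :
    (C.diagHom c (C.xgG (D.neg (D.simple i)) t) : GL D.Idx F) =
      C.xg (D.neg (D.simple i)) ((c i : F)⁻¹ * t) := by
  show (C.chrAut (C.simChr_isChr c) _ : GL D.Idx F) = _
  rw [C.chrAut_xg _ (C.root.neg_lt _ (C.root.simple_lt i i.2)),
    (C.simChr_isRootCharacter _).1 _ (C.root.simple_lt i i.2), C.simChr_simple, Units.val_inv_eq_inv_val]

theorem isDiagonal_iff (hs : T.stepCheck = true) (φ : MulAut ↥(D.group F)) :
    D.IsDiagonalAut φ ↔ φ ∈ (C.diagHom (F := F)).range := by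
  constructor
  · rintro ⟨χ, hχ, h⟩
    have hc := C.isChr_of_rootCharacter hs hχ
    have hφ : φ = C.chrAut hc := MulEquiv.ext fun g => Subtype.ext (Units.ext (by
      rw [h g, charDiag_eq, charDiag_eq]
      show _ = ((C.chrUnit hc * (g : GL D.Idx F) * (C.chrUnit hc)⁻¹ : GL D.Idx F) : Matrix D.Idx D.Idx F)
      rw [Units.val_mul, Units.val_mul]
      simp only [Units.val_inv_eq_inv_val]
      rfl))
    refine ⟨fun i => χ (D.simple i), C.aut_ext fun i t => ?_⟩
    have hp := C.root.simple_lt i i.2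
    rw [hφ]
    constructor <;> refine Subtype.ext ?_
    · rw [C.diagHom_pos, C.chrAut_xg hc hp]
    · rw [C.diagHom_neg, C.chrAut_xg hc (C.root.neg_lt _ hp), hχ.1 _ hp, Units.val_inv_eq_inv_val]
  · rintro ⟨c, rfl⟩
    exact C.simAut_isDiagonal c

theorem isField_iff (φ : MulAut ↥(D.group F)) :
    D.IsFieldAut φ ↔ φ ∈ (C.fieldHom (F := F)).range := by
  constructor
  · rintro ⟨σ, h⟩
    exact ⟨σ, (C.aut_eq_gmap φ σ h).symm⟩
  · rintro ⟨τ, rfl⟩
    exact C.fieldAut_isField τ

theorem closure_diag (hs : T.stepCheck = true) :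
    Subgroup.closure {φ : MulAut ↥(D.group F) | D.IsDiagonalAut φ} = (C.diagHom (F := F)).range := by
  rw [show {φ : MulAut ↥(D.group F) | D.IsDiagonalAut φ} = ((C.diagHom (F := F)).range : Set _) from
    Set.ext (C.isDiagonal_iff hs), Subgroup.closure_eq]

theorem closure_field :
    Subgroup.closure {φ : MulAut ↥(D.group F) | D.IsFieldAut φ} = (C.fieldHom (F := F)).range := by
  rw [show {φ : MulAut ↥(D.group F) | D.IsFieldAut φ} = ((C.fieldHom (F := F)).range : Set _) from
    Set.ext C.isField_iff, Subgroup.closure_eq]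

/-- An automorphism carrying `x_r(t)` to `x_r(f_r t)` for all positive (negative) roots fixes `U` (`V`). -/
theorem mem_stab_of_roots {θ : MulAut ↥(D.group F)}
    (h : ∀ r < D.nroots, ∀ t, ∃ u, (θ (C.xgG r t) : GL D.Idx F) = C.xg r u)
    (h' : ∀ r < D.nroots, ∀ t, ∃ u, (θ.symm (C.xgG r t) : GL D.Idx F) = C.xg r u) :
    θ ∈ stabUV D F := by
  have key : ∀ (η : ↥(D.group F) ≃* ↥(D.group F)) (S : Set ℕ), (∀ r ∈ S, r < D.nroots) →
      (∀ r < D.nroots, ∀ t, ∃ u, (η (C.xgG r t) : GL D.Idx F) = C.xg r u) →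
      ∀ g : ↥(D.group F), (g : GL D.Idx F) ∈ grp D F S → (η g : GL D.Idx F) ∈ grp D F S := by
    intro η S hS hη g hg
    have hle : grp D F S ≤
        (((grp D F S).subgroupOf (D.group F)).comap η.toMonoidHom).map (D.group F).subtype :=
      C.grp_le fun r hr t => by
        obtain ⟨u, hu⟩ := hη r (hS r hr) t
        refine Subgroup.mem_map.2 ⟨C.xgG r t, ?_, rfl⟩
        show (η (C.xgG r t) : GL D.Idx F) ∈ grp D F S
        rw [hu]
        exact C.xg_mem hr u
    obtain ⟨x, hx, e⟩ := Subgroup.mem_map.1 (hle hg)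
    obtain rfl : x = g := Subtype.ext e
    exact hx
  constructor <;> intro g
  · rw [posUnipotent_eq]
    refine ⟨fun hg => ?_, key θ _ (fun r hr => hr.1) h g⟩
    simpa using key θ.symm _ (fun r hr => hr.1) h' _ hg
  · rw [negUnipotent_eq]
    refine ⟨fun hg => ?_, key θ _ (fun r hr => hr.1) h g⟩
    simpa using key θ.symm _ (fun r hr => hr.1) h' _ hg

theorem diagHom_mem (c : Fin D.rank → Fˣ) : C.diagHom c ∈ stabUV D F :=
  C.mem_stab_of_roots (fun r hr t => ⟨_, C.chrAut_xg (C.simChr_isChr c) hr t⟩)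
    (fun r hr t => ⟨_, C.chrAut_symm_xg (C.simChr_isChr c) hr t⟩)

theorem fieldHom_mem (τ : RingAut F) : C.fieldHom τ ∈ stabUV D F := by
  refine C.mem_stab_of_roots (fun r hr t => ⟨_, C.fieldAut_xgG τ hr t⟩) fun r hr t => ⟨τ.symm t, ?_⟩
  have h : C.fieldHom τ (C.xgG r (τ.symm t)) = C.xgG r t :=
    Subtype.ext (by rw [coe_xgG]; exact (C.fieldAut_xgG τ hr _).trans (by rw [τ.apply_symm_apply]))
  rw [← h, MulEquiv.symm_apply_apply]
  rfl

include hen

theorem frame_exists (θ : ↥(stabUV D F)) : ∃ π f g, C.Frame θ.1 π f g :=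
  C.exists_frame hen θ.2.1 θ.2.2

theorem frame_perm_unique {θ : ↥(D.group F) ≃* ↥(D.group F)} {π π' : Equiv.Perm (Fin D.rank)}
    {f g f' g' : Fin D.rank → F → F} (H : C.Frame θ π f g) (H' : C.Frame θ π' f' g') : π = π' :=
  Equiv.ext fun i => C.simple_unique (C.frame_ne hen H one_ne_zero) ((H.pos i 1).symm.trans (H'.pos i 1))

/-- The permutation of the nodes. -/
noncomputable def nodePerm : ↥(stabUV D F) →* Equiv.Perm (Fin D.rank) :=
  MonoidHom.mk' (fun θ => (C.frame_exists hen θ).choose) fun a b => by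
    obtain ⟨fa, ga, Ha⟩ := (C.frame_exists hen a).choose_spec
    obtain ⟨fb, gb, Hb⟩ := (C.frame_exists hen b).choose_spec
    obtain ⟨f, g, H⟩ := (C.frame_exists hen (a * b)).choose_spec
    refine C.frame_perm_unique hen H (f' := fun i t => fa ((C.frame_exists hen b).choose i) (fb i t))
      (g' := fun i t => ga ((C.frame_exists hen b).choose i) (gb i t))
      ⟨fun i t => ?_, fun i t => ?_, fun i => (Ha.f_bij _).comp (Hb.f_bij i),
        fun i => (Ha.g_bij _).comp (Hb.g_bij i)⟩
    · rw [Subgroup.coe_mul, MulAut.mul_apply,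
        show b.1 (C.xgG (D.simple i) t) = C.xgG _ _ from Subtype.ext (Hb.pos i t), Ha.pos]
      rfl
    · rw [Subgroup.coe_mul, MulAut.mul_apply,
        show b.1 (C.xgG (D.neg (D.simple i)) t) = C.xgG _ _ from Subtype.ext (Hb.neg i t), Ha.neg]
      rfl

theorem nodePerm_frame (θ : ↥(stabUV D F)) :
    ∃ f g, C.Frame θ.1 (C.nodePerm hen θ) f g := (C.frame_exists hen θ).choose_spec

theorem nodePerm_symmetry (hb : T.bondCheck D.bonds = true) (θ : ↥(stabUV D F)) :
    D.IsDiagramSymmetry (C.nodePerm hen θ) := by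
  obtain ⟨f, g, H⟩ := C.nodePerm_frame hen θ
  exact C.frame_isSymmetry hen hb H

/-- The automorphisms fixing `U`, `V` and every node, parametrised. -/
theorem ker_nodePerm [Finite F] (hc : connCheck D = true) (h0 : 0 < D.rank) (θ : ↥(stabUV D F)) :
    C.nodePerm hen θ = 1 ↔ ∃ c τ, θ.1 = C.diagHom c * C.fieldHom τ := by
  constructor
  · intro h
    obtain ⟨f, g, H⟩ := C.nodePerm_frame hen θ
    rw [h] at H
    obtain ⟨c, σ, hc0, hf, hg, hrel⟩ := C.exists_semilinear hen H
    have hτ := NodeRel.const (π := 1) hrel h0 (fun i j hA => hA) hc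
    refine ⟨fun i => Units.mk0 (c i) (hc0 i), σ ⟨0, h0⟩, C.aut_ext fun i t => ?_⟩
    have hp := C.root.simple_lt i i.2
    constructor <;> refine Subtype.ext ?_
    · rw [H.pos, hf, hτ i, MulAut.mul_apply,
        show C.fieldHom (σ ⟨0, h0⟩) (C.xgG (D.simple i) t) = C.xgG (D.simple i) _ from
          Subtype.ext (C.fieldAut_xgG _ hp t), C.diagHom_pos]
      rfl
    · rw [H.neg, hg, hτ i, MulAut.mul_apply,
        show C.fieldHom (σ ⟨0, h0⟩) (C.xgG (D.neg (D.simple i)) t) = C.xgG (D.neg (D.simple i)) _ from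
          Subtype.ext (C.fieldAut_xgG _ (C.root.neg_lt _ hp) t), C.diagHom_neg]
      rfl
  · rintro ⟨c, τ, e⟩
    obtain ⟨f, g, H⟩ := C.nodePerm_frame hen θ
    refine Equiv.ext fun i => ?_
    have hp := C.root.simple_lt i i.2
    have h1 := H.pos i 1
    rw [e, MulAut.mul_apply, show C.fieldHom τ (C.xgG (D.simple i) 1) = C.xgG (D.simple i) _ from
      Subtype.ext (C.fieldAut_xgG _ hp 1), C.diagHom_pos] at h1
    exact (C.simple_unique (by simp) h1).symm

theorem diagField_injective (c c' : Fin D.rank → Fˣ) (τ τ' : RingAut F) (h0 : 0 < D.rank)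
    (e : C.diagHom c * C.fieldHom τ = C.diagHom c' * C.fieldHom τ') : c = c' ∧ τ = τ' := by
  have key : ∀ (i : Fin D.rank) (t : F), (c i : F) * τ t = (c' i : F) * τ' t := fun i t => by
    have hp := C.root.simple_lt i i.2
    have h := congrArg (fun φ : MulAut ↥(D.group F) => (φ (C.xgG (D.simple i) t) : GL D.Idx F)) e
    simp only [MulAut.mul_apply] at h
    rw [show C.fieldHom τ (C.xgG (D.simple i) t) = C.xgG (D.simple i) _ from
        Subtype.ext (C.fieldAut_xgG _ hp t),
      show C.fieldHom τ' (C.xgG (D.simple i) t) = C.xgG (D.simple i) _ from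
        Subtype.ext (C.fieldAut_xgG _ hp t), C.diagHom_pos, C.diagHom_pos] at h
    exact C.xg_inj hp h
  have hc : c = c' := funext fun i => Units.ext (by simpa using key i 1)
  subst hc
  exact ⟨rfl, RingEquiv.ext fun t => mul_left_cancel₀ (Units.ne_zero _) (key ⟨0, h0⟩ t)⟩

/-- The diagonal automorphisms are normal among those fixing `U` and `V`. -/
theorem diagHom_conj [Finite F] (θ : ↥(stabUV D F)) (a : Fin D.rank → Fˣ) :
    θ.1 * C.diagHom a * θ.1⁻¹ ∈ (C.diagHom (F := F)).range := by
  obtain ⟨f, g, H⟩ := C.nodePerm_frame hen θ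
  set π := C.nodePerm hen θ
  obtain ⟨c, σ, hc0, hf, hg, -⟩ := C.exists_semilinear hen H
  refine ⟨fun j => Units.map (σ (π.symm j)).toRingHom.toMonoidHom (a (π.symm j)), ?_⟩
  rw [eq_mul_inv_iff_mul_eq]
  refine C.aut_ext fun i t => ?_
  have hp := C.root.simple_lt i i.2
  constructor <;> refine Subtype.ext ?_
  · rw [MulAut.mul_apply, MulAut.mul_apply,
      show θ.1 (C.xgG (D.simple i) t) = C.xgG (D.simple (π i)) _ from Subtype.ext (H.pos i t),
      C.diagHom_pos, show C.diagHom a (C.xgG (D.simple i) t) = C.xgG (D.simple i) _ from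
      Subtype.ext (C.diagHom_pos a i t), H.pos, π.symm_apply_apply, hf, hf, map_mul]
    simp [mul_left_comm]
  · rw [MulAut.mul_apply, MulAut.mul_apply,
      show θ.1 (C.xgG (D.neg (D.simple i)) t) = C.xgG (D.neg (D.simple (π i))) _ from
        Subtype.ext (H.neg i t),
      C.diagHom_neg, show C.diagHom a (C.xgG (D.neg (D.simple i)) t) = C.xgG (D.neg (D.simple i)) _ from
      Subtype.ext (C.diagHom_neg a i t), H.neg, π.symm_apply_apply, hg, hg, map_mul]
    simp [mul_left_comm]

omit hen in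
theorem conj_diag_eq (c : Fin D.rank → Fˣ) :
    MulAut.conj (⟨C.torus c, C.monomial_le_group (F := F) (C.diag_le_monomial (F := F)
      (C.range_torusHom (F := F) ▸ ⟨c, rfl⟩))⟩ : ↥(D.group F)) = C.diagHom (C.cartanMap c) := by
  obtain ⟨χ, hχ, eχ⟩ := C.exists_chr (F := F) (g := C.torus c) (C.range_torusHom (F := F) ▸ ⟨c, rfl⟩)
  have hval : ∀ j : Fin D.rank, χ (D.simple j) = (C.cartanMap c j : F) := fun j => by
    have e := eχ.symm.trans (C.val_torus c)
    rw [dg_inj e _ (C.root.simple_lt j j.2), C.cartanMap_apply]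
    rfl
  refine C.aut_ext fun i t => ?_
  have hp := C.root.simple_lt i i.2
  constructor <;> refine Subtype.ext ?_
  · rw [C.diagHom_pos, MulAut.conj_apply, Subgroup.coe_mul, Subgroup.coe_mul, Subgroup.coe_inv, coe_xgG]
    rw [C.conj_xg_of_dg hχ eχ hp, hval]
  · rw [C.diagHom_neg, MulAut.conj_apply, Subgroup.coe_mul, Subgroup.coe_mul, Subgroup.coe_inv, coe_xgG]
    rw [C.conj_xg_of_dg hχ eχ (C.root.neg_lt _ hp), hχ.neg _ hp, hval]

omit hen in
/-- The inner automorphisms fixing `U` and `V` are those of `H`. -/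
theorem ker_toOut (θ : ↥(stabUV D F)) :
    toOut D F θ = 1 ↔ θ.1 ∈ ((C.diagHom (F := F)).comp C.cartanMap).range := by
  show QuotientGroup.mk' _ θ.1 = 1 ↔ _
  rw [QuotientGroup.mk'_apply, QuotientGroup.eq_one_iff]
  constructor
  · rintro ⟨x, hx⟩
    have hst : MulAut.conj x ∈ stabUV D F := hx ▸ θ.2
    have hB := C.sends_borel hst.1
    have hxB : x ∈ (C.bnPair F).parabolic ∅ := by
      rw [← BN.normalizer_parabolic_eq]
      refine Subgroup.mem_normalizer_iff.2 fun g => ?_
      simp only [Cfsg.BNPair.parabolic, Subgroup.closure_empty, sup_bot_eq]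
      exact (hB g).symm
    simp only [Cfsg.BNPair.parabolic, Subgroup.closure_empty, sup_bot_eq] at hxB
    have hxb : (x : GL D.Idx F) ∈ D.borelSubgroup F := hxB
    obtain ⟨u, hu, h, hh, e⟩ := C.mem_borel.1 hxb
    have hcj : ∀ {d : GL D.Idx F}, d ∈ D.diagonalSubgroup F → ∀ v ∈ D.negUnipotent F,
        d * v * d⁻¹ ∈ D.negUnipotent F := fun hd v hv => by
      rw [negUnipotent_eq] at hv ⊢
      exact C.diag_normalizes (fun r hr => hr.1) hd hv
    have hV : ∀ v : GL D.Idx F, u * v * u⁻¹ ∈ D.negUnipotent F ↔ v ∈ D.negUnipotent F := by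
      intro v
      have key : ∀ v ∈ D.group F, u * v * u⁻¹ ∈ D.negUnipotent F ↔ v ∈ D.negUnipotent F := by
        intro v hv
        have hw : h⁻¹ * v * h ∈ D.group F :=
          mul_mem (mul_mem (inv_mem (C.monomial_le_group (C.diag_le_monomial hh))) hv)
            (C.monomial_le_group (C.diag_le_monomial hh))
        have h1 := hst.2 ⟨_, hw⟩
        simp only [MulAut.conj_apply, Subgroup.coe_mul, Subgroup.coe_inv] at h1
        rw [show u * v * u⁻¹ = (x : GL D.Idx F) * (h⁻¹ * v * h) * (x : GL D.Idx F)⁻¹ by rw [e]; group, h1]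
        refine ⟨fun h2 => ?_, fun h2 => by simpa using hcj (inv_mem hh) v h2⟩
        simpa [mul_assoc] using hcj hh _ h2
      have hng : D.negUnipotent F ≤ D.group F := by
        rw [negUnipotent_eq]; exact C.grp_le fun r hr t => C.xg_mem_group hr.1 t
      refine ⟨fun h2 => (key v ?_).1 h2, fun h2 => (key v (hng h2)).2 h2⟩
      have := mul_mem (mul_mem (inv_mem (C.pos_le_group hu)) (hng h2)) (C.pos_le_group hu)
      simpa [mul_assoc] using this
    -- a conjugate of `u` lies in `V` and normalises `U`, hence lies in `B`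
    have h1 : u = 1 := by
      obtain ⟨m, hm, hlong, hmap'⟩ : ∃ m ∈ D.monomialSubgroup F, (∀ r, D.IsPosRoot r → D.IsNegRoot (C.sg m r)) ∧
          (D.negUnipotent F).map (MulAut.conj m).toMonoidHom = D.posUnipotent F := by
        obtain ⟨n, hn, hl, hm'⟩ := C.exists_pos_to_neg F
        refine ⟨n⁻¹, inv_mem hn, fun r hr => C.sg_inv_longest hn hl hr, ?_⟩
        rw [← hm', Subgroup.map_map]
        convert Subgroup.map_id (D.posUnipotent F)
        refine MonoidHom.ext fun z => ?_
        simp [mul_assoc]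
      have hvV : m⁻¹ * u * m ∈ D.negUnipotent F := by
        have : u ∈ (D.negUnipotent F).map (MulAut.conj m).toMonoidHom := hmap'.symm ▸ hu
        obtain ⟨z, hz, rfl⟩ := this
        simpa [mul_assoc] using hz
      set v := m⁻¹ * u * m with hv
      have hvU : ∀ z, v * z * v⁻¹ ∈ D.posUnipotent F ↔ z ∈ D.posUnipotent F := by
        intro z
        have hm1 : ∀ z, z ∈ D.posUnipotent F ↔ m * z * m⁻¹ ∈ D.negUnipotent F := by
          intro z
          refine ⟨fun hz => ?_, fun hz => ?_⟩
          · rw [posUnipotent_eq] at hz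
            rw [negUnipotent_eq]
            exact C.conj_mem_of_image hm (fun r hr => hr.1) (fun r hr => hlong r hr) hz
          · rw [negUnipotent_eq] at hz
            rw [posUnipotent_eq]
            have := C.conj_mem_of_image (inv_mem hm) (fun r hr => hr.1)
              (S' := {r | D.IsPosRoot r})
              (fun r hr => C.sg_longest_pos (inv_mem hm) (fun s hs => C.sg_inv_longest hm hlong hs) hr) hz
            simpa [mul_assoc] using this
        rw [hm1, hm1, ← hV (m * z * m⁻¹)]
        rw [hv]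
        simp [mul_assoc]
      have hvg : v ∈ D.group F := by
        have := hvV
        rw [negUnipotent_eq] at this
        exact C.grp_le (fun r hr t => C.xg_mem_group hr.1 t) this
      have hvB : v ∈ D.borelSubgroup F := C.mem_borel_of_simple hvg fun i hi => by
        have hp := C.root.pos_simple (X := T.aux) hi
        exact (hvU _).2 (C.xg_mem_pos hp 1)
      have h2 : v ∈ D.borelSubgroup F ⊓ D.negUnipotent F := Subgroup.mem_inf.2 ⟨hvB, hvV⟩
      rw [C.borel_inf_neg, Subgroup.mem_bot, hv] at h2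
      calc u = m * (m⁻¹ * u * m) * m⁻¹ := by group
        _ = 1 := by rw [h2]; group
    rw [h1, one_mul] at e
    obtain ⟨c, rfl⟩ := C.exists_torus hh
    exact ⟨c, (C.conj_diag_eq c).symm.trans (hx ▸ congrArg MulAut.conj (Subtype.ext e.symm))⟩
  · rintro ⟨c, hc⟩
    exact ⟨_, (C.conj_diag_eq c).trans hc⟩

omit hen in
theorem toOut_surjective [Fintype F] (p : ℕ) [Fact p.Prime] [CharP F p]
    (hD : D ∈ [chevG2, chevB2, chevD4, chevF4, chevE6, chevE7, chevE8]) :
    Function.Surjective (toOut D F) := by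
  intro q
  obtain ⟨θ, rfl⟩ := QuotientGroup.mk'_surjective _ q
  obtain ⟨x, hx⟩ := C.exists_inner_fix p hD θ
  refine ⟨⟨MulAut.conj x * θ, hx⟩, ?_⟩
  show QuotientGroup.mk' _ (MulAut.conj x * θ) = _
  rw [map_mul, show QuotientGroup.mk' (Cfsg.Inn ↥(D.group F)) (MulAut.conj x) = 1 from
    (QuotientGroup.eq_one_iff _).2 ⟨x, rfl⟩, one_mul]

end Checked

end Cfsg.Agent.Lib.Chev
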