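import Cfsg.Agent.Lib.Chev.OutStruct
import Cfsg.Agent.Lib.Chev.GraphAut
import Cfsg.Agent.Lib.Chev.GraphIsoAll
import Cfsg.Agent.Lib.Chev.Orders
import Cfsg.Agent.Lib.AutPSL.Facts

/-!
The order and the structure of the outer automorphism groups of the split Chevalley groups.
-/

set_option autoImplicit false
set_option linter.unusedSectionVars false

namespace Cfsg.Agent.Lib.Chev

open Cfsg.Lie Cfsg.Agent.Lib

/-- A transposition of the outer nodes of `D₄`. -/
def D4.swapSym : Sym :=
  ⟨0x3000102, 0x17161511100d14130f0e120c0b05090804030a0706020100, 0x1b00d8⟩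

theorem D4.swapSymData : SymData chevD4 D4.fast D4.swapSym D4.swapSym :=
  Sym.check_sound D4.checked (by decide +kernel)

theorem card_stabilised {G : Type*} [Group G] [Finite G] {Q : Type*} [Group Q] (φ : G →* Q)
    (hφ : Function.Surjective φ) : Nat.card Q * Nat.card φ.ker = Nat.card G := by
  rw [← Subgroup.card_mul_index φ.ker, Subgroup.index_ker, MonoidHom.range_eq_top.2 hφ,
    Subgroup.card_top, mul_comm]

namespace Checked

variable {D : ChevalleyDatum} {T : Fast} {F : Type*} [Field F] [Fintype F] (C : Checked D T)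
  (hen : ∀ i < D.rank, T.en i (D.simple i) = true)
include C hen

theorem card_ker_nodePerm (hc : connCheck D = true) (h0 : 0 < D.rank) :
    Nat.card (C.nodePerm (F := F) hen).ker =
      (Fintype.card F - 1) ^ D.rank * Nat.card (RingAut F) := by
  classical
  let e : (Fin D.rank → Fˣ) × RingAut F → (C.nodePerm (F := F) hen).ker := fun p =>
    ⟨⟨C.diagHom p.1 * C.fieldHom p.2, mul_mem (C.diagHom_mem p.1) (C.fieldHom_mem p.2)⟩,
      (C.ker_nodePerm hen hc h0 _).2 ⟨p.1, p.2, rfl⟩⟩
  have he : Function.Bijective e := by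
    refine ⟨fun a b h => ?_, fun θ => ?_⟩
    · obtain ⟨h1, h2⟩ := C.diagField_injective hen a.1 b.1 a.2 b.2 h0
        (congrArg (fun x : (C.nodePerm (F := F) hen).ker => x.1.1) h)
      exact Prod.ext h1 h2
    · obtain ⟨c, τ, h⟩ := (C.ker_nodePerm hen hc h0 θ.1).1 θ.2
      exact ⟨(c, τ), Subtype.ext (Subtype.ext h.symm)⟩
  rw [← Nat.card_eq_of_bijective e he, Nat.card_prod]
  congr 1
  rw [Nat.card_eq_fintype_card, Fintype.card_fun, Fintype.card_units, Fintype.card_fin]

theorem card_ker_toOut :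
    Nat.card (toOut D F).ker * Nat.card (C.cartanMap (F := F)).ker = (Fintype.card F - 1) ^ D.rank := by
  classical
  have hinj : Function.Injective (C.diagHom (F := F)) := by
    intro a b h
    funext i
    have hp := C.root.simple_lt i i.2
    have h1 := congrArg (fun φ : MulAut ↥(D.group F) => (φ (C.xgG (D.simple i) 1) : GL D.Idx F)) h
    simp only [C.diagHom_pos, mul_one] at h1
    exact Units.ext (C.xg_inj hp h1)
  have hmap : (toOut D F).ker.map (stabUV D F).subtype = ((C.diagHom (F := F)).comp C.cartanMap).range := by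
    ext φ
    constructor
    · rintro ⟨θ, hθ, rfl⟩
      exact (C.ker_toOut θ).1 hθ
    · intro hφ
      have hm : φ ∈ stabUV D F := by
        obtain ⟨c, rfl⟩ := hφ
        exact C.diagHom_mem _
      exact ⟨⟨φ, hm⟩, (C.ker_toOut ⟨φ, hm⟩).2 hφ, rfl⟩
  have h1 : Nat.card (toOut D F).ker = Nat.card (((C.diagHom (F := F)).comp C.cartanMap).range) := by
    rw [← hmap]
    exact (Subgroup.card_map_of_injective (stabUV D F).subtype_injective).symm
  rw [h1, MonoidHom.range_comp, Subgroup.card_map_of_injective hinj,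
    ← Subgroup.index_ker, mul_comm, Subgroup.card_mul_index, Nat.card_eq_fintype_card,
    Fintype.card_fun, Fintype.card_units, Fintype.card_fin]

theorem card_out (p : ℕ) [Fact p.Prime] [CharP F p]
    (hD : D ∈ [chevG2, chevB2, chevD4, chevF4, chevE6, chevE7, chevE8]) :
    Nat.card (Cfsg.Out ↥(D.group F)) =
      Nat.card (C.nodePerm (F := F) hen).range * Nat.card (RingAut F) *
        Nat.card (C.cartanMap (F := F)).ker := by
  obtain ⟨hc, h0⟩ := conn_all hD
  have h1 := card_stabilised (toOut D F) (C.toOut_surjective p hD)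
  have h2 := Subgroup.card_mul_index (C.nodePerm (F := F) hen).ker
  rw [Subgroup.index_ker, C.card_ker_nodePerm hen hc h0] at h2
  have h3 := C.card_ker_toOut (F := F) hen
  have hpos : (Fintype.card F - 1) ^ D.rank ≠ 0 :=
    pow_ne_zero _ (by have := Fintype.one_lt_card (α := F); omega)
  have hk : Nat.card (toOut D F).ker ≠ 0 := fun e => hpos (by rw [← h3, e, zero_mul])
  apply mul_right_cancel₀ hk
  rw [h1, ← h2, mul_assoc _ (Nat.card (C.cartanMap (F := F)).ker), mul_comm (Nat.card (C.cartanMap (F := F)).ker), h3]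
  ring

theorem card_range_le (hb : T.bondCheck D.bonds = true) {S : List (List ℕ)}
    (hS : symLists D.bonds D.rank D.rank = S) :
    Nat.card (C.nodePerm (F := F) hen).range ≤ S.length := by
  classical
  have key : ∀ π : (C.nodePerm (F := F) hen).range, ∃ L ∈ S, ∀ i : Fin D.rank, ((π : Equiv.Perm (Fin D.rank)) i).1 = L.getD i 0 := by
    rintro ⟨π, θ, rfl⟩
    exact perm_mem_symLists D (C.nodePerm_symmetry hen hb θ) hS
  choose L hL hval using key
  calc Nat.card (C.nodePerm (F := F) hen).range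
      ≤ Nat.card ↥S.toFinset := by
        refine Nat.card_le_card_of_injective (fun π => (⟨L π, List.mem_toFinset.2 (hL π)⟩ : S.toFinset))
          fun a b h => ?_
        refine Subtype.ext (Equiv.ext fun i => Fin.ext ?_)
        rw [hval a i, hval b i, show L a = L b from congrArg Subtype.val h]
    _ ≤ S.length := by rw [Nat.card_eq_fintype_card, Fintype.card_coe]; exact S.toFinset_card_le

omit [Fintype F] in
theorem nodePerm_eq_of_image {θ : ↥(stabUV D F)} (i j : Fin D.rank)
    (h : (θ.1 (C.xgG (D.simple i) 1) : GL D.Idx F) = C.xg (D.simple j) 1) : C.nodePerm hen θ i = j := by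
  obtain ⟨f, g, H⟩ := C.nodePerm_frame hen θ
  exact C.simple_unique (C.frame_ne hen H one_ne_zero) ((H.pos i 1).symm.trans h)

end Checked

/-- A symmetry gives an element of the stabiliser of `U` and `V`. -/
theorem SymData.graphAut_mem {D : ChevalleyDatum} {T : Fast} {S S' : Sym} (H : SymData D T S S')
    (C : Checked D T) (H' : SymData D T S' S) {F : Type*} [Field F]
    (hpos : ∀ r, D.IsPosRoot r → D.IsPosRoot (S.r r))
    (hpos' : ∀ r, D.IsPosRoot r → D.IsPosRoot (S'.r r)) :
    (H.graphAut C H' F : MulAut ↥(D.group F)) ∈ stabUV D F := by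
  have key : ∀ {A A' : Sym} (K : SymData D T A A') (K' : SymData D T A' A),
      (∀ r, D.IsPosRoot r → D.IsPosRoot (A.r r)) → ∀ g : ↥(D.group F),
      ((g : GL D.Idx F) ∈ D.posUnipotent F → (K.graphAut C K' F g : GL D.Idx F) ∈ D.posUnipotent F) ∧
      ((g : GL D.Idx F) ∈ D.negUnipotent F → (K.graphAut C K' F g : GL D.Idx F) ∈ D.negUnipotent F) := by
    intro A A' K K' hA g
    have hle : ∀ S : Set ℕ, (∀ r ∈ S, r < D.nroots) → (∀ r ∈ S, A.r r ∈ S) →
        grp D F S ≤ (grp D F S).comap (MulAut.conj (K.unit (F := F) K')).toMonoidHom := fun S hS hS' =>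
      C.grp_le fun r hr t => by
        show K.unit K' * C.xg r t * (K.unit K')⁻¹ ∈ grp D F S
        rw [K.unit_xg C K' (hS r hr)]
        exact C.xg_mem (hS' r hr) _
    constructor <;> intro hg
    · rw [posUnipotent_eq] at hg ⊢
      exact hle _ (fun r hr => hr.1) hA hg
    · rw [negUnipotent_eq] at hg ⊢
      refine hle _ (fun r hr => hr.1) (fun r hr => ?_) hg
      have hr1 : r < D.nroots := hr.1
      have h := hA _ ((C.neg_pos_iff hr1).2 hr)
      rw [K.neg r hr1] at h
      exact (C.neg_pos_iff (K.r_lt r hr1)).1 h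
  have hsymm : ∀ g, (H.graphAut C H' F).symm g = H'.graphAut C H F g := fun g => rfl
  constructor <;> intro g
  · refine ⟨fun h => ?_, (key H H' hpos g).1⟩
    have := (key H' H hpos' _).1 h
    rwa [← hsymm, MulEquiv.symm_apply_apply] at this
  · refine ⟨fun h => ?_, (key H H' hpos g).2⟩
    have := (key H' H hpos' _).2 h
    rwa [← hsymm, MulEquiv.symm_apply_apply] at this

/-- The isogenies give elements of the stabiliser of `U` and `V`. -/
theorem IsoData.exists_stab {D : ChevalleyDatum} {T : Fast} {S : Iso} (H : IsoData D T S) (C : Checked D T)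
    {F : Type*} [Field F] [CharP F S.p] [ExpChar F S.p] (hperf : ∀ x : F, ∃ y : F, y ^ S.p = x)
    (hpos : ∀ r, D.IsPosRoot r → D.IsPosRoot (S.ρ r)) :
    ∃ θ : ↥(stabUV D F), ∀ r < D.nroots, ∀ t : F,
      (θ.1 (C.xgG r t) : GL D.Idx F) = C.xg (S.ρ r) (t ^ S.lam r) := by
  obtain ⟨α, hα⟩ := H.exists_graph C hperf
  have e : ∀ r < D.nroots, ∀ t : F, (α (C.xgG r t) : GL D.Idx F) = C.xg (S.ρ r) (t ^ S.lam r) :=
    fun r hr t => Units.ext (by rw [hα _ r t hr (by rw [Checked.coe_xgG, C.val_xg]), C.val_xg])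
  have hneg : ∀ r, D.IsNegRoot r → D.IsNegRoot (S.ρ r) := fun r hr => by
    refine (C.key_trichotomy (H.ρ_lt r hr.1)).resolve_left fun h => ?_
    have h2 := hpos _ h
    rw [H.ρ_ρ r hr.1] at h2
    exact C.not_pos_and_neg h2 hr
  have key : ∀ (S' : Set ℕ), (∀ r ∈ S', r < D.nroots) → (∀ r ∈ S', S.ρ r ∈ S') →
      ∀ g : ↥(D.group F), ((α g : GL D.Idx F) ∈ grp D F S' ↔ (g : GL D.Idx F) ∈ grp D F S') := by
    intro S' hS hS'
    have h1 : grp D F S' ≤
        (((grp D F S').subgroupOf (D.group F)).comap α.toMonoidHom).map (D.group F).subtype :=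
      C.grp_le fun r hr t => Subgroup.mem_map.2 ⟨C.xgG r t, by
        show (α (C.xgG r t) : GL D.Idx F) ∈ grp D F S'
        rw [e r (hS r hr)]
        exact C.xg_mem (hS' r hr) _, rfl⟩
    intro g
    refine ⟨fun hg => ?_, fun hg => ?_⟩
    · have hle : grp D F S' ≤
          (((grp D F S').subgroupOf (D.group F)).comap α.symm.toMonoidHom).map (D.group F).subtype :=
        C.grp_le fun r hr t => Subgroup.mem_map.2 ⟨C.xgG r t, by
          obtain ⟨y, hy⟩ := hperf t
          have hz : ∃ z : F, z ^ S.lam (S.ρ r) = t := by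
            rw [Iso.lam]
            cases S.sh (S.ρ r)
            · exact ⟨t, pow_one t⟩
            · exact ⟨y, hy⟩
          obtain ⟨z, hz⟩ := hz
          have he : α (C.xgG (S.ρ r) z) = C.xgG r t := Subtype.ext (by
            rw [e _ (H.ρ_lt r (hS r hr)), H.ρ_ρ r (hS r hr), hz]; rfl)
          show (α.symm (C.xgG r t) : GL D.Idx F) ∈ grp D F S'
          rw [← he, MulEquiv.symm_apply_apply]
          exact C.xg_mem (hS' r hr) _, rfl⟩
      obtain ⟨x, hx, ex⟩ := Subgroup.mem_map.1 (hle hg)
      obtain rfl : x = α g := Subtype.ext ex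
      simpa [Subgroup.mem_subgroupOf] using hx
    · obtain ⟨x, hx, ex⟩ := Subgroup.mem_map.1 (h1 hg)
      obtain rfl : x = g := Subtype.ext ex
      exact hx
  refine ⟨⟨α, ?_, ?_⟩, e⟩
  · rw [posUnipotent_eq]
    exact key _ (fun r hr => hr.1) (fun r hr => hpos r hr)
  · rw [negUnipotent_eq]
    exact key _ (fun r hr => hr.1) (fun r hr => hneg r hr)

end Cfsg.Agent.Lib.Chev
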