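import Cfsg.Agent.Lib.Chev.OutThm

/-!
The images of the stabilisers of `U` and `V` in the permutations of the nodes, type by type.
-/

set_option autoImplicit false
set_option linter.unusedSectionVars false

namespace Cfsg.Agent.Lib.Chev

open Cfsg.Lie Cfsg.Agent.Lib

variable {F : Type*} [Field F]

/-- A map of root numbers keeps positive roots positive. -/
def posCheck (D : ChevalleyDatum) (ρ : ℕ → ℕ) : Bool :=
  allBelow D.nroots fun r => !decide (D.IsPosRoot r) || decide (D.IsPosRoot (ρ r))

theorem pos_of_check {D : ChevalleyDatum} {ρ : ℕ → ℕ} (h : posCheck D ρ = true) :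
    ∀ r, D.IsPosRoot r → D.IsPosRoot (ρ r) := by
  intro r hr
  simp only [posCheck, allBelow_iff, Bool.or_eq_true, Bool.not_eq_true', decide_eq_false_iff_not,
    decide_eq_true_eq] at h
  exact (h r hr.1).resolve_left (not_not.2 hr)

namespace Checked

variable {D : ChevalleyDatum} {T : Fast} (C : Checked D T)
  (hen : ∀ i < D.rank, T.en i (D.simple i) = true)
include C hen

theorem card_range_eq_one [Finite F] (hb : T.bondCheck D.bonds = true)
    (h : ∀ (π : Equiv.Perm (Fin D.rank)) (σ : Fin D.rank → F ≃+* F),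
      D.IsDiagramSymmetry π → NodeRel D π σ → ∀ i, π i = i) :
    Nat.card (C.nodePerm (F := F) hen).range = 1 := by
  rw [show (C.nodePerm (F := F) hen).range = ⊥ from (Subgroup.eq_bot_iff_forall _).2 ?_, Subgroup.card_bot]
  rintro π ⟨θ, rfl⟩
  obtain ⟨f, g, H⟩ := C.nodePerm_frame hen θ
  obtain ⟨c, σ, -, -, -, hrel⟩ := C.exists_semilinear hen H
  exact Equiv.ext (h _ σ (C.nodePerm_symmetry hen hb θ) hrel)

theorem card_range_eq_two (hb : T.bondCheck D.bonds = true) [Fintype F] {a b : List ℕ}
    (hS : symLists D.bonds D.rank D.rank = [a, b]) (θ : ↥(stabUV D F)) (i j : Fin D.rank) (hij : i ≠ j)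
    (hθ : (θ.1 (C.xgG (D.simple i) 1) : GL D.Idx F) = C.xg (D.simple j) 1) :
    Nat.card (C.nodePerm (F := F) hen).range = 2 := by
  refine le_antisymm (C.card_range_le hen hb hS) ?_
  have h1 : C.nodePerm hen θ ≠ 1 := fun e => hij (by
    have := C.nodePerm_eq_of_image hen i j hθ
    rwa [e, Equiv.Perm.one_apply] at this)
  exact (Subgroup.one_lt_card_iff_ne_bot _).2 fun e =>
    h1 ((Subgroup.eq_bot_iff_forall _).1 e _ ⟨θ, rfl⟩)

end Checked

theorem SymData.graphAut_simple {D : ChevalleyDatum} {T : Fast} {S S' : Sym} (H : SymData D T S S')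
    (C : Checked D T) (H' : SymData D T S' S) (i : ℕ) (hi : i < D.rank) (t : F) :
    (H.graphAut C H' F (C.xgG (D.simple i) t) : GL D.Idx F) = C.xg (D.simple (S.p i)) t :=
  Units.ext (by rw [(H.graphAut_spec C H' _ i t hi).1 (by rw [Checked.coe_xgG, C.val_xg]), C.val_xg])

theorem en_E6 : ∀ i < chevE6.rank, E6.fast.en i (chevE6.simple i) = true :=
  en_simple_of E6.checked en_simple_E6
theorem en_E7 : ∀ i < chevE7.rank, E7.fast.en i (chevE7.simple i) = true :=
  en_simple_of E7.checked en_simple_E7
theorem en_E8 : ∀ i < chevE8.rank, E8.fast.en i (chevE8.simple i) = true :=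
  en_simple_of E8.checked en_simple_E8
theorem en_D4 : ∀ i < chevD4.rank, D4.fast.en i (chevD4.simple i) = true :=
  en_simple_of D4.checked en_simple_D4
theorem en_F4 : ∀ i < chevF4.rank, F4.fast.en i (chevF4.simple i) = true :=
  en_simple_of F4.checked en_simple_F4
theorem en_G2 : ∀ i < chevG2.rank, G2.fast.en i (chevG2.simple i) = true :=
  en_simple_of G2.checked en_simple_G2

theorem symLists_E6 : symLists chevE6.bonds chevE6.rank chevE6.rank =
    [[0, 1, 2, 3, 4, 5], [5, 1, 4, 3, 2, 0]] := by decide +kernel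
theorem symLists_E7 : symLists chevE7.bonds chevE7.rank chevE7.rank = [[0, 1, 2, 3, 4, 5, 6]] := by
  decide +kernel
theorem symLists_E8 : symLists chevE8.bonds chevE8.rank chevE8.rank = [[0, 1, 2, 3, 4, 5, 6, 7]] := by
  decide +kernel
theorem symLists_D4 : (symLists chevD4.bonds chevD4.rank chevD4.rank).length = 6 := by decide +kernel

variable [Fintype F]

theorem range_E6 : Nat.card (E6.checked.nodePerm (F := F) en_E6).range = 2 :=
  E6.checked.card_range_eq_two en_E6 bond_E6 symLists_E6
    ⟨_, E6.symData.graphAut_mem E6.checked E6.symData (pos_of_check (by decide +kernel))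
      (pos_of_check (by decide +kernel))⟩
    ⟨0, by decide⟩ ⟨5, by decide⟩ (by decide)
    ((E6.symData.graphAut_simple E6.checked E6.symData 0 (by decide) 1).trans
      (by rw [show E6.sym.p 0 = 5 by decide +kernel]))

theorem range_E7 : Nat.card (E7.checked.nodePerm (F := F) en_E7).range = 1 :=
  le_antisymm (E7.checked.card_range_le en_E7 bond_E7 symLists_E7) Nat.card_pos

theorem range_E8 : Nat.card (E8.checked.nodePerm (F := F) en_E8).range = 1 :=
  le_antisymm (E8.checked.card_range_le en_E8 bond_E8 symLists_E8) Nat.card_pos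

theorem D4_two_perms :
    ∃ a b : ↥(stabUV chevD4 F), (∀ i : Fin chevD4.rank,
        (D4.checked.nodePerm en_D4 a i).1 = [2, 1, 3, 0].getD i 0) ∧
      (∀ i : Fin chevD4.rank, (D4.checked.nodePerm en_D4 b i).1 = [2, 1, 0, 3].getD i 0) := by
  have hA : ∀ i < chevD4.rank, D4.sym.p i = [2, 1, 3, 0].getD i 0 := fun i hi => by
    have hi' : i < 4 := hi
    interval_cases i <;> decide +kernel
  have hB : ∀ i < chevD4.rank, D4.swapSym.p i = [2, 1, 0, 3].getD i 0 := fun i hi => by
    have hi' : i < 4 := hi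
    interval_cases i <;> decide +kernel
  refine ⟨⟨_, D4.symData.graphAut_mem D4.checked D4.symData' (pos_of_check (by decide +kernel))
      (pos_of_check (by decide +kernel))⟩,
    ⟨_, D4.swapSymData.graphAut_mem D4.checked D4.swapSymData (pos_of_check (by decide +kernel))
      (pos_of_check (by decide +kernel))⟩, fun i => ?_, fun i => ?_⟩
  · rw [D4.checked.nodePerm_eq_of_image en_D4 i ⟨_, D4.symData.p_lt i i.2⟩
      (D4.symData.graphAut_simple D4.checked D4.symData' i i.2 1)]
    exact hA i i.2
  · rw [D4.checked.nodePerm_eq_of_image en_D4 i ⟨_, D4.swapSymData.p_lt i i.2⟩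
      (D4.swapSymData.graphAut_simple D4.checked D4.swapSymData i i.2 1)]
    exact hB i i.2

theorem range_D4 : Nat.card (D4.checked.nodePerm (F := F) en_D4).range = 6 ∧
    ∃ a b : ↥(stabUV chevD4 F), D4.checked.nodePerm en_D4 a * D4.checked.nodePerm en_D4 b ≠
      D4.checked.nodePerm en_D4 b * D4.checked.nodePerm en_D4 a := by
  obtain ⟨a, b, ha, hb⟩ := D4_two_perms (F := F)
  set s := D4.checked.nodePerm en_D4 a with hs
  set u := D4.checked.nodePerm en_D4 b with hu
  have es : ∀ i : Fin chevD4.rank, s i = ⟨[2, 1, 3, 0].getD i 0, ha i ▸ (s i).2⟩ := fun i => Fin.ext (ha i)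
  have hne : s * u ≠ u * s := fun e => by
    have h := congrArg Fin.val (Equiv.congr_fun e ⟨0, by decide⟩)
    simp only [Equiv.Perm.mul_apply] at h
    rw [ha, hb, hb, ha] at h
    simp at h
  refine ⟨le_antisymm ((D4.checked.card_range_le en_D4 bond_D4 rfl).trans (le_of_eq symLists_D4)) ?_,
    a, b, hne⟩
  haveI : Fact (Nat.Prime 3) := ⟨Nat.prime_three⟩
  have h3 : orderOf s = 3 := by
    refine orderOf_eq_prime (Equiv.ext fun i => Fin.ext ?_) fun e => ?_
    · rw [pow_succ, pow_two, Equiv.Perm.mul_apply, Equiv.Perm.mul_apply, ha, ha, ha, Equiv.Perm.one_apply]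
      obtain ⟨i, hi⟩ := i
      have hi' : i < 4 := hi
      interval_cases i <;> rfl
    · have h := ha ⟨0, by decide⟩
      rw [e, Equiv.Perm.one_apply] at h
      simp at h
  have h2 : orderOf u = 2 := by
    refine orderOf_eq_prime (Equiv.ext fun i => Fin.ext ?_) fun e => ?_
    · rw [pow_two, Equiv.Perm.mul_apply, hb, hb, Equiv.Perm.one_apply]
      obtain ⟨i, hi⟩ := i
      have hi' : i < 4 := hi
      interval_cases i <;> rfl
    · have h := hb ⟨0, by decide⟩
      rw [e, Equiv.Perm.one_apply] at h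
      simp at h
  have d3 : 3 ∣ Nat.card (D4.checked.nodePerm (F := F) en_D4).range :=
    h3 ▸ Subgroup.orderOf_dvd_natCard _ ⟨a, rfl⟩
  have d2 : 2 ∣ Nat.card (D4.checked.nodePerm (F := F) en_D4).range :=
    h2 ▸ Subgroup.orderOf_dvd_natCard _ ⟨b, rfl⟩
  exact Nat.le_of_dvd Nat.card_pos (Nat.Coprime.mul_dvd_of_dvd_of_dvd (by norm_num) d3 d2)

theorem range_G2 (p : ℕ) [Fact p.Prime] [CharP F p] (hq : 3 ≤ Fintype.card F) :
    Nat.card (G2.checked.nodePerm (F := F) en_G2).range = if p = 3 then 2 else 1 := by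
  split_ifs with hp
  · subst hp
    haveI : CharP F G2.iso.p := ‹CharP F 3›
    haveI : ExpChar F G2.iso.p := ExpChar.prime Nat.prime_three
    haveI : PerfectRing F G2.iso.p := PerfectRing.ofFiniteOfIsReduced _ F
    obtain ⟨θ, hθ⟩ := G2.isoData.exists_stab G2.checked (F := F)
      (fun x => (surjective_frobenius F G2.iso.p x).imp fun y hy => by rwa [frobenius_def] at hy)
      (pos_of_check (by decide +kernel))
    refine G2.checked.card_range_eq_two en_G2 bond_G2 symLists_G2 θ ⟨0, by decide⟩ ⟨1, by decide⟩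
      (by decide) ?_
    rw [hθ _ (by decide +kernel), one_pow]
    rfl
  · refine G2.checked.card_range_eq_one en_G2 bond_G2 fun π σ hπ h i => ?_
    rcases (exists_field_G2 hπ h).2 with h1 | h1 | h1
    · exact h1 i
    · exact absurd (CharP.eq F ‹CharP F p› (ringChar.of_eq h1)) hp
    · exfalso
      classical
      have : Fintype.card F ≤ 2 :=
        calc Fintype.card F = (Finset.univ : Finset F).card := rfl
          _ ≤ ({0, 1} : Finset F).card := Finset.card_le_card fun x _ => by
              rcases h1 x with e | e <;> simp [e]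
          _ ≤ 2 := Finset.card_le_two
      omega

theorem range_F4 (p : ℕ) [Fact p.Prime] [CharP F p] :
    Nat.card (F4.checked.nodePerm (F := F) en_F4).range = Nat.gcd 2 p := by
  by_cases hp : p = 2
  · subst hp
    haveI : CharP F F4.iso.p := ‹CharP F 2›
    haveI : ExpChar F F4.iso.p := ExpChar.prime Nat.prime_two
    haveI : PerfectRing F F4.iso.p := PerfectRing.ofFiniteOfIsReduced _ F
    obtain ⟨θ, hθ⟩ := F4.isoData.exists_stab F4.checked (F := F)
      (fun x => (surjective_frobenius F F4.iso.p x).imp fun y hy => by rwa [frobenius_def] at hy)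
      (pos_of_check (by decide +kernel))
    rw [F4.checked.card_range_eq_two en_F4 bond_F4 symLists_F4 θ ⟨0, by decide⟩ ⟨3, by decide⟩
      (by decide) (by rw [hθ _ (by decide +kernel), one_pow]; rfl)]
    norm_num
  · rw [(Nat.coprime_primes Nat.prime_two (Fact.out : p.Prime)).2 (Ne.symm hp)]
    refine F4.checked.card_range_eq_one en_F4 bond_F4 fun π σ hπ h i => ?_
    rcases (exists_field_F4 hπ h).2 with h1 | h1
    · exact h1 i
    · exact absurd (CharP.eq F ‹CharP F p› (ringChar.of_eq h1)) hp

theorem card_ringAut (p f : ℕ) [Fact p.Prime] (hF : Fintype.card F = p ^ f) :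
    Nat.card (RingAut F) = f := by
  have hf : 1 ≤ f := Nat.one_le_iff_ne_zero.2 fun h => by
    have := Fintype.one_lt_card (α := F)
    simp [hF, h] at this
  obtain ⟨e⟩ := Cfsg.Agent.Lib.AutPSL.ringAut_equiv (F := F) hf hF
  show Nat.card (F ≃+* F) = f
  rw [Nat.card_congr e.toEquiv, Nat.card_congr Multiplicative.toAdd, Nat.card_zmod]

end Cfsg.Agent.Lib.Chev
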