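import Cfsg.Agent.Lib.Chev.RootLocalData
import Cfsg.Agent.Lib.Chev.InvolMono
import Cfsg.Agent.Lib.Chev.Ideals

/-!
Centralisers of root elements at the highest long and highest short root: they normalise the group of
the roots pairing positively with that root, which is self-centralising for the highest root.
-/

set_option autoImplicit false

namespace Cfsg.Agent.Lib.Chev

open Cfsg.Lie Cfsg.Agent.Lib

variable {D : ChevalleyDatum} {T : Fast} {F : Type*} [Field F]

namespace Checked

variable (C : Checked D T)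
include C

/-- A monomial element taking one product of commuting root elements to another maps the support into the
support. -/
theorem comm_image {l : List ℕ} (hl : l.Pairwise (· < ·)) (hpos : ∀ r ∈ l, D.IsPosRoot r)
    (hcomm : ∀ r ∈ l, ∀ s ∈ l, ∀ t u : F, Commute (C.xg r t) (C.xg s u))
    {n : GL D.Idx F} (hn : n ∈ D.monomialSubgroup F) (t t' : ℕ → F)
    (e : n * C.wg (l.map fun r => (r, t r)) * n⁻¹ = C.wg (l.map fun r => (r, t' r))) :
    ∀ r ∈ l, t r ≠ 0 → C.sg n r ∈ l ∧ t' (C.sg n r) ≠ 0 := by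
  classical
  let p : ℕ → Bool := fun r => decide (D.IsPosRoot (C.sg n r))
  have hsplit : C.wg (l.map fun r => (r, t r)) = C.wg ((l.filter p).map fun r => (r, t r)) *
      C.wg ((l.filter fun r => !p r).map fun r => (r, t r)) := by
    rw [← C.wg_append', ← List.map_append]
    refine C.wg_perm ((List.filter_append_perm p l).symm.map _) fun a ha b hb => ?_
    obtain ⟨r, hr, rfl⟩ := List.mem_map.1 ha
    obtain ⟨s, hs, rfl⟩ := List.mem_map.1 hb
    exact hcomm r hr s hs _ _
  choose! c hc0 hc using fun r (hr : r < D.nroots) => C.sg_conj hn hr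
  have hneg0 : ∀ r ∈ l, p r = false → t r = 0 := by
    have hM : C.wg ((l.filter fun r => !p r).map fun r => (r, t r)) ∈ grp D F (C.inv n) := by
      refine C.wg_mem _ fun q hq => ?_
      obtain ⟨r, hr, rfl⟩ := List.mem_map.1 hq
      rw [List.mem_filter] at hr
      exact ⟨hpos r hr.1, (C.key_trichotomy (C.sg_lt hn (hpos r hr.1).1)).resolve_left
        (by simpa [p] using hr.2)⟩
    have hP : n * C.wg ((l.filter p).map fun r => (r, t r)) * n⁻¹ ∈ D.borelSubgroup F := by
      rw [C.conj_wg c (· < D.nroots) hc _ (by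
        intro q hq
        obtain ⟨r, hr, rfl⟩ := List.mem_map.1 hq
        exact (hpos r (List.mem_filter.1 hr).1).1)]
      refine Subgroup.mem_sup_left ?_
      rw [posUnipotent_eq]
      refine C.wg_mem _ fun q hq => ?_
      obtain ⟨q', hq', rfl⟩ := List.mem_map.1 hq
      obtain ⟨r, hr, rfl⟩ := List.mem_map.1 hq'
      simpa [p] using (List.mem_filter.1 hr).2
    have hy : C.wg (l.map fun r => (r, t' r)) ∈ D.borelSubgroup F := by
      refine Subgroup.mem_sup_left ?_
      rw [posUnipotent_eq]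
      refine C.wg_mem _ fun q hq => ?_
      obtain ⟨r, hr, rfl⟩ := List.mem_map.1 hq
      exact hpos r hr
    have hMB : n * C.wg ((l.filter fun r => !p r).map fun r => (r, t r)) * n⁻¹ ∈ D.borelSubgroup F := by
      rw [← e, hsplit] at hy
      convert mul_mem (inv_mem hP) hy using 1
      group
    obtain ⟨τ, hm⟩ := C.sg_spec hn
    have h1 := C.eq_one_of_conj_mem_borel (C.closedSet_inv hn) hm (fun r hr => hr.2) hM hMB
    intro r hr hpr
    refine C.ordered_inj _ (hl.filter (fun r => !p r)) (fun x hx => hpos x (List.mem_filter.1 hx).1) t (fun _ => 0)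
      ?_ r (List.mem_filter.2 ⟨hr, by simp [hpr]⟩)
    rw [h1, ← C.wg_filter_pair (fun _ => false) _ (fun q hq _ => by
      obtain ⟨r, _, rfl⟩ := List.mem_map.1 hq; rfl), List.filter_eq_nil_iff.2 (fun _ _ => Bool.false_ne_true), C.wg_nil]
  have himg : ∀ r ∈ l, t r ≠ 0 → D.IsPosRoot (C.sg n r) := fun r hr ht => by
    by_contra h
    exact ht (hneg0 r hr (by simpa [p] using h))
  -- coordinates of both sides on the list of all positive roots
  let P := C.rootList {r | D.IsPosRoot r}
  have hPnd : P.Nodup := (C.rootList_sorted _).imp fun h => ne_of_lt h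
  let l₁ := l.filter fun r => decide (t r ≠ 0)
  have hl₁ : ∀ r ∈ l₁, r ∈ l ∧ t r ≠ 0 := fun r hr => by simpa [l₁] using hr
  let T₁ : ℕ → F := fun x => if x ∈ l₁.map (C.sg n) then c (C.sg n⁻¹ x) * t (C.sg n⁻¹ x) else 0
  let T₂ : ℕ → F := fun x => if x ∈ l then t' x else 0
  have e₂ : C.wg (P.map fun x => (x, T₂ x)) = C.wg (l.map fun r => (r, t' r)) := by
    have h1 : C.wg (P.map fun x => (x, T₂ x)) = C.wg ((P.filter fun x => decide (x ∈ l)).map fun x => (x, T₂ x)) := by
      rw [show (P.filter fun x => decide (x ∈ l)).map (fun x => (x, T₂ x)) =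
        (P.map fun x => (x, T₂ x)).filter (fun q => decide (q.1 ∈ l)) by rw [List.filter_map]; rfl]
      refine (C.wg_filter_pair _ _ fun q hq hf => ?_).symm
      obtain ⟨x, _, rfl⟩ := List.mem_map.1 hq
      simp only [decide_eq_false_iff_not] at hf
      simp [T₂, hf]
    have h2 : P.filter (fun x => decide (x ∈ l)) = l := by
      refine List.Perm.eq_of_pairwise (le := (· < ·)) (fun a b _ _ h h' => absurd (h.trans h') (lt_irrefl a))
        ((C.rootList_sorted _).filter _) hl ?_
      rw [List.perm_ext_iff_of_nodup (hPnd.filter _) (hl.imp fun h => ne_of_lt h)]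
      intro x
      simp only [List.mem_filter, decide_eq_true_eq]
      exact ⟨fun h => h.2, fun h => ⟨C.mem_rootList.2 ⟨(hpos x h).1, hpos x h⟩, h⟩⟩
    rw [h1, h2]
    exact congrArg C.wg (List.map_congr_left fun r hr => by simp [T₂, hr])
  have hinj : ∀ r ∈ l₁, ∀ s ∈ l₁, C.sg n r = C.sg n s → r = s := fun r hr s hs h => by
    rw [← C.sg_inv_sg hn (hpos r (hl₁ r hr).1).1, h, C.sg_inv_sg hn (hpos s (hl₁ s hs).1).1]
  have e₁ : C.wg (P.map fun x => (x, T₁ x)) = n * C.wg (l.map fun r => (r, t r)) * n⁻¹ := by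
    have h1 : C.wg (P.map fun x => (x, T₁ x)) =
        C.wg ((P.filter fun x => decide (x ∈ l₁.map (C.sg n))).map fun x => (x, T₁ x)) := by
      rw [show (P.filter fun x => decide (x ∈ l₁.map (C.sg n))).map (fun x => (x, T₁ x)) =
        (P.map fun x => (x, T₁ x)).filter (fun q => decide (q.1 ∈ l₁.map (C.sg n))) by
          rw [List.filter_map]; rfl]
      refine (C.wg_filter_pair _ _ fun q hq hf => ?_).symm
      obtain ⟨x, _, rfl⟩ := List.mem_map.1 hq
      simp only [decide_eq_false_iff_not] at hf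
      exact if_neg hf
    have h0 : C.wg (l.map fun r => (r, t r)) = C.wg (l₁.map fun r => (r, t r)) := by
      rw [show l₁.map (fun r => (r, t r)) = (l.map fun r => (r, t r)).filter (fun q => decide (q.2 ≠ 0)) by
        rw [List.filter_map]; rfl]
      exact (C.wg_filter_pair _ _ fun q _ hf => by simpa using hf).symm
    have h2 : ((l₁.map fun r => (r, t r)).map fun q => (C.sg n q.1, c q.1 * q.2)) =
        (l₁.map (C.sg n)).map fun x => (x, T₁ x) := by
      rw [List.map_map, List.map_map]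
      refine List.map_congr_left fun r hr => Prod.ext rfl ?_
      show c r * t r = T₁ (C.sg n r)
      simp only [T₁, if_pos (List.mem_map_of_mem (f := C.sg n) hr), C.sg_inv_sg hn (hpos r (hl₁ r hr).1).1]
    rw [h0, C.conj_wg c (· < D.nroots) hc _ (fun q hq => by
      obtain ⟨r, hr, rfl⟩ := List.mem_map.1 hq; exact (hpos r (hl₁ r hr).1).1), h2, h1]
    refine (C.wg_perm (List.Perm.map _ ((List.perm_ext_iff_of_nodup ?_ (hPnd.filter _)).2 fun x => ?_)) ?_).symm
    · exact List.Nodup.map_on hinj (hl.filter _ |>.imp fun h => ne_of_lt h)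
    · simp only [List.mem_filter, decide_eq_true_eq]
      refine ⟨fun h => ⟨?_, h⟩, fun h => h.2⟩
      obtain ⟨r, hr, rfl⟩ := List.mem_map.1 h
      have hp' := himg r (hl₁ r hr).1 (hl₁ r hr).2
      exact C.mem_rootList.2 ⟨hp'.1, hp'⟩
    · intro a ha b hb
      obtain ⟨x, hx, rfl⟩ := List.mem_map.1 ha
      obtain ⟨y, hy, rfl⟩ := List.mem_map.1 hb
      obtain ⟨r, hr, rfl⟩ := List.mem_map.1 hx
      obtain ⟨s, hs, rfl⟩ := List.mem_map.1 hy
      have hr' := (hpos r (hl₁ r hr).1).1
      have hs' := (hpos s (hl₁ s hs).1).1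
      have key : ∀ a b : F, Commute (C.xg (C.sg n r) (c r * a)) (C.xg (C.sg n s) (c s * b)) := fun a b => by
        rw [← hc r hr', ← hc s hs']
        exact (hcomm r (hl₁ r hr).1 s (hl₁ s hs).1 a b).map (MulAut.conj n).toMonoidHom
      have := key ((c r)⁻¹ * T₁ (C.sg n r)) ((c s)⁻¹ * T₁ (C.sg n s))
      rwa [mul_inv_cancel_left₀ (hc0 r hr'), mul_inv_cancel_left₀ (hc0 s hs')] at this
  have hco := C.ordered_inj P (C.rootList_sorted _) (fun x hx => (C.mem_rootList.1 hx).2) T₁ T₂
    (by rw [e₁, e₂, e])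
  intro r hr ht
  have hσ := himg r hr ht
  have hmem : r ∈ l₁ := by simp [l₁, hr, ht]
  have h1 := hco (C.sg n r) (C.mem_rootList.2 ⟨hσ.1, hσ⟩)
  simp only [T₁, T₂, if_pos (List.mem_map_of_mem (f := C.sg n) hmem), C.sg_inv_sg hn (hpos r hr).1] at h1
  have hne : c r * t r ≠ 0 := mul_ne_zero (hc0 r (hpos r hr).1) ht
  split_ifs at h1 with hin
  · exact ⟨hin, h1 ▸ hne⟩
  · exact absurd h1 hne

theorem commute_of_empty {r s : ℕ} (hr : D.IsPosRoot r) (hs : D.IsPosRoot s)
    (h : (T.commT r s).isEmpty = true) (t u : F) : Commute (C.xg r t) (C.xg s u) := by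
  by_cases hrs : s = r
  · subst hrs
    show _ * _ = _ * _
    rw [C.xg_add hs.1, C.xg_add hs.1, add_comm]
  have h1 := C.comm hr.1 hs.1 hrs (C.ne_neg_of_pos hr hs) t u
  rw [ChevalleyDatum.commWord, ← C.commT_eq hr.1 hs.1, List.isEmpty_iff.1 h, List.map_nil, C.wg_nil,
    mul_one] at h1
  exact h1.symm

theorem xg_coord {S : Set ℕ} (hS : ClosedSet D S) {u : ℕ} (hu : D.IsPosRoot u) (huS : u ∉ S) {e : F}
    (h : C.xg u e ∈ grp D F S) : e = 0 := by
  classical
  let P := C.rootList {r | D.IsPosRoot r}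
  have hP : P.Nodup := (C.rootList_sorted _).imp fun h => ne_of_lt h
  have huP : u ∈ P := C.mem_rootList.2 ⟨hu.1, hu⟩
  have key : C.wg (P.map fun r => (r, if r = u then e else 0)) = C.xg u e := by
    rw [← C.wg_filter_pair (fun q => decide (q.1 = u)) _ fun q hq hf => ?_]
    · rw [List.filter_map, show ((fun q : ℕ × F => decide (q.1 = u)) ∘ fun r => (r, if r = u then e else 0)) =
        fun r => r == u from funext fun r => (beq_eq_decide r u).symm, List.filter_beq,
        List.count_eq_one_of_mem hP huP]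
      simp [C.wg_cons, C.wg_nil]
    · obtain ⟨r, -, rfl⟩ := List.mem_map.1 hq
      simp only [decide_eq_false_iff_not] at hf
      exact if_neg hf
  have h2 := C.coord_zero hS _ (key.symm ▸ h) u hu huS
  simpa using h2

/-- The roots of a list. -/
def setOf' (_ : Checked D T) (l : List ℕ) : Set ℕ := {r | r ∈ l}

theorem mem_qset {a r : ℕ} (ha : a < D.nroots) :
    r ∈ T.qset a ↔ D.IsPosRoot r ∧ 0 < pair D a r := by
  rw [Fast.qset, List.mem_filter, List.mem_range, Bool.and_eq_true, ltI_iff, ltI_iff, C.root.pos_iff,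
    C.tables.nroots]
  constructor
  · rintro ⟨h1, h2, h3⟩
    exact ⟨⟨h1, h2⟩, by rwa [← C.pr_eq ha (by rwa [C.tables.nroots])]⟩
  · rintro ⟨⟨h1, h2⟩, h3⟩
    exact ⟨h1, h2, by rwa [C.pr_eq ha (by rwa [C.tables.nroots])]⟩

theorem pos_ups {a r : ℕ} (h : r ∈ T.ups a) : D.IsPosRoot r := by
  rw [Fast.ups, List.mem_filter, List.mem_range, Bool.and_eq_true, ltI_iff] at h
  exact (C.root.pos_iff r).2 ⟨by rw [C.tables.nroots]; exact h.1, h.2.1⟩

theorem ideal_of_check {l : List ℕ} (hl : ∀ r ∈ l, D.IsPosRoot r) (h : T.idealCheck l = true)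
    {m : ℕ} (hm : D.IsPosRoot m) {k : ℕ} (hk : k ∈ l) (hkm : k ≠ m) :
    ∀ c ∈ D.commTerms m k, c.1 ∈ l := by
  intro c hc
  have hm' := (C.root.pos_iff m).1 hm
  have h1 := (allBelow_iff.1 h) m (C.tables.nroots ▸ hm.1)
  simp only [Bool.or_eq_true, Bool.not_eq_true', Bool.eq_false_iff, ne_eq, ltI_iff, List.all_eq_true,
    Nat.beq_eq, List.contains_iff_mem] at h1
  rcases h1.resolve_left (fun h => h hm'.2) k hk with h2 | h2
  · exact absurd h2 hkm
  · exact h2 c (C.commT_eq hm.1 (hl k hk).1 ▸ hc)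

theorem closedSet_of_check {l : List ℕ} (hl : ∀ r ∈ l, D.IsPosRoot r) (h : T.idealCheck l = true) :
    ClosedSet D {r | r ∈ l} where
  pos := hl
  closed r hr s hs hne := C.ideal_of_check hl h (hl r hr) hs hne

theorem asym_sg {n : GL D.Idx F} (hn : n ∈ D.monomialSubgroup F) {u : ℕ} (hu : u < D.nroots) :
    T.asym (C.sg n u) = T.asym u := by
  rw [Bool.eq_iff_iff]
  simp only [Fast.asym, List.any_eq_true, List.mem_range, ← C.tables.nroots]
  constructor
  · rintro ⟨x, hx, h⟩
    refine ⟨C.sg n⁻¹ x, C.sg_lt (inv_mem hn) hx, ?_⟩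
    have hx' := C.sg_lt (inv_mem hn) hx
    have hσ := C.sg_lt hn hu
    rw [C.pr_eq hu hx', C.pr_eq hx' hu, ← C.pair_sg hn hu hx', ← C.pair_sg hn hx' hu,
      C.sg_sg_inv hn hx, ← C.pr_eq hσ hx, ← C.pr_eq hx hσ]
    exact h
  · rintro ⟨x, hx, h⟩
    refine ⟨C.sg n x, C.sg_lt hn hx, ?_⟩
    have hx' := C.sg_lt hn hx
    have hσ := C.sg_lt hn hu
    rw [C.pr_eq hσ hx', C.pr_eq hx' hσ, C.pair_sg hn hu hx, C.pair_sg hn hx hu, ← C.pr_eq hu hx,
      ← C.pr_eq hx hu]
    exact h

structure LocalFacts (C : Checked D T) (F : Type*) [Field F] (a R : ℕ) : Prop where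
  posA : D.IsPosRoot a
  posR : D.IsPosRoot R
  memA : a ∈ T.ups a
  memR : R ∈ T.qset a
  idealU : T.idealCheck (T.ups a) = true
  idealQ : T.idealCheck (T.qset a) = true
  pairPos : ∀ u < D.nroots, 0 < pair D a u → D.IsPosRoot u
  le : ∀ u ∈ T.ups a, a ≤ u
  commR : ∀ t u : F, Commute (C.xg a t) (C.xg R u)
  commU : ∀ r ∈ T.ups a, ∀ s ∈ T.ups a, ∀ t u : F, Commute (C.xg r t) (C.xg s u)
  sep : ∀ r ∈ T.ups a, r = a ∨ T.asym r ≠ T.asym a

theorem localFacts {a R : ℕ} (h : T.localCheck a R = true) : LocalFacts C F a R := by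
  simp only [Fast.localCheck, Bool.and_eq_true, Nat.blt_eq, ltI_iff, List.contains_iff_mem,
    Bool.not_eq_true', Bool.or_eq_true, Nat.beq_eq, List.all_eq_true, beq_eq_false_iff_ne, allBelow_iff,
    Bool.eq_false_iff, ne_eq, Nat.ble_eq] at h
  obtain ⟨⟨⟨⟨⟨⟨⟨⟨⟨⟨⟨ha, hR⟩, hka⟩, hkR⟩, hma⟩, hpp⟩, hmR⟩, -⟩, hc⟩, hiU⟩, hiQ⟩, hU⟩ := h
  have posA : D.IsPosRoot a := (C.root.pos_iff a).2 ⟨by rw [C.tables.nroots]; exact ha, hka⟩
  have posR : D.IsPosRoot R := (C.root.pos_iff R).2 ⟨by rw [C.tables.nroots]; exact hR, hkR⟩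
  refine ⟨posA, posR, hma, hmR, hiU, hiQ, fun u hu hp => ?_, fun r hr => (hU r hr).1.2,
    fun t u => ?_, fun r hr s hs t u => ?_, fun r hr => (hU r hr).1.1.imp_right fun h => by simpa using h⟩
  · refine (C.root.pos_iff u).2 ⟨hu, (hpp u (C.tables.nroots ▸ hu)).resolve_left ?_⟩
    rw [C.pr_eq posA.1 hu]
    exact not_not.2 hp
  · rcases hc with h | h
    · subst h
      show _ * _ = _ * _
      rw [C.xg_add posA.1, C.xg_add posA.1, add_comm]
    · exact C.commute_of_empty posA posR h t u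
  · rcases (hU r hr).2 s hs with h | h
    · subst h
      show _ * _ = _ * _
      rw [C.xg_add (C.pos_ups hr).1, C.xg_add (C.pos_ups hr).1, add_comm]
    · exact C.commute_of_empty (C.pos_ups hr) (C.pos_ups hs) h t u

theorem borel_norm {l : List ℕ} (hl : ∀ r ∈ l, D.IsPosRoot r) (h : T.idealCheck l = true)
    {b y : GL D.Idx F} (hb : b ∈ D.borelSubgroup F) (hy : y ∈ grp D F {r | r ∈ l}) :
    b * y * b⁻¹ ∈ grp D F {r | r ∈ l} := by
  obtain ⟨u, hu, t, ht, rfl⟩ := C.mem_borel.1 hb
  have h1 := C.diag_normalizes (fun r hr => (hl r hr).1) ht hy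
  have h2 := C.pos_normalizes (S := {r | r ∈ l}) hl
    (fun m hm k hk hkm => C.ideal_of_check hl h hm hk hkm) hu h1
  convert h2 using 1
  group

theorem ups_sorted (a : ℕ) : (T.ups a).Pairwise (· < ·) := List.pairwise_lt_range.filter _

theorem exists_coords {l : List ℕ} (hs : l.Pairwise (· < ·)) (hl : ∀ r ∈ l, D.IsPosRoot r)
    (h : T.idealCheck l = true) {y : GL D.Idx F} (hy : y ∈ grp D F {r | r ∈ l}) :
    ∃ t : ℕ → F, y = C.wg (l.map fun r => (r, t r)) := by
  obtain ⟨t, ht⟩ := C.exists_ordered (C.closedSet_of_check hl h) hy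
  refine ⟨t, ?_⟩
  suffices e : C.rootList {r | r ∈ l} = l by rw [e] at ht; exact ht
  refine List.Perm.eq_of_pairwise (le := (· < ·)) (fun a b _ _ h h' => absurd (h.trans h') (lt_irrefl a))
    (C.rootList_sorted _) hs ?_
  rw [List.perm_ext_iff_of_nodup ((C.rootList_sorted _).imp fun h => ne_of_lt h) (hs.imp fun h => ne_of_lt h)]
  intro x
  rw [C.mem_rootList]
  exact ⟨fun h => h.2, fun h => ⟨(hl x h).1, h⟩⟩

/-- The monomial part of an element centralising a root element fixes the root. -/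
theorem fix_root {a R : ℕ} (h : T.localCheck a R = true) {d : F} (hd : d ≠ 0) {b n v : GL D.Idx F}
    (hb : b ∈ D.borelSubgroup F) (hn : n ∈ D.monomialSubgroup F) (hv : v ∈ D.posUnipotent F)
    (hc : Commute (b * n * v) (C.xg a d)) : C.sg n a = a := by
  classical
  have L := C.localFacts (F := F) h
  have hl : ∀ r ∈ T.ups a, D.IsPosRoot r := fun r hr => C.pos_ups hr
  have hx : C.xg a d ∈ grp D F {r | r ∈ T.ups a} := C.xg_mem (S := {r | r ∈ T.ups a}) L.memA d
  have hy := C.borel_norm hl L.idealU (Subgroup.mem_sup_left hv : v ∈ D.borelSubgroup F) hx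
  have hx' := C.borel_norm hl L.idealU (inv_mem hb) hx
  obtain ⟨t, ht⟩ := C.exists_coords (C.ups_sorted a) hl L.idealU hy
  obtain ⟨t', ht'⟩ := C.exists_coords (C.ups_sorted a) hl L.idealU hx'
  have e : n * C.wg ((T.ups a).map fun r => (r, t r)) * n⁻¹ =
      C.wg ((T.ups a).map fun r => (r, t' r)) := by
    rw [← ht, ← ht']
    have hc' : b * n * v * C.xg a d = C.xg a d * (b * n * v) := hc
    calc n * (v * C.xg a d * v⁻¹) * n⁻¹ = b⁻¹ * (b * n * v * C.xg a d) * v⁻¹ * n⁻¹ := by group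
      _ = b⁻¹ * C.xg a d * b⁻¹⁻¹ := by rw [hc']; group
  have hta : t a ≠ 0 := by
    intro h0
    let l' := (T.ups a).filter fun r => decide (r ≠ a)
    have hl' : ∀ r ∈ l', D.IsPosRoot r := fun r hr => hl r (List.mem_filter.1 hr).1
    have hid : ∀ m, D.IsPosRoot m → ∀ k ∈ ({r | r ∈ l'} : Set ℕ), k ≠ m →
        ∀ c ∈ D.commTerms m k, c.1 ∈ ({r | r ∈ l'} : Set ℕ) := by
      intro m hm k hk hkm c hc
      have hk' := List.mem_filter.1 hk
      refine List.mem_filter.2 ⟨C.ideal_of_check hl L.idealU hm hk'.1 hkm c hc, decide_eq_true ?_⟩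
      have h1 : a ≤ k := L.le k hk'.1
      have h5 := (C.commTerms_gt hm (hl k hk'.1) c hc).2.2
      omega
    have hy' : v * C.xg a d * v⁻¹ ∈ grp D F {r | r ∈ l'} := by
      rw [ht]
      refine C.wg_mem_of_zero _ _ fun r hr hne => ?_
      by_contra hne'
      exact hne (List.mem_filter.2 ⟨hr, decide_eq_true fun e => hne' (e ▸ h0)⟩)
    have h6 := C.pos_normalizes (S := {r | r ∈ l'}) hl' hid (inv_mem hv) hy'
    rw [show v⁻¹ * (v * C.xg a d * v⁻¹) * v⁻¹⁻¹ = C.xg a d by group] at h6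
    refine hd (C.xg_coord ⟨hl', fun r hr s hs hne => hid r (hl' r hr) s hs hne⟩ L.posA (fun ha => ?_) h6)
    simpa using (List.mem_filter.1 ha).2
  obtain ⟨hmem, -⟩ := C.comm_image (C.ups_sorted a) hl L.commU hn t t' e a L.memA hta
  exact (L.sep _ hmem).resolve_right fun hne => hne (C.asym_sg hn L.posA.1)

theorem qset_norm {a R : ℕ} (h : T.localCheck a R = true) {n : GL D.Idx F}
    (hn : n ∈ D.monomialSubgroup F) (hfix : C.sg n a = a) :
    n ∈ Subgroup.normalizer (grp D F {r | r ∈ T.qset a} : Set (GL D.Idx F)) := by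
  have L := C.localFacts (F := F) h
  have key : ∀ {m : GL D.Idx F}, m ∈ D.monomialSubgroup F → C.sg m a = a →
      ∀ y ∈ grp D F {r | r ∈ T.qset a}, m * y * m⁻¹ ∈ grp D F {r | r ∈ T.qset a} := by
    intro m hm hma y hy
    refine C.conj_mem_of_image hm (fun r hr => ((C.mem_qset L.posA.1).1 hr).1.1) (fun r hr => ?_) hy
    obtain ⟨hr1, hr2⟩ := (C.mem_qset L.posA.1).1 hr
    have hlt := C.sg_lt hm hr1.1
    have hp : pair D a (C.sg m r) = pair D a r := by
      conv_lhs => rw [← hma]
      exact C.pair_sg hm L.posA.1 hr1.1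
    refine (C.mem_qset L.posA.1).2 ⟨?_, by rwa [hp]⟩
    exact L.pairPos _ hlt (by rwa [hp])
  refine C.mem_normalizer_of_conj (key hn hfix) fun y hy => ?_
  have := key (inv_mem hn) (by conv_lhs => rw [← hfix]; exact C.sg_inv_sg hn L.posA.1) y hy
  rwa [inv_inv] at this

/-- The centraliser of a root element normalises the group of its pairing roots. -/
theorem cent_le_norm {a R : ℕ} (h : T.localCheck a R = true) {d : F} (hd : d ≠ 0) {g : GL D.Idx F}
    (hg : g ∈ D.group F) (hc : Commute g (C.xg a d)) :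
    g ∈ Subgroup.normalizer (grp D F {r | r ∈ T.qset a} : Set (GL D.Idx F)) := by
  have L := C.localFacts (F := F) h
  have hl : ∀ r ∈ T.qset a, D.IsPosRoot r := fun r hr => ((C.mem_qset L.posA.1).1 hr).1
  obtain ⟨b, hb, n, hn, v, hv, rfl⟩ := C.exists_bnu hg
  have hv' : v ∈ D.posUnipotent F := by rw [posUnipotent_eq]; exact grp_mem_mono hv fun r hr => hr.1
  have hB : D.borelSubgroup F ≤ Subgroup.normalizer (grp D F {r | r ∈ T.qset a} : Set (GL D.Idx F)) :=
    fun b hb => C.mem_normalizer_of_conj (fun y hy => C.borel_norm hl L.idealQ hb hy) fun y hy => by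
      simpa using C.borel_norm hl L.idealQ (inv_mem hb) hy
  exact mul_mem (mul_mem (hB hb) (C.qset_norm h hn (C.fix_root h hd hb hn hv' hc)))
    (hB (Subgroup.mem_sup_left hv'))

theorem wg_conj_mod {l : List ℕ} {r : ℕ} (hr : D.IsPosRoot r) (e : F)
    (hl : ∀ s ∈ l, D.IsPosRoot s)
    (hid : ∀ m, D.IsPosRoot m → ∀ k ∈ ({s | s ∈ l} : Set ℕ), k ≠ m →
      ∀ c ∈ D.commTerms m k, c.1 ∈ ({s | s ∈ l} : Set ℕ))
    (hstep : ∀ m, D.IsPosRoot m → r ≠ m → ∀ c ∈ D.commTerms m r, c.1 ∈ l)
    {w : GL D.Idx F} (hw : w ∈ D.posUnipotent F) :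
    (C.xg r e)⁻¹ * (w * C.xg r e * w⁻¹) ∈ grp D F {s | s ∈ l} := by
  set H := grp D F {s | s ∈ l}
  set x := C.xg r e
  have hnorm : ∀ {v y : GL D.Idx F}, v ∈ D.posUnipotent F → y ∈ H → v * y * v⁻¹ ∈ H :=
    fun hv hy => C.pos_normalizes (S := {s | s ∈ l}) hl hid hv hy
  let K : Subgroup (GL D.Idx F) :=
    { carrier := {w | w ∈ D.posUnipotent F ∧ x⁻¹ * (w * x * w⁻¹) ∈ H}
      one_mem' := ⟨one_mem _, by simp⟩
      mul_mem' := by
        rintro w₁ w₂ ⟨h1, h1'⟩ ⟨h2, h2'⟩
        refine ⟨mul_mem h1 h2, ?_⟩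
        have e := mul_mem h1' (hnorm h1 h2')
        convert e using 1
        group
      inv_mem' := by
        rintro w ⟨h1, h1'⟩
        refine ⟨inv_mem h1, ?_⟩
        have e := hnorm (inv_mem h1) (inv_mem h1')
        convert e using 1
        group }
  suffices D.posUnipotent F ≤ K from (this hw).2
  rw [posUnipotent_eq]
  refine C.grp_le fun m hm b => ⟨by rw [posUnipotent_eq]; exact C.xg_mem hm b, ?_⟩
  by_cases hmr : r = m
  · subst hmr
    simp only [x]
    rw [C.xg_add hm.1, C.xg_inv r b, C.xg_add hm.1, C.xg_inv, C.xg_add hm.1,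
      show -e + (b + e + -b) = 0 by ring, C.xg_zero]
    exact one_mem _
  have h := C.xg_conj_eq hm.1 hr.1 hmr (C.ne_neg_of_pos hm hr) (-b) e
  rw [neg_neg] at h
  rw [C.xg_inv m b, h]
  simp only [x, inv_mul_cancel_left]
  refine C.wg_mem _ fun q hq => ?_
  obtain ⟨c, hc, rfl⟩ := List.mem_map.1 hq
  exact hstep m hm hmr c hc

theorem sg_wd {wd : List ℕ} (h : ∀ i ∈ wd, i < D.rank) :
    (wd.map fun i => (C.ng i : GL D.Idx F)).prod ∈ D.monomialSubgroup F ∧
      ∀ r < D.nroots, C.sg (wd.map fun i => (C.ng i : GL D.Idx F)).prod r = T.wdImg wd r := by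
  induction wd with
  | nil => exact ⟨one_mem _, fun r hr => C.sg_one hr⟩
  | cons i wd ih =>
    obtain ⟨hm, he⟩ := ih fun j hj => h j (by simp [hj])
    have hi := h i (by simp)
    rw [List.map_cons, List.prod_cons]
    refine ⟨mul_mem (C.ng_mem hi) hm, fun r hr => ?_⟩
    rw [C.sg_mul (C.ng_mem hi) hm hr, C.sg_ng hi (C.sg_lt hm hr), C.refl i hi _ (C.sg_lt hm hr), he r hr]
    rfl

/-- Elements centralising the radical at the highest root lie in it. -/
theorem cent_radical {R : ℕ} (h : T.localCheck R R = true) (hchk : T.radCheck R = true)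
    {c : GL D.Idx F} (hc : c ∈ D.group F)
    (hcomm : ∀ y ∈ grp D F {r | r ∈ T.qset R}, Commute c y) :
    c ∈ grp D F {r | r ∈ T.qset R} := by
  classical
  have L := C.localFacts (F := F) h
  set Q := grp D F {r | r ∈ T.qset R}
  have hl : ∀ r ∈ T.qset R, D.IsPosRoot r := fun r hr => ((C.mem_qset L.posA.1).1 hr).1
  simp only [Fast.radCheck, Bool.and_eq_true, allBelow_iff, Bool.or_eq_true, List.contains_iff_mem,
    List.any_eq_true, List.all_eq_true, Nat.blt_eq, Nat.beq_eq, ltI_iff, Bool.not_eq_true',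
    Bool.eq_false_iff, ne_eq] at hchk
  obtain ⟨⟨⟨-, hspan⟩, hwd⟩, hneg⟩ := hchk
  have hQn : ∀ {v y : GL D.Idx F}, v ∈ D.borelSubgroup F → y ∈ Q → v * y * v⁻¹ ∈ Q :=
    fun hv hy => C.borel_norm hl L.idealQ hv hy
  have inU : ∀ g ∈ D.group F, (∀ y ∈ Q, Commute g y) → g ∈ D.posUnipotent F := by
    intro g hg hgQ
    obtain ⟨b, hb, n, hn, v, hv, rfl⟩ := C.exists_bnu hg
    have hv' : v ∈ D.posUnipotent F := by rw [posUnipotent_eq]; exact grp_mem_mono hv fun r hr => hr.1
    have hvB : v ∈ D.borelSubgroup F := Subgroup.mem_sup_left hv'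
    have hfix := C.fix_root h one_ne_zero hb hn hv'
      (hgQ _ (C.xg_mem (S := {r | r ∈ T.qset R}) L.memR 1))
    obtain ⟨w, hw, t, ht, hwt⟩ := C.mem_borel.1 (mul_mem hvB hb)
    have hc' : ∀ y ∈ Q, Commute (w * t * n) y := by
      intro y hy
      have h1 : Commute (b * n * v) (v⁻¹ * y * v) := hgQ _ (by
        have := hQn (inv_mem hvB) hy
        rwa [inv_inv] at this)
      rw [← hwt]
      show v * b * n * y = y * (v * b * n)
      calc v * b * n * y = v * (b * n * v * (v⁻¹ * y * v)) * v⁻¹ := by group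
        _ = y * (v * b * n) := by rw [h1.eq]; group
    have hcoord : ∀ r ∈ T.qset R, C.sg n r = r ∧
        ∀ d : F, n * C.xg r 1 * n⁻¹ = C.xg r d → t * C.xg r d * t⁻¹ = C.xg r 1 := by
      intro r hr
      have hrp := hl r hr
      let l := (T.qset R).filter fun s => decide (r < s)
      have hl' : ∀ s ∈ l, D.IsPosRoot s := fun s hs => hl s (List.mem_filter.1 hs).1
      have hid : ∀ m, D.IsPosRoot m → ∀ k ∈ ({s | s ∈ l} : Set ℕ), k ≠ m →
          ∀ c ∈ D.commTerms m k, c.1 ∈ ({s | s ∈ l} : Set ℕ) := by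
        intro m hm k hk hkm c hc
        have hk' := List.mem_filter.1 hk
        exact List.mem_filter.2 ⟨C.ideal_of_check hl L.idealQ hm hk'.1 hkm c hc,
          decide_eq_true ((of_decide_eq_true hk'.2).trans (C.commTerms_gt hm (hl k hk'.1) c hc).2.2)⟩
      have hS : ClosedSet D {s | s ∈ l} := ⟨hl', fun r hr s hs hne => hid r (hl' r hr) s hs hne⟩
      have hy := C.wg_conj_mod hrp (1 : F) hl' hid (fun m hm hne c hc => List.mem_filter.2
        ⟨C.ideal_of_check hl L.idealQ hm hr hne c hc,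
          decide_eq_true (C.commTerms_gt hm hrp c hc).2.2⟩) (inv_mem hw)
      have hxQ := C.xg_mem (S := {r | r ∈ T.qset R}) hr (1 : F)
      have e1 : t * (n * C.xg r 1 * n⁻¹) * t⁻¹ = w⁻¹ * C.xg r 1 * w := by
        calc t * (n * C.xg r 1 * n⁻¹) * t⁻¹ = w⁻¹ * (w * t * n * C.xg r 1) * n⁻¹ * t⁻¹ := by group
          _ = w⁻¹ * C.xg r 1 * w := by rw [(hc' _ hxQ).eq]; group
      obtain ⟨d0, hd0, hd⟩ := C.sg_conj hn hrp.1
      obtain ⟨χ, hχ, ht'⟩ := C.exists_chr ht
      have hs := C.sg_lt hn hrp.1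
      rw [hd 1, C.conj_xg_of_dg hχ ht' hs, mul_one] at e1
      rw [inv_inv, ← e1] at hy
      have hσQ : C.sg n r ∈ T.qset R := by
        refine (C.mem_qset L.posA.1).2 ⟨?_, ?_⟩
        · refine L.pairPos _ hs ?_
          conv_rhs => rw [← hfix]
          rw [C.pair_sg hn L.posA.1 hrp.1]
          exact ((C.mem_qset L.posA.1).1 hr).2
        · conv_rhs => rw [← hfix]
          rw [C.pair_sg hn L.posA.1 hrp.1]
          exact ((C.mem_qset L.posA.1).1 hr).2
      have hne : χ (C.sg n r) * d0 ≠ 0 := mul_ne_zero (hχ.ne _ hs) hd0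
      have hσ : C.sg n r = r := by
        rcases lt_trichotomy (C.sg n r) r with hlt | heq | hgt
        · exfalso
          let l2 := (T.qset R).filter fun s => decide (r ≤ s)
          have hl2 : ∀ s ∈ l2, D.IsPosRoot s := fun s hs => hl s (List.mem_filter.1 hs).1
          have h2 : C.xg (C.sg n r) (χ (C.sg n r) * d0) ∈ grp D F {s | s ∈ l2} := by
            have := mul_mem (C.xg_mem (S := {s | s ∈ l2}) (r := r)
              (List.mem_filter.2 ⟨hr, decide_eq_true le_rfl⟩) (1 : F))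
              (grp_mem_mono hy (S' := {s | s ∈ l2}) fun s hs => List.mem_filter.2
                ⟨(List.mem_filter.1 hs).1, decide_eq_true (of_decide_eq_true (List.mem_filter.1 hs).2).le⟩)
            rwa [mul_inv_cancel_left] at this
          refine hne (C.xg_coord ⟨hl2, fun a ha b hb hab c hc => ?_⟩ (hl _ hσQ) ?_ h2)
          · have hb' := List.mem_filter.1 hb
            exact List.mem_filter.2 ⟨C.ideal_of_check hl L.idealQ (hl2 a ha) hb'.1 hab c hc,
              decide_eq_true ((of_decide_eq_true hb'.2).trans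
                (C.commTerms_gt (hl2 a ha) (hl b hb'.1) c hc).2.2.le)⟩
          · intro hmem
            have := of_decide_eq_true (List.mem_filter.1 hmem).2
            omega
        · exact heq
        · exfalso
          have h2 := mul_mem (C.xg_mem (S := {s | s ∈ l}) (r := C.sg n r)
            (List.mem_filter.2 ⟨hσQ, decide_eq_true hgt⟩) (χ (C.sg n r) * d0)) (inv_mem hy)
          rw [mul_inv_rev, inv_inv, mul_inv_cancel_left] at h2
          exact one_ne_zero (C.xg_coord hS hrp (fun hmem => by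
            have := of_decide_eq_true (List.mem_filter.1 hmem).2
            omega) h2)
      refine ⟨hσ, fun d hd' => ?_⟩
      rw [hd 1, hσ, mul_one] at hd'
      rw [hσ, C.xg_inv, C.xg_add hrp.1] at hy
      have h3 := C.xg_coord hS hrp (fun hmem => by
        have := of_decide_eq_true (List.mem_filter.1 hmem).2
        omega) hy
      rw [← hd', C.conj_xg_of_dg hχ ht' hrp.1, show χ r * d0 = 1 by linear_combination h3]
    have hsimp : ∀ k < D.rank, D.simple k ∈ T.qset R ∨ ∃ r ∈ T.qset R, ∃ s ∈ T.qset R,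
        ∀ j < D.rank, T.aux.coef s j = T.aux.coef r j + if j = k then 1 else 0 := by
      intro k hk
      rcases hspan k (C.tables.rank ▸ hk) with h1 | ⟨r, hr, s, hs, h1⟩
      · exact Or.inl (by rw [C.tables.simple k hk]; exact h1)
      · refine Or.inr ⟨r, hr, s, hs, fun j hj => ?_⟩
        have h2 := beqI_eq (h1 j (C.tables.rank ▸ hj))
        rw [show T.aux.coef s j = T.cf s j from rfl, h2]
        by_cases hjk : j = k
        · subst hjk; simp [Fast.aux]
        · simp [Fast.aux, hjk, show Nat.beq j k = false from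
            Bool.eq_false_iff.2 fun h => hjk (Nat.eq_of_beq_eq_true h)]
    have hnd : n ∈ D.diagonalSubgroup F := by
      refine C.mem_diag_of_simple_pos hn fun k hk => ?_
      suffices C.sg n (D.simple k) = D.simple k by rw [this]; exact C.root.pos_simple hk
      rcases hsimp k hk with h1 | ⟨r, hr, s, hs, h1⟩
      · exact (hcoord _ h1).1
      · have hp := C.root.simple_lt k hk
        refine C.root_ext (C.sg_lt hn hp) hp fun j hj => ?_
        have e1 := C.coef_sg hn (hl s hs).1 hj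
        have e2 := C.coef_sg hn (hl r hr).1 hj
        rw [(hcoord s hs).1, Finset.sum_congr rfl fun i hi => by
          rw [h1 i (Finset.mem_range.1 hi), add_mul], Finset.sum_add_distrib, ← e2, (hcoord r hr).1,
          h1 j hj] at e1
        rw [C.root.coef_simple k hk j hj]
        simpa [hk, eq_comm] using e1.symm
    have htn := mul_mem ht hnd
    obtain ⟨cc, hcc⟩ := C.exists_torus htn
    have hchr : ∀ r ∈ T.qset R, C.chrOf cc r = 1 := by
      intro r hr
      obtain ⟨d0, -, hd⟩ := C.sg_conj hn (hl r hr).1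
      have h1 := hd 1
      rw [(hcoord r hr).1] at h1
      have h2 := (hcoord r hr).2 _ h1
      have h3 := C.torus_xg cc (hl r hr).1 (1 : F)
      rw [hcc, show t * n * C.xg r 1 * (t * n)⁻¹ = t * (n * C.xg r 1 * n⁻¹) * t⁻¹ by group, h1, h2,
        mul_one] at h3
      have h4 : C.xg r (C.chrOf cc r + -1) = 1 := by
        rw [← C.xg_add (hl r hr).1, ← h3, C.xg_add (hl r hr).1, add_neg_cancel, C.xg_zero]
      linear_combination C.xg_eq_one (hl r hr).1 h4
    have hone : C.torus cc = 1 := by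
      refine Units.ext ?_
      rw [C.val_torus]
      have hs : ∀ k < D.rank, C.chrOf cc (D.simple k) = 1 := by
        intro k hk
        rcases hsimp k hk with h1 | ⟨r, hr, s, hs, h1⟩
        · exact hchr _ h1
        · have e1 := C.chrOf_lin cc (hl s hs).1
          have e2 := C.chrOf_lin cc (hl r hr).1
          rw [hchr s hs] at e1
          rw [hchr r hr] at e2
          have e3 : ∀ i : Fin D.rank, (∏ x, cc x ^ D.cartan x (D.simple i)) ^ T.aux.coef s i =
              (∏ x, cc x ^ D.cartan x (D.simple i)) ^ T.aux.coef r i *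
                (∏ x, cc x ^ D.cartan x (D.simple i)) ^ (if i = ⟨k, hk⟩ then (1 : ℤ) else 0) := by
            intro i
            rw [h1 i i.2, zpow_add]
            simp [Fin.ext_iff]
          rw [Finset.prod_congr rfl fun i _ => e3 i, Finset.prod_mul_distrib, Units.val_mul, ← e2,
            one_mul, Finset.prod_eq_single ⟨k, hk⟩ (fun i _ hi => by simp [hi]) (by simp), if_pos rfl,
            zpow_one] at e1
          exact e1.symm
      rw [dg_congr (ψ := fun _ => (1 : F)) fun v hv => ?_]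
      · rw [dg]
        ext a b
        rcases a with a | a <;> simp [Matrix.diagonal, Matrix.one_apply]
      · rw [C.chrOf_lin cc hv, Finset.prod_eq_one fun i _ => ?_, Units.val_one]
        rw [show (∏ x, cc x ^ D.cartan x (D.simple i)) = (1 : Fˣ) from Units.ext (hs i i.2), one_zpow]
    have hvb : v * b * n = w := by rw [hwt, mul_assoc w t n, ← hcc, hone, mul_one]
    have e : b * n * v = v⁻¹ * w * v := by rw [← hvb]; group
    rw [e]
    exact mul_mem (mul_mem (inv_mem hv') hw) hv'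
  have hcU := inU c hc hcomm
  have hwd' : ∀ i ∈ T.fixWord R T.n [], i < D.rank := fun i hi => by
    rw [C.tables.rank]; exact (hwd i hi).1
  set wd := T.fixWord R T.n [] with hwddef
  obtain ⟨hm, himg⟩ := C.sg_wd (F := F) hwd'
  set m : GL D.Idx F := (wd.map fun i => (C.ng i : GL D.Idx F)).prod
  have hfix : C.sg m R = R := by
    rw [himg R L.posA.1]
    suffices hh : ∀ w : List ℕ, (∀ i ∈ w, T.w i R = R) → T.wdImg w R = R from
      hh wd fun i hi => (hwd i hi).2
    intro w hw
    induction w with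
    | nil => rfl
    | cons i w ih =>
      show T.w i (T.wdImg w R) = R
      rw [ih fun j hj => hw j (by simp [hj])]
      exact hw i (by simp)
  have hmQ := C.qset_norm h hm hfix
  have hmc : m * c * m⁻¹ ∈ D.posUnipotent F := by
    refine inU _ (mul_mem (mul_mem (C.monomial_le_group hm) hc) (inv_mem (C.monomial_le_group hm))) ?_
    intro y hy
    have h1 : m⁻¹ * y * m ∈ Q := by
      have := (Subgroup.mem_normalizer_iff.1 (inv_mem hmQ) y).1 hy
      rwa [inv_inv] at this
    show _ * _ = _ * _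
    calc m * c * m⁻¹ * y = m * (c * (m⁻¹ * y * m)) * m⁻¹ := by group
      _ = y * (m * c * m⁻¹) := by rw [(hcomm _ h1).eq]; group
  obtain ⟨t, ht, s, hs, rfl⟩ := C.grp_split 0 {r | r ∈ T.qset R} (g := c)
    (by rw [posUnipotent_eq] at hcU; exact grp_mem_mono hcU fun r hr => ⟨hr, Nat.zero_le r⟩)
  have hsQ : s ∈ Q := grp_mem_mono hs fun r hr => hr.2
  have hQU : Q ≤ D.posUnipotent F := by rw [posUnipotent_eq]; exact grp_mono hl
  have htm : m * t * m⁻¹ ∈ D.posUnipotent F := by
    have h1 := (Subgroup.mem_normalizer_iff.1 hmQ s).1 hsQ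
    have h2 := mul_mem hmc (inv_mem (hQU h1))
    convert h2 using 1
    group
  obtain ⟨τ, hmo⟩ := C.sg_spec hm
  have ht1 : t = 1 := by
    refine C.eq_one_of_conj_mem_borel (C.closedSet_inv hm) hmo (fun r hr => hr.2)
      (grp_mem_mono ht fun r hr => ?_) (Subgroup.mem_sup_left htm)
    refine ⟨hr.1.1, ?_⟩
    have hr' := hr.1.1.1
    refine (C.root.neg_iff _).2 ⟨C.sg_lt hm hr', ?_⟩
    rw [himg r hr']
    have := hneg r (C.tables.nroots ▸ hr')
    rcases this with (h1 | h1) | h1
    · exact absurd ((C.root.pos_iff r).1 hr.1.1).2 h1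
    · exact absurd h1 hr.2
    · exact h1
  rw [ht1, one_mul]
  exact hsQ

end Checked

end Cfsg.Agent.Lib.Chev
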