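import Cfsg.Agent.Lib.Chev.Cent

/-!
Decidable conditions on the highest long and highest short root, used for the centralisers of their
root elements.
-/

set_option autoImplicit false

namespace Cfsg.Agent.Lib.Chev

namespace Fast

variable (T : Fast)

/-- Positive roots dominating `a` coefficientwise. -/
def ups (a : ℕ) : List ℕ :=
  (List.range T.n).filter fun u => ltI 0 (T.key u) && allBelow T.l fun j => !ltI (T.cf u j) (T.cf a j)

/-- Positive roots with positive pairing with `a`. -/
def qset (a : ℕ) : List ℕ :=
  (List.range T.n).filter fun u => ltI 0 (T.key u) && ltI 0 (T.pr a u)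

/-- A feature separating the two root lengths. -/
def asym (u : ℕ) : Bool :=
  (List.range T.n).any fun x => Nat.beq (T.pr u x).natAbs 1 && Nat.ble 2 (T.pr x u).natAbs

/-- Conjugation by positive root elements preserves a list of positive roots. -/
def idealCheck (l : List ℕ) : Bool :=
  allBelow T.n fun m => !ltI 0 (T.key m) ||
    l.all fun k => Nat.beq k m || (T.commT m k).all fun c => l.contains c.1

/-- Conditions on a dominant root `a` and the highest root `R`. -/
def localCheck (a R : ℕ) : Bool :=
  Nat.blt a T.n && Nat.blt R T.n && ltI 0 (T.key a) && ltI 0 (T.key R) && (T.ups a).contains a && allBelow T.n (fun u => !ltI 0 (T.pr a u) || ltI 0 (T.key u)) &&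
    (T.qset a).contains R && !Nat.beq (T.ng a) R &&
    (Nat.beq R a || (T.commT a R).isEmpty) &&
    T.idealCheck (T.ups a) && T.idealCheck (T.qset a) &&
    (T.ups a).all (fun u => (Nat.beq u a || !(T.asym u == T.asym a)) && Nat.ble a u &&
      (T.ups a).all fun v => Nat.beq u v || (T.commT u v).isEmpty)

/-- The image of a root under a word in the fundamental reflections. -/
def wdImg (wd : List ℕ) (r : ℕ) : ℕ := wd.foldr (fun i x => T.w i x) r

/-- A longest word among the fundamental reflections fixing `a`. -/
def fixWord (a : ℕ) : ℕ → List ℕ → List ℕ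
  | 0, wd => wd
  | f + 1, wd =>
    match (List.range T.l).find? fun i =>
        beqI (T.A i a) 0 && ltI 0 (T.key (T.wdImg wd (T.sp i))) with
    | some i => fixWord a f (wd ++ [i])
    | none => wd

/-- Conditions for the self-centralising property of the radical at the highest root. -/
def radCheck (R : ℕ) : Bool :=
  (allBelow T.n fun m => !ltI 0 (T.key m) || Nat.beq m R || (T.commT m R).isEmpty) &&
    (allBelow T.l fun k => (T.qset R).contains (T.sp k) ||
      (T.qset R).any fun r => (T.qset R).any fun s =>
        allBelow T.l fun j => beqI (T.cf s j) (T.cf r j + bif Nat.beq j k then 1 else 0)) &&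
    (T.fixWord R T.n []).all (fun i => Nat.blt i T.l && Nat.beq (T.w i R) R) &&
    (allBelow T.n fun u => !ltI 0 (T.key u) || (T.qset R).contains u ||
      ltI (T.key (T.wdImg (T.fixWord R T.n []) u)) 0)

/-- Every root is one of two roots or is raised by a fundamental reflection. -/
def climbCheck (R S : ℕ) : Bool :=
  allBelow T.n fun r => Nat.beq r R || Nat.beq r S ||
    (List.range T.l).any fun i => ltI (T.key r) (T.key (T.w i r))

end Fast

end Cfsg.Agent.Lib.Chev
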