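
import Cfsg.Agent.Lib.Classical.NineField
import Cfsg.Agent.Lib.Chev.G2TwoAct

/-!
Tables for SU(3, 3) on the sixty-three anisotropic points.
-/

set_option autoImplicit false
set_option maxRecDepth 100000

namespace Cfsg.Agent.Lib.Chev.G2Two

open Matrix Cfsg.Agent.Lib.Classical Cfsg.Agent.Lib.Classical.NineField

/-- decoding -/
def nine (n : ℕ) : Nine := ⟨⟨n % 3, Nat.mod_lt _ (by norm_num)⟩, ⟨n / 3 % 3, Nat.mod_lt _ (by norm_num)⟩⟩

/-- the conjugate -/
def cj (x : Nine) : Nine := ⟨x.re, -x.im⟩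

theorem cj_eq : ∀ x : Nine, x ^ 3 = cj x := by decide +kernel

/-- the anisotropic vectors -/
def uv (i : ℕ) : Fin 3 → Nine := fun a => nine ((uPts.getD i []).getD a.1 0)

/-- the isotropic vectors -/
def iv (k : ℕ) : Fin 3 → Nine := fun a => nine ((uIso.getD k []).getD a.1 0)

/-- the parameters -/
def par (s : ℕ) : Nine := bif Nat.beq s 0 then ⟨0, 1⟩ else ⟨0, 2⟩

/-- the form -/
def hN (u v : Fin 3 → Nine) : Nine := u 0 * cj (v 0) + u 1 * cj (v 1) + u 2 * cj (v 2)

/-- equality of vectors -/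
def eqV (u v : Fin 3 → Nine) : Bool := decide (u 0 = v 0) && decide (u 1 = v 1) && decide (u 2 = v 2)

/-- the position of the leading coordinate -/
def piv (u : Fin 3 → Nine) : Fin 3 := bif decide (u 0 = 0) then (bif decide (u 1 = 0) then 2 else 1) else 0

/-- the permutation of a word -/
def wordPerm (w : List ℕ) : Equiv.Perm (Fin 63) := (w.map fun m => perm (Fin.ofNat 12 m)).prod

/-- the image of an anisotropic vector under a transvection -/
def tImg (k s i : ℕ) : Fin 3 → Nine := fun a => uv i a + par s * hN (uv i) (iv k) * iv k a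

/-- one entry of the table is right -/
def imgOK (k s i j : ℕ) : Bool :=
  !(decide (tImg k s i (piv (uv j)) = 0)) &&
    eqV (tImg k s i) fun a => tImg k s i (piv (uv j)) * uv j a

theorem word_images : ∀ k : Fin 28, ∀ s : Fin 2, ∀ i : Fin 63,
    imgOK k.1 s.1 i.1 (wordPerm ((uWords.getD k.1 []).getD s.1 []) i).1 = true := by decide +kernel

theorem uv_pivot : ∀ i : Fin 63, uv i.1 (piv (uv i.1)) = 1 := by decide +kernel

theorem uv_distinct : ∀ i j : Fin 63, eqV (uv i.1) (uv j.1) = true → i = j := by decide +kernel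

theorem uv_scalar : ∀ i j : Fin 63, ∀ l : Nine,
    eqV (fun a => l * uv i.1 a) (uv j.1) = true → i = j := by decide +kernel

theorem iso_cover : ∀ a b c : Nine, a * cj a + b * cj b + c * cj c = 0 → (a = 0 ∧ b = 0 ∧ c = 0) ∨
    ∃ k : Fin 28, ∃ l : Nine, eqV (fun x => l * iv k.1 x) ![a, b, c] = true := by decide +kernel

theorem iso_isotropic : ∀ k : Fin 28, hN (iv k.1) (iv k.1) = 0 := by decide +kernel

theorem skew_scale : ∀ c l : Nine, c + c ^ 3 = 0 →
    c * (l * l ^ 3) = 0 ∨ ∃ s : Fin 2, c * (l * l ^ 3) = par s.1 := by decide +kernel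

theorem axes : ∃ i j k : Fin 63, eqV (uv i.1) ![1, 0, 0] = true ∧ eqV (uv j.1) ![0, 1, 0] = true ∧
    eqV (uv k.1) ![0, 0, 1] = true := by decide +kernel

theorem eqV_iff {u v : Fin 3 → Nine} : eqV u v = true ↔ u = v := by
  simp only [eqV, Bool.and_eq_true, decide_eq_true_eq]
  refine ⟨fun h => funext fun a => ?_, fun h => by subst h; simp⟩
  fin_cases a <;> simp [h.1.1, h.1.2, h.2]


end Cfsg.Agent.Lib.Chev.G2Two
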