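import Cfsg.Agent.Lib.Classical.UnitarySimple
import Cfsg.Agent.Lib.Chev.SUThreeTables

/-!
SU(3, 3) on the sixty-three anisotropic points, inside the image of G2(2).
-/

set_option autoImplicit false
set_option maxRecDepth 100000

namespace Cfsg.Agent.Lib.Chev.G2Two

open Matrix Cfsg.Agent.Lib.AutPSU Cfsg.Agent.Lib.Classical Cfsg.Agent.Lib.Classical.NineField

variable {K : Type*} [Field K] [Fintype K] (hK : Fintype.card K = 9)
include hK

theorem hK2 : Fintype.card K = 3 ^ 2 := by rw [hK]; norm_num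

/-- The field isomorphism from the model. -/
noncomputable def toK : Nine ≃+* K := FiniteField.ringEquivOfCardEq (Nine.card.trans hK.symm)

/-- the vectors over `K` -/
noncomputable def uK (i : Fin 63) : Fin 3 → K := fun a => toK hK (uv i.1 a)

theorem hm_map (u v : Fin 3 → Nine) :
    hm 3 (fun a => toK hK (u a)) (fun a => toK hK (v a)) = toK hK (hN u v) := by
  simp [hm, Cfsg.hermForm, Fin.sum_univ_three, hN, ← cj_eq]

/-- `A` permutes the anisotropic points as `σ` does. -/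
def UActs (A : S 3 K 3) (σ : Equiv.Perm (Fin 63)) : Prop :=
  ∀ i, ∃ l : K, l ≠ 0 ∧ Cfsg.Agent.Lib.AutPSU.mat A *ᵥ uK hK i = l • uK hK (σ i)

theorem uK_inj {i j : Fin 63} {l : K} (h : l • uK hK i = uK hK j) : i = j := by
  obtain ⟨l, rfl⟩ := (toK hK).surjective l
  refine uv_scalar i j l (eqV_iff.2 (funext fun a => (toK hK).injective ?_))
  rw [map_mul]
  exact congrFun h a

theorem uActs_unique {A : S 3 K 3} {σ τ : Equiv.Perm (Fin 63)} (h : UActs hK A σ) (h' : UActs hK A τ) :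
    σ = τ := Equiv.ext fun i => by
  obtain ⟨l, hl, e⟩ := h i
  obtain ⟨l', hl', e'⟩ := h' i
  refine uK_inj hK (l := l'⁻¹ * l) ?_
  rw [← smul_smul, ← e, e', smul_smul, inv_mul_cancel₀ hl', one_smul]

theorem uActs_one : UActs hK (1 : S 3 K 3) 1 := fun i => ⟨1, one_ne_zero, by
  rw [show Cfsg.Agent.Lib.AutPSU.mat (1 : S 3 K 3) = 1 from rfl]; simp⟩

theorem uActs_mul {A B : S 3 K 3} {σ τ : Equiv.Perm (Fin 63)} (hA : UActs hK A σ) (hB : UActs hK B τ) :
    UActs hK (A * B) (σ * τ) := fun i => by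
  obtain ⟨l, hl, e⟩ := hB i
  obtain ⟨l', hl', e'⟩ := hA (τ i)
  refine ⟨l * l', mul_ne_zero hl hl', ?_⟩
  rw [show Cfsg.Agent.Lib.AutPSU.mat (A * B) = Cfsg.Agent.Lib.AutPSU.mat A * Cfsg.Agent.Lib.AutPSU.mat B from rfl, ← Matrix.mulVec_mulVec, e, Matrix.mulVec_smul, e', smul_smul]
  rfl

theorem exists_uActs (R : Subgroup (Equiv.Perm (Fin 63))) (hR : ∀ r, perm r ∈ R) (A : S 3 K 3) :
    ∃ σ ∈ R, UActs hK A σ := by
  have hgen := UnitarySimple.generated (hK2 hK) (n := 3) le_rfl (by norm_num)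
  have hA : A ∈ Subgroup.closure {s : S 3 K 3 | ∃ v c, hm 3 v v = 0 ∧ Skew 3 c ∧ s = T (hK2 hK) v c} :=
    hgen ▸ Subgroup.mem_top A
  induction hA using Subgroup.closure_induction with
  | mem s hs =>
    obtain ⟨v, c, hv, hc, rfl⟩ := hs
    obtain ⟨w, rfl⟩ : ∃ w : Fin 3 → Nine, (fun a => toK hK (w a)) = v :=
      ⟨fun a => (toK hK).symm (v a), funext fun a => by simp⟩
    obtain ⟨d, rfl⟩ := (toK hK).surjective c
    have hd : d + d ^ 3 = 0 := (toK hK).injective (by rw [map_add, map_pow, map_zero]; exact hc)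
    have hw : hN w w = 0 := (toK hK).injective (by rw [← hm_map hK, map_zero]; exact hv)
    rcases iso_cover (w 0) (w 1) (w 2) hw with ⟨h0, h1, h2⟩ | ⟨k, l, hkl⟩
    · refine ⟨1, one_mem _, fun i => ⟨1, one_ne_zero, ?_⟩⟩
      rw [T_mulVec (hK2 hK) hv hc]
      have : (fun a => toK hK (w a)) = 0 := funext fun a => by fin_cases a <;> simp [h0, h1, h2]
      rw [this]; simp
    have hwk : w = fun a => l * iv k.1 a := by
      rw [eqV_iff.1 hkl]
      funext a; fin_cases a <;> rfl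
    have key : ∀ i, Cfsg.Agent.Lib.AutPSU.mat (T (hK2 hK) (fun a => toK hK (w a)) (toK hK d)) *ᵥ uK hK i =
        fun a => toK hK (uv i.1 a + d * (l * l ^ 3) * hN (uv i.1) (iv k.1) * iv k.1 a) := by
      intro i
      rw [T_mulVec (hK2 hK) hv hc]
      funext a
      have e : hN (uv i.1) w = l ^ 3 * hN (uv i.1) (iv k.1) := by
        simp only [hN, hwk, ← cj_eq, mul_pow]; ring
      show toK hK (uv i.1 a) + toK hK d * hm 3 (fun a => toK hK (uv i.1 a)) (fun a => toK hK (w a)) *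
        toK hK (w a) = _
      rw [hm_map hK, e, hwk]
      simp only [map_add, map_mul, map_pow]
      ring
    rcases skew_scale d l hd with h0 | ⟨s, hs⟩
    · refine ⟨1, one_mem _, fun i => ⟨1, one_ne_zero, ?_⟩⟩
      rw [key i, h0]
      funext a; simp [uK]
    · refine ⟨wordPerm ((uWords.getD k.1 []).getD s.1 []), list_prod_mem fun x hx => ?_, fun i => ?_⟩
      · obtain ⟨m, -, rfl⟩ := List.mem_map.1 hx
        exact hR _
      · have h := word_images k s i
        simp only [imgOK, Bool.and_eq_true, Bool.not_eq_true', decide_eq_false_iff_not] at h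
        refine ⟨toK hK (tImg k.1 s.1 i.1 (piv (uv (wordPerm ((uWords.getD k.1 []).getD s.1 []) i).1))),
          by simpa using h.1, ?_⟩
        rw [key i, hs]
        funext a
        have := congrFun (eqV_iff.1 h.2) a
        rw [Pi.smul_apply, smul_eq_mul, uK, ← map_mul, ← this]
        rfl
  | one => exact ⟨1, one_mem _, uActs_one hK⟩
  | mul x y _ _ hx hy =>
    obtain ⟨σ, hσ, h1⟩ := hx
    obtain ⟨τ, hτ, h2⟩ := hy
    exact ⟨_, mul_mem hσ hτ, uActs_mul hK h1 h2⟩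
  | inv x _ hx =>
    obtain ⟨σ, hσ, h1⟩ := hx
    refine ⟨σ⁻¹, inv_mem hσ, fun i => ?_⟩
    obtain ⟨l, hl, e⟩ := h1 (σ⁻¹ i)
    refine ⟨l⁻¹, inv_ne_zero hl, ?_⟩
    rw [show σ (σ⁻¹ i) = i from σ.apply_symm_apply i] at e
    calc Cfsg.Agent.Lib.AutPSU.mat x⁻¹ *ᵥ uK hK i = Cfsg.Agent.Lib.AutPSU.mat x⁻¹ *ᵥ (l⁻¹ • (l • uK hK i)) := by
          rw [smul_smul, inv_mul_cancel₀ hl, one_smul]
      _ = l⁻¹ • (Cfsg.Agent.Lib.AutPSU.mat (x⁻¹ * x) *ᵥ uK hK (σ⁻¹ i)) := by
          rw [← e, Matrix.mulVec_smul, show Cfsg.Agent.Lib.AutPSU.mat (x⁻¹ * x) = Cfsg.Agent.Lib.AutPSU.mat x⁻¹ * Cfsg.Agent.Lib.AutPSU.mat x from rfl, ← Matrix.mulVec_mulVec]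
      _ = l⁻¹ • uK hK (σ⁻¹ i) := by
          rw [inv_mul_cancel, show Cfsg.Agent.Lib.AutPSU.mat (1 : S 3 K 3) = 1 from rfl]; simp

theorem card_SU_three : Nat.card (S 3 K 3) = 6048 := by
  have h1 := Herm.card_SU (hK2 hK) (n := 3) (by norm_num)
  rw [Herm.card_GU (hK2 hK)] at h1
  norm_num [Finset.prod_range_succ, show Even 2 by decide, show ¬ Even 1 by decide] at h1
  show Nat.card (Cfsg.SU 3 K 3) = 6048
  omega

/-- The projective group embeds. -/
theorem exists_embedding (R : Subgroup (Equiv.Perm (Fin 63))) (hR : ∀ r, perm r ∈ R) :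
    ∃ Q : Subgroup (Equiv.Perm (Fin 63)), Q ≤ R ∧ commutator ↥Q = ⊤ ∧ Nat.card Q = 6048 ∧
      Nonempty (↥Q ≃* Cfsg.PSU 3 K 3) := by
  classical
  choose f hfR hf using exists_uActs hK R hR
  let ψ : S 3 K 3 →* Equiv.Perm (Fin 63) :=
    MonoidHom.mk' f fun A B => uActs_unique hK (hf (A * B)) (uActs_mul hK (hf A) (hf B))
  have hc := Herm.card_center_SU (hK2 hK) (n := 3) (by norm_num)
  have hbot : Subgroup.center (S 3 K 3) = ⊥ := Subgroup.card_eq_one.1 (by rw [hc]; rfl)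
  let e : Cfsg.PSU 3 K 3 ≃* S 3 K 3 := (QuotientGroup.quotientMulEquivOfEq hbot).trans QuotientGroup.quotientBot
  haveI : IsSimpleGroup (Cfsg.PSU 3 K 3) :=
    UnitarySimple.isSimpleGroup_PSU (hK2 hK) le_rfl (by norm_num)
  haveI : Nontrivial (S 3 K 3) := Finite.one_lt_card_iff_nontrivial.1 (by rw [card_SU_three hK]; norm_num)
  haveI : IsSimpleGroup (S 3 K 3) := IsSimpleGroup.isSimpleGroup_of_surjective e.toMonoidHom e.surjective
  have hnc : ¬ ∀ A B : S 3 K 3, A * B = B * A := by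
    intro h
    letI : CommGroup (S 3 K 3) := { (inferInstance : Group (S 3 K 3)) with mul_comm := h }
    have := IsSimpleGroup.prime_card (α := S 3 K 3)
    rw [card_SU_three hK] at this
    norm_num at this
  have hinj : Function.Injective ψ := by
    rw [← MonoidHom.ker_eq_bot_iff]
    refine ((MonoidHom.normal_ker ψ).eq_bot_or_eq_top).resolve_right fun htop => hnc fun A B => ?_
    have hfix : ∀ (A : S 3 K 3) i, ∃ l : K, Cfsg.Agent.Lib.AutPSU.mat A *ᵥ uK hK i = l • uK hK i := fun A i => by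
      obtain ⟨l, -, e⟩ := hf A i
      have h1 : f A = 1 := MonoidHom.mem_ker.1 (htop ▸ Subgroup.mem_top A)
      rw [h1] at e
      exact ⟨l, e⟩
    obtain ⟨i0, i1, i2, h0, h1, h2⟩ := axes
    have hax : ∀ a : Fin 3, ∃ i, uK hK i = Pi.single a 1 := fun a => by
      refine ⟨![i0, i1, i2] a, funext fun b => ?_⟩
      fin_cases a <;> fin_cases b <;> simp [uK, eqV_iff.1 h0, eqV_iff.1 h1, eqV_iff.1 h2]
    refine Subtype.ext (Subtype.ext (Matrix.ext_of_mulVec_single fun a => ?_))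
    obtain ⟨i, hi⟩ := hax a
    obtain ⟨l, hl⟩ := hfix A i
    obtain ⟨l', hl'⟩ := hfix B i
    show (Cfsg.Agent.Lib.AutPSU.mat A * Cfsg.Agent.Lib.AutPSU.mat B) *ᵥ Pi.single a 1 = (Cfsg.Agent.Lib.AutPSU.mat B * Cfsg.Agent.Lib.AutPSU.mat A) *ᵥ Pi.single a 1
    rw [← hi, ← Matrix.mulVec_mulVec, ← Matrix.mulVec_mulVec, hl, hl', Matrix.mulVec_smul, Matrix.mulVec_smul,
      hl, hl', smul_smul, smul_smul, mul_comm]
  let E : S 3 K 3 ≃* ψ.range := MonoidHom.ofInjective hinj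
  haveI : Nontrivial ↥ψ.range := E.toEquiv.symm.nontrivial
  haveI : IsSimpleGroup ↥ψ.range := IsSimpleGroup.isSimpleGroup_of_surjective E.toMonoidHom E.surjective
  refine ⟨ψ.range, ?_, ?_, ?_, ⟨E.symm.trans e.symm⟩⟩
  · rintro x ⟨A, rfl⟩; exact hfR A
  · refine ((inferInstance : (commutator ↥ψ.range).Normal).eq_bot_or_eq_top).resolve_left fun h => hnc ?_
    intro A B
    refine E.injective ?_
    rw [map_mul, map_mul]
    exact commutatorElement_eq_one_iff_mul_comm.1 (Subgroup.mem_bot.1 (h ▸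
      Subgroup.commutator_mem_commutator (Subgroup.mem_top _) (Subgroup.mem_top _)))
  · rw [← Nat.card_congr E.toEquiv, card_SU_three hK]

end Cfsg.Agent.Lib.Chev.G2Two
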