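import Cfsg.Agent.Lib.Chev.ModExist
import Cfsg.Agent.Lib.RegularClasses
import Cfsg.Agent.Lib.Chev.Orders
import Mathlib.FieldTheory.IsAlgClosed.AlgebraicClosure
import Mathlib.FieldTheory.IsSepClosed
import Mathlib.GroupTheory.FiniteAbelian.Duality
import Mathlib.RingTheory.RootsOfUnity.AlgebraicallyClosed

/-!
The count of classes of elements of order prime to the characteristic in a split Chevalley group with
injective torus parametrisation.
-/

set_option autoImplicit false
set_option linter.unusedSectionVars false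

namespace Cfsg.Agent.Lib.Chev

open Cfsg.Lie Cfsg.Agent.Lib

namespace Checked

universe u

variable {D : ChevalleyDatum} {T : Fast} (C : Checked D T) {F : Type u} [Field F] [Fintype F]
include C

theorem card_regular_classes {p : ℕ} [Fact p.Prime] [CharP F p] (hb : T.braidCheck = true)
    (hker : (C.cartanMap (F := F)).ker = ⊥) :
    Nat.card {c : ConjClasses ↥(D.group F) // ∃ g : ↥(D.group F), ConjClasses.mk g = c ∧
      ¬ p ∣ orderOf g} = Fintype.card F ^ D.rank := by
  classical
  have hp : p.Prime := Fact.out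
  let k := AlgebraicClosure F
  haveI : CharP k p := charP_of_injective_algebraMap (algebraMap F k).injective p
  haveI : NeZero ((Monoid.exponent Fˣ : ℕ) : k) := by
    refine ⟨fun h => ?_⟩
    rw [CharP.cast_eq_zero_iff k p, IsCyclic.exponent_eq_card, Nat.card_units,
      Nat.card_eq_fintype_card] at h
    obtain ⟨n, hn, hcard⟩ := FiniteField.card F p
    rw [hcard] at h
    have h1 : p ∣ p ^ (n : ℕ) := dvd_pow_self p n.ne_zero
    have h2 : 1 ≤ p ^ (n : ℕ) := Nat.one_le_pow _ _ hp.pos
    have h3 := Nat.dvd_sub h1 h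
    rw [Nat.sub_sub_self h2] at h3
    exact hp.one_lt.ne' (Nat.dvd_one.1 h3)
  have hcard : Nat.card (Fˣ →* kˣ) = Fintype.card F - 1 := by
    rw [CommGroup.card_monoidHom_of_hasEnoughRootsOfUnity Fˣ k, Nat.card_units,
      Nat.card_eq_fintype_card]
  haveI : Finite (Fˣ →* kˣ) := Nat.finite_of_card_ne_zero (by
    rw [hcard]; have := Fintype.one_lt_card (α := F); omega)
  haveI := Fintype.ofFinite (Fˣ →* kˣ)
  have hex := fun τ : Ty D F k => C.exists_irreducible (k := k) hp hb hker τ
  choose d π hπ v hv using hex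
  haveI : ∀ τ, (π τ).IsIrreducible := hπ
  rw [RegularClasses.card_regClasses (k := k) (p := p) π hπ ?_ ?_]
  · rw [Nat.card_eq_fintype_card, Fintype.card_fun, Fintype.card_option, Fintype.card_fin,
      ← Nat.card_eq_fintype_card (α := Fˣ →* kˣ), hcard]
    have := Fintype.one_lt_card (α := F)
    congr 1
    omega
  · intro τ τ' hne
    refine ⟨fun φ => hne ?_⟩
    have hf : ∀ g y, φ.toLinearEquiv (π τ g y) = π τ' g (φ.toLinearEquiv y) := fun g y =>
      LinearMap.congr_fun (φ.toIntertwiningMap.isIntertwining' g) y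
    have h0 : φ.toLinearEquiv (v τ) ≠ 0 := fun h => (hv τ).ne (φ.toLinearEquiv.map_eq_zero_iff.1 h)
    have h1 := C.map_hasTy (π τ) (π τ') φ.toLinearEquiv.toLinearMap hf (hv τ) h0
    obtain ⟨ψ, -, -, hline⟩ := C.exists_functional (π τ') hp hb (hv τ')
    have e := hline _ h1.fixed
    have ha : ψ (φ.toLinearEquiv (v τ)) ≠ 0 := fun h => h0 (by
      rw [LinearEquiv.coe_coe] at e; rw [e, h, zero_smul])
    exact Checked.HasTy.unique (π := π τ') C h1 (by rw [LinearEquiv.coe_coe] at e ⊢; rw [e]; exact Checked.HasTy.smul C (hv τ') ha)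
  · intro W _ _ _ ρ hρ
    haveI := hρ
    obtain ⟨τ, w, hw⟩ := C.exists_ty ρ hp hb
    refine ⟨τ, fun g => ?_⟩
    obtain ⟨e⟩ := C.equiv_of_hasTy ρ (π τ) hp hb hw (hv τ)
    have hf : ∀ y, e.toLinearEquiv (ρ g y) = π τ g (e.toLinearEquiv y) := fun y =>
      LinearMap.congr_fun (e.toIntertwiningMap.isIntertwining' g) y
    rw [← LinearMap.trace_conj' (ρ g) e.toLinearEquiv]
    congr 1
    refine LinearMap.ext fun y => ?_
    rw [LinearEquiv.conj_apply_apply, hf, e.toLinearEquiv.apply_symm_apply]

theorem card_coprime_classes {p : ℕ} [Fact p.Prime] [CharP F p] (hb : T.braidCheck = true)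
    {P P' R R' : ℕ → ℕ → ℤ} {d : List ℕ} (h : smithCheck T P P' R R' d = true)
    (hd : ∀ i < T.l, (Fintype.card F - 1).gcd (d.getD i 1) = 1) :
    Nat.card {c : ConjClasses ↥(D.group F) // ∃ g : ↥(D.group F), ConjClasses.mk g = c ∧
      (orderOf g).Coprime p} = Fintype.card F ^ D.rank := by
  have hker : (C.cartanMap (F := F)).ker = ⊥ := Subgroup.eq_bot_of_card_eq _ (by
    rw [C.card_ker_cartanMap h]
    exact Finset.prod_eq_one fun i hi => hd i (Finset.mem_range.1 hi))
  rw [← C.card_regular_classes (p := p) hb hker]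
  refine Nat.card_congr (Equiv.subtypeEquivRight fun c => exists_congr fun g => and_congr_right fun _ => ?_)
  rw [Nat.coprime_comm, (Fact.out : p.Prime).coprime_iff_not_dvd]

end Checked

end Cfsg.Agent.Lib.Chev
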