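import Cfsg.Agent.Lib.Chev.AutBorel
import Cfsg.Agent.Lib.Chev.TwistBN

/-!
Every automorphism of a twisted group with orthogonal orbits is, up to an inner one, one which permutes the
orbit groups of the fundamental roots and of their negatives.
-/

set_option autoImplicit false
set_option linter.unusedSectionVars false

namespace Cfsg.Agent.Lib.Chev

open Cfsg.Lie Cfsg.Agent.Lib

theorem Sends.trans {E : Type*} [Group E] {G : Subgroup E} {θ η : G ≃* G} {X Y Z : Subgroup E}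
    (h : Sends θ X Y) (h' : Sends η Y Z) : Sends (θ.trans η) X Z :=
  fun g => (h' (θ g)).trans (h g)

theorem sends_conj {E : Type*} [Group E] {G : Subgroup E} (x : G) {X Y : Subgroup E}
    (h : ∀ e : E, (x : E) * e * (x : E)⁻¹ ∈ Y ↔ e ∈ X) :
    Sends (MulAut.conj x : G ≃* G) X Y := fun g => by
  rw [← h]
  rfl

namespace Orth

variable {D : ChevalleyDatum} {T : Fast} {C : Checked D T} {K : Type*} [Field K] {τ : Twist C K}
  {dd : ℕ} (O : Orth τ dd)
include O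

/-- The orbit group of a fundamental root. -/
def posX (j : ℕ) : Subgroup (GL D.Idx K) := grp D K (O.orbit (D.simple j))

/-- The orbit group of the negative of a fundamental root. -/
def negX (j : ℕ) : Subgroup (GL D.Idx K) := grp D K (O.orbit (D.neg (D.simple j)))

theorem gens_fixed : Gens τ dd τ.fixed where
  le_fixed := le_rfl
  base _ hj _ ht := O.orbEl_fixed (C.root.simple_lt _ hj) ht
  base_neg _ hj _ ht := O.orbEl_fixed (C.root.neg_lt _ (C.root.simple_lt _ hj)) ht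

theorem orbit_lt {r : ℕ} (hr : r < D.nroots) : ∀ s ∈ O.orbit r, s < D.nroots := by
  rintro s ⟨i, -, rfl⟩
  exact τ.ρ_iter_lt hr i

theorem orbit_neg {r : ℕ} (hr : r < D.nroots) {s : ℕ} :
    s ∈ O.orbit (D.neg r) ↔ ∃ s' ∈ O.orbit r, s = D.neg s' := by
  constructor
  · rintro ⟨i, hi, rfl⟩
    exact ⟨τ.ρ^[i] r, ⟨i, O.len_neg hr ▸ hi, rfl⟩, τ.ρ_iter_neg hr i⟩
  · rintro ⟨_, ⟨i, hi, rfl⟩, rfl⟩
    exact ⟨i, (O.len_neg hr).symm ▸ hi, (τ.ρ_iter_neg hr i).symm⟩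

theorem orbEl_mem_grp {r : ℕ} (hr : r < D.nroots) (t : K) :
    τ.orbEl dd r t ∈ grp D K (O.orbit r) :=
  list_prod_mem fun x hx => by
    obtain ⟨i, hi, rfl⟩ := List.mem_map.1 hx
    rw [τ.iter_xg hr]
    exact C.xg_mem (S := O.orbit r) ⟨i, List.mem_range.1 hi, rfl⟩ _

theorem negX_le_neg {j : ℕ} (hj : j < D.rank) : O.negX j ≤ D.negUnipotent K := by
  rw [negUnipotent_eq]
  refine fun g hg => grp_mem_mono hg fun s hs => ?_
  obtain ⟨s', hs', rfl⟩ := (O.orbit_neg (C.root.simple_lt j hj)).1 hs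
  exact (C.neg_neg_iff (O.orbit_pos (C.root.pos_simple hj) s' hs').1).2
    (O.orbit_pos (C.root.pos_simple hj) s' hs')

theorem posX_le_pos {j : ℕ} (hj : j < D.rank) : O.posX j ≤ D.posUnipotent K := by
  rw [posUnipotent_eq]
  exact fun g hg => grp_mem_mono hg (O.orbit_pos (C.root.pos_simple hj))

/-- Moving an orbit group by a fixed monomial element. -/
theorem conj_orbit {m : GL D.Idx K} (hm : m ∈ D.monomialSubgroup K) (hmf : m ∈ τ.fixed) {r : ℕ}
    (hr : r < D.nroots) {g : GL D.Idx K} (hg : g ∈ grp D K (O.orbit r)) :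
    m * g * m⁻¹ ∈ grp D K (O.orbit (C.sg m r)) := by
  refine C.conj_mem_of_image hm (O.orbit_lt hr) ?_ hg
  rintro _ ⟨i, -, rfl⟩
  have : C.sg m (τ.ρ^[i] r) = τ.ρ^[i] (C.sg m r) := by
    induction i with
    | zero => rfl
    | succ i ih =>
      rw [Function.iterate_succ_apply', Function.iterate_succ_apply', ← ih,
        τ.comm_of_fixed hm hmf _ (τ.ρ_iter_lt hr i)]
  rw [this]
  exact O.orbit_iter (C.sg_lt hm hr) ⟨0, O.len_pos _, rfl⟩ i

theorem conj_orbit_iff {m : GL D.Idx K} (hm : m ∈ D.monomialSubgroup K) (hmf : m ∈ τ.fixed) {r : ℕ}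
    (hr : r < D.nroots) {g : GL D.Idx K} :
    m * g * m⁻¹ ∈ grp D K (O.orbit (C.sg m r)) ↔ g ∈ grp D K (O.orbit r) := by
  refine ⟨fun h => ?_, O.conj_orbit hm hmf hr⟩
  have := O.conj_orbit (inv_mem hm) (inv_mem hmf) (C.sg_lt hm hr) h
  rw [C.sg_inv_sg hm hr] at this
  simpa [mul_assoc] using this

/-- A fixed element which makes every positive root negative. -/
theorem exists_longest_fixed : ∃ m ∈ D.monomialSubgroup K, m ∈ τ.fixed ∧
    ∀ r, D.IsPosRoot r → D.IsNegRoot (C.sg m r) := by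
  obtain ⟨n₀, hn₀, hneg₀⟩ := C.exists_longest K
  have hc₀ : τ.Comm n₀ := by
    have hneg' : ∀ r, D.IsPosRoot r → D.IsNegRoot (C.sg (τ.act n₀) r) := by
      intro r hr
      obtain ⟨s, hs, rfl⟩ := τ.ρ_surj hr.1
      rw [τ.sg_act hn₀ hs, τ.ρ_neg_iff (C.sg_lt hn₀ hs)]
      exact hneg₀ s ((τ.ρ_pos_iff hs).1 hr)
    have hd : n₀⁻¹ * τ.act n₀ ∈ D.diagonalSubgroup K := by
      have hm := mul_mem (inv_mem hn₀) (τ.act_monomial hn₀)
      rw [← C.cls_toN_eq_one hm]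
      refine BN.eq_one_of_len_eq_zero _ ?_
      rw [C.len_eq hm, Set.ncard_eq_zero (C.inv_finite _)]
      refine Set.eq_empty_of_forall_notMem fun r hr => ?_
      have h2 := hr.2
      have hm0 := C.sg_lt (τ.act_monomial hn₀) hr.1.1
      rw [C.sg_mul (inv_mem hn₀) (τ.act_monomial hn₀) hr.1.1] at h2
      have h3 := hneg' r hr.1
      have h4 := hneg₀ _ ((C.neg_pos_iff (C.sg_lt (inv_mem hn₀) hm0)).2 h2)
      rw [C.sg_neg hn₀ (C.sg_lt (inv_mem hn₀) hm0), C.sg_sg_inv hn₀ hm0, C.neg_neg_iff hm0] at h4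
      exact C.not_pos_and_neg h4 h3
    intro r hr
    have h1 := C.sg_mul hn₀ (C.diag_le_monomial hd) (τ.ρ_lt r hr)
    rw [mul_inv_cancel_left, C.sg_diag hd (τ.ρ_lt r hr), τ.sg_act hn₀ hr] at h1
    exact h1.symm
  obtain ⟨m, -, hm, hmf, hd⟩ := O.exists_rep (M := ⊤) (fun _ _ => trivial) n₀ hn₀ hc₀
  refine ⟨m, hm, hmf, fun r hr => ?_⟩
  have h1 := C.sg_mul (C.diag_le_monomial hd) hm hr.1
  rw [inv_mul_cancel_right, C.sg_diag hd (C.sg_lt hm hr.1)] at h1
  rw [← h1]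
  exact hneg₀ r hr

/-- A fixed element exchanging `U` and `V`. -/
theorem exists_swap : ∃ m ∈ D.monomialSubgroup K, m ∈ τ.fixed ∧
    (∀ r, D.IsPosRoot r → D.IsNegRoot (C.sg m r)) ∧
    (∀ v, m * v * m⁻¹ ∈ D.negUnipotent K ↔ v ∈ D.posUnipotent K) ∧
    (∀ v, m * v * m⁻¹ ∈ D.posUnipotent K ↔ v ∈ D.negUnipotent K) := by
  obtain ⟨m, hm, hmf, hlong⟩ := O.exists_longest_fixed
  refine ⟨m, hm, hmf, hlong, fun v => ?_, fun v => ?_⟩ <;>
    rw [posUnipotent_eq, negUnipotent_eq] <;> refine ⟨fun h => ?_, fun h => ?_⟩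
  · have := C.conj_mem_of_image (inv_mem hm) (fun r hr => hr.1) (S' := {r | D.IsPosRoot r})
      (fun r hr => C.sg_longest_pos (inv_mem hm) (fun s hs => C.sg_inv_longest hm hlong hs) hr) h
    simpa [mul_assoc] using this
  · exact C.conj_mem_of_image hm (fun r hr => hr.1) (fun r hr => hlong r hr) h
  · have := C.conj_mem_of_image (inv_mem hm) (fun r hr => hr.1) (S' := {r | D.IsNegRoot r})
      (fun r hr => C.sg_inv_longest hm hlong hr) h
    simpa [mul_assoc] using this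
  · exact C.conj_mem_of_image hm (fun r hr => hr.1) (fun r hr => C.sg_longest_pos hm hlong hr) h

theorem orbEl_one_valid {r : ℕ} (hr : D.IsPosRoot r) : ∃ t, τ.Valid dd r t ∧ t ≠ 0 := by
  obtain ⟨j, hj, n, -, hn, hnf, rfl⟩ := O.reach (M := ⊤) (fun _ _ => trivial) r hr
  obtain ⟨c, hc, h⟩ := O.transport hnf hn (C.root.simple_lt j hj)
  exact ⟨c * 1, (h 1).1.2 (O.valid_one hj), mul_ne_zero hc one_ne_zero⟩

theorem orbEl_ne_one {r : ℕ} (hr : D.IsPosRoot r) {t : K} (ht : t ≠ 0) : τ.orbEl dd r t ≠ 1 :=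
  fun h => ht (O.orbEl_inj hr (h.trans (O.orbEl_zero hr.1).symm))

/-- A fixed element carrying `U` onto a subgroup of fixed points meeting it trivially. -/
theorem exists_borel_of_disjoint {g : GL D.Idx K} (hg : g ∈ τ.fixed)
    (h : ∀ x ∈ D.posUnipotent K, x ∈ τ.fixed → g * x * g⁻¹ ∈ D.posUnipotent K → x = 1) :
    ∃ b ∈ D.borelSubgroup K, b ∈ τ.fixed ∧
      ∀ x, g * x * g⁻¹ ∈ (D.negUnipotent K).map (MulAut.conj b).toMonoidHom ↔ x ∈ D.posUnipotent K := by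
  obtain ⟨b, hb, hbf, n, hn, hnf, u, hu, huf, rfl⟩ := τ.fixed_bnu hg fun n hn hc => by
    obtain ⟨m, -, h1, h2, h3⟩ := O.exists_rep (M := ⊤) (fun _ _ => trivial) n hn hc
    exact ⟨m, h1, h2, h3⟩
  have huU : u ∈ D.posUnipotent K := by
    rw [posUnipotent_eq]; exact grp_mem_mono hu fun r hr => hr.1
  have hneg : ∀ r, D.IsPosRoot r → D.IsNegRoot (C.sg n r) := by
    intro r hr
    refine (C.key_trichotomy (C.sg_lt hn hr.1)).resolve_left fun hp => ?_
    obtain ⟨t, ht, ht0⟩ := O.orbEl_one_valid hr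
    have hxU : τ.orbEl dd r t ∈ D.posUnipotent K := by
      rw [posUnipotent_eq]; exact grp_mem_mono (O.orbEl_mem_pos hr t) (O.orbit_pos hr)
    have hnU : n * τ.orbEl dd r t * n⁻¹ ∈ D.posUnipotent K := by
      rw [posUnipotent_eq]
      exact grp_mem_mono (O.conj_orbit hn hnf hr.1 (O.orbEl_mem_pos hr t)) (O.orbit_pos hp)
    have h1 := h _ (mul_mem (mul_mem (inv_mem huU) hxU) huU)
      (mul_mem (mul_mem (inv_mem huf) (O.orbEl_fixed hr.1 ht)) huf) (by
      rw [show b * n * u * (u⁻¹ * τ.orbEl dd r t * u) * (b * n * u)⁻¹ =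
        b * (n * τ.orbEl dd r t * n⁻¹) * b⁻¹ by group]
      exact C.conj_borel_pos hb hnU)
    refine O.orbEl_ne_one hr ht0 ?_
    calc τ.orbEl dd r t = u * (u⁻¹ * τ.orbEl dd r t * u) * u⁻¹ := by group
      _ = 1 := by rw [h1]; group
  refine ⟨b, hb, hbf, fun x => ?_⟩
  have hn' : ∀ v, n * v * n⁻¹ ∈ D.negUnipotent K ↔ v ∈ D.posUnipotent K := fun v => by
    rw [posUnipotent_eq, negUnipotent_eq]
    refine ⟨fun hv => ?_, fun hv => C.conj_mem_of_image hn (fun r hr => hr.1) (fun r hr => hneg r hr) hv⟩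
    have := C.conj_mem_of_image (inv_mem hn) (fun r hr => hr.1) (S' := {r | D.IsPosRoot r})
      (fun r hr => C.sg_longest_pos (inv_mem hn) (fun s hs => C.sg_inv_longest hn hneg hs) hr) hv
    simpa [mul_assoc] using this
  rw [Subgroup.mem_map_equiv, MulAut.conj_symm_apply,
    show b⁻¹ * (b * n * u * x * (b * n * u)⁻¹) * b = n * (u * x * u⁻¹) * n⁻¹ by group, hn']
  refine ⟨fun hx => ?_, fun hx => mul_mem (mul_mem huU hx) (inv_mem huU)⟩
  simpa [mul_assoc] using mul_mem (mul_mem (inv_mem huU) hx) huU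

/-- Up to an inner automorphism, `U` and `V` are preserved. -/
theorem exists_inner_fix [Finite K] (p : ℕ) [Fact p.Prime] (P : Sylow p ↥τ.fixed)
    (hP : (P : Subgroup ↥τ.fixed) = (D.posUnipotent K).subgroupOf τ.fixed)
    (θ : ↥τ.fixed ≃* ↥τ.fixed) :
    ∃ x : ↥τ.fixed, Sends (θ.trans (MulAut.conj x)) (D.posUnipotent K) (D.posUnipotent K) ∧
      Sends (θ.trans (MulAut.conj x)) (D.negUnipotent K) (D.negUnipotent K) := by
  obtain ⟨m, hm, hmf, -, hmV, -⟩ := O.exists_swap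
  obtain ⟨y, hy⟩ := MulAction.exists_smul_eq ↥τ.fixed
    (P.mapSurjective (f := θ.toMonoidHom) θ.surjective) P
  set θ₁ : ↥τ.fixed ≃* ↥τ.fixed := θ.trans (MulAut.conj y) with hθ₁
  have hU : Sends θ₁ (D.posUnipotent K) (D.posUnipotent K) := by
    apply sends_of_map_eq
    have h := congrArg (fun Q : Sylow p ↥τ.fixed => (Q : Subgroup ↥τ.fixed)) hy
    simp only [Sylow.coe_subgroup_smul, Subgroup.pointwise_smul_def] at h
    rw [hP] at h
    refine Eq.trans ?_ h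
    rw [show ((P.mapSurjective (f := θ.toMonoidHom) θ.surjective : Sylow p ↥τ.fixed) :
      Subgroup ↥τ.fixed) = (P : Subgroup ↥τ.fixed).map θ.toMonoidHom from rfl, hP]
    exact (Subgroup.map_map ((D.posUnipotent K).subgroupOf τ.fixed)
      (MulAut.conj y).toMonoidHom θ.toMonoidHom).symm
  set N₀ : ↥τ.fixed := ⟨m, hmf⟩ with hN₀
  have hdis : ∀ x ∈ D.posUnipotent K, x ∈ τ.fixed →
      (θ₁ N₀ : GL D.Idx K) * x * (θ₁ N₀ : GL D.Idx K)⁻¹ ∈ D.posUnipotent K → x = 1 := by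
    intro x hx hxf hc
    obtain ⟨x', hx'⟩ := θ₁.surjective ⟨x, hxf⟩
    have h1 : ((N₀ * x' * N₀⁻¹ : ↥τ.fixed) : GL D.Idx K) ∈ D.posUnipotent K := by
      rw [← hU, map_mul, map_mul, map_inv, hx']; exact hc
    have h2 : ((N₀ * x' * N₀⁻¹ : ↥τ.fixed) : GL D.Idx K) ∈ D.negUnipotent K := by
      show m * (x' : GL D.Idx K) * m⁻¹ ∈ _
      rw [hmV, ← hU, hx']; exact hx
    have h3 : ((N₀ * x' * N₀⁻¹ : ↥τ.fixed) : GL D.Idx K) ∈ D.borelSubgroup K ⊓ D.negUnipotent K :=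
      Subgroup.mem_inf.2 ⟨Subgroup.mem_sup_left h1, h2⟩
    rw [C.borel_inf_neg, Subgroup.mem_bot, OneMemClass.coe_eq_one, conj_eq_one_iff] at h3
    rw [h3, map_one] at hx'
    exact congrArg Subtype.val hx'.symm
  obtain ⟨b, hb, hbf, heq⟩ := O.exists_borel_of_disjoint (θ₁ N₀).2 hdis
  set B₀ : ↥τ.fixed := ⟨b, hbf⟩ with hB₀
  have hV : ∀ v : ↥τ.fixed, ((B₀⁻¹ * θ₁ v * B₀ : ↥τ.fixed) : GL D.Idx K) ∈ D.negUnipotent K ↔
      (v : GL D.Idx K) ∈ D.negUnipotent K := by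
    intro v
    obtain ⟨w, rfl⟩ : ∃ w, v = N₀ * w * N₀⁻¹ := ⟨N₀⁻¹ * v * N₀, by group⟩
    show _ ↔ m * (w : GL D.Idx K) * m⁻¹ ∈ _
    rw [hmV, ← hU, ← heq, Subgroup.mem_map_equiv, MulAut.conj_symm_apply, map_mul, map_mul, map_inv]
    rfl
  have hconj : ∀ g : ↥τ.fixed, (θ.trans (MulAut.conj (B₀⁻¹ * y))) g = B₀⁻¹ * θ₁ g * B₀ := fun g => by
    simp only [hθ₁, MulEquiv.trans_apply, MulAut.conj_apply, mul_inv_rev, inv_inv]
    group
  refine ⟨B₀⁻¹ * y, fun g => ?_, fun g => ?_⟩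
  · rw [hconj, ← hU g]
    refine ⟨fun h => ?_, fun h => ?_⟩
    · simpa [hB₀, mul_assoc] using C.conj_borel_pos hb h
    · simpa [hB₀, mul_assoc] using C.conj_borel_pos (inv_mem hb) h
  · rw [hconj]; exact hV g

/-- The normaliser of the fixed points in `U` is `B`. -/
theorem mem_borel_of_normalizes {g : GL D.Idx K} (hg : g ∈ τ.fixed)
    (h : ∀ x ∈ D.posUnipotent K, x ∈ τ.fixed → g * x * g⁻¹ ∈ D.posUnipotent K) :
    g ∈ D.borelSubgroup K := by
  obtain ⟨b, hb, hbf, n, hn, hnf, u, hu, huf, rfl⟩ := τ.fixed_bnu hg fun n hn hc => by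
    obtain ⟨m, -, h1, h2, h3⟩ := O.exists_rep (M := ⊤) (fun _ _ => trivial) n hn hc
    exact ⟨m, h1, h2, h3⟩
  have huU : u ∈ D.posUnipotent K := by
    rw [posUnipotent_eq]; exact grp_mem_mono hu fun r hr => hr.1
  have hinv : C.inv n = ∅ := by
    refine Set.eq_empty_of_forall_notMem fun r ⟨hr, hneg⟩ => ?_
    obtain ⟨t, ht, ht0⟩ := O.orbEl_one_valid hr
    have hxU : τ.orbEl dd r t ∈ D.posUnipotent K := by
      rw [posUnipotent_eq]; exact grp_mem_mono (O.orbEl_mem_pos hr t) (O.orbit_pos hr)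
    have h1 := h _ (mul_mem (mul_mem (inv_mem huU) hxU) huU)
      (mul_mem (mul_mem (inv_mem huf) (O.orbEl_fixed hr.1 ht)) huf)
    rw [show b * n * u * (u⁻¹ * τ.orbEl dd r t * u) * (b * n * u)⁻¹ =
        b * (n * τ.orbEl dd r t * n⁻¹) * b⁻¹ by group] at h1
    have h2 := C.conj_borel_pos (inv_mem hb) h1
    rw [show b⁻¹ * (b * (n * τ.orbEl dd r t * n⁻¹) * b⁻¹) * b⁻¹⁻¹ = n * τ.orbEl dd r t * n⁻¹ by group] at h2
    have h3 : n * τ.orbEl dd r t * n⁻¹ ∈ D.negUnipotent K := by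
      rw [negUnipotent_eq]
      refine grp_mem_mono (O.conj_orbit hn hnf hr.1 (O.orbEl_mem_pos hr t)) ?_
      rintro _ ⟨i, -, rfl⟩
      induction i with
      | zero => exact hneg
      | succ i ih =>
        rw [Function.iterate_succ_apply']
        exact (τ.ρ_neg_iff (τ.ρ_iter_lt (C.sg_lt hn hr.1) i)).2 ih
    have h4 : n * τ.orbEl dd r t * n⁻¹ ∈ D.borelSubgroup K ⊓ D.negUnipotent K :=
      Subgroup.mem_inf.2 ⟨Subgroup.mem_sup_left h2, h3⟩
    rw [C.borel_inf_neg, Subgroup.mem_bot, conj_eq_one_iff] at h4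
    exact O.orbEl_ne_one hr ht0 h4
  have hd : n ∈ D.diagonalSubgroup K := by
    rw [← C.cls_toN_eq_one hn]
    exact BN.eq_one_of_len_eq_zero _ (by rw [C.len_eq hn, hinv, Set.ncard_empty])
  exact mul_mem (mul_mem hb (Subgroup.mem_sup_right hd)) (Subgroup.mem_sup_left huU)

theorem sends_borel {θ : ↥τ.fixed ≃* ↥τ.fixed} (hU : Sends θ (D.posUnipotent K) (D.posUnipotent K)) :
    Sends θ (D.borelSubgroup K) (D.borelSubgroup K) := by
  have key : ∀ (η : ↥τ.fixed ≃* ↥τ.fixed), Sends η (D.posUnipotent K) (D.posUnipotent K) →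
      ∀ g : ↥τ.fixed, (g : GL D.Idx K) ∈ D.borelSubgroup K → (η g : GL D.Idx K) ∈ D.borelSubgroup K := by
    intro η hη g hg
    refine O.mem_borel_of_normalizes (η g).2 fun x hx hxf => ?_
    obtain ⟨x', hx'⟩ := η.surjective ⟨x, hxf⟩
    have hxU : (x' : GL D.Idx K) ∈ D.posUnipotent K := by rw [← hη, hx']; exact hx
    have h1 := (hη (g * x' * g⁻¹)).2 (C.conj_borel_pos hg hxU)
    rwa [map_mul, map_mul, map_inv, hx'] at h1
  refine fun g => ⟨fun h => ?_, key θ hU g⟩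
  simpa using key θ.symm hU.symm _ h

/-- The elements of `H`. -/
theorem sends_diag {θ : ↥τ.fixed ≃* ↥τ.fixed} (hU : Sends θ (D.posUnipotent K) (D.posUnipotent K))
    (hV : Sends θ (D.negUnipotent K) (D.negUnipotent K)) :
    Sends θ (D.diagonalSubgroup K) (D.diagonalSubgroup K) := by
  obtain ⟨m, hm, hmf, -, hmV, hmU⟩ := O.exists_swap
  set N₀ : ↥τ.fixed := ⟨m, hmf⟩
  set η : ↥τ.fixed ≃* ↥τ.fixed :=
    ((MulAut.conj N₀).trans θ).trans (MulAut.conj N₀).symm with hη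
  have hηU : Sends η (D.posUnipotent K) (D.posUnipotent K) := fun g => by
    rw [← hmV (g : GL D.Idx K), show m * (g : GL D.Idx K) * m⁻¹ = ((MulAut.conj N₀ g : ↥τ.fixed) : GL D.Idx K) from rfl,
      ← hV, ← hmV]
    simp [hη, N₀, mul_assoc]
  have key : ∀ g : ↥τ.fixed, (g : GL D.Idx K) ∈ D.diagonalSubgroup K ↔
      (g : GL D.Idx K) ∈ D.borelSubgroup K ∧
        m⁻¹ * (g : GL D.Idx K) * m ∈ D.borelSubgroup K := by
    intro g
    refine ⟨fun h => ⟨Subgroup.mem_sup_right h, Subgroup.mem_sup_right ?_⟩, fun ⟨h1, h2⟩ => ?_⟩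
    · simpa using C.mono_conj_diag (inv_mem hm) _ h
    · obtain ⟨u, hu, d, hd, e⟩ := C.mem_borel.1 h2
      rw [← C.borel_inf_opp]
      refine Subgroup.mem_inf.2 ⟨h1, ?_⟩
      rw [show (g : GL D.Idx K) = (m * u * m⁻¹) * (m * d * m⁻¹) by
        rw [show (g : GL D.Idx K) = m * (m⁻¹ * g * m) * m⁻¹ by group, e]; group]
      exact mul_mem (Subgroup.mem_sup_left ((hmV u).2 hu)) (Subgroup.mem_sup_right (C.mono_conj_diag hm d hd))
  intro g
  rw [key, key, O.sends_borel hU g, and_congr_right_iff]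
  intro _
  rw [show m⁻¹ * (θ g : GL D.Idx K) * m = ((η (N₀⁻¹ * g * N₀) : ↥τ.fixed) : GL D.Idx K) by
    simp [hη, N₀, mul_assoc], O.sends_borel hηU]
  rfl

/-- The fundamental parabolic subgroup of a node. -/
noncomputable def minParT (j : ℕ) (_hj : j < D.rank) : Subgroup ↥τ.fixed :=
  (O.bnPairT O.gens_fixed inf_le_right).parabolic {⟨τ.wN dd j, O.wN_fixed _hj⟩}

theorem mem_minParT {j : ℕ} (hj : j < D.rank) {g : ↥τ.fixed} (hg : g ∈ O.minParT j hj) :
    (g : GL D.Idx K) ∈ D.borelSubgroup K ∨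
      ∃ b ∈ D.borelSubgroup K, b ∈ τ.fixed ∧ ∃ t, τ.Valid dd (D.simple j) t ∧
        (g : GL D.Idx K) = b * τ.wN dd j * τ.orbEl dd (D.simple j) t := by
  set P := O.bnPairT O.gens_fixed inf_le_right with hP
  have hs0 : (⟨τ.wN dd j, O.wN_fixed hj⟩ : ↥τ.fixed) ∈ P.S := ⟨j, hj, rfl⟩
  set s₀ : P.S := ⟨_, hs0⟩ with hs₀
  obtain ⟨L, hL, hc⟩ := BN.exists_word_of_mem_parabolic P (Set.singleton_subset_iff.2 hs0) hg
  have hw : ∀ L : List P.S, (∀ s ∈ L, (s : ↥τ.fixed) ∈ ({⟨τ.wN dd j, O.wN_fixed hj⟩} : Set _)) →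
      BN.word P L = 1 ∨ BN.word P L = BN.si P s₀ := by
    intro L hL
    induction L with
    | nil => exact Or.inl (BN.word_nil _)
    | cons s L ih =>
      obtain rfl : s = s₀ := Subtype.ext (hL s List.mem_cons_self)
      rcases ih fun s hs => hL s (List.mem_cons_of_mem _ hs) with h | h
      · exact Or.inr (by rw [BN.word_cons, h, mul_one])
      · exact Or.inl (by rw [BN.word_cons, h, BN.si_mul_self])
  rcases hw L hL with h | h
  · rw [h] at hc
    exact Or.inl (Subgroup.mem_inf.1 ((BN.mem_cell_one _).1 hc)).1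
  · rw [h] at hc
    obtain ⟨b, hb, b', hb', e⟩ := (BN.mem_cell_cls P).1 hc
    have e' : (g : GL D.Idx K) = (b : GL D.Idx K) * τ.wN dd j * (b' : GL D.Idx K) := congrArg Subtype.val e
    obtain ⟨u, hu, huf, d, hd, hdf, eb⟩ := τ.fixed_borel (Subgroup.mem_inf.1 hb').1 b'.2
    obtain ⟨y, hy, hyf, t, ht, eu⟩ := O.exists_split_simple hj (mul_mem (mul_mem
      (Subgroup.mem_sup_right (inv_mem hd) : d⁻¹ ∈ D.borelSubgroup K) (Subgroup.mem_sup_left hu))
      (Subgroup.mem_sup_right hd) |> fun h => show d⁻¹ * u * d ∈ D.posUnipotent K from by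
        simpa using C.conj_borel_pos (Subgroup.mem_sup_right (inv_mem hd) : d⁻¹ ∈ D.borelSubgroup K) hu)
      (mul_mem (mul_mem (inv_mem hdf) huf) hdf)
    refine Or.inr ⟨(b : GL D.Idx K) * (τ.wN dd j * d * (τ.wN dd j)⁻¹) * (τ.wN dd j * y * (τ.wN dd j)⁻¹),
      mul_mem (mul_mem (Subgroup.mem_inf.1 hb).1
        (Subgroup.mem_sup_right (C.mono_conj_diag (O.wN_mem_monomial hj) _ hd))) ?_,
      mul_mem (mul_mem b.2 (mul_mem (mul_mem (O.wN_fixed hj) hdf) (inv_mem (O.wN_fixed hj))))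
        (mul_mem (mul_mem (O.wN_fixed hj) hyf) (inv_mem (O.wN_fixed hj))), t, ht, ?_⟩
    · refine Subgroup.mem_sup_left ?_
      rw [posUnipotent_eq]
      exact C.conj_mem_of_image (O.wN_mem_monomial hj) (fun r hr => hr.1.1)
        (fun r hr => (O.sg_wN_pos hj hr.1 hr.2).1) hy
    · rw [e', show (b' : GL D.Idx K) = u * d from eb]
      calc (b : GL D.Idx K) * τ.wN dd j * (u * d)
          = (b : GL D.Idx K) * τ.wN dd j * (d * (d⁻¹ * u * d)) := by group
        _ = _ := by rw [eu]; group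

theorem not_borel_of_wN {j : ℕ} (hj : j < D.rank) {b : GL D.Idx K} (hb : b ∈ D.borelSubgroup K) :
    b * τ.wN dd j ∉ D.negUnipotent K := by
  intro hV
  obtain ⟨n₀, hn₀, hlong, hmap⟩ := C.exists_pos_to_neg K
  rw [← hmap] at hV
  obtain ⟨u, hu, e'⟩ := hV
  change n₀ * u * n₀⁻¹ = _ at e'
  have h1 : (1 : GL D.Idx K) * n₀ * u = b * (τ.wN dd j * n₀) * 1 := by
    rw [one_mul, mul_one, ← mul_assoc, ← e']; group
  have hu' : u ∈ grp D K (C.inv n₀) := by
    rw [SetLike.mem_coe, posUnipotent_eq] at hu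
    exact grp_mem_mono hu fun r hr => ⟨hr, hlong r hr⟩
  obtain ⟨hd, -⟩ := C.bnu_unique (one_mem _) hb hn₀ (mul_mem (O.wN_mem_monomial hj) hn₀) hu' (one_mem _) h1
  have h4 : τ.wN dd j = n₀ * (n₀⁻¹ * (τ.wN dd j * n₀)) * n₀⁻¹ := by group
  have hp := C.root.pos_simple hj
  have h5 : D.IsNegRoot (C.sg (τ.wN dd j) (D.simple j)) :=
    (O.refl_neg_iff hj hp).2 ⟨0, O.len_pos _, rfl⟩
  rw [h4, C.sg_diag (C.mono_conj_diag hn₀ _ hd) hp.1] at h5
  exact C.not_pos_and_neg hp h5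

theorem negX_mem_minParT {j : ℕ} (hj : j < D.rank) {g : ↥τ.fixed} (hg : (g : GL D.Idx K) ∈ O.negX j) :
    g ∈ O.minParT j hj := by
  have hp := C.root.pos_simple hj
  have hm := O.wN_mem_monomial (K := K) hj
  have hl := C.sg_lt hm hp.1
  have hsneg : C.sg (τ.wN dd j) (D.neg (D.simple j)) ∈ O.orbit (D.simple j) := by
    rw [C.sg_neg hm hp.1]
    exact O.neg_refl_mem_orbit hj ⟨0, O.len_pos _, rfl⟩
  have h1 : τ.wN dd j * (g : GL D.Idx K) * (τ.wN dd j)⁻¹ ∈ O.posX j := by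
    refine C.conj_mem_of_image hm (O.orbit_lt (C.root.neg_lt _ hp.1)) ?_ hg
    intro r hr
    obtain ⟨s, hs, rfl⟩ := (O.orbit_neg hp.1).1 hr
    rw [C.sg_neg hm (O.orbit_pos hp s hs).1]
    exact O.neg_refl_mem_orbit hj hs
  set s : ↥τ.fixed := ⟨τ.wN dd j, O.wN_fixed hj⟩
  have h2 : s * g * s⁻¹ ∈ O.minParT j hj :=
    BN.le_parabolic _ _ (Subgroup.mem_inf.2
      ⟨Subgroup.mem_sup_left (O.posX_le_pos hj h1), (s * g * s⁻¹).2⟩)
  have hs : s ∈ O.minParT j hj := BN.subset_parabolic _ _ rfl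
  have := mul_mem (mul_mem (inv_mem hs) h2) hs
  simpa [mul_assoc] using this

/-- `V ∩ P_j = X_{-j}`. -/
theorem minParT_inf_neg [Finite K] {j : ℕ} (hj : j < D.rank) (g : ↥τ.fixed) :
    g ∈ O.minParT j hj ∧ (g : GL D.Idx K) ∈ D.negUnipotent K ↔ (g : GL D.Idx K) ∈ O.negX j := by
  refine ⟨?_, fun h => ⟨O.negX_mem_minParT hj h, O.negX_le_neg hj h⟩⟩
  -- the orbit parameter of the Bruhat form is injective on `V ∩ P_j`
  let S : Type _ := {g : ↥τ.fixed // g ∈ O.minParT j hj ∧ (g : GL D.Idx K) ∈ D.negUnipotent K ∧ g ≠ 1}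
  let V : Type _ := {t : K // τ.Valid dd (D.simple j) t ∧ t ≠ 0}
  have hex : ∀ g : S, ∃ t : V, ∃ b ∈ D.borelSubgroup K,
      (g.1 : GL D.Idx K) = b * τ.wN dd j * τ.orbEl dd (D.simple j) t.1 := by
    rintro ⟨g, hgP, hgV, hg1⟩
    rcases O.mem_minParT hj hgP with hB | ⟨b, hb, -, t, ht, e⟩
    · exfalso
      have h1 : (g : GL D.Idx K) ∈ D.borelSubgroup K ⊓ D.negUnipotent K := Subgroup.mem_inf.2 ⟨hB, hgV⟩
      rw [C.borel_inf_neg, Subgroup.mem_bot] at h1
      exact hg1 (Subtype.ext h1)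
    · refine ⟨⟨t, ht, fun h0 => ?_⟩, b, hb, e⟩
      subst h0
      rw [O.orbEl_zero (C.root.simple_lt j hj), mul_one] at e
      exact O.not_borel_of_wN hj hb (e ▸ hgV)
  choose φ b hb hφ using hex
  have hinj : Function.Injective φ := fun x y h => by
    have h1 : ((x.1 * y.1⁻¹ : ↥τ.fixed) : GL D.Idx K) ∈ D.borelSubgroup K ⊓ D.negUnipotent K := by
      refine Subgroup.mem_inf.2 ⟨?_, mul_mem x.2.2.1 (inv_mem y.2.2.1)⟩
      rw [Subgroup.coe_mul, Subgroup.coe_inv, hφ x, hφ y, h, show ∀ a c s t : GL D.Idx K,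
        a * s * t * (c * s * t)⁻¹ = a * c⁻¹ from fun a c s t => by group]
      exact mul_mem (hb x) (inv_mem (hb y))
    rw [C.borel_inf_neg, Subgroup.mem_bot, OneMemClass.coe_eq_one, mul_inv_eq_one] at h1
    exact Subtype.ext h1
  -- `X_{-j}` already exhausts the parameters
  let ψ : V → S := fun t => ⟨⟨τ.orbEl dd (D.neg (D.simple j)) (-t.1),
      O.orbEl_fixed (C.root.neg_lt _ (C.root.simple_lt j hj)) (O.valid_neg_of (C.root.simple_lt j hj) t.2.1)⟩,
    O.negX_mem_minParT hj (O.orbEl_mem_grp (C.root.neg_lt _ (C.root.simple_lt j hj)) _),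
    O.negX_le_neg hj (O.orbEl_mem_grp (C.root.neg_lt _ (C.root.simple_lt j hj)) _), fun h => by
      obtain ⟨x, hxU, -, -, h', hh', -, e⟩ := O.orbEl_neg_eq O.gens_fixed hj
        (O.valid_neg_of (C.root.simple_lt j hj) t.2.1) (neg_ne_zero.2 t.2.2)
      have h1 : τ.orbEl dd (D.neg (D.simple j)) (-t.1) = 1 := congrArg Subtype.val h
      rw [h1] at e
      have hp := C.root.pos_simple hj
      have h2 : τ.wN dd j = h'⁻¹ * (x * x)⁻¹ := by
        rw [eq_inv_mul_iff_mul_eq, eq_comm, inv_eq_iff_mul_eq_one]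
        calc x * x * (h' * τ.wN dd j) = x * (x * (h' * τ.wN dd j) * x) * x⁻¹ := by group
          _ = 1 := by rw [← e]; group
      have hxB : x ∈ D.borelSubgroup K := Subgroup.mem_sup_left hxU
      have h3 : τ.wN dd j ∈ D.borelSubgroup K ⊓ D.monomialSubgroup K := Subgroup.mem_inf.2
        ⟨h2 ▸ mul_mem (inv_mem (Subgroup.mem_sup_right hh')) (inv_mem (mul_mem hxB hxB)),
          O.wN_mem_monomial hj⟩
      rw [C.borel_inf_monomial] at h3
      have h5 := (O.refl_neg_iff (K := K) hj hp).2 ⟨0, O.len_pos _, rfl⟩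
      rw [C.sg_diag h3 hp.1] at h5
      exact C.not_pos_and_neg hp h5⟩
  have hψ : Function.Injective ψ := fun s t h => by
    have h1 : τ.orbEl dd (D.neg (D.simple j)) (-s.1) = τ.orbEl dd (D.neg (D.simple j)) (-t.1) :=
      congrArg (fun x : S => (x.1 : GL D.Idx K)) h
    obtain ⟨c, hc, hcs⟩ := O.transport (O.wN_fixed hj) (O.wN_mem_monomial hj)
      (C.root.neg_lt _ (C.root.simple_lt j hj))
    have hp := C.root.pos_simple hj
    have hpos : D.IsPosRoot (C.sg (τ.wN dd j) (D.neg (D.simple j))) := by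
      rw [C.sg_neg (O.wN_mem_monomial hj) hp.1]
      exact O.orbit_pos hp _ (O.neg_refl_mem_orbit hj ⟨0, O.len_pos _, rfl⟩)
    have h2 := O.orbEl_inj hpos (((hcs _).2.trans (by rw [h1])).trans (hcs (-t.1)).2.symm)
    exact Subtype.ext (neg_inj.1 (mul_left_cancel₀ hc h2))
  have hsurj : Function.Surjective ψ := by
    haveI : Finite S := Finite.of_injective φ hinj
    have hcard : Nat.card S = Nat.card V :=
      le_antisymm (Nat.card_le_card_of_injective φ hinj) (Nat.card_le_card_of_injective ψ hψ)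
    exact ((Nat.bijective_iff_injective_and_card ψ).2 ⟨hψ, hcard.symm⟩).2
  rintro ⟨hP, hV⟩
  by_cases h1 : g = 1
  · rw [h1]; exact one_mem _
  obtain ⟨t, ht⟩ := hsurj ⟨g, hP, hV, h1⟩
  rw [show g = (ψ t).1 from (congrArg Subtype.val ht).symm]
  exact O.orbEl_mem_grp (C.root.neg_lt _ (C.root.simple_lt j hj)) _

theorem orbit_simple_eq {j : ℕ} (hj : j < D.rank) (i : ℕ) :
    O.orbit (D.simple (τ.p^[i] j)) = O.orbit (D.simple j) := by
  have hp := C.root.simple_lt j hj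
  rw [← τ.ρ_iter_simple hj i]
  have key : ∀ r < D.nroots, O.orbit (τ.ρ r) = O.orbit r := by
    intro r hr
    have hlen : τ.len dd (τ.ρ r) = τ.len dd r := by
      unfold Twist.len
      by_cases h : τ.ρ r = r
      · simp [h]
      · rw [if_neg h, if_neg fun h' => h (τ.ρ_inj _ (τ.ρ_lt r hr) _ hr h')]
    refine Set.eq_of_subset_of_ncard_le (fun s hs => ?_) ?_ ?_
    · obtain ⟨k, -, rfl⟩ := hs
      exact O.orbit_iter hr (O.orbit_ρ hr ⟨0, O.len_pos _, rfl⟩) k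
    · rw [O.ncard_orbit hr, O.ncard_orbit (τ.ρ_lt r hr), hlen]
    · exact (Set.finite_lt_nat D.nroots).subset fun s hs => O.orbit_lt hr s hs
  induction i with
  | zero => rfl
  | succ i ih => rw [Function.iterate_succ_apply', key _ (τ.ρ_iter_lt hp i), ih]

theorem exists_negX_map [Finite K] {θ : ↥τ.fixed ≃* ↥τ.fixed}
    (hU : Sends θ (D.posUnipotent K) (D.posUnipotent K))
    (hV : Sends θ (D.negUnipotent K) (D.negUnipotent K)) {j : ℕ} (hj : j < D.rank) :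
    ∃ k < D.rank, Sends θ (O.negX j) (O.negX k) := by
  set P := O.bnPairT O.gens_fixed inf_le_right with hP
  have key : ∀ (η : ↥τ.fixed ≃* ↥τ.fixed), Sends η (D.borelSubgroup K) (D.borelSubgroup K) →
      ∀ (i : ℕ) (hi : i < D.rank), ∃ k, ∃ hk : k < D.rank,
        O.minParT k hk ≤ (O.minParT i hi).map η.toMonoidHom := by
    intro η hη i hi
    set M := (O.minParT i hi).map η.toMonoidHom with hM
    have hBM : P.B ≤ M := fun g hg => ⟨η.symm g, BN.le_parabolic _ _ (Subgroup.mem_inf.2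
      ⟨(hη.symm g).2 (Subgroup.mem_inf.1 hg).1, (η.symm g).2⟩), by simp⟩
    have hne : ∃ s : P.S, (s : ↥τ.fixed) ∈ M := by
      by_contra hno
      push Not at hno
      have hle : M ≤ P.B := by
        rw [BN.overgroup_eq P hBM]
        refine sup_le le_rfl ((Subgroup.closure_le _).2 fun x hx => ?_)
        exact absurd hx.2 (hno ⟨x, hx.1⟩)
      have h := hle ⟨⟨τ.wN dd i, O.wN_fixed hi⟩, BN.subset_parabolic _ _ rfl, rfl⟩
      exact BN.not_mem_B P ⟨⟨τ.wN dd i, O.wN_fixed hi⟩, i, hi, rfl⟩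
        (Subgroup.mem_inf.2 ⟨(hη _).1 (Subgroup.mem_inf.1 h).1, O.wN_fixed hi⟩)
    obtain ⟨⟨s, k, hk, hsk⟩, hs⟩ := hne
    refine ⟨k, hk, sup_le hBM ((Subgroup.closure_le _).2 (Set.singleton_subset_iff.2 ?_))⟩
    rw [show (⟨τ.wN dd k, O.wN_fixed hk⟩ : ↥τ.fixed) = s from Subtype.ext hsk.symm]
    exact hs
  have hB := O.sends_borel hU
  obtain ⟨k, hk, hle⟩ := key θ hB j hj
  obtain ⟨i, hi, hle'⟩ := key θ.symm hB.symm k hk
  refine ⟨k, hk, ?_⟩
  have hij : O.minParT i hi ≤ O.minParT j hj := fun g hg => by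
    obtain ⟨y, hy, rfl⟩ := hle' hg
    obtain ⟨z, hz, e⟩ := hle hy
    rw [← e]
    simpa using hz
  -- the node of a parabolic inside another is in its orbit
  have hw : τ.wN dd i = τ.wN dd j := by
    have hsub := (BN.parabolic_le_iff P
      (Set.singleton_subset_iff.2 (show (⟨τ.wN dd i, O.wN_fixed hi⟩ : ↥τ.fixed) ∈ P.S from ⟨i, hi, rfl⟩))
      (Set.singleton_subset_iff.2 (show (⟨τ.wN dd j, O.wN_fixed hj⟩ : ↥τ.fixed) ∈ P.S from ⟨j, hj, rfl⟩))).1 hij
    exact congrArg Subtype.val (Set.singleton_subset_singleton.1 hsub)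
  have heq : O.minParT i hi = O.minParT j hj := by
    unfold minParT
    rw [show (⟨τ.wN dd i, O.wN_fixed hi⟩ : ↥τ.fixed) = ⟨τ.wN dd j, O.wN_fixed hj⟩ from Subtype.ext hw]
  intro g
  rw [← O.minParT_inf_neg hk, ← O.minParT_inf_neg hj, hV g, and_congr_left_iff]
  intro _
  refine ⟨fun h => ?_, fun h => ?_⟩
  · obtain ⟨z, hz, e⟩ := hle h
    obtain rfl := θ.injective e
    exact hz
  · rw [← heq] at h
    obtain ⟨z, hz, e⟩ := hle' h
    rw [← e]
    simpa using hz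

theorem sg_longest_simple' {m : GL D.Idx K} (hm : m ∈ D.monomialSubgroup K)
    (h : ∀ r, D.IsPosRoot r → D.IsNegRoot (C.sg m r)) {j : ℕ} (hj : j < D.rank) :
    ∃ k < D.rank, C.sg m (D.neg (D.simple k)) = D.simple j := by
  choose e he he' using fun k (hk : k < D.rank) => C.sg_longest_simple hm h hk
  have hinj : Function.Injective fun k : Fin D.rank => (⟨e k k.2, he k k.2⟩ : Fin D.rank) := by
    intro a b hab
    have hab : e a a.2 = e b b.2 := congrArg Fin.val hab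
    have h1 := he' a a.2
    rw [hab, ← he' b b.2] at h1
    have h2 := congrArg (C.sg m⁻¹) h1
    rw [C.sg_inv_sg hm (C.root.neg_lt _ (C.root.simple_lt a a.2)),
      C.sg_inv_sg hm (C.root.neg_lt _ (C.root.simple_lt b b.2))] at h2
    exact Fin.ext (C.root.simple_inj a.2 b.2
      (C.root.neg_inj (C.root.simple_lt a a.2) (C.root.simple_lt b b.2) h2))
  obtain ⟨k, hk⟩ := (Finite.injective_iff_bijective.1 hinj).2 ⟨j, hj⟩
  exact ⟨k, k.2, (he' k k.2).trans (congrArg D.simple (congrArg Fin.val hk))⟩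

/-- An automorphism fixing `U` and `V` permutes the orbit groups of fundamental roots. -/
theorem exists_posX_map [Finite K] {θ : ↥τ.fixed ≃* ↥τ.fixed}
    (hU : Sends θ (D.posUnipotent K) (D.posUnipotent K))
    (hV : Sends θ (D.negUnipotent K) (D.negUnipotent K)) {j : ℕ} (hj : j < D.rank) :
    ∃ k < D.rank, Sends θ (O.posX j) (O.posX k) := by
  obtain ⟨m, hm, hmf, hlong, hmV, hmU⟩ := O.exists_swap
  set N₀ : ↥τ.fixed := ⟨m, hmf⟩
  set η : ↥τ.fixed ≃* ↥τ.fixed := ((MulAut.conj N₀).trans θ).trans (MulAut.conj N₀).symm with hη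
  have hηU : Sends η (D.posUnipotent K) (D.posUnipotent K) := fun g => by
    rw [← hmV (g : GL D.Idx K), show m * (g : GL D.Idx K) * m⁻¹ = ((MulAut.conj N₀ g : ↥τ.fixed) : GL D.Idx K) from rfl,
      ← hV, ← hmV]
    simp [hη, N₀, mul_assoc]
  have hηV : Sends η (D.negUnipotent K) (D.negUnipotent K) := fun g => by
    rw [← hmU (g : GL D.Idx K), show m * (g : GL D.Idx K) * m⁻¹ = ((MulAut.conj N₀ g : ↥τ.fixed) : GL D.Idx K) from rfl,
      ← hU, ← hmU]
    simp [hη, N₀, mul_assoc]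
  obtain ⟨i, hi, hij⟩ := O.sg_longest_simple' hm hlong hj
  obtain ⟨l, hl, hil⟩ := O.exists_negX_map hηU hηV hi
  obtain ⟨k, hk, hlk⟩ := C.sg_longest_simple hm hlong hl
  refine ⟨k, hk, fun g => ?_⟩
  have h1 : ∀ (a : ℕ), a < D.rank → ∀ v : GL D.Idx K,
      v ∈ grp D K (O.orbit (C.sg m (D.neg (D.simple a)))) ↔ m⁻¹ * v * m ∈ O.negX a := by
    intro a ha v
    conv_lhs => rw [show v = m * (m⁻¹ * v * m) * m⁻¹ by group]
    exact O.conj_orbit_iff hm hmf (C.root.neg_lt _ (C.root.simple_lt a ha))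
  show (θ g : GL D.Idx K) ∈ grp D K (O.orbit (D.simple k)) ↔
    (g : GL D.Idx K) ∈ grp D K (O.orbit (D.simple j))
  rw [← hij, ← hlk, h1 i hi, h1 l hl]
  have := hil (N₀⁻¹ * g * N₀)
  rw [show ((N₀⁻¹ * g * N₀ : ↥τ.fixed) : GL D.Idx K) = m⁻¹ * (g : GL D.Idx K) * m from rfl] at this
  rw [← this, show η (N₀⁻¹ * g * N₀) = N₀⁻¹ * θ g * N₀ by simp [hη, mul_assoc]]
  rfl

end Orth

end Cfsg.Agent.Lib.Chev
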