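import Cfsg.Agent.Lib.Chev.TwistAutShape
import Cfsg.Agent.Lib.Chev.OutThm

/-!
The outer automorphism group of a twisted group with orthogonal orbits, by counting.
-/

set_option autoImplicit false
set_option linter.unusedSectionVars false

namespace Cfsg.Agent.Lib.Chev

open Cfsg.Lie Cfsg.Agent.Lib

namespace Twist

variable {D : ChevalleyDatum} {T : Fast} {C : Checked D T} {K : Type*} [Field K] (τ : Twist C K)

/-- The automorphisms of the fixed points fixing `U` and `V`. -/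
def stabT : Subgroup (MulAut ↥τ.fixed) where
  carrier := {θ | Sends θ (D.posUnipotent K) (D.posUnipotent K) ∧
    Sends θ (D.negUnipotent K) (D.negUnipotent K)}
  one_mem' := ⟨fun _ => Iff.rfl, fun _ => Iff.rfl⟩
  mul_mem' := fun {a b} ha hb => ⟨fun g => (ha.1 (b g)).trans (hb.1 g), fun g => (ha.2 (b g)).trans (hb.2 g)⟩
  inv_mem' := fun {a} ha => ⟨ha.1.symm, ha.2.symm⟩

/-- The image in `Out`. -/
def toOutT : ↥τ.stabT →* Cfsg.Out ↥τ.fixed :=
  (QuotientGroup.mk' (Cfsg.Inn ↥τ.fixed)).comp τ.stabT.subtype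

/-- The scalars of the diagonal automorphisms commuting with the twist. -/
abbrev FixVec (φ : K ≃+* K) : Type _ :=
  {c : Fin D.rank → Kˣ // ∀ j : Fin D.rank, φ (c j : K) = (c ⟨τ.p j, τ.p_lt j j.2⟩ : K)}

end Twist

namespace Orth

variable {D : ChevalleyDatum} {T : Fast} {C : Checked D T} {K : Type*} [Field K] {τ : Twist C K}
  {dd : ℕ} (O : Orth τ dd) {φ : K ≃+* K} (hφ : ∀ r, τ.f r = φ)
include O hφ

section frame

variable {θ : ↥τ.fixed ≃* ↥τ.fixed} {f : ℕ → K → K} (H : O.FrameT θ f)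
include H

/-- `θ` on `H_J(t)`. -/
theorem frame_hg {j : ℕ} (hj : j < D.rank) {t : K} (ht : τ.Valid dd (D.simple j) t) (ht0 : t ≠ 0) :
    (θ ⟨_, O.hg_fixed hφ hj ht⟩ : GL D.Idx K) =
      O.orbMap j (C.hg (D.simple j) (f j t * (f j 1)⁻¹)) := by
  have h1 : τ.Valid dd (D.simple j) (-1 : K) := O.fix_neg hφ hj (O.valid_one hj)
  have hc : f j 1 ≠ 0 := O.f_ne hφ H hj (O.valid_one hj) one_ne_zero
  have e : (⟨_, O.hg_fixed hφ hj ht⟩ : ↥τ.fixed) =
      ⟨_, O.nWord_fixed hφ hj ht⟩ * ⟨_, O.nWord_fixed hφ hj h1⟩ := Subtype.ext (by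
    rw [Subgroup.coe_mul]
    show O.orbMap j (C.hg (D.simple j) t) = _
    rw [C.hg_eq_nWord, O.orbMap_mul hj (O.nWord_mem_rankOne j t) (O.nWord_mem_rankOne j _)])
  rw [e, map_mul, Subgroup.coe_mul, O.frame_nWord hφ H hj ht ht0 rfl,
    O.frame_nWord hφ H hj h1 (by simp) rfl, ← O.orbMap_mul hj (O.nWord_mem_rankOne j _)
    (O.nWord_mem_rankOne j _), O.f_neg hφ H hj (O.valid_one hj),
    ← C.nWord_mul_nWord (C.root.simple_lt j hj) (t := f j t * (f j 1)⁻¹) (η := f j 1)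
      (mul_ne_zero (O.f_ne hφ H hj ht ht0) (inv_ne_zero hc)) hc, mul_comm (f j 1),
    inv_mul_cancel_right₀ hc]

theorem frame_rel {j k : ℕ} (hj : j < D.rank) (hk : k < D.rank) {t : K}
    (ht : τ.Valid dd (D.simple j) t) (ht0 : t ≠ 0) {u : K} (hu : τ.Valid dd (D.simple k) u) :
    f k (O.chi hφ j k t * u) = O.chi hφ j k (f j t * (f j 1)⁻¹) * f k u := by
  have hv := O.chi_valid hφ hj hk ht ht0 hu
  have e1 : (⟨_, O.hg_fixed hφ hj ht⟩ : ↥τ.fixed) * O.xT k u * (⟨_, O.hg_fixed hφ hj ht⟩ : ↥τ.fixed)⁻¹ =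
      O.xT k (O.chi hφ j k t * u) := Subtype.ext (by
    rw [Subgroup.coe_mul, Subgroup.coe_mul, Subgroup.coe_inv, O.coe_xT hk hu, O.coe_xT hk hv]
    exact O.hg_conj_orbEl hφ hj hk ht ht0 u)
  have e2 := congrArg (fun g => (θ g : GL D.Idx K)) e1
  simp only [map_mul, map_inv, Subgroup.coe_mul, Subgroup.coe_inv, H.pos k hk _ hu, H.pos k hk _ hv,
    O.frame_hg hφ H hj ht ht0, O.coe_xT hk (H.valid k hk _ hu), O.coe_xT hk (H.valid k hk _ hv)] at e2
  rw [O.hg_conj_orbEl hφ hj hk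
    (O.fix_mul hφ hj (H.valid j hj _ ht) (O.fix_inv hφ hj (H.valid j hj _ (O.valid_one hj))))
    (mul_ne_zero (O.f_ne hφ H hj ht ht0) (inv_ne_zero (O.f_ne hφ H hj (O.valid_one hj) one_ne_zero)))] at e2
  exact (O.orbEl_inj (C.root.pos_simple hk) e2).symm

/-- On a node whose orbit group is parametrised by the whole field, a scalar times a field automorphism. -/
theorem lin_root [Finite K] {j : ℕ} (hj : j < D.rank) (hall : ∀ t : K, τ.Valid dd (D.simple j) t)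
    (hchi : ∀ t : K, O.chi hφ j j t = t ^ 2) :
    ∃ σ : K ≃+* K, ∀ t, f j t = f j 1 * σ t := by
  have hc : f j 1 ≠ 0 := O.f_ne hφ H hj (hall 1) one_ne_zero
  let τ' : K →+ K :=
    AddMonoidHom.mk' (fun t => f j t * (f j 1)⁻¹) fun a b => by
      rw [O.f_add hφ H hj (hall a) (hall b), add_mul]
  have hτ : ∀ t, τ' t = f j t * (f j 1)⁻¹ := fun t => rfl
  have hτ1 : τ' 1 = 1 := mul_inv_cancel₀ hc
  have hsq : ∀ t u, τ' (t ^ 2 * u) = τ' t ^ 2 * τ' u := by
    intro t u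
    by_cases ht : t = 0
    · subst ht; simp
    · rw [hτ, hτ, hτ, ← hchi, O.frame_rel hφ H hj hj (hall t) ht (hall u), hchi, mul_assoc]
  have hmul : ∀ a b, τ' (a * b) = τ' a * τ' b := by
    intro a b
    by_cases h2 : (2 : K) = 0
    · haveI : CharP K 2 := CharTwo.of_one_ne_zero_of_two_eq_zero one_ne_zero h2
      haveI : Fintype K := Fintype.ofFinite K
      obtain ⟨s, rfl⟩ : ∃ s, s ^ 2 = a := by
        obtain ⟨s, hs⟩ := (isSquare_iff_exists_sq a).1 (FiniteField.isSquare_of_char_two (ringChar.eq K 2) a)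
        exact ⟨s, hs.symm⟩
      have h := hsq s 1
      rw [mul_one, hτ1, mul_one] at h
      rw [hsq, h]
    · have h := hsq (a + 1) b
      rw [show (a + 1) ^ 2 * b = a ^ 2 * b + (a * b + a * b) + b by ring, map_add, map_add, map_add,
        map_add, hsq, hτ1] at h
      refine mul_left_cancel₀ h2 ?_
      linear_combination h
  refine ⟨RingEquiv.ofBijective
    ({ toFun := τ', map_one' := hτ1, map_mul' := hmul, map_zero' := map_zero _,
       map_add' := map_add _ } : K →+* K)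
    ((Finite.injective_iff_bijective).1 (RingHom.injective _)), fun t => ?_⟩
  show f j t = f j 1 * (f j t * (f j 1)⁻¹)
  rw [mul_comm (f j t), ← mul_assoc, mul_inv_cancel₀ hc, one_mul]

/-- The field automorphism passes to a neighbouring node. -/
theorem lin_step {j k : ℕ} (hj : j < D.rank) (hk : k < D.rank)
    (hchi : ∀ t : K, τ.Valid dd (D.simple j) t → O.chi hφ j k t = t⁻¹) {σ : K ≃+* K}
    (hlin : ∀ t, τ.Valid dd (D.simple k) t → f k t = f k 1 * σ t) :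
    ∀ t, τ.Valid dd (D.simple j) t → f j t = f j 1 * σ t := by
  intro t ht
  by_cases ht0 : t = 0
  · subst ht0; rw [O.f_zero hφ H hj, map_zero, mul_zero]
  have hcj := O.f_ne hφ H hj (O.valid_one hj) one_ne_zero
  have hck := O.f_ne hφ H hk (O.valid_one hk) one_ne_zero
  have h1 := O.chi_valid hφ hj hk ht ht0 (O.valid_one hk)
  have h2 := O.frame_rel hφ H hj hk ht ht0 (O.valid_one hk)
  rw [hlin _ h1, hchi t ht, hchi _ (O.fix_mul hφ hj (H.valid j hj _ ht)
    (O.fix_inv hφ hj (H.valid j hj _ (O.valid_one hj)))), mul_one, map_inv₀, mul_comm _ (f k 1)] at h2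
  have h3 := mul_left_cancel₀ hck h2
  rw [inv_inj] at h3
  rw [h3, mul_comm (f j t), ← mul_assoc, mul_inv_cancel₀ hcj, one_mul]

end frame

theorem len_p {j : ℕ} (hj : j < D.rank) :
    τ.len dd (D.simple (τ.p j)) = τ.len dd (D.simple j) := by
  have hp := C.root.simple_lt j hj
  unfold Twist.len
  rw [← τ.ρ_simple j hj]
  by_cases h : τ.ρ (D.simple j) = D.simple j
  · simp [h]
  · rw [if_neg h, if_neg fun h' => h (τ.ρ_inj _ (τ.ρ_lt _ hp) _ hp h')]

theorem valid_p {j : ℕ} (hj : j < D.rank) {t : K} (ht : τ.Valid dd (D.simple j) t) :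
    τ.Valid dd (D.simple (τ.p j)) (φ t) := by
  rw [O.valid_iff' hφ hj] at ht
  rw [O.valid_iff' hφ (τ.p_lt j hj), O.len_p hφ hj, ← Function.iterate_succ_apply,
    Function.iterate_succ_apply', ht]

theorem orbEl_p {j : ℕ} (hj : j < D.rank) {t : K} (ht : τ.Valid dd (D.simple j) t) :
    τ.orbEl dd (D.simple (τ.p j)) (φ t) = τ.orbEl dd (D.simple j) t := by
  have hp := C.root.simple_lt j hj
  have hxg := C.xg_mem_group (F := K) hp t
  have hx : C.xg (D.simple (τ.p j)) (φ t) = τ.act (C.xg (D.simple j) t) := by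
    rw [τ.map_xg _ hp, τ.ρ_simple j hj, τ.ε_simple j hj, hφ]
    simp [sgn]
  have h := (O.orbEl_fixed hp ht).2
  rw [Twist.orbEl, Twist.orbProd, τ.act_list_prod _ fun y hy => by
    obtain ⟨i, -, rfl⟩ := List.mem_map.1 hy
    exact τ.iter_mem_group hxg i, List.map_map] at h
  rw [Twist.orbEl, Twist.orbEl, Twist.orbProd, Twist.orbProd, O.len_p hφ hj, hx]
  conv_rhs => rw [← h]
  congr 1
  refine List.map_congr_left fun i _ => ?_
  show τ.act^[i] (τ.act _) = τ.act (τ.act^[i] _)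
  rw [← Function.iterate_succ_apply, Function.iterate_succ_apply']

theorem orbEl_word {j : ℕ} (hj : j < D.rank) (t : K) :
    τ.orbEl dd (D.simple j) t =
      ((List.range (τ.len dd (D.simple j))).map fun i => C.xg (D.simple (τ.p^[i] j)) (φ^[i] t)).prod := by
  rw [Twist.orbEl, Twist.orbProd]
  congr 1
  refine List.map_congr_left fun i _ => ?_
  rw [τ.iter_xg (C.root.simple_lt j hj), τ.ρ_iter_simple hj, O.cf_simple hφ hj]

/-- An automorphism of the group given on fundamental root elements by scalars and a field automorphism. -/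
theorem exists_restrict (hσ : ∀ (σ : K ≃+* K) (t : K), σ (φ t) = φ (σ t)) (c : τ.FixVec φ)
    (σ : K ≃+* K) : ∃ θ : ↥τ.stabT, ∀ (j : Fin D.rank) (t : K), τ.Valid dd (D.simple j) t →
      τ.Valid dd (D.simple j) ((c.1 j : K) * σ t) ∧ θ.1 (O.xT j t) = O.xT j ((c.1 j : K) * σ t) := by
  set α : MulAut ↥(D.group K) := C.diagHom c.1 * C.fieldHom σ with hαdef
  have hαp : ∀ (j : ℕ) (hj : j < D.rank) (t : K),
      α (C.xgG (D.simple j) t) = C.xgG (D.simple j) ((c.1 ⟨j, hj⟩ : K) * σ t) := fun j hj t => by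
    rw [hαdef, MulAut.mul_apply, show C.fieldHom σ (C.xgG (D.simple j) t) = C.xgG (D.simple j) (σ t) from
      Subtype.ext (C.fieldAut_xgG _ (C.root.simple_lt j hj) t)]
    exact Subtype.ext (C.diagHom_pos c.1 ⟨j, hj⟩ _)
  have hαn : ∀ (j : ℕ) (hj : j < D.rank) (t : K),
      α (C.xgG (D.neg (D.simple j)) t) = C.xgG (D.neg (D.simple j)) ((c.1 ⟨j, hj⟩ : K)⁻¹ * σ t) :=
    fun j hj t => by
    rw [hαdef, MulAut.mul_apply, show C.fieldHom σ (C.xgG (D.neg (D.simple j)) t) =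
      C.xgG (D.neg (D.simple j)) (σ t) from
      Subtype.ext (C.fieldAut_xgG _ (C.root.neg_lt _ (C.root.simple_lt j hj)) t)]
    exact Subtype.ext (C.diagHom_neg c.1 ⟨j, hj⟩ _)
  have hact : ∀ (j : ℕ) (hj : j < D.rank) (t : K),
      τ.actG (C.xgG (D.simple j) t) = C.xgG (D.simple (τ.p j)) (φ t) ∧
      τ.actG (C.xgG (D.neg (D.simple j)) t) = C.xgG (D.neg (D.simple (τ.p j))) (φ t) := fun j hj t => by
    have hp := C.root.simple_lt j hj
    constructor <;> refine Subtype.ext ?_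
    · show τ.act (C.xg (D.simple j) t) = C.xg (D.simple (τ.p j)) (φ t)
      rw [τ.map_xg _ hp, τ.ρ_simple j hj, τ.ε_simple j hj, hφ]
      simp [sgn]
    · show τ.act (C.xg (D.neg (D.simple j)) t) = C.xg (D.neg (D.simple (τ.p j))) (φ t)
      rw [τ.map_xg _ (C.root.neg_lt _ hp), τ.ρ_neg _ hp, τ.ρ_simple j hj, τ.ε_neg _ hp,
        τ.ε_simple j hj, hφ]
      simp [sgn]
  have hcomm : α ∈ τ.commAct := by
    intro g
    have hle : D.group K ≤
        ((τ.actG.comp α.toMonoidHom).eqLocus (α.toMonoidHom.comp τ.actG)).map (D.group K).subtype := by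
      refine C.group_le_simple (fun j hj t => ⟨C.xgG (D.simple j) t, ?_, rfl⟩)
        (fun j hj t => ⟨C.xgG (D.neg (D.simple j)) t, ?_, rfl⟩)
      · show τ.actG (α (C.xgG (D.simple j) t)) = α (τ.actG (C.xgG (D.simple j) t))
        rw [hαp j hj, (hact j hj _).1, (hact j hj _).1, hαp _ (τ.p_lt j hj), map_mul, hσ, c.2 ⟨j, hj⟩]
      · show τ.actG (α (C.xgG (D.neg (D.simple j)) t)) = α (τ.actG (C.xgG (D.neg (D.simple j)) t))
        rw [hαn j hj, (hact j hj _).2, (hact j hj _).2, hαn _ (τ.p_lt j hj), map_mul, map_inv₀, hσ,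
          c.2 ⟨j, hj⟩]
    obtain ⟨x, hx, e⟩ := Subgroup.mem_map.1 (hle g.2)
    obtain rfl : x = g := Subtype.ext e
    exact hx
  have hα : α ∈ stabUV D K := mul_mem (C.diagHom_mem c.1) (C.fieldHom_mem σ)
  refine ⟨⟨τ.restrictFix ⟨α, hcomm⟩, fun g => hα.1 ⟨g, g.2.1⟩, fun g => hα.2 ⟨g, g.2.1⟩⟩, fun j t ht => ?_⟩
  have hit : ∀ (x : K) i, σ (φ^[i] x) = φ^[i] (σ x) := fun x i => by
    induction i with
    | zero => rfl
    | succ i ih => rw [Function.iterate_succ_apply', Function.iterate_succ_apply', hσ, ih]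
  have hcit : ∀ i, φ^[i] (c.1 j : K) = (c.1 ⟨τ.p^[i] j, τ.p_iter_lt j.2 i⟩ : K) := fun i => by
    induction i with
    | zero => rfl
    | succ i ih =>
      rw [Function.iterate_succ_apply', ih, c.2 ⟨τ.p^[i] j, τ.p_iter_lt j.2 i⟩]
      simp only [Function.iterate_succ_apply']
  have hcv : τ.Valid dd (D.simple j) ((c.1 j : K) * σ t) := by
    refine O.fix_mul hφ j.2 ?_ ?_
    · rw [O.valid_iff' hφ j.2, hcit]
      have e : (⟨τ.p^[τ.len dd (D.simple j)] j, τ.p_iter_lt j.2 _⟩ : Fin D.rank) = j := by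
        refine Fin.ext (C.root.simple_inj (τ.p_iter_lt j.2 _) j.2 ?_)
        rw [← τ.ρ_iter_simple j.2, O.per_len (C.root.simple_lt j j.2)]
      rw [e]
    · rw [O.valid_iff' hφ j.2] at ht ⊢
      rw [← hit, ht]
  refine ⟨hcv, Subtype.ext ?_⟩
  rw [O.coe_xT j.2 hcv, O.orbEl_word hφ j.2, τ.restrictFix_coe]
  have e : (⟨(O.xT j t : GL D.Idx K), (O.xT j t).2.1⟩ : ↥(D.group K)) =
      ((List.range (τ.len dd (D.simple j))).map fun i => C.xgG (D.simple (τ.p^[i] j)) (φ^[i] t)).prod := by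
    refine Subtype.ext ?_
    rw [Subgroup.val_list_prod, List.map_map, O.coe_xT j.2 ht, O.orbEl_word hφ j.2]
    rfl
  show (α _ : GL D.Idx K) = _
  rw [e, map_list_prod, Subgroup.val_list_prod,
    List.map_map, List.map_map]
  congr 1
  refine List.map_congr_left fun i _ => ?_
  show ((α (C.xgG (D.simple (τ.p^[i] j)) (φ^[i] t)) : ↥(D.group K)) : GL D.Idx K) = _
  rw [hαp _ (τ.p_iter_lt j.2 i), hit, iterate_map_mul, hcit]
  rfl

variable [Finite K]

/-- An automorphism which fixes every fundamental orbit group gets a frame. -/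
theorem exists_frameT
    (hid : ∀ θ ∈ τ.stabT, ∀ j < D.rank, Sends θ (O.posX j) (O.posX j))
    {θ : ↥τ.fixed ≃* ↥τ.fixed} (hθ : θ ∈ τ.stabT) : ∃ f, O.FrameT θ f := by
  obtain ⟨m, hm, hmf, hlong, hmV, hmU⟩ := O.exists_swap
  have hneg : ∀ k < D.rank, Sends θ (O.negX k) (O.negX k) := by
    intro k hk
    obtain ⟨l, hl, hkl⟩ := C.sg_longest_simple hm hlong hk
    set N₀ : ↥τ.fixed := ⟨m, hmf⟩
    set η : ↥τ.fixed ≃* ↥τ.fixed := ((MulAut.conj N₀).symm.trans θ).trans (MulAut.conj N₀) with hη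
    have hηg : ∀ g, η g = N₀ * θ (N₀⁻¹ * g * N₀) * N₀⁻¹ := fun g => by simp [hη]
    have hst : η ∈ τ.stabT := by
      constructor <;> intro g <;> rw [hηg] <;>
        show m * (θ (N₀⁻¹ * g * N₀) : GL D.Idx K) * m⁻¹ ∈ _ ↔ _
      · rw [hmU, hθ.2, ← hmU]
        simp [N₀, mul_assoc]
      · rw [hmV, hθ.1, ← hmV]
        simp [N₀, mul_assoc]
    intro g
    have h := hid η hst l hl (N₀ * g * N₀⁻¹)
    rw [hηg, show N₀⁻¹ * (N₀ * g * N₀⁻¹) * N₀ = g by group] at h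
    show (θ g : GL D.Idx K) ∈ O.negX k ↔ (g : GL D.Idx K) ∈ O.negX k
    have hc : ∀ v : GL D.Idx K, m * v * m⁻¹ ∈ O.posX l ↔ v ∈ O.negX k := fun v => by
      show m * v * m⁻¹ ∈ grp D K (O.orbit (D.simple l)) ↔ _
      rw [← hkl]
      exact O.conj_orbit_iff hm hmf (C.root.neg_lt _ (C.root.simple_lt k hk))
    rw [← hc, ← hc]
    exact h
  have hex : ∀ j t, ∃ u, j < D.rank → τ.Valid dd (D.simple j) t →
      τ.Valid dd (D.simple j) u ∧ θ (O.xT j t) = O.xT j u := by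
    intro j t
    by_cases h : j < D.rank ∧ τ.Valid dd (D.simple j) t
    · obtain ⟨hj, ht⟩ := h
      obtain ⟨u, hu, e⟩ := O.fixed_orbit (C.root.pos_simple hj)
        ((hid θ hθ j hj _).2 (O.xT_mem hj ht)) (θ (O.xT j t)).2
      exact ⟨u, fun _ _ => ⟨hu, Subtype.ext (e.trans (O.coe_xT hj hu).symm)⟩⟩
    · exact ⟨0, fun h1 h2 => absurd ⟨h1, h2⟩ h⟩
  choose f hf using hex
  exact ⟨f, fun j hj t ht => (hf j t hj ht).1, fun j hj t ht => (hf j t hj ht).2, fun j hj => hid θ hθ j hj, hneg⟩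

/-- An automorphism fixing the fundamental orbit elements is trivial. -/
theorem eq_one_of_fix
    (hid : ∀ θ ∈ τ.stabT, ∀ j < D.rank, Sends θ (O.posX j) (O.posX j))
    {θ : ↥τ.fixed ≃* ↥τ.fixed} (hθ : θ ∈ τ.stabT)
    (h : ∀ j < D.rank, ∀ t, τ.Valid dd (D.simple j) t → θ (O.xT j t) = O.xT j t) : θ = 1 := by
  obtain ⟨f₀, H₀⟩ := O.exists_frameT hφ hid hθ
  have H : O.FrameT θ (fun _ t => t) := ⟨fun _ _ _ ht => ht, h, H₀.sendsPos, H₀.neg⟩
  set G₁ : Subgroup (GL D.Idx K) :=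
    (θ.toMonoidHom.eqLocus (MonoidHom.id ↥τ.fixed)).map τ.fixed.subtype with hG₁
  have hmem : ∀ {x : GL D.Idx K} (hx : x ∈ τ.fixed), θ ⟨x, hx⟩ = ⟨x, hx⟩ → x ∈ G₁ :=
    fun {x} hx e => ⟨⟨x, hx⟩, e, rfl⟩
  have G : Gens τ dd G₁ := by
    refine ⟨fun x hx => ?_, fun j hj t ht => ?_, fun j hj t ht => ?_⟩
    · obtain ⟨y, -, rfl⟩ := hx
      exact y.2
    · refine hmem (O.orbEl_fixed (C.root.simple_lt j hj) ht) ?_
      rw [show (⟨_, O.orbEl_fixed (C.root.simple_lt j hj) ht⟩ : ↥τ.fixed) = O.xT j t from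
        Subtype.ext (O.coe_xT hj ht).symm, h j hj t ht]
    · have hn := C.root.neg_lt _ (C.root.simple_lt j hj)
      refine hmem (O.orbEl_fixed hn ht) ?_
      by_cases ht0 : t = 0
      · subst ht0
        rw [show (⟨_, O.orbEl_fixed hn ht⟩ : ↥τ.fixed) = 1 from Subtype.ext (O.orbEl_zero hn), map_one]
      have hv : τ.Valid dd (D.simple j) (-t⁻¹) :=
        O.fix_neg hφ hj (O.fix_inv hφ hj ((O.valid_negRoot hφ hj t).1 ht))
      set x := O.xT j (-t⁻¹)
      set n : ↥τ.fixed := ⟨_, O.nWord_fixed hφ hj hv⟩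
      have e : (⟨_, O.orbEl_fixed hn ht⟩ : ↥τ.fixed) = x⁻¹ * n * x⁻¹ := Subtype.ext (by
        show _ = (x : GL D.Idx K)⁻¹ * O.orbMap j (C.wg (D.nWord (D.simple j) (-t⁻¹))) * (x : GL D.Idx K)⁻¹
        rw [O.orbMap_nWord hj, O.coe_xT hj hv, inv_neg, inv_inv, neg_neg]
        group)
      rw [e, map_mul, map_mul, map_inv, h j hj _ hv]
      congr 2
      exact Subtype.ext (O.frame_nWord hφ H hj hv (by simp [ht0]) rfl)
  have hH : D.diagonalSubgroup K ⊓ τ.fixed ≤ G₁ := by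
    intro d hd
    obtain ⟨hd1, hd2⟩ := Subgroup.mem_inf.1 hd
    refine hmem hd2 ?_
    set z : ↥τ.fixed := (⟨d, hd2⟩ : ↥τ.fixed)⁻¹ * θ ⟨d, hd2⟩
    have hz : (z : GL D.Idx K) ∈ D.diagonalSubgroup K :=
      mul_mem (inv_mem hd1) ((O.sends_diag hθ.1 hθ.2 ⟨d, hd2⟩).2 hd1)
    obtain ⟨χ, hχ, e⟩ := C.exists_chr hz
    have hz1 : (z : GL D.Idx K) = 1 := C.eq_one_of_chr_simple hz e fun j hj => by
      have hp := C.root.pos_simple hj
      have hv1 := O.valid_one (τ := τ) hj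
      have hmov : ((⟨d, hd2⟩ * O.xT j 1 * (⟨d, hd2⟩ : ↥τ.fixed)⁻¹ : ↥τ.fixed) : GL D.Idx K) ∈ O.posX j :=
        C.diag_normalizes (O.orbit_lt hp.1) hd1 (O.xT_mem hj hv1)
      obtain ⟨u, hu, eu⟩ := O.fixed_orbit hp hmov (SetLike.coe_mem _)
      have h2 := h j hj u hu
      rw [show O.xT j u = ⟨d, hd2⟩ * O.xT j 1 * (⟨d, hd2⟩ : ↥τ.fixed)⁻¹ from
        Subtype.ext ((O.coe_xT hj hu).trans eu.symm), map_mul, map_mul, map_inv, h j hj 1 hv1] at h2
      have h3 : z * O.xT j 1 * z⁻¹ = O.xT j 1 := by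
        have := congrArg (fun w => (⟨d, hd2⟩ : ↥τ.fixed)⁻¹ * w * ⟨d, hd2⟩) h2
        simpa [z, mul_assoc] using this
      have h4 := congrArg Subtype.val h3
      rw [Subgroup.coe_mul, Subgroup.coe_mul, Subgroup.coe_inv, O.coe_xT hj hv1, Twist.orbEl,
        ← τ.orbProd_conj z.2 (C.xg_mem_group hp.1 1), C.conj_xg_of_dg hχ e hp.1] at h4
      have h5 := O.orbEl_inj hp (t := χ (D.simple j) * 1) (t' := 1) h4
      simpa using h5
    exact (inv_mul_eq_one.1 (Subtype.ext hz1 : z = 1)).symm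
  refine MulEquiv.ext fun g => ?_
  have hg : (g : GL D.Idx K) ∈ G₁ := (O.eq_fixed G hH).symm ▸ g.2
  obtain ⟨y, hy, e⟩ := hg
  obtain rfl : y = g := Subtype.ext e
  exact hy

/-- The order of the outer automorphism group. -/
theorem card_outT (p : ℕ) [Fact p.Prime] (P : Sylow p ↥τ.fixed)
    (hP : (P : Subgroup ↥τ.fixed) = (D.posUnipotent K).subgroupOf τ.fixed)
    (hσ : ∀ (σ : K ≃+* K) (t : K), σ (φ t) = φ (σ t))
    (hid : ∀ θ ∈ τ.stabT, ∀ j < D.rank, Sends θ (O.posX j) (O.posX j))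
    (hlin : ∀ θ f, O.FrameT θ f → ∃ σ : K ≃+* K, ∀ j < D.rank, ∀ t, τ.Valid dd (D.simple j) t →
      f j t = f j 1 * σ t)
    {j₀ : ℕ} (hj₀ : j₀ < D.rank) (hall : ∀ t : K, τ.Valid dd (D.simple j₀) t) :
    Nat.card (Cfsg.Out ↥τ.fixed) * Nat.card ↥(D.diagonalSubgroup K ⊓ τ.fixed) =
      Nat.card (τ.FixVec φ) * Nat.card (RingAut K) := by
  -- the stabiliser of `U` and `V`
  choose E hE using fun p : τ.FixVec φ × RingAut K => O.exists_restrict hφ hσ p.1 p.2
  have hEinj : Function.Injective E := by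
    intro a b h
    have key : ∀ (j : Fin D.rank) (t : K), τ.Valid dd (D.simple j) t →
        (a.1.1 j : K) * a.2 t = (b.1.1 j : K) * b.2 t := fun j t ht => by
      have h1 := (hE a j t ht).2
      rw [h, (hE b j t ht).2] at h1
      exact ((O.xT_eq_iff j.2 (hE b j t ht).1 (hE a j t ht).1).1 h1).symm
    have hc : a.1 = b.1 := Subtype.ext (funext fun j => Units.ext (by
      simpa using key j 1 (O.valid_one j.2)))
    refine Prod.ext hc (RingEquiv.ext fun t => ?_)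
    have h1 := key ⟨j₀, hj₀⟩ t (hall t)
    rw [hc] at h1
    exact mul_left_cancel₀ (Units.ne_zero _) h1
  have hEsurj : Function.Surjective E := by
    intro θ
    obtain ⟨f, H⟩ := O.exists_frameT hφ hid θ.2
    obtain ⟨σ, hσf⟩ := hlin θ.1 f H
    have hc0 : ∀ j : Fin D.rank, f j 1 ≠ 0 := fun j =>
      O.f_ne hφ H j.2 (O.valid_one j.2) one_ne_zero
    have hfp : ∀ j : Fin D.rank, φ (f j 1) = f (τ.p j) 1 := fun j => by
      have hv1 := O.valid_one (τ := τ) j.2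
      have hvp : τ.Valid dd (D.simple (τ.p j)) (1 : K) := O.valid_one (τ.p_lt j j.2)
      have hvf := O.valid_p hφ j.2 (H.valid j j.2 1 hv1)
      have e : O.xT (τ.p j) 1 = O.xT j 1 := Subtype.ext (by
        rw [O.coe_xT (τ.p_lt j j.2) hvp, O.coe_xT j.2 hv1]
        conv_lhs => rw [show (1 : K) = φ 1 from (map_one φ).symm]
        exact O.orbEl_p hφ j.2 hv1)
      have e2 := congrArg θ.1 e
      rw [H.pos _ (τ.p_lt j j.2) _ hvp, H.pos _ j.2 _ hv1] at e2
      have e3 := congrArg Subtype.val e2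
      rw [O.coe_xT (τ.p_lt j j.2) (H.valid _ (τ.p_lt j j.2) _ hvp),
        O.coe_xT j.2 (H.valid _ j.2 _ hv1), ← O.orbEl_p hφ j.2 (H.valid _ j.2 _ hv1)] at e3
      exact (O.orbEl_inj (C.root.pos_simple (τ.p_lt j j.2)) e3).symm
    refine ⟨(⟨fun j => Units.mk0 (f j 1) (hc0 j), hfp⟩, σ), ?_⟩
    set a : τ.FixVec φ × RingAut K := (⟨fun j => Units.mk0 (f j 1) (hc0 j), hfp⟩, σ)
    have h1 : (E a).1⁻¹ * θ.1 = 1 :=
      O.eq_one_of_fix hφ hid (mul_mem (inv_mem (E a).2) θ.2) fun j hj t ht => by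
        rw [MulAut.mul_apply, H.pos j hj t ht, hσf j hj t ht]
        exact (MulEquiv.symm_apply_eq (e := (E a).1)).2 (hE a ⟨j, hj⟩ t ht).2.symm
    exact Subtype.ext (inv_mul_eq_one.1 h1)
  have hcard : Nat.card ↥τ.stabT = Nat.card (τ.FixVec φ) * Nat.card (RingAut K) := by
    rw [← Nat.card_prod, Nat.card_congr (Equiv.ofBijective E ⟨hEinj, hEsurj⟩)]
  -- the map to `Out`
  have hsurj : Function.Surjective τ.toOutT := by
    intro q
    obtain ⟨θ, rfl⟩ := QuotientGroup.mk'_surjective _ q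
    obtain ⟨x, hx⟩ := O.exists_inner_fix p P hP θ
    refine ⟨⟨MulAut.conj x * θ, hx⟩, ?_⟩
    show QuotientGroup.mk' _ (MulAut.conj x * θ) = _
    rw [map_mul, show QuotientGroup.mk' (Cfsg.Inn ↥τ.fixed) (MulAut.conj x) = 1 from
      (QuotientGroup.eq_one_iff _).2 ⟨x, rfl⟩, one_mul]
  -- the inner automorphisms fixing `U` and `V` come from `H`
  have hconj : ∀ d : ↥(D.diagonalSubgroup K ⊓ τ.fixed),
      MulAut.conj (⟨d, (Subgroup.mem_inf.1 d.2).2⟩ : ↥τ.fixed) ∈ τ.stabT := by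
    intro d
    have hd := (Subgroup.mem_inf.1 d.2).1
    constructor <;> refine sends_conj _ fun e => ?_
    · rw [posUnipotent_eq]
      refine ⟨fun h => ?_, C.diag_normalizes (fun r hr => hr.1) hd⟩
      simpa [mul_assoc] using C.diag_normalizes (fun r hr => hr.1) (inv_mem hd) h
    · rw [negUnipotent_eq]
      refine ⟨fun h => ?_, C.diag_normalizes (fun r hr => hr.1) hd⟩
      simpa [mul_assoc] using C.diag_normalizes (fun r hr => hr.1) (inv_mem hd) h
  let κ : ↥(D.diagonalSubgroup K ⊓ τ.fixed) → ↥τ.toOutT.ker := fun d =>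
    ⟨⟨_, hconj d⟩, (QuotientGroup.eq_one_iff _).2 ⟨_, rfl⟩⟩
  have hκ : Function.Bijective κ := by
    constructor
    · intro a b h
      have hab : ∀ g : ↥τ.fixed, (a : GL D.Idx K) * g * (a : GL D.Idx K)⁻¹ = (b : GL D.Idx K) * g * (b : GL D.Idx K)⁻¹ :=
        fun g => congrArg (fun η : ↥τ.toOutT.ker => ((η.1.1 g : ↥τ.fixed) : GL D.Idx K)) h
      have hd : (b : GL D.Idx K)⁻¹ * a ∈ D.diagonalSubgroup K :=
        mul_mem (inv_mem (Subgroup.mem_inf.1 b.2).1) (Subgroup.mem_inf.1 a.2).1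
      obtain ⟨χ, hχ, e⟩ := C.exists_chr hd
      refine Subtype.ext (inv_mul_eq_one.1 (C.eq_one_of_chr_simple hd e fun j hj => ?_)).symm
      have hp := C.root.pos_simple hj
      have h1 : (b : GL D.Idx K)⁻¹ * a * τ.orbEl dd (D.simple j) 1 * ((b : GL D.Idx K)⁻¹ * a)⁻¹ =
          τ.orbEl dd (D.simple j) 1 := by
        have h2 := congrArg (fun w => (b : GL D.Idx K)⁻¹ * w * b) (hab (O.xT j 1))
        rw [O.coe_xT hj (O.valid_one hj)] at h2
        simpa [mul_assoc] using h2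
      rw [Twist.orbEl, ← τ.orbProd_conj (mul_mem (inv_mem (Subgroup.mem_inf.1 b.2).2)
        (Subgroup.mem_inf.1 a.2).2) (C.xg_mem_group hp.1 1), C.conj_xg_of_dg hχ e hp.1] at h1
      simpa using O.orbEl_inj hp (t := χ (D.simple j) * 1) (t' := 1) h1
    · rintro ⟨⟨θ, hθ⟩, hk⟩
      obtain ⟨x, rfl⟩ : θ ∈ Cfsg.Inn ↥τ.fixed := (QuotientGroup.eq_one_iff θ).1 hk
      obtain ⟨m, hm, hmf, -, hmV, hmU⟩ := O.exists_swap
      have hxB : (x : GL D.Idx K) ∈ D.borelSubgroup K :=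
        O.mem_borel_of_normalizes x.2 fun y hy hyf => (hθ.1 ⟨y, hyf⟩).2 hy
      have hxB' : m⁻¹ * (x : GL D.Idx K) * m ∈ D.borelSubgroup K := by
        refine O.mem_borel_of_normalizes (mul_mem (mul_mem (inv_mem hmf) x.2) hmf) fun y hy hyf => ?_
        rw [show m⁻¹ * (x : GL D.Idx K) * m * y * (m⁻¹ * (x : GL D.Idx K) * m)⁻¹ =
          m⁻¹ * ((x : GL D.Idx K) * (m * y * m⁻¹) * (x : GL D.Idx K)⁻¹) * m by group, ← hmV]
        have h1 := (hθ.2 ⟨m * y * m⁻¹, mul_mem (mul_mem hmf hyf) (inv_mem hmf)⟩).2 ((hmV y).2 hy)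
        simpa [mul_assoc] using h1
      have hxd : (x : GL D.Idx K) ∈ D.diagonalSubgroup K := by
        obtain ⟨u, hu, d, hd, e⟩ := C.mem_borel.1 hxB'
        rw [← C.borel_inf_opp]
        refine Subgroup.mem_inf.2 ⟨hxB, ?_⟩
        rw [show (x : GL D.Idx K) = (m * u * m⁻¹) * (m * d * m⁻¹) by
          rw [show (x : GL D.Idx K) = m * (m⁻¹ * x * m) * m⁻¹ by group, e]; group]
        exact mul_mem (Subgroup.mem_sup_left ((hmV u).2 hu))
          (Subgroup.mem_sup_right (C.mono_conj_diag hm d hd))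
      exact ⟨⟨x, Subgroup.mem_inf.2 ⟨hxd, x.2⟩⟩, rfl⟩
  have := card_stabilised τ.toOutT hsurj
  rw [← Nat.card_congr (Equiv.ofBijective κ hκ), hcard] at this
  exact this

end Orth

end Cfsg.Agent.Lib.Chev
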