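import Cfsg.Agent.Lib.Chev.TwistAutBorel
import Cfsg.Agent.Lib.Chev.OutStruct

/-!
The shape of an automorphism of a twisted group fixing `U` and `V`: on each orbit group of fundamental roots a
scalar times one field automorphism. The outer automorphism group by counting.
-/

set_option autoImplicit false
set_option linter.unusedSectionVars false

namespace Cfsg.Agent.Lib.Chev

open Cfsg.Lie Cfsg.Agent.Lib

namespace Twist

variable {D : ChevalleyDatum} {T : Fast} {C : Checked D T} {K : Type*} [Field K] (τ : Twist C K)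

/-- The twist as an endomorphism of the group. -/
def actG : ↥(D.group K) →* ↥(D.group K) :=
  MonoidHom.mk' (fun g => ⟨τ.act g, τ.act_group g.2⟩) fun g h => Subtype.ext (τ.act_mul g.2 h.2)

/-- The automorphisms of the group which commute with the twist. -/
def commAct : Subgroup (MulAut ↥(D.group K)) where
  carrier := {α | ∀ g, τ.actG (α g) = α (τ.actG g)}
  one_mem' _ := rfl
  mul_mem' {a b} ha hb g := by rw [MulAut.mul_apply, ha, hb]; rfl
  inv_mem' {a} ha g := by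
    apply a.injective
    rw [← ha]
    simp

theorem commAct_fixed {α : MulAut ↥(D.group K)} (hα : α ∈ τ.commAct) (g : ↥τ.fixed) :
    (α ⟨g, g.2.1⟩ : GL D.Idx K) ∈ τ.fixed := by
  refine ⟨SetLike.coe_mem _, ?_⟩
  have h := congrArg Subtype.val (hα ⟨g, g.2.1⟩)
  rw [show τ.actG ⟨g, g.2.1⟩ = ⟨g, g.2.1⟩ from Subtype.ext g.2.2] at h
  exact h

/-- Restriction to the fixed points. -/
def restrictFix : ↥τ.commAct →* MulAut ↥τ.fixed :=
  MonoidHom.mk' (fun α =>
    { toFun := fun g => ⟨α.1 ⟨g, g.2.1⟩, τ.commAct_fixed α.2 g⟩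
      invFun := fun g => ⟨(α⁻¹ : ↥τ.commAct).1 ⟨g, g.2.1⟩, τ.commAct_fixed (α⁻¹).2 g⟩
      left_inv := fun g => Subtype.ext (by simp)
      right_inv := fun g => Subtype.ext (by simp)
      map_mul' := fun a b => Subtype.ext (by
        show (α.1 (⟨a, a.2.1⟩ * ⟨b, b.2.1⟩) : GL D.Idx K) = _
        rw [map_mul]; rfl) })
    fun a b => MulEquiv.ext fun g => Subtype.ext rfl

theorem restrictFix_coe (α : ↥τ.commAct) (g : ↥τ.fixed) :
    (τ.restrictFix α g : GL D.Idx K) = α.1 ⟨g, g.2.1⟩ := rfl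

end Twist

namespace Orth

variable {D : ChevalleyDatum} {T : Fast} {C : Checked D T} {K : Type*} [Field K] {τ : Twist C K}
  {dd : ℕ} (O : Orth τ dd)
include O

/-- The product over the orbit of a node. -/
def orbMap (_ : Orth τ dd) (j : ℕ) (g : GL D.Idx K) : GL D.Idx K := τ.orbProd (τ.len dd (D.simple j)) g

/-- The rank one group of a node. -/
def rankOne (_ : Orth τ dd) (j : ℕ) : Subgroup (GL D.Idx K) :=
  Subgroup.closure {x | ∃ t : K, x = C.xg (D.simple j) t ∨ x = C.xg (D.neg (D.simple j)) t}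

theorem rankOne_le_group {j : ℕ} (hj : j < D.rank) : O.rankOne j ≤ D.group K :=
  (Subgroup.closure_le _).2 fun x ⟨t, h⟩ => by
    rcases h with rfl | rfl
    · exact C.xg_mem_group (C.root.simple_lt j hj) t
    · exact C.xg_mem_group (C.root.neg_lt _ (C.root.simple_lt j hj)) t

theorem rankOne_commute {j : ℕ} (hj : j < D.rank) {i k : ℕ} (hi : i < τ.len dd (D.simple j))
    (hk : k < τ.len dd (D.simple j)) (hik : i ≠ k) {a b : GL D.Idx K} (ha : a ∈ O.rankOne j)
    (hb : b ∈ O.rankOne j) : Commute (τ.act^[i] a) (τ.act^[k] b) := by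
  have hp := C.root.simple_lt j hj
  have hn := C.root.neg_lt _ hp
  have hone : ∀ n, τ.act^[n] 1 = 1 := fun n => by
    induction n with
    | zero => rfl
    | succ n ih => rw [Function.iterate_succ_apply', ih, τ.act_one]
  have hinv : ∀ {x : GL D.Idx K}, x ∈ D.group K → ∀ n, τ.act^[n] x⁻¹ = (τ.act^[n] x)⁻¹ := by
    intro x hx n
    induction n with
    | zero => rfl
    | succ n ih =>
      rw [Function.iterate_succ_apply', ih, τ.act_inv (τ.iter_mem_group hx n), Function.iterate_succ_apply']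
  have hle := O.rankOne_le_group hj
  have hgen : ∀ t u : K, ∀ x ∈ ({D.simple j, D.neg (D.simple j)} : Set ℕ),
      ∀ y ∈ ({D.simple j, D.neg (D.simple j)} : Set ℕ),
        Commute (τ.act^[i] (C.xg x t)) (τ.act^[k] (C.xg y u)) := by
    intro t u x hx y hy
    have hi' := hi.trans_le (O.len_le _)
    have hk' := hk.trans_le (O.len_le _)
    rcases hx with rfl | hx
    · rcases hy with rfl | hy
      · rw [τ.iter_xg hp, τ.iter_xg hp]
        exact O.commute_iter hp _ _ hi' hk'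
      · rw [Set.mem_singleton_iff.1 hy, τ.iter_xg hp, τ.iter_xg hn]
        exact O.commute_pm hj hi hk hik _ _
    · rw [Set.mem_singleton_iff.1 hx]
      rcases hy with rfl | hy
      · rw [τ.iter_xg hp, τ.iter_xg hn]
        exact (O.commute_pm hj hk hi hik.symm _ _).symm
      · rw [Set.mem_singleton_iff.1 hy, τ.iter_xg hn, τ.iter_xg hn]
        exact O.commute_iter hn _ _ hi' hk'
  induction ha using Subgroup.closure_induction with
  | mem x hx =>
    induction hb using Subgroup.closure_induction with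
    | mem y hy =>
      obtain ⟨t, ht⟩ := hx
      obtain ⟨u, hu⟩ := hy
      rcases ht with rfl | rfl <;> rcases hu with rfl | rfl <;>
        refine hgen t u _ ?_ _ ?_ <;> simp
    | one => rw [hone]; exact Commute.one_right _
    | mul y z hy hz h1 h2 => rw [τ.iter_mul (hle hy) (hle hz)]; exact h1.mul_right h2
    | inv y hy h1 => rw [hinv (hle hy)]; exact h1.inv_right
  | one => rw [hone]; exact Commute.one_left _
  | mul y z hy hz h1 h2 => rw [τ.iter_mul (hle hy) (hle hz)]; exact h1.mul_left h2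
  | inv y hy h1 => rw [hinv (hle hy)]; exact h1.inv_left

theorem orbMap_mul {j : ℕ} (hj : j < D.rank) {a b : GL D.Idx K} (ha : a ∈ O.rankOne j)
    (hb : b ∈ O.rankOne j) : O.orbMap j (a * b) = O.orbMap j a * O.orbMap j b := by
  rw [orbMap, orbMap, orbMap, Twist.orbProd, Twist.orbProd, Twist.orbProd, ← prod_map_mul_of_commute]
  · congr 1
    exact List.map_congr_left fun i _ => τ.iter_mul (O.rankOne_le_group hj ha) (O.rankOne_le_group hj hb) i
  · refine List.Pairwise.imp_of_mem (fun {i k} hi hk hik => ?_) List.pairwise_lt_range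
    first
      | exact O.rankOne_commute hj (List.mem_range.1 hi) (List.mem_range.1 hk) hik.ne hb ha
      | exact O.rankOne_commute hj (List.mem_range.1 hk) (List.mem_range.1 hi) hik.ne' ha hb

theorem xg_mem_rankOne (j : ℕ) (t : K) :
    C.xg (D.simple j) t ∈ O.rankOne j ∧ C.xg (D.neg (D.simple j)) t ∈ O.rankOne j :=
  ⟨Subgroup.subset_closure ⟨t, Or.inl rfl⟩, Subgroup.subset_closure ⟨t, Or.inr rfl⟩⟩

theorem nWord_mem_rankOne (j : ℕ) (t : K) : C.wg (D.nWord (D.simple j) t) ∈ O.rankOne j := by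
  simp only [ChevalleyDatum.nWord, C.wg_cons, C.wg_nil, mul_one]
  exact mul_mem (O.xg_mem_rankOne j t).1 (mul_mem (O.xg_mem_rankOne j _).2 (O.xg_mem_rankOne j t).1)

theorem hg_mem_rankOne (j : ℕ) (t : K) : C.hg (D.simple j) t ∈ O.rankOne j := by
  rw [C.hg_eq_nWord]
  exact mul_mem (O.nWord_mem_rankOne j t) (O.nWord_mem_rankOne j _)

theorem orbEl_neg_def {j : ℕ} (hj : j < D.rank) (t : K) :
    τ.orbEl dd (D.neg (D.simple j)) t = O.orbMap j (C.xg (D.neg (D.simple j)) t) := by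
  rw [Twist.orbEl, O.len_neg (C.root.simple_lt j hj)]
  rfl

/-- `n_J(t)`. -/
theorem orbMap_nWord {j : ℕ} (hj : j < D.rank) (t : K) :
    O.orbMap j (C.wg (D.nWord (D.simple j) t)) = τ.orbEl dd (D.simple j) t *
      (τ.orbEl dd (D.neg (D.simple j)) (-t⁻¹) * τ.orbEl dd (D.simple j) t) := by
  rw [O.orbEl_neg_def hj]
  simp only [ChevalleyDatum.nWord, C.wg_cons, C.wg_nil, mul_one]
  rw [O.orbMap_mul hj (O.xg_mem_rankOne j t).1
    (mul_mem (O.xg_mem_rankOne j _).2 (O.xg_mem_rankOne j t).1),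
    O.orbMap_mul hj (O.xg_mem_rankOne j _).2 (O.xg_mem_rankOne j t).1]
  rfl

theorem orbMap_nWord_hg {j : ℕ} (hj : j < D.rank) (t : K) :
    O.orbMap j (C.wg (D.nWord (D.simple j) t)) = O.orbMap j (C.hg (D.simple j) t) * τ.wN dd j := by
  rw [C.nWord_eq_hg_mul, O.orbMap_mul hj (O.hg_mem_rankOne j t)
    (show C.ng j ∈ O.rankOne j from O.nWord_mem_rankOne j 1)]
  rfl

theorem orbEl_neg_split {j : ℕ} (hj : j < D.rank) {a : K} (ha : a ≠ 0) :
    τ.orbEl dd (D.neg (D.simple j)) a = τ.orbEl dd (D.simple j) a⁻¹ *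
      (O.orbMap j (C.hg (D.simple j) (-a⁻¹)) * τ.wN dd j) * τ.orbEl dd (D.simple j) a⁻¹ := by
  have hx := (O.xg_mem_rankOne j a⁻¹).1
  have hh := O.hg_mem_rankOne j (-a⁻¹)
  have hn : (C.ng j : GL D.Idx K) ∈ O.rankOne j := O.nWord_mem_rankOne j 1
  rw [O.orbEl_neg_def hj, C.xg_neg_eq hj ha, O.orbMap_mul hj (mul_mem hx (mul_mem hh hn)) hx,
    O.orbMap_mul hj hx (mul_mem hh hn), O.orbMap_mul hj hh hn]
  rfl

theorem orbMap_hg_diag {j : ℕ} (hj : j < D.rank) {t : K} (ht : t ≠ 0) :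
    O.orbMap j (C.hg (D.simple j) t) ∈ D.diagonalSubgroup K :=
  list_prod_mem fun x hx => by
    obtain ⟨i, -, rfl⟩ := List.mem_map.1 hx
    clear hx
    induction i with
    | zero => exact C.hg_mem (C.root.simple_lt j hj) ht
    | succ i ih => rw [Function.iterate_succ_apply']; exact τ.act_diag ih

open Classical in
/-- An orbit element as a fixed point. -/
noncomputable def xT (j : ℕ) (t : K) : ↥τ.fixed :=
  if h : j < D.rank ∧ τ.Valid dd (D.simple j) t then
    ⟨τ.orbEl dd (D.simple j) t, O.orbEl_fixed (C.root.simple_lt j h.1) h.2⟩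
  else 1

theorem coe_xT {j : ℕ} (hj : j < D.rank) {t : K} (ht : τ.Valid dd (D.simple j) t) :
    (O.xT j t : GL D.Idx K) = τ.orbEl dd (D.simple j) t := by
  rw [xT, dif_pos ⟨hj, ht⟩]

theorem xT_mem {j : ℕ} (hj : j < D.rank) {t : K} (ht : τ.Valid dd (D.simple j) t) :
    (O.xT j t : GL D.Idx K) ∈ O.posX j := by
  rw [O.coe_xT hj ht]
  exact O.orbEl_mem_grp (C.root.simple_lt j hj) t

variable {φ : K ≃+* K} (hφ : ∀ r, τ.f r = φ)
include hφ

theorem cf_simple {j : ℕ} (hj : j < D.rank) (t : K) : ∀ i, τ.cf i (D.simple j) t = φ^[i] t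
  | 0 => rfl
  | i + 1 => by
    rw [Twist.cf, cf_simple hj t i, τ.ρ_iter_simple hj i, τ.ε_simple _ (τ.p_iter_lt hj i), hφ,
      Function.iterate_succ_apply']
    simp [sgn]

theorem valid_iff' {j : ℕ} (hj : j < D.rank) (t : K) :
    τ.Valid dd (D.simple j) t ↔ φ^[τ.len dd (D.simple j)] t = t := by
  have hp := C.root.simple_lt j hj
  rw [Twist.Valid, τ.iter_xg hp, O.per_len hp, O.cf_simple hφ hj]
  exact ⟨fun h => C.xg_inj hp h, fun h => by rw [h]⟩

theorem valid_negRoot {j : ℕ} (hj : j < D.rank) (t : K) :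
    τ.Valid dd (D.neg (D.simple j)) t ↔ τ.Valid dd (D.simple j) t := by
  have hp := C.root.simple_lt j hj
  have hn := C.root.neg_lt _ hp
  have h1 : τ.Valid dd (D.simple j) t ↔ τ.Valid dd (D.simple j) (-t) := by
    rw [O.valid_iff' hφ hj, O.valid_iff' hφ hj]
    have : ∀ n, φ^[n] (-t) = -φ^[n] t := fun n => by
      induction n with
      | zero => rfl
      | succ n ih => rw [Function.iterate_succ_apply', Function.iterate_succ_apply', ih, map_neg]
    rw [this, neg_inj]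
  refine ⟨fun h => ?_, fun h => ?_⟩
  · have h2 := O.valid_neg_of hn h
    rw [C.root.neg_neg' hp] at h2
    exact h1.2 h2
  · have h2 := O.valid_neg_of hp (h1.1 h)
    rwa [neg_neg] at h2

theorem fix_mul {j : ℕ} (hj : j < D.rank) {t u : K} (ht : τ.Valid dd (D.simple j) t)
    (hu : τ.Valid dd (D.simple j) u) : τ.Valid dd (D.simple j) (t * u) := by
  rw [O.valid_iff' hφ hj] at *
  rw [iterate_map_mul, ht, hu]

theorem fix_add {j : ℕ} (hj : j < D.rank) {t u : K} (ht : τ.Valid dd (D.simple j) t)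
    (hu : τ.Valid dd (D.simple j) u) : τ.Valid dd (D.simple j) (t + u) := by
  rw [O.valid_iff' hφ hj] at *
  rw [iterate_map_add, ht, hu]

theorem fix_inv {j : ℕ} (hj : j < D.rank) {t : K} (ht : τ.Valid dd (D.simple j) t) :
    τ.Valid dd (D.simple j) t⁻¹ := by
  rw [O.valid_iff' hφ hj] at *
  have key : ∀ n, φ^[n] t⁻¹ = (φ^[n] t)⁻¹ := fun n => by
    induction n with
    | zero => rfl
    | succ n ih => rw [Function.iterate_succ_apply', Function.iterate_succ_apply', ih, map_inv₀]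
  rw [key, ht]

theorem fix_neg {j : ℕ} (hj : j < D.rank) {t : K} (ht : τ.Valid dd (D.simple j) t) :
    τ.Valid dd (D.simple j) (-t) := by
  rw [O.valid_iff' hφ hj] at *
  rw [iterate_map_neg, ht]

theorem nWord_fixed {j : ℕ} (hj : j < D.rank) {t : K} (ht : τ.Valid dd (D.simple j) t) :
    O.orbMap j (C.wg (D.nWord (D.simple j) t)) ∈ τ.fixed := by
  have hp := C.root.simple_lt j hj
  rw [O.orbMap_nWord hj]
  exact mul_mem (O.orbEl_fixed hp ht) (mul_mem (O.orbEl_fixed (C.root.neg_lt _ hp)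
    ((O.valid_negRoot hφ hj _).2 (O.fix_neg hφ hj (O.fix_inv hφ hj ht)))) (O.orbEl_fixed hp ht))

theorem hg_fixed {j : ℕ} (hj : j < D.rank) {t : K} (ht : τ.Valid dd (D.simple j) t) :
    O.orbMap j (C.hg (D.simple j) t) ∈ τ.fixed := by
  rw [C.hg_eq_nWord, O.orbMap_mul hj (O.nWord_mem_rankOne j t) (O.nWord_mem_rankOne j _)]
  exact mul_mem (O.nWord_fixed hφ hj ht) (O.nWord_fixed hφ hj (O.fix_neg hφ hj (O.valid_one hj)))

/-- The value of the character of `H_J(t)` on the root of `k`. -/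
def chi (_ : Orth τ dd) (_hφ : ∀ r, τ.f r = φ) (j k : ℕ) (t : K) : K :=
  ((List.range (τ.len dd (D.simple j))).map fun i =>
    (φ^[i] t) ^ D.cartan (τ.p^[i] j) (D.simple k)).prod

theorem hg_conj {j k : ℕ} (hj : j < D.rank) (hk : k < D.rank) {t : K} (ht : t ≠ 0) (u : K) :
    O.orbMap j (C.hg (D.simple j) t) * C.xg (D.simple k) u * (O.orbMap j (C.hg (D.simple j) t))⁻¹ =
      C.xg (D.simple k) (O.chi hφ j k t * u) := by
  have hiter : ∀ i, τ.act^[i] (C.hg (D.simple j) t) = C.hg (D.simple (τ.p^[i] j)) (φ^[i] t) ∧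
      φ^[i] t ≠ 0 := by
    intro i
    induction i with
    | zero => exact ⟨rfl, ht⟩
    | succ i ih =>
      refine ⟨?_, by rw [Function.iterate_succ_apply']; exact (map_ne_zero φ).2 ih.2⟩
      rw [Function.iterate_succ_apply', ih.1, τ.act_hg (C.root.simple_lt _ (τ.p_iter_lt hj i)) ih.2, hφ,
        τ.ρ_simple _ (τ.p_iter_lt hj i), Function.iterate_succ_apply', Function.iterate_succ_apply']
  have key : ∀ l : List ℕ, (l.map fun i => τ.act^[i] (C.hg (D.simple j) t)).prod * C.xg (D.simple k) u *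
      ((l.map fun i => τ.act^[i] (C.hg (D.simple j) t)).prod)⁻¹ =
        C.xg (D.simple k) ((l.map fun i => (φ^[i] t) ^ D.cartan (τ.p^[i] j) (D.simple k)).prod * u) := by
    intro l
    induction l with
    | nil => simp
    | cons i l ih =>
      simp only [List.map_cons, List.prod_cons, mul_inv_rev]
      rw [show ∀ a b x : GL D.Idx K, a * b * x * (b⁻¹ * a⁻¹) = a * (b * x * b⁻¹) * a⁻¹ from
        fun a b x => by group, ih, (hiter i).1,
        C.hg_xg (C.root.simple_lt _ (τ.p_iter_lt hj i)) (C.root.simple_lt k hk) (hiter i).2,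
        C.root.pair_simple (τ.p_iter_lt hj i), mul_assoc]
  exact key _

theorem hg_conj_orbEl {j k : ℕ} (hj : j < D.rank) (hk : k < D.rank) {t : K}
    (htv : τ.Valid dd (D.simple j) t) (ht : t ≠ 0) (u : K) :
    O.orbMap j (C.hg (D.simple j) t) * τ.orbEl dd (D.simple k) u *
      (O.orbMap j (C.hg (D.simple j) t))⁻¹ = τ.orbEl dd (D.simple k) (O.chi hφ j k t * u) := by
  rw [Twist.orbEl, ← τ.orbProd_conj (O.hg_fixed hφ hj htv) (C.xg_mem_group (C.root.simple_lt k hk) u),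
    O.hg_conj hφ hj hk ht]
  rfl

theorem chi_valid {j k : ℕ} (hj : j < D.rank) (hk : k < D.rank) {t : K}
    (htv : τ.Valid dd (D.simple j) t) (ht : t ≠ 0) {u : K} (hu : τ.Valid dd (D.simple k) u) :
    τ.Valid dd (D.simple k) (O.chi hφ j k t * u) := by
  have hp := C.root.pos_simple hk
  have h1 : τ.orbEl dd (D.simple k) (O.chi hφ j k t * u) ∈ τ.fixed := by
    rw [← O.hg_conj_orbEl hφ hj hk htv ht]
    exact mul_mem (mul_mem (O.hg_fixed hφ hj htv) (O.orbEl_fixed hp.1 hu)) (inv_mem (O.hg_fixed hφ hj htv))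
  obtain ⟨s, hs, e⟩ := O.fixed_orbit hp (O.orbEl_mem_pos hp _) h1
  rwa [O.orbEl_inj hp e]

/-- `θ` acts on the orbit elements of each node through `f`. -/
structure FrameT (θ : ↥τ.fixed ≃* ↥τ.fixed) (f : ℕ → K → K) : Prop where
  valid : ∀ j < D.rank, ∀ t, τ.Valid dd (D.simple j) t → τ.Valid dd (D.simple j) (f j t)
  pos : ∀ j < D.rank, ∀ t, τ.Valid dd (D.simple j) t → θ (O.xT j t) = O.xT j (f j t)
  sendsPos : ∀ j < D.rank, Sends θ (O.posX j) (O.posX j)
  neg : ∀ j < D.rank, Sends θ (O.negX j) (O.negX j)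

omit hφ in
theorem xT_eq_iff {j : ℕ} (hj : j < D.rank) {t u : K} (ht : τ.Valid dd (D.simple j) t)
    (hu : τ.Valid dd (D.simple j) u) : O.xT j t = O.xT j u ↔ t = u := by
  refine ⟨fun h => ?_, fun h => by rw [h]⟩
  have := congrArg Subtype.val h
  rw [O.coe_xT hj ht, O.coe_xT hj hu] at this
  exact O.orbEl_inj (C.root.pos_simple hj) this

variable {θ : ↥τ.fixed ≃* ↥τ.fixed} {f : ℕ → K → K} (H : O.FrameT θ f)
include H

theorem f_add {j : ℕ} (hj : j < D.rank) {t u : K} (ht : τ.Valid dd (D.simple j) t)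
    (hu : τ.Valid dd (D.simple j) u) : f j (t + u) = f j t + f j u := by
  have hp := C.root.simple_lt j hj
  have e : O.xT j (t + u) = O.xT j t * O.xT j u := Subtype.ext (by
    rw [Subgroup.coe_mul, O.coe_xT hj ht, O.coe_xT hj hu, O.coe_xT hj (O.fix_add hφ hj ht hu),
      O.orbEl_add hp])
  have e' := congrArg θ e
  rw [map_mul, H.pos j hj _ ht, H.pos j hj _ hu, H.pos j hj _ (O.fix_add hφ hj ht hu)] at e'
  have e'' := congrArg Subtype.val e'
  rw [Subgroup.coe_mul, O.coe_xT hj (H.valid j hj _ ht), O.coe_xT hj (H.valid j hj _ hu),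
    O.coe_xT hj (H.valid j hj _ (O.fix_add hφ hj ht hu)), ← O.orbEl_add hp] at e''
  exact O.orbEl_inj (C.root.pos_simple hj) e''

theorem f_zero {j : ℕ} (hj : j < D.rank) : f j 0 = 0 := by
  have h0 : τ.Valid dd (D.simple j) (0 : K) := by
    rw [O.valid_iff' hφ hj, iterate_map_zero]
  have h := O.f_add hφ H hj h0 h0
  rw [add_zero] at h
  exact left_eq_add.1 h

theorem f_inj {j : ℕ} (hj : j < D.rank) {t u : K} (ht : τ.Valid dd (D.simple j) t)
    (hu : τ.Valid dd (D.simple j) u) (h : f j t = f j u) : t = u := by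
  refine (O.xT_eq_iff hj ht hu).1 (θ.injective ?_)
  rw [H.pos j hj _ ht, H.pos j hj _ hu, h]

theorem f_ne {j : ℕ} (hj : j < D.rank) {t : K} (ht : τ.Valid dd (D.simple j) t) (h0 : t ≠ 0) :
    f j t ≠ 0 := fun h => h0 (O.f_inj hφ H hj ht
      (by rw [O.valid_iff' hφ hj, iterate_map_zero]) (h.trans (O.f_zero hφ H hj).symm))

theorem f_neg {j : ℕ} (hj : j < D.rank) {t : K} (ht : τ.Valid dd (D.simple j) t) :
    f j (-t) = -f j t := by
  have h := O.f_add hφ H hj ht (O.fix_neg hφ hj ht)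
  rw [add_neg_cancel, O.f_zero hφ H hj] at h
  linear_combination -h

/-- `θ` on `n_J(t)`. -/
theorem frame_nWord {j : ℕ} (hj : j < D.rank) {t : K} (ht : τ.Valid dd (D.simple j) t) (ht0 : t ≠ 0)
    {g : ↥τ.fixed} (hg : (g : GL D.Idx K) = O.orbMap j (C.wg (D.nWord (D.simple j) t))) :
    (θ g : GL D.Idx K) = O.orbMap j (C.wg (D.nWord (D.simple j) (f j t))) := by
  have hp := C.root.pos_simple hj
  have hn := C.root.neg_lt _ hp.1
  have hwm := O.wN_mem_monomial (K := K) hj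
  have hvi := (O.valid_negRoot hφ hj _).2 (O.fix_neg hφ hj (O.fix_inv hφ hj ht))
  set y : ↥τ.fixed := ⟨τ.orbEl dd (D.neg (D.simple j)) (-t⁻¹), O.orbEl_fixed hn hvi⟩ with hy
  have hgy : g = O.xT j t * (y * O.xT j t) := Subtype.ext (by
    rw [hg, O.orbMap_nWord hj, Subgroup.coe_mul, Subgroup.coe_mul, O.coe_xT hj ht])
  -- `g` carries the orbit group onto the opposite one
  have hgm : (g : GL D.Idx K) ∈ D.monomialSubgroup K := by
    rw [hg, O.orbMap_nWord_hg hj]
    exact mul_mem (C.diag_le_monomial (O.orbMap_hg_diag hj ht0)) hwm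
  have hsg : C.sg (g : GL D.Idx K) (D.simple j) ∈ O.orbit (D.neg (D.simple j)) := by
    rw [hg, O.orbMap_nWord_hg hj, C.sg_mul (C.diag_le_monomial (O.orbMap_hg_diag hj ht0)) hwm hp.1,
      C.sg_diag (O.orbMap_hg_diag hj ht0) (C.sg_lt hwm hp.1)]
    refine (O.orbit_neg hp.1).2 ⟨_, O.neg_refl_mem_orbit hj ⟨0, O.len_pos _, rfl⟩, ?_⟩
    exact (C.root.neg_neg' (C.sg_lt hwm hp.1)).symm
  have hmove : ∀ u, τ.Valid dd (D.simple j) u →
      (θ g : GL D.Idx K) * τ.orbEl dd (D.simple j) (f j u) * (θ g : GL D.Idx K)⁻¹ ∈ O.negX j := by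
    intro u hu
    have h1 : ((g * O.xT j u * g⁻¹ : ↥τ.fixed) : GL D.Idx K) ∈ O.negX j := by
      refine grp_mem_mono (O.conj_orbit hgm g.2 hp.1 (O.xT_mem hj hu)) ?_
      rintro s ⟨i, -, rfl⟩
      exact O.orbit_iter hn hsg i
    have h2 := (H.neg j hj _).2 h1
    rwa [map_mul, map_mul, map_inv, H.pos j hj _ hu, Subgroup.coe_mul, Subgroup.coe_mul,
      Subgroup.coe_inv, O.coe_xT hj (H.valid j hj _ hu)] at h2
  set x := f j t with hx
  have hxv := H.valid j hj _ ht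
  -- the image of `y`
  have hy1 : (θ y : GL D.Idx K) ∈ O.negX j := (H.neg j hj y).2 (O.orbEl_mem_grp hn _)
  obtain ⟨w, hw, hyw⟩ : ∃ w, τ.Valid dd (D.simple j) w ∧
      (θ y : GL D.Idx K) = τ.orbEl dd (D.neg (D.simple j)) w := by
    obtain ⟨c, hc, hcs⟩ := O.transport (O.wN_fixed hj) hwm hn
    have hpos : D.IsPosRoot (C.sg (τ.wN dd j) (D.neg (D.simple j))) := by
      rw [C.sg_neg hwm hp.1]
      exact O.orbit_pos hp _ (O.neg_refl_mem_orbit hj ⟨0, O.len_pos _, rfl⟩)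
    obtain ⟨s, hs, es⟩ := O.fixed_orbit hpos (O.conj_orbit hwm (O.wN_fixed hj) hn hy1)
      (mul_mem (mul_mem (O.wN_fixed hj) (θ y).2) (inv_mem (O.wN_fixed hj)))
    rw [show s = c * (c⁻¹ * s) by rw [mul_inv_cancel_left₀ hc]] at hs es
    refine ⟨c⁻¹ * s, (O.valid_negRoot hφ hj _).1 ((hcs _).1.1 hs), ?_⟩
    rw [(hcs _).2, mul_left_inj, mul_right_inj] at es
    exact es
  have hθg : (θ g : GL D.Idx K) = τ.orbEl dd (D.simple j) x *
      (τ.orbEl dd (D.neg (D.simple j)) w * τ.orbEl dd (D.simple j) x) := by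
    rw [hgy, map_mul, map_mul, H.pos j hj _ ht, Subgroup.coe_mul, Subgroup.coe_mul,
      O.coe_xT hj hxv, hyw]
  have hw0 : w ≠ 0 := by
    rintro rfl
    rw [O.orbEl_zero hn, OneMemClass.coe_eq_one, MulEquiv.map_eq_one_iff, Subtype.ext_iff] at hyw
    have h1 := O.orbEl_neg_split hj (a := -t⁻¹) (by simp [ht0])
    rw [show τ.orbEl dd (D.neg (D.simple j)) (-t⁻¹) = 1 from hyw] at h1
    have h2 : τ.wN dd j = (O.orbMap j (C.hg (D.simple j) (-(-t⁻¹)⁻¹)))⁻¹ *
        (τ.orbEl dd (D.simple j) (-t⁻¹)⁻¹ * τ.orbEl dd (D.simple j) (-t⁻¹)⁻¹)⁻¹ := by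
      rw [eq_inv_mul_iff_mul_eq, eq_comm, inv_eq_iff_mul_eq_one]
      calc _ = τ.orbEl dd (D.simple j) (-t⁻¹)⁻¹ * (τ.orbEl dd (D.simple j) (-t⁻¹)⁻¹ *
          (O.orbMap j (C.hg (D.simple j) (-(-t⁻¹)⁻¹)) * τ.wN dd j) *
            τ.orbEl dd (D.simple j) (-t⁻¹)⁻¹) * (τ.orbEl dd (D.simple j) (-t⁻¹)⁻¹)⁻¹ := by group
        _ = 1 := by rw [← h1]; group
    have hX : τ.orbEl dd (D.simple j) (-t⁻¹)⁻¹ ∈ D.borelSubgroup K :=
      Subgroup.mem_sup_left (O.posX_le_pos hj (O.orbEl_mem_grp hp.1 _))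
    have h3 : τ.wN dd j ∈ D.borelSubgroup K ⊓ D.monomialSubgroup K := Subgroup.mem_inf.2
      ⟨h2 ▸ mul_mem (inv_mem (Subgroup.mem_sup_right (O.orbMap_hg_diag hj (by simp [ht0]))))
        (inv_mem (mul_mem hX hX)), hwm⟩
    rw [C.borel_inf_monomial] at h3
    have h5 := (O.refl_neg_iff (K := K) hj hp).2 ⟨0, O.len_pos _, rfl⟩
    rw [C.sg_diag h3 hp.1] at h5
    exact C.not_pos_and_neg hp h5
  -- `θ g = x_a (h s) x_a`
  set a := x + w⁻¹ with ha
  have hav : τ.Valid dd (D.simple j) a := O.fix_add hφ hj hxv (O.fix_inv hφ hj hw)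
  set h₁ := O.orbMap j (C.hg (D.simple j) (-w⁻¹)) with hh₁
  have hh₁d : h₁ ∈ D.diagonalSubgroup K := O.orbMap_hg_diag hj (by simp [hw0])
  have hform : (θ g : GL D.Idx K) =
      τ.orbEl dd (D.simple j) a * (h₁ * τ.wN dd j) * τ.orbEl dd (D.simple j) a := by
    conv_rhs => lhs; rw [ha, O.orbEl_add hp.1]
    rw [ha, add_comm x w⁻¹, O.orbEl_add hp.1, hθg, O.orbEl_neg_split hj hw0, ← hh₁]
    group
  have ha0 : a = 0 := by
    by_contra hne
    -- apply the hypothesis to the parameter whose image is `X_{-j}(a⁻¹)`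
    have hms : h₁ * τ.wN dd j ∈ D.monomialSubgroup K := mul_mem (C.diag_le_monomial hh₁d) hwm
    have hmsf : h₁ * τ.wN dd j ∈ τ.fixed :=
      mul_mem (O.hg_fixed hφ hj (O.fix_neg hφ hj (O.fix_inv hφ hj hw))) (O.wN_fixed hj)
    set v := τ.orbEl dd (D.neg (D.simple j)) a⁻¹ with hv
    have hvf : v ∈ τ.fixed := O.orbEl_fixed hn ((O.valid_negRoot hφ hj _).2 (O.fix_inv hφ hj hav))
    have hu' : (h₁ * τ.wN dd j)⁻¹ * v * (h₁ * τ.wN dd j) ∈ O.posX j := by
      have h1 := O.conj_orbit (inv_mem hms) (inv_mem hmsf) hn (O.orbEl_mem_grp hn a⁻¹)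
      rw [inv_inv] at h1
      refine grp_mem_mono h1 ?_
      rintro s ⟨i, -, rfl⟩
      refine O.orbit_iter hp.1 ?_ i
      rw [mul_inv_rev, C.sg_mul (inv_mem hwm) (inv_mem (C.diag_le_monomial hh₁d)) hn,
        C.sg_diag (inv_mem hh₁d) hn, O.sg_wN_inv hj hn, C.sg_neg hwm hp.1]
      exact O.neg_refl_mem_orbit hj ⟨0, O.len_pos _, rfl⟩
    obtain ⟨u', hu'v, hu'e⟩ := O.fixed_orbit hp hu' (mul_mem (mul_mem (inv_mem hmsf) hvf) hmsf)
    obtain ⟨z, hz⟩ := θ.surjective (O.xT j u')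
    obtain ⟨u, hu, eu⟩ : ∃ u, τ.Valid dd (D.simple j) u ∧ f j u = u' := by
      have hzm : (z : GL D.Idx K) ∈ O.posX j := (H.sendsPos j hj z).1 (hz ▸ O.xT_mem hj hu'v)
      obtain ⟨u, hu, e⟩ := O.fixed_orbit hp hzm z.2
      obtain rfl : z = O.xT j u := Subtype.ext (e.trans (O.coe_xT hj hu).symm)
      rw [H.pos j hj _ hu] at hz
      exact ⟨u, hu, (O.xT_eq_iff hj (H.valid j hj _ hu) hu'v).1 hz⟩
    have h3 := hmove u hu
    rw [eu, hform] at h3
    have hc : τ.orbEl dd (D.simple j) a * τ.orbEl dd (D.simple j) u' *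
        (τ.orbEl dd (D.simple j) a)⁻¹ = τ.orbEl dd (D.simple j) u' := by
      rw [← O.orbEl_add hp.1, add_comm, O.orbEl_add hp.1, mul_inv_cancel_right]
    have h4 : τ.orbEl dd (D.simple j) a * v * (τ.orbEl dd (D.simple j) a)⁻¹ ∈ O.negX j := by
      convert h3 using 1
      calc _ = τ.orbEl dd (D.simple j) a * ((h₁ * τ.wN dd j) * τ.orbEl dd (D.simple j) u' *
            (h₁ * τ.wN dd j)⁻¹) * (τ.orbEl dd (D.simple j) a)⁻¹ := by rw [← hu'e]; group
        _ = τ.orbEl dd (D.simple j) a * ((h₁ * τ.wN dd j) * (τ.orbEl dd (D.simple j) a *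
            τ.orbEl dd (D.simple j) u' * (τ.orbEl dd (D.simple j) a)⁻¹) * (h₁ * τ.wN dd j)⁻¹) *
            (τ.orbEl dd (D.simple j) a)⁻¹ := by rw [hc]
        _ = _ := by group
    rw [hv, O.orbEl_neg_split hj (inv_ne_zero hne), inv_inv] at h4
    refine O.not_borel_of_wN hj (b := τ.orbEl dd (D.simple j) a * (τ.orbEl dd (D.simple j) a *
      O.orbMap j (C.hg (D.simple j) (-a)))) ?_ ?_
    · have hX : τ.orbEl dd (D.simple j) a ∈ D.borelSubgroup K :=
        Subgroup.mem_sup_left (O.posX_le_pos hj (O.orbEl_mem_grp hp.1 _))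
      exact mul_mem hX (mul_mem hX (Subgroup.mem_sup_right (O.orbMap_hg_diag hj (neg_ne_zero.2 hne))))
    · convert O.negX_le_neg hj h4 using 1
      group
  have hwx : w = -x⁻¹ := by
    rw [ha] at ha0
    rw [← inv_inv w, show w⁻¹ = -x by linear_combination ha0, inv_neg]
  rw [hθg, O.orbMap_nWord hj, hwx]

end Orth

end Cfsg.Agent.Lib.Chev
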