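import Cfsg.Agent.Lib.Chev.TwistAutOut
import Cfsg.Agent.Lib.Chev.OutTypes
import Cfsg.Agent.Lib.Chev.TwistOrder

/-!
The outer automorphism groups of `³D₄(q)` and `²E₆(q)`.
-/

set_option autoImplicit false
set_option linter.unusedSectionVars false

namespace Cfsg.Agent.Lib.Chev

open Cfsg.Lie Cfsg.Agent.Lib

namespace Orth

variable {D : ChevalleyDatum} {T : Fast} {C : Checked D T} {K : Type*} [Field K] {τ : Twist C K}
  {dd : ℕ} (O : Orth τ dd)
include O

theorem card_posX {j : ℕ} (hj : j < D.rank) :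
    Nat.card ((O.posX j).subgroupOf τ.fixed) = Nat.card {t : K // τ.Valid dd (D.simple j) t} := by
  have hp := C.root.pos_simple hj
  refine (Nat.card_eq_of_bijective (fun t : {t : K // τ.Valid dd (D.simple j) t} =>
    (⟨⟨_, O.orbEl_fixed hp.1 t.2⟩, O.orbEl_mem_grp hp.1 t.1⟩ : (O.posX j).subgroupOf τ.fixed))
    ⟨fun a b h => Subtype.ext (O.orbEl_inj hp (congrArg (fun x : (O.posX j).subgroupOf τ.fixed =>
      ((x : ↥τ.fixed) : GL D.Idx K)) h)), fun x => ?_⟩).symm
  obtain ⟨t, ht, e⟩ := O.fixed_orbit hp x.2 x.1.2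
  exact ⟨⟨t, ht⟩, Subtype.ext (Subtype.ext e.symm)⟩

theorem card_valid_eq_of_sends {θ : ↥τ.fixed ≃* ↥τ.fixed} {j k : ℕ} (hj : j < D.rank) (hk : k < D.rank)
    (h : Sends θ (O.posX j) (O.posX k)) :
    Nat.card {t : K // τ.Valid dd (D.simple j) t} = Nat.card {t : K // τ.Valid dd (D.simple k) t} := by
  rw [← O.card_posX hj, ← O.card_posX hk, ← h.map_eq,
    Subgroup.card_map_of_injective θ.injective]

theorem posX_iter {j : ℕ} (hj : j < D.rank) (i : ℕ) : O.posX (τ.p^[i] j) = O.posX j := by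
  unfold posX
  rw [O.orbit_simple_eq hj i]

/-- The orbit groups of two nodes commute elementwise. -/
def CommX (a b : ℕ) : Prop :=
  ∀ g h : ↥τ.fixed, (g : GL D.Idx K) ∈ O.posX a → (h : GL D.Idx K) ∈ O.posX b → Commute g h

theorem commX_sends {θ : ↥τ.fixed ≃* ↥τ.fixed} {a a' b b' : ℕ} (ha : Sends θ (O.posX a) (O.posX a'))
    (hb : Sends θ (O.posX b) (O.posX b')) : O.CommX a b ↔ O.CommX a' b' := by
  refine ⟨fun h g g' hg hg' => ?_, fun h g g' hg hg' => ?_⟩
  · have := (h _ _ ((ha.symm g).2 hg) ((hb.symm g').2 hg')).map θ.toMonoidHom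
    simpa using this
  · have := (h _ _ ((ha g).2 hg) ((hb g').2 hg')).map θ.symm.toMonoidHom
    simpa using this

theorem commX_of_chain {a b : ℕ} (ha : a < D.rank) (hb : b < D.rank)
    (h : ∀ r ∈ O.orbit (D.simple a), ∀ s ∈ O.orbit (D.simple b),
      D.chainEntry r s = [] ∧ D.chainEntry s r = []) : O.CommX a b := by
  intro g g' hg hg'
  have hpa := O.orbit_pos (C.root.pos_simple (X := T.aux) ha)
  have hpb := O.orbit_pos (C.root.pos_simple (X := T.aux) hb)
  have h1 : grp D K (O.orbit (D.simple a)) ≤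
      Subgroup.centralizer (grp D K (O.orbit (D.simple b)) : Set (GL D.Idx K)) := by
    refine C.grp_le fun r hr t => Subgroup.mem_centralizer_iff.2 fun x hx => ?_
    have hle : grp D K (O.orbit (D.simple b)) ≤ Subgroup.centralizer {C.xg r t} :=
      C.grp_le fun s hs u => by
        rw [Subgroup.mem_centralizer_singleton_iff]
        exact (C.commute_xg (hpb s hs).1 (hpa r hr).1 (h r hr s hs).2 (h r hr s hs).1
          (C.ne_neg_of_pos (hpb s hs) (hpa r hr)) u t).eq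
    exact Subgroup.mem_centralizer_singleton_iff.1 (hle hx)
  exact Subtype.ext (Subgroup.mem_centralizer_iff.1 (h1 hg) (g' : GL D.Idx K) hg').symm

variable {φ : K ≃+* K} (hφ : ∀ r, τ.f r = φ)
include hφ

theorem lin_p (hσ : ∀ (σ : K ≃+* K) (t : K), σ (φ t) = φ (σ t)) {θ : ↥τ.fixed ≃* ↥τ.fixed}
    {f : ℕ → K → K} (H : O.FrameT θ f) {j : ℕ} (hj : j < D.rank) {σ : K ≃+* K}
    (hlin : ∀ t, τ.Valid dd (D.simple j) t → f j t = f j 1 * σ t) :
    ∀ t, τ.Valid dd (D.simple (τ.p j)) t → f (τ.p j) t = f (τ.p j) 1 * σ t := by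
  have key : ∀ t, τ.Valid dd (D.simple j) t → f (τ.p j) (φ t) = φ (f j t) := fun t ht => by
    have hvf := H.valid j hj t ht
    have e : O.xT (τ.p j) (φ t) = O.xT j t := Subtype.ext (by
      rw [O.coe_xT (τ.p_lt j hj) (O.valid_p hφ hj ht), O.coe_xT hj ht, O.orbEl_p hφ hj ht])
    have e2 := congrArg θ e
    rw [H.pos _ (τ.p_lt j hj) _ (O.valid_p hφ hj ht), H.pos _ hj _ ht] at e2
    have e3 := congrArg Subtype.val e2
    rw [O.coe_xT (τ.p_lt j hj) (H.valid _ (τ.p_lt j hj) _ (O.valid_p hφ hj ht)), O.coe_xT hj hvf,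
      ← O.orbEl_p hφ hj hvf] at e3
    exact O.orbEl_inj (C.root.pos_simple (τ.p_lt j hj)) e3
  intro t ht
  obtain ⟨s, rfl⟩ := φ.surjective t
  have hs : τ.Valid dd (D.simple j) s := by
    rw [O.valid_iff' hφ (τ.p_lt j hj), O.len_p hφ hj, ← Function.iterate_succ_apply,
      Function.iterate_succ_apply'] at ht
    rw [O.valid_iff' hφ hj]
    exact φ.injective ht
  have h1 := key 1 (O.valid_one hj)
  rw [map_one] at h1
  rw [key s hs, hlin s hs, h1, map_mul, hσ]

/-- `U` is a Sylow subgroup of the fixed points. -/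
theorem exists_sylow [Finite K] {p : ℕ} [Fact p.Prime] {e N : ℕ}
    (hU : Nat.card ↥(D.posUnipotent K ⊓ τ.fixed) = (p ^ e) ^ N) (hpc : ¬ p ∣ Nat.card ↥τ.fixed / (p ^ e) ^ N) :
    ∃ P : Sylow p ↥τ.fixed, (P : Subgroup ↥τ.fixed) = (D.posUnipotent K).subgroupOf τ.fixed := by
  have hc : Nat.card ↥((D.posUnipotent K).subgroupOf τ.fixed) = (p ^ e) ^ N := by
    rw [← hU, ← Subgroup.inf_subgroupOf_right]
    exact Nat.card_congr (Subgroup.subgroupOfEquivOfLe inf_le_right).toEquiv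
  have hp : IsPGroup p ↥((D.posUnipotent K).subgroupOf τ.fixed) :=
    IsPGroup.of_card (n := e * N) (by rw [hc, pow_mul])
  refine ⟨hp.toSylow ?_, rfl⟩
  have h := Subgroup.card_mul_index ((D.posUnipotent K).subgroupOf τ.fixed)
  rw [hc] at h
  rwa [← h, Nat.mul_div_cancel_left _ (pow_pos (pow_pos (Fact.out : p.Prime).pos _) _)] at hpc

end Orth

namespace Twist

variable {D : ChevalleyDatum} {T : Fast} {C : Checked D T} {K : Type*} [Field K] (τ : Twist C K)

theorem card_fixVec {φ : K ≃+* K} (hφ : ∀ r, τ.f r = φ) {pinv : Fin D.rank → Fin D.rank}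
    (hpinv : ∀ i, τ.p (pinv i).1 = i.1) :
    Nat.card (τ.FixVec φ) = Nat.card {c : Fin D.rank → Kˣ // τ.torMap pinv c = c} := by
  refine Nat.card_congr (Equiv.subtypeEquivRight fun c => ⟨fun h => funext fun i => Units.ext ?_, fun h j => ?_⟩)
  · show τ.f (D.simple (pinv i)) (c (pinv i) : K) = (c i : K)
    rw [hφ, h (pinv i), show (⟨τ.p (pinv i).1, τ.p_lt _ (pinv i).2⟩ : Fin D.rank) = i from Fin.ext (hpinv i)]
  · have h1 : τ.f (D.simple (pinv ⟨τ.p j, τ.p_lt j j.2⟩)) (c (pinv ⟨τ.p j, τ.p_lt j j.2⟩) : K) =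
        (c ⟨τ.p j, τ.p_lt j j.2⟩ : K) := congrArg Units.val (congrFun h ⟨τ.p j, τ.p_lt j j.2⟩)
    rwa [hφ, show pinv ⟨τ.p j, τ.p_lt j j.2⟩ = j from
      Fin.ext (τ.p_inj _ (pinv _).2 _ j.2 (hpinv _))] at h1

end Twist

section

variable {K : Type*} [Field K]

theorem commute_frob {φ : K ≃+* K} {q : ℕ} (hφ : ∀ t, φ t = t ^ q) (σ : K ≃+* K) (t : K) :
    σ (φ t) = φ (σ t) := by rw [hφ, hφ, map_pow]

theorem card_fixed_units [Fintype K] {φ : K ≃+* K} {q d : ℕ} (hφ : ∀ t, φ t = t ^ q) (hq : 1 ≤ q)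
    (hK : Fintype.card K = q ^ d) : Nat.card {u : Kˣ // φ (u : K) = u} = q - 1 := by
  rw [← card_frob_units hK]
  refine Nat.card_congr (Equiv.subtypeEquivRight fun u => ?_)
  rw [MonoidHom.mem_ker, powMonoidHom_apply, hφ, ← Units.val_inj, Units.val_pow_eq_pow_val, Units.val_one,
    ← mul_eq_right₀ (Units.ne_zero u), ← pow_succ, Nat.sub_add_cancel hq]

theorem not_dvd_pred {p q k : ℕ} [Fact p.Prime] (hpq : p ∣ q) (hq : 2 ≤ q) (hk : k ≠ 0) :
    ¬ p ∣ q ^ k - 1 := fun h => by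
  have h1 : p ∣ q ^ k := hpq.trans (dvd_pow_self q hk)
  have h2 := Nat.dvd_sub h1 h
  rw [Nat.sub_sub_self (Nat.one_le_pow _ _ (by omega))] at h2
  exact (Fact.out : p.Prime).one_lt.ne' (Nat.dvd_one.1 h2)

theorem not_dvd_of_mod {p q m : ℕ} (hp : p.Prime) (hq : p ∣ q) (h : m ≡ 1 [MOD q]) : ¬ p ∣ m := by
  intro hm
  have := (h.of_dvd hq).dvd_iff (dvd_refl p)
  exact hp.one_lt.ne' (Nat.dvd_one.1 (this.1 hm))

end

namespace D4

variable {K : Type*} [Field K] {q : ℕ} (φ : K ≃+* K) (hφ : ∀ t, φ t = t ^ q)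
include hφ

omit hφ in
theorem chi_eq (t : K) :
    (tw_orth φ).chi (fun _ => rfl) 0 0 t = t ^ 2 ∧ (tw_orth φ).chi (fun _ => rfl) 1 0 t = t⁻¹ := by
  have hp0 : sym.p 0 = 2 := (node_check 0 (by norm_num)).1
  have hp2 : sym.p 2 = 3 := (node_check 2 (by norm_num)).1
  constructor
  · show ((List.range ((tw φ).len 3 (chevD4.simple 0))).map
      fun i => (φ^[i] t) ^ chevD4.cartan (sym.p^[i] 0) (chevD4.simple 0)).prod = _
    rw [len_simple φ (by norm_num)]
    show ((List.range 3).map fun i => (φ^[i] t) ^ chevD4.cartan (sym.p^[i] 0) (chevD4.simple 0)).prod = _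
    simp [List.range_succ, hp0, hp2, cartan_check]
  · show ((List.range ((tw φ).len 3 (chevD4.simple 1))).map
      fun i => (φ^[i] t) ^ chevD4.cartan (sym.p^[i] 1) (chevD4.simple 0)).prod = _
    rw [len_simple φ (by norm_num)]
    show ((List.range 1).map fun i => (φ^[i] t) ^ chevD4.cartan (sym.p^[i] 1) (chevD4.simple 0)).prod = _
    simp [List.range_succ, cartan_check]

theorem card_out [Fintype K] (hq : 2 ≤ q) (hK : Fintype.card K = q ^ 3) (p f : ℕ) [Fact p.Prime]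
    (hqp : q = p ^ f) (hf : 1 ≤ f) : Nat.card (Cfsg.Out ↥(twistedD4 K q)) = 3 * f := by
  classical
  have O := tw_orth φ
  have hper : ∀ t : K, φ^[3] t = t := frob_per hφ hK
  have hrk : ∀ j, j < chevD4.rank → j < 4 := fun j hj => rank_eq ▸ hj
  have hU := card_unipotent φ hφ (by omega) hK
  have hG := card_twisted φ hφ hq hK
  have hD := card_diag φ hφ hq hK
  rw [eq_fixed φ hφ hK] at hU hG hD
  obtain ⟨P, hP⟩ := O.exists_sylow (φ := φ) (fun _ => rfl) (p := p) (e := f) (N := 12) (by rw [hU, hqp])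
    (by
      rw [hG, ← hqp, Nat.mul_assoc, Nat.mul_assoc, Nat.mul_div_cancel_left _ (pow_pos (by omega) _)]
      have hpq : p ∣ q := hqp ▸ dvd_pow_self p (by omega)
      refine fun h => ?_
      rcases (Fact.out : p.Prime).dvd_mul.1 h with h | h
      · exact not_dvd_pred hpq hq (k := 2) (by norm_num) h
      rcases (Fact.out : p.Prime).dvd_mul.1 h with h | h
      · exact not_dvd_pred hpq hq (k := 6) (by norm_num) h
      · refine not_dvd_of_mod (Fact.out : p.Prime) hpq ?_ h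
        show _ % q = _ % q
        rw [Nat.add_mod, Nat.add_mod (q ^ 8), Nat.pow_mod q 8, Nat.pow_mod q 4, Nat.mod_self]
        simp)
  have hlen : ∀ j < chevD4.rank, (tw φ).len 3 (chevD4.simple j) = if j = 1 then 1 else 3 :=
    fun j hj => len_simple φ (hrk j hj)
  have hcard := card_valid_simple φ hφ (by omega) hK
  have hrep : ∀ j < chevD4.rank, O.posX j = O.posX (if j = 1 then 1 else 0) := by
    intro j hj
    have hj' := hrk j hj
    have e1 := O.posX_iter (show 0 < chevD4.rank by decide +kernel) 1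
    have e2 := O.posX_iter (show 0 < chevD4.rank by decide +kernel) 2
    rw [show (tw φ).p^[1] 0 = 2 from (node_check 0 (by norm_num)).1] at e1
    rw [show (tw φ).p^[2] 0 = 3 from by
      show sym.p (sym.p 0) = 3
      rw [(node_check 0 (by norm_num)).1]; exact (node_check 2 (by norm_num)).1] at e2
    interval_cases j <;> simp [e1, e2]
  have hid : ∀ θ ∈ (tw φ).stabT, ∀ j < chevD4.rank, Sends θ (O.posX j) (O.posX j) := by
    intro θ hθ j hj
    obtain ⟨k, hk, hs⟩ := O.exists_posX_map hθ.1 hθ.2 hj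
    have h1 := O.card_valid_eq_of_sends hj hk hs
    rw [hcard j hj, hcard k hk, Nat.pow_right_injective hq |>.eq_iff, hlen j hj, hlen k hk] at h1
    have e : O.posX k = O.posX j := by
      rw [hrep j hj, hrep k hk]
      by_cases a : j = 1 <;> by_cases b : k = 1 <;> simp_all
    rwa [e] at hs
  have hj0 : 0 < chevD4.rank := by decide +kernel
  have hj1 : 1 < chevD4.rank := by decide +kernel
  have hall : ∀ t : K, (tw φ).Valid 3 (chevD4.simple 0) t := fun t => by
    rw [O.valid_iff' (φ := φ) (fun _ => rfl) hj0, hlen 0 hj0]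
    exact hper t
  have hlin : ∀ θ g, O.FrameT θ g → ∃ σ : K ≃+* K, ∀ j < chevD4.rank, ∀ t,
      (tw φ).Valid 3 (chevD4.simple j) t → g j t = g j 1 * σ t := by
    intro θ g H
    obtain ⟨σ, h0⟩ := O.lin_root (φ := φ) (fun _ => rfl) H hj0 hall fun t => (chi_eq φ t).1
    have h1 := O.lin_step (φ := φ) (fun _ => rfl) H hj1 hj0 (fun t _ => (chi_eq φ t).2) fun t _ => h0 t
    have h2 := O.lin_p (φ := φ) (fun _ => rfl) (commute_frob hφ) H hj0 fun t _ => h0 t
    rw [show (tw φ).p 0 = 2 from (node_check 0 (by norm_num)).1] at h2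
    have h3 := O.lin_p (φ := φ) (fun _ => rfl) (commute_frob hφ) H (show 2 < chevD4.rank by decide +kernel) h2
    rw [show (tw φ).p 2 = 3 from (node_check 2 (by norm_num)).1] at h3
    refine ⟨σ, fun j hj => ?_⟩
    have hj' := hrk j hj
    interval_cases j
    exacts [fun t _ => h0 t, h1, h2, h3]
  have h := O.card_outT (φ := φ) (fun _ => rfl) p P hP (commute_frob hφ) hid hlin hj0 hall
  rw [hD, card_ringAut p (3 * f) (by rw [hK, hqp, ← pow_mul, mul_comm])] at h
  have hA : Nat.card ((tw φ).FixVec φ) = (q ^ 3 - 1) * (q - 1) := by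
    let g : Kˣ × {b : Kˣ // φ (b : K) = b} → {c : Fin chevD4.rank → Kˣ // (tw φ).torMap pinv c = c} :=
      fun x => ⟨torVec φ x.1 x.2.1, (fixed_iff φ hper _).2 ⟨x.1, x.2.1, x.2.2, rfl⟩⟩
    have hg : Function.Bijective g := by
      refine ⟨fun x y h => ?_, fun c => ?_⟩
      · have h' := congrArg Subtype.val h
        exact Prod.ext (congrFun h' ⟨0, hj0⟩) (Subtype.ext (congrFun h' ⟨1, hj1⟩))
      · obtain ⟨a, b, hb, e⟩ := (fixed_iff φ hper c.1).1 c.2
        exact ⟨(a, ⟨b, hb⟩), Subtype.ext e.symm⟩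
    rw [(tw φ).card_fixVec (φ := φ) (fun _ => rfl) (pinv_spec φ), ← Nat.card_eq_of_bijective g hg, Nat.card_prod,
      card_fixed_units hφ (by omega) hK, Nat.card_eq_fintype_card,
      Fintype.card_units, hK]
  rw [hA] at h
  rw [eq_fixed φ hφ hK]
  have hpos : 0 < (q - 1) ^ 2 * (q ^ 2 + q + 1) := Nat.mul_pos (pow_pos (by omega) _) (by omega)
  apply Nat.eq_of_mul_eq_mul_right hpos
  rw [h]
  have e : q ^ 3 - 1 = (q - 1) * (q ^ 2 + q + 1) := by
    obtain ⟨k, rfl⟩ : ∃ k, q = k + 1 := ⟨q - 1, by omega⟩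
    rw [Nat.add_sub_cancel, show (k + 1) ^ 3 = k * ((k + 1) ^ 2 + (k + 1) + 1) + 1 by ring, Nat.add_sub_cancel]
  rw [e]
  ring

end D4

namespace E6

variable {K : Type*} [Field K] {q : ℕ} (φ : K ≃+* K) (hφ : ∀ t, φ t = t ^ q)
include hφ

omit hφ in
theorem tw_p : (tw φ).p = sym.p := rfl

omit hφ in
theorem chi_eq (t : K) :
    (tw_orth φ).chi (fun _ => rfl) 2 2 t = t ^ 2 ∧ (tw_orth φ).chi (fun _ => rfl) 0 2 t = t⁻¹ ∧
      (tw_orth φ).chi (fun _ => rfl) 3 2 t = t⁻¹ ∧ (tw_orth φ).chi (fun _ => rfl) 1 3 t = t⁻¹ := by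
  have key : ∀ j k, j < 6 → (tw_orth φ).chi (fun _ => rfl) j k t =
      ((List.range (if j = 1 ∨ j = 3 then 1 else 2)).map
        fun i => (φ^[i] t) ^ chevE6.cartan (sym.p^[i] j) (chevE6.simple k)).prod := by
    intro j k hj
    show ((List.range ((tw φ).len 2 (chevE6.simple j))).map
      fun i => (φ^[i] t) ^ chevE6.cartan (sym.p^[i] j) (chevE6.simple k)).prod = _
    rw [len_simple φ hj]
  have hp0 : sym.p 0 = 5 := (node_check 0 (by norm_num)).1
  have hp2 : sym.p 2 = 4 := (node_check 2 (by norm_num)).1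
  refine ⟨?_, ?_, ?_, ?_⟩ <;> rw [key _ _ (by norm_num)] <;>
    simp [List.range_succ, hp0, hp2, cartan_check]

/-- The orbit groups of the nodes `3` and `2` do not commute. -/
theorem not_commX : ¬ (tw_orth φ).CommX 3 2 := by
  intro h
  have O := tw_orth φ
  have hr : ∀ j < 6, j < chevE6.rank := fun j hj => rank_eq ▸ hj
  have h3 := hr 3 (by norm_num)
  have h2 := hr 2 (by norm_num)
  have hc := congrArg Subtype.val (h (O.xT 3 1) (O.xT 2 1)
    (by rw [O.coe_xT h3 (O.valid_one h3)]; exact O.orbEl_mem_grp (E6.checked.root.pos_simple h3).1 1)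
    (by rw [O.coe_xT h2 (O.valid_one h2)]; exact O.orbEl_mem_grp (E6.checked.root.pos_simple h2).1 1)).eq
  rw [Subgroup.coe_mul, Subgroup.coe_mul, O.coe_xT h3 (O.valid_one h3), O.coe_xT h2 (O.valid_one h2),
    (orbEl_word φ hφ (show 3 < 6 by norm_num) 1).1, (orbEl_word φ hφ (show 2 < 6 by norm_num) 1).1] at hc
  have e : chevE6.simple 3 = 39 ∧ chevE6.simple 2 = 42 ∧ chevE6.simple (sym.p 2) = 37 ∧
      chevE6.neg 39 ≠ 42 ∧ chevE6.neg 39 ≠ 37 ∧ chevE6.neg 37 ≠ 40 ∧ 43 < chevE6.nroots ∧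
      decode (E6.fast.code 37 40) = [] ∧ decode (E6.fast.code 40 37) = [] := by decide +kernel
  obtain ⟨e3, e2, e4, n1, n2, n3, hn, c1, c2⟩ := e
  have lt : ∀ r, r ≤ 43 → r < chevE6.nroots := fun r hr => by omega
  rw [← E6.checked.tables.chain 37 (lt _ (by norm_num)) 40 (lt _ (by norm_num))] at c1
  rw [← E6.checked.tables.chain 40 (lt _ (by norm_num)) 37 (lt _ (by norm_num))] at c2
  have et : E6.fast.commT 39 42 = [(43, 1, 1, 1)] ∧ E6.fast.commT 39 37 = [(40, -1, 1, 1)] := by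
    decide +kernel
  have f1 := E6.checked.comm (F := K) (r := 39) (s := 42) (lt _ (by norm_num)) (lt _ (by norm_num))
    (by norm_num) n1.symm 1 1
  have f2 := E6.checked.comm (F := K) (r := 39) (s := 37) (lt _ (by norm_num)) (lt _ (by norm_num))
    (by norm_num) n2.symm 1 1
  rw [ChevalleyDatum.commWord, ← E6.checked.commT_eq (lt _ (by norm_num)) (lt _ (by norm_num)), et.1] at f1
  rw [ChevalleyDatum.commWord, ← E6.checked.commT_eq (lt _ (by norm_num)) (lt _ (by norm_num)), et.2] at f2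
  simp [Checked.wg_cons, Checked.wg_nil, e2, e3, e4] at hc f1 f2
  have hcom := (E6.checked.commute_xg (lt 37 (by norm_num)) (lt 40 (by norm_num)) c1 c2 n3.symm
    (1 : K) 1).eq
  -- `hc` : `a (b c) = (b c) a`, `f1` : `b a = a b W`, `f2` : `c a = a c W'`
  have hWW : E6.checked.xg 43 (-1 : K) * E6.checked.xg 40 (1 : K) = 1 := by
    have h1 : E6.checked.xg 42 (1 : K) * E6.checked.xg 37 1 * E6.checked.xg 39 1 =
        E6.checked.xg 39 1 * E6.checked.xg 42 1 *
          (E6.checked.xg 43 (-1) * E6.checked.xg 40 1 * E6.checked.xg 37 1) := by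
      calc _ = E6.checked.xg 42 (1 : K) * (E6.checked.xg 37 1 * E6.checked.xg 39 1) := mul_assoc _ _ _
        _ = E6.checked.xg 42 (1 : K) * E6.checked.xg 39 1 *
            (E6.checked.xg 37 1 * E6.checked.xg 40 1) := by rw [f2]; simp only [mul_assoc]
        _ = _ := by rw [f1, hcom]; simp only [mul_assoc]
    rw [← hc, ← mul_assoc] at h1
    exact mul_eq_right.1 (mul_left_cancel h1).symm
  refine neg_ne_zero.2 one_ne_zero (E6.checked.eq_zero_of_xg_eq (F := K) (lt 43 le_rfl)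
    (lt 40 (by norm_num)) (by norm_num) (a := -1) (b := -1) ?_)
  rw [eq_inv_of_mul_eq_one_left hWW, E6.checked.xg_inv]

theorem card_out [Fintype K] (hq : 2 ≤ q) (hK : Fintype.card K = q ^ 2) (p f : ℕ) [Fact p.Prime]
    (hqp : q = p ^ f) (hf : 1 ≤ f) :
    Nat.card (Cfsg.Out ↥(twistedE6 K q)) = 2 * Nat.gcd 3 (q + 1) * f := by
  classical
  have O := tw_orth φ
  have hper : ∀ t : K, φ^[2] t = t := frob_per hφ hK
  have hrk : ∀ j, j < chevE6.rank → j < 6 := fun j hj => rank_eq ▸ hj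
  have hr : ∀ j < 6, j < chevE6.rank := fun j hj => rank_eq ▸ hj
  have hpq : p ∣ q := hqp ▸ dvd_pow_self p (by omega)
  have hU := card_unipotent φ hφ (by omega) hK
  have hG := card_twisted φ hφ hq hK
  have hD := card_diag φ hφ hq hK
  rw [eq_fixed φ hφ hK] at hU hG hD
  have hdvd : q ^ 36 ∣ Nat.card ↥(tw φ).fixed :=
    hU ▸ Subgroup.card_dvd_of_le inf_le_right
  obtain ⟨k, hk⟩ := hdvd
  obtain ⟨P, hP⟩ := O.exists_sylow (φ := φ) (fun _ => rfl) (p := p) (e := f) (N := 36) (by rw [hU, hqp])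
    (by
      rw [hk, hqp, Nat.mul_div_cancel_left _ (pow_pos (pow_pos (Fact.out : p.Prime).pos _) _)]
      simp only [hk, mul_assoc] at hG
      rw [mul_left_comm] at hG
      have hM := Nat.eq_of_mul_eq_mul_left (pow_pos (show 0 < q by omega) _) hG
      intro h
      have h' : p ∣ _ := hM ▸ dvd_mul_of_dvd_right h (Nat.gcd 3 (q + 1))
      have hsucc : ∀ k, k ≠ 0 → ¬ p ∣ q ^ k + 1 := fun k hk0 hd => by
        have := (Nat.dvd_add_right (hpq.trans (dvd_pow_self q hk0))).1 hd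
        exact (Fact.out : p.Prime).one_lt.ne' (Nat.dvd_one.1 this)
      rcases (Fact.out : p.Prime).dvd_mul.1 h' with h' | h'
      · exact not_dvd_pred hpq hq (k := 2) (by norm_num) h'
      rcases (Fact.out : p.Prime).dvd_mul.1 h' with h' | h'
      · exact hsucc 5 (by norm_num) h'
      rcases (Fact.out : p.Prime).dvd_mul.1 h' with h' | h'
      · exact not_dvd_pred hpq hq (k := 6) (by norm_num) h'
      rcases (Fact.out : p.Prime).dvd_mul.1 h' with h' | h'
      · exact not_dvd_pred hpq hq (k := 8) (by norm_num) h'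
      rcases (Fact.out : p.Prime).dvd_mul.1 h' with h' | h'
      · exact hsucc 9 (by norm_num) h'
      · exact not_dvd_pred hpq hq (k := 12) (by norm_num) h')
  have hlen : ∀ j < chevE6.rank, (tw φ).len 2 (chevE6.simple j) = if j = 1 ∨ j = 3 then 1 else 2 :=
    fun j hj => len_simple φ (hrk j hj)
  have hcard := card_valid_simple φ hφ (by omega) hK
  have e5 : O.posX 5 = O.posX 0 := by
    have e := O.posX_iter (hr 0 (by norm_num)) 1
    rw [Function.iterate_one, tw_p φ, (node_check 0 (by norm_num)).1] at e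
    exact e
  have e4 : O.posX 4 = O.posX 2 := by
    have e := O.posX_iter (hr 2 (by norm_num)) 1
    rw [Function.iterate_one, tw_p φ, (node_check 2 (by norm_num)).1] at e
    exact e
  have hchain : ∀ r s, (r, s) ∈ [(1, 2), (1, 0), (3, 0)] → O.CommX r s := by
    intro r s hrs
    have hb : r < chevE6.rank ∧ s < chevE6.rank := by
      simp only [List.mem_cons, List.not_mem_nil, or_false, Prod.mk.injEq] at hrs
      rcases hrs with ⟨rfl, rfl⟩ | ⟨rfl, rfl⟩ | ⟨rfl, rfl⟩ <;>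
        exact ⟨hr _ (by norm_num), hr _ (by norm_num)⟩
    refine O.commX_of_chain hb.1 hb.2 fun a ha b hb' => ?_
    obtain ⟨i, hi, rfl⟩ := ha
    obtain ⟨l, hl, rfl⟩ := hb'
    rw [(tw φ).ρ_iter_simple hb.1, (tw φ).ρ_iter_simple hb.2]
    have hck : ∀ rs ∈ [(1, 2), (1, 0), (3, 0)], ∀ i < 2, ∀ l < 2,
        decode (E6.fast.code (E6.fast.sp (sym.p^[i] rs.1)) (E6.fast.sp (sym.p^[l] rs.2))) = [] ∧
        decode (E6.fast.code (E6.fast.sp (sym.p^[l] rs.2)) (E6.fast.sp (sym.p^[i] rs.1))) = [] := by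
      decide +kernel
    have hi' := hi.trans_le (O.len_le _)
    have hl' := hl.trans_le (O.len_le _)
    have ri := (tw φ).p_iter_lt hb.1 i
    have rl := (tw φ).p_iter_lt hb.2 l
    have si := E6.checked.root.simple_lt _ ri
    have sl := E6.checked.root.simple_lt _ rl
    rw [E6.checked.tables.chain _ si _ sl, E6.checked.tables.chain _ sl _ si,
      E6.checked.tables.simple _ ri, E6.checked.tables.simple _ rl]
    exact hck (r, s) hrs i hi' l hl' 
  have hid : ∀ θ ∈ (tw φ).stabT, ∀ j < chevE6.rank, Sends θ (O.posX j) (O.posX j) := by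
    intro θ hθ
    have img : ∀ j, j < chevE6.rank → ∃ k, (k = 0 ∨ k = 1 ∨ k = 2 ∨ k = 3) ∧
        ((k = 1 ∨ k = 3) ↔ (j = 1 ∨ j = 3)) ∧ Sends θ (O.posX j) (O.posX k) := by
      intro j hj
      obtain ⟨k, hk, hs⟩ := O.exists_posX_map hθ.1 hθ.2 hj
      have h1 := O.card_valid_eq_of_sends hj hk hs
      rw [hcard j hj, hcard k hk, Nat.pow_right_injective hq |>.eq_iff, hlen j hj, hlen k hk] at h1
      have hk' := hrk k hk
      have h2 : (k = 1 ∨ k = 3) ↔ (j = 1 ∨ j = 3) := by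
        by_cases a : j = 1 ∨ j = 3 <;> by_cases b : k = 1 ∨ k = 3 <;> simp_all
      interval_cases k
      · exact ⟨0, by norm_num, h2, hs⟩
      · exact ⟨1, by norm_num, h2, hs⟩
      · exact ⟨2, by norm_num, h2, hs⟩
      · exact ⟨3, by norm_num, h2, hs⟩
      · exact ⟨2, by norm_num, by simpa using h2, e4 ▸ hs⟩
      · exact ⟨0, by norm_num, by simpa using h2, e5 ▸ hs⟩
    obtain ⟨k0, m0, l0, s0⟩ := img 0 (hr 0 (by norm_num))
    obtain ⟨k1, m1, l1, s1⟩ := img 1 (hr 1 (by norm_num))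
    obtain ⟨k2, m2, l2, s2⟩ := img 2 (hr 2 (by norm_num))
    obtain ⟨k3, m3, l3, s3⟩ := img 3 (hr 3 (by norm_num))
    have n32 : ¬ O.CommX k3 k2 := fun h => not_commX φ hφ ((O.commX_sends s3 s2).2 h)
    have c12 : O.CommX k1 k2 := (O.commX_sends s1 s2).1 (hchain 1 2 (by simp))
    have c30 : O.CommX k3 k0 := (O.commX_sends s3 s0).1 (hchain 3 0 (by simp))
    have g32 : k3 = 3 ∧ k2 = 2 := by
      rcases m3 with rfl | rfl | rfl | rfl <;> rcases m2 with rfl | rfl | rfl | rfl <;>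
        first
          | exact ⟨rfl, rfl⟩
          | (simp at l3 l2; done)
          | exact absurd (hchain _ _ (by simp)) n32
    obtain ⟨rfl, rfl⟩ := g32
    have g1 : k1 = 1 := by
      rcases m1 with rfl | rfl | rfl | rfl
      exacts [by simp at l1, rfl, by simp at l1, absurd c12 (not_commX φ hφ)]
    have g0 : k0 = 0 := by
      rcases m0 with rfl | rfl | rfl | rfl
      exacts [rfl, by simp at l0, absurd c30 (not_commX φ hφ), by simp at l0]
    subst g1 g0
    intro j hj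
    have hj' := hrk j hj
    interval_cases j
    exacts [s0, s1, s2, s3, e4.symm ▸ s2, e5.symm ▸ s0]
  have hj2 := hr 2 (by norm_num)
  have hall : ∀ t : K, (tw φ).Valid 2 (chevE6.simple 2) t := fun t => by
    rw [O.valid_iff' (φ := φ) (fun _ => rfl) hj2, hlen 2 hj2]
    exact hper t
  have hlin : ∀ θ g, O.FrameT θ g → ∃ σ : K ≃+* K, ∀ j < chevE6.rank, ∀ t,
      (tw φ).Valid 2 (chevE6.simple j) t → g j t = g j 1 * σ t := by
    intro θ g H
    obtain ⟨σ, h2⟩ := O.lin_root (φ := φ) (fun _ => rfl) H hj2 hall fun t => (chi_eq φ t).1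
    have h0 := O.lin_step (φ := φ) (fun _ => rfl) H (hr 0 (by norm_num)) hj2
      (fun t _ => (chi_eq φ t).2.1) fun t _ => h2 t
    have h3 := O.lin_step (φ := φ) (fun _ => rfl) H (hr 3 (by norm_num)) hj2
      (fun t _ => (chi_eq φ t).2.2.1) fun t _ => h2 t
    have h1 := O.lin_step (φ := φ) (fun _ => rfl) H (hr 1 (by norm_num)) (hr 3 (by norm_num))
      (fun t _ => (chi_eq φ t).2.2.2) h3
    have h4 := O.lin_p (φ := φ) (fun _ => rfl) (commute_frob hφ) H hj2 fun t _ => h2 t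
    rw [tw_p φ, (node_check 2 (by norm_num)).1] at h4
    have h5 := O.lin_p (φ := φ) (fun _ => rfl) (commute_frob hφ) H (hr 0 (by norm_num)) h0
    rw [tw_p φ, (node_check 0 (by norm_num)).1] at h5
    refine ⟨σ, fun j hj => ?_⟩
    have hj' := hrk j hj
    interval_cases j
    exacts [h0, h1, fun t _ => h2 t, h3, h4, h5]
  have h := O.card_outT (φ := φ) (fun _ => rfl) p P hP (commute_frob hφ) hid hlin hj2 hall
  rw [card_ringAut p (2 * f) (by rw [hK, hqp, ← pow_mul, mul_comm])] at h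
  have hA : Nat.card ((tw φ).FixVec φ) = (q - 1) ^ 4 * (q + 1) ^ 2 := by
    let g : (Kˣ × Kˣ) × ({b : Kˣ // φ (b : K) = b} × {b : Kˣ // φ (b : K) = b}) →
        {c : Fin chevE6.rank → Kˣ // (tw φ).torMap pinv c = c} := fun x =>
      ⟨torVec φ (x.1, (x.2.1.1, x.2.2.1)),
        (fixed_iff φ hper _).2 ⟨x.1.1, x.1.2, x.2.1.1, x.2.2.1, x.2.1.2, x.2.2.2, rfl⟩⟩
    have hg : Function.Bijective g := by
      refine ⟨fun x y h => ?_, fun c => ?_⟩
      · have h' := congrArg Subtype.val h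
        refine Prod.ext (Prod.ext (congrFun h' ⟨0, hr 0 (by norm_num)⟩) (congrFun h' ⟨2, hj2⟩))
          (Prod.ext (Subtype.ext (congrFun h' ⟨1, hr 1 (by norm_num)⟩))
            (Subtype.ext (congrFun h' ⟨3, hr 3 (by norm_num)⟩)))
      · obtain ⟨a, b, u, v, hu, hv, e⟩ := (fixed_iff φ hper c.1).1 c.2
        exact ⟨((a, b), (⟨u, hu⟩, ⟨v, hv⟩)), Subtype.ext e.symm⟩
    rw [(tw φ).card_fixVec (φ := φ) (fun _ => rfl) (pinv_spec φ), ← Nat.card_eq_of_bijective g hg,
      Nat.card_prod, Nat.card_prod, Nat.card_prod, card_fixed_units hφ (by omega) hK,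
      Nat.card_eq_fintype_card, Fintype.card_units, hK]
    obtain ⟨m, rfl⟩ : ∃ m, q = m + 1 := ⟨q - 1, by omega⟩
    rw [Nat.add_sub_cancel, show (m + 1) ^ 2 = (m + 1 + 1) * m + 1 by ring, Nat.add_sub_cancel]
    ring
  rw [hA, ← hD] at h
  rw [eq_fixed φ hφ hK]
  have hpos : 0 < Nat.card ↥(chevE6.diagonalSubgroup K ⊓ (tw φ).fixed) := Nat.card_pos
  apply Nat.eq_of_mul_eq_mul_right hpos
  rw [h]
  ring

end E6

end Cfsg.Agent.Lib.Chev
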