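import Cfsg.Agent.Lib.Chev.TwistF4ReeFrame
import Cfsg.Agent.Lib.Chev.FieldAut
import Cfsg.Agent.Lib.Chev.OutTypes

/-!
Automorphisms of the twisted groups of type `F₄`: inner times field, so `Out` has order `2m+1`.
-/

set_option autoImplicit false
set_option linter.unusedSectionVars false

namespace Cfsg.Agent.Lib.Chev.F4

open Cfsg.Lie Cfsg.Agent.Lib Cfsg.Agent.Lib.Chev
open scoped Pointwise

theorem rel_of_invol {G : Type*} [Group G] {w h x y : G} (hww : w * w = 1) (hhwh : h * w * h = w)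
    (hwx : w * x * w = x * w * y) (h1 : w * h * x * (w * h) = x * (w * h) * y) :
    w * (x⁻¹ * (h * x * h⁻¹)) * w⁻¹ = y⁻¹ * (h * y * h⁻¹) * h * 1 := by
  have hwi : w⁻¹ = w := inv_eq_of_mul_eq_one_right hww
  calc w * (x⁻¹ * (h * x * h⁻¹)) * w⁻¹ = w * x⁻¹ * (h * x * h⁻¹) * w := by rw [hwi]; group
    _ = (w * x * w)⁻¹ * (w * (h * x * h⁻¹) * (h * w * h)) := by
      rw [hhwh, mul_inv_rev, mul_inv_rev, hwi]
      calc w * x⁻¹ * (h * x * h⁻¹) * w = w * x⁻¹ * (w * w) * (h * x * h⁻¹) * w := by rw [hww]; group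
        _ = _ := by group
    _ = (x * w * y)⁻¹ * (w * h * x * (w * h)) := by rw [hwx]; group
    _ = (x * w * y)⁻¹ * (x * (w * h) * y) := by rw [h1]
    _ = _ := by group

variable {K : Type*} [Field K] [Fintype K] [CharP K 2] {m : ℕ}
  (θ : K ≃+* K) (hθ : ∀ t : K, θ t = t ^ 2 ^ m) (hK : Fintype.card K = 2 ^ (2 * m + 1))

/-- The group. -/
abbrev RF := ↥(reeTwist θ).fixed

/-- The representative of the longest element. -/
noncomputable def m₀ : GL chevF4.Idx K := (ree_cls θ).mvN [0, 1, 0, 1, 0, 1, 0, 1]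

theorem m₀_spec : m₀ θ ∈ chevF4.monomialSubgroup K ∧ m₀ θ ∈ (reeTwist θ).fixed ∧
    ∀ r < chevF4.nroots, F4.checked.sg (m₀ θ) r = chevF4.neg r := by
  obtain ⟨h1, h2, h3⟩ := (ree_cls θ).mvN_spec (mv := [0, 1, 0, 1, 0, 1, 0, 1]) (by rw [rank_eq']; decide)
  refine ⟨h1, h2, fun r hr => ?_⟩
  have h := moves_longest
  simp only [allBelow_iff, Nat.beq_eq] at h
  rw [m₀, h3 r hr, F4.checked.tables.neg r hr, h r (nroots_eq ▸ hr)]

theorem m₀_long (r : ℕ) (hr : chevF4.IsPosRoot r) : chevF4.IsNegRoot (F4.checked.sg (m₀ θ) r) := by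
  rw [(m₀_spec θ).2.2 r hr.1]
  exact (F4.checked.neg_neg_iff hr.1).2 hr

include hθ hK

theorem gens : (ree_cls θ).Gens (reeTwist θ).fixed :=
  Cls.Gens.transport _ (ree_gens θ hθ hK) (eq_fixed θ hθ hK)

/-- An element of the short class in the group. -/
def aG (t : K) : RF θ := ⟨aE m t, (Subgroup.mem_inf.1 (aE_mem θ hθ hK t)).2⟩

/-- An element of the opposite of the short class in the group. -/
def nG (t : K) : RF θ := ⟨nE m t, (Subgroup.mem_inf.1 (nE_mem θ hθ hK t)).2⟩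

/-- An element of the long class in the group. -/
def bG (t u : K) : RF θ := ⟨bE m t u, (Subgroup.mem_inf.1 (bE_mem θ hθ hK t u)).2⟩

theorem aG_pos (t : K) : (aG θ hθ hK t : GL chevF4.Idx K) ∈ chevF4.posUnipotent K :=
  (ree_cls θ).posC_le_pos (by rw [rank_eq']; omega) (aE_mem θ hθ hK t)

theorem bG_pos (t u : K) : (bG θ hθ hK t u : GL chevF4.Idx K) ∈ chevF4.posUnipotent K :=
  (ree_cls θ).posC_le_pos (by rw [rank_eq']; omega) (bE_mem θ hθ hK t u)

theorem bG_mul (t u s v : K) :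
    bG θ hθ hK t u * bG θ hθ hK s v = bG θ hθ hK (t + s) (u + v + t ^ 2 ^ m * s) :=
  Subtype.ext (bE_mul hK t u s v)

theorem bG_inj {t u s v : K} (h : bG θ hθ hK t u = bG θ hθ hK s v) : t = s ∧ u = v :=
  bE_inj (congrArg Subtype.val h)

theorem aG_inj {t s : K} (h : aG θ hθ hK t = aG θ hθ hK s) : t = s := aE_inj (congrArg Subtype.val h)

theorem pow_succ_inj {t s : K} (h : t ^ (2 ^ m + 1) = s ^ (2 ^ m + 1)) : t = s := by
  by_cases hs : s = 0
  · subst hs
    rw [zero_pow (Nat.succ_ne_zero _)] at h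
    exact eq_zero_of_pow_eq_zero h
  have h1 : (t / s) ^ (2 ^ m + 1) = 1 := by rw [div_pow, h, div_self (pow_ne_zero _ hs)]
  set r := t / s with hr
  have hr0 : r ≠ 0 := fun h0 => by rw [h0, zero_pow (Nat.succ_ne_zero _)] at h1; exact zero_ne_one h1
  have h2 : r ^ 2 ^ m = r⁻¹ := eq_inv_of_mul_eq_one_left (by rw [← pow_succ]; exact h1)
  have h3 := per2 (hper' hK) r
  rw [h2, inv_pow, h2, inv_inv, sq] at h3
  exact (div_eq_one_iff_eq hs).1 ((mul_eq_right₀ hr0).1 h3)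

theorem gmap_pres (σ : K ≃+* K) {g : GL chevF4.Idx K} (hg : g ∈ (reeTwist θ).fixed) :
    gmap chevF4 σ.toRingHom g ∈ (reeTwist θ).fixed := by
  rw [← eq_fixed θ hθ hK] at hg ⊢
  have h : twistedF4 K (2 ^ m) ≤ (twistedF4 K (2 ^ m)).comap (gmap chevF4 σ.toRingHom) := by
    refine (Subgroup.closure_le _).2 fun x hx => ?_
    obtain ⟨w, hw, e⟩ := hx
    obtain rfl := eq_wg e
    show gmap chevF4 σ.toRingHom _ ∈ twistedF4 K (2 ^ m)
    have hlt : ∀ p ∈ w, p.1 < chevF4.nroots := by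
      intro p hp
      refine lt48 ?_
      rcases hw with ⟨t, rfl | rfl⟩ | ⟨t, u, rfl | rfl⟩ <;>
        simp only [f4PairWord, b2ClassWord, f4p1, f4p4, f4m1, f4m4, f4a, f4b, f4ab, f4aab, f4ma, f4mb,
          f4mab, f4maab, List.mem_cons, List.not_mem_nil, or_false] at hp <;>
        rcases hp with rfl | rfl | rfl | rfl <;> norm_num
    rw [F4.checked.gmap_wg _ w hlt]
    rcases hw with ⟨t, rfl | rfl⟩ | ⟨t, u, rfl | rfl⟩
    · exact word_mem (Or.inl ⟨σ t, Or.inl (by simp [f4PairWord])⟩)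
    · exact word_mem (Or.inl ⟨σ t, Or.inr (by simp [f4PairWord])⟩)
    · exact word_mem (Or.inr ⟨σ t, σ u, Or.inl (by simp [b2ClassWord])⟩)
    · exact word_mem (Or.inr ⟨σ t, σ u, Or.inr (by simp [b2ClassWord])⟩)
  exact h hg

/-- The field automorphisms. -/
noncomputable def fieldF : (K ≃+* K) →* MulAut (RF θ) where
  toFun σ :=
    { toFun := fun g => ⟨gmap chevF4 σ.toRingHom g, gmap_pres θ hθ hK σ g.2⟩
      invFun := fun g => ⟨gmap chevF4 σ.symm.toRingHom g, gmap_pres θ hθ hK σ.symm g.2⟩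
      left_inv := fun g => Subtype.ext (by simp [gmap_gmap, gmap_id])
      right_inv := fun g => Subtype.ext (by simp [gmap_gmap, gmap_id])
      map_mul' := fun g g' => Subtype.ext (map_mul _ _ _) }
  map_one' := MulEquiv.ext fun g => Subtype.ext (gmap_id g.1)
  map_mul' σ τ := MulEquiv.ext fun g => Subtype.ext (gmap_gmap (σ.toRingHom) (τ.toRingHom) g.1).symm

theorem fieldF_aG (σ : K ≃+* K) (t : K) : fieldF θ hθ hK σ (aG θ hθ hK t) = aG θ hθ hK (σ t) := by
  refine Subtype.ext ?_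
  show gmap chevF4 σ.toRingHom (aE m t) = aE m (σ t)
  rw [aE, aE, F4.checked.gmap_wg]
  · simp
  · exact fun p hp => lt48 ((by decide : ∀ x ∈ [33, 24], x < 48) p.1 (List.of_mem_zip hp).1)

theorem fieldF_nG (σ : K ≃+* K) (t : K) : fieldF θ hθ hK σ (nG θ hθ hK t) = nG θ hθ hK (σ t) := by
  refine Subtype.ext ?_
  show gmap chevF4 σ.toRingHom (nE m t) = nE m (σ t)
  rw [nE, nE, F4.checked.gmap_wg]
  · simp
  · exact fun p hp => lt48 ((by decide : ∀ x ∈ [14, 23], x < 48) p.1 (List.of_mem_zip hp).1)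

theorem fieldF_bG (σ : K ≃+* K) (t u : K) :
    fieldF θ hθ hK σ (bG θ hθ hK t u) = bG θ hθ hK (σ t) (σ u) := by
  refine Subtype.ext ?_
  show gmap chevF4 σ.toRingHom (bE m t u) = bE m (σ t) (σ u)
  rw [bE, bE, F4.checked.gmap_wg]
  · simp
  · exact fun p hp => lt48 ((by decide : ∀ x ∈ [27, 25, 28, 30], x < 48) p.1 (List.of_mem_zip hp).1)

/-- Fixing `U` and `V`. -/
def Stab (φ : RF θ ≃* RF θ) : Prop :=
  Sends φ (chevF4.posUnipotent K) (chevF4.posUnipotent K) ∧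
    Sends φ (chevF4.negUnipotent K) (chevF4.negUnipotent K)

theorem stab_mul {φ ψ : MulAut (RF θ)} (h : Stab θ φ) (h' : Stab θ ψ) : Stab θ (φ * ψ) :=
  ⟨fun g => (h.1 (ψ g)).trans (h'.1 g), fun g => (h.2 (ψ g)).trans (h'.2 g)⟩

theorem stab_fieldF (σ : K ≃+* K) : Stab θ (fieldF θ hθ hK σ) := by
  have key : ∀ (S : Set ℕ), (∀ r ∈ S, r < chevF4.nroots) → ∀ (τ : K ≃+* K) {g : GL chevF4.Idx K},
      g ∈ grp chevF4 K S → gmap chevF4 τ.toRingHom g ∈ grp chevF4 K S := fun S hS τ g hg =>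
    F4.checked.gmap_grp _ hS hg
  have inv : ∀ g : RF θ, gmap chevF4 σ.symm.toRingHom (fieldF θ hθ hK σ g).1 = g.1 := fun g => by
    show gmap chevF4 σ.symm.toRingHom (gmap chevF4 σ.toRingHom g.1) = g.1
    simp [gmap_gmap, gmap_id]
  constructor <;> intro g
  · rw [posUnipotent_eq]
    exact ⟨fun h => inv g ▸ key _ (fun r hr => hr.1) σ.symm h, key _ (fun r hr => hr.1) σ⟩
  · rw [negUnipotent_eq]
    exact ⟨fun h => inv g ▸ key _ (fun r hr => hr.1) σ.symm h, key _ (fun r hr => hr.1) σ⟩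

theorem stab_conj_diag {d : RF θ} (hd : (d : GL chevF4.Idx K) ∈ chevF4.diagonalSubgroup K) :
    Stab θ (MulAut.conj d) := by
  constructor <;> refine fun g => ?_ <;>
    show (d : GL chevF4.Idx K) * g * (d : GL chevF4.Idx K)⁻¹ ∈ _ ↔ _
  · rw [posUnipotent_eq]
    refine ⟨fun h => ?_, F4.checked.diag_normalizes (fun r hr => hr.1) hd⟩
    simpa [mul_assoc] using F4.checked.diag_normalizes (fun r hr => hr.1) (inv_mem hd) h
  · rw [negUnipotent_eq]
    refine ⟨fun h => ?_, F4.checked.diag_normalizes (fun r hr => hr.1) hd⟩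
    simpa [mul_assoc] using F4.checked.diag_normalizes (fun r hr => hr.1) (inv_mem hd) h

theorem m₀_conj {j : ℕ} (hj : j < chevF4.rank) (v : GL chevF4.Idx K) :
    m₀ θ * v * (m₀ θ)⁻¹ ∈ (ree_cls θ).posC j ↔ v ∈ (ree_cls θ).negC j := by
  obtain ⟨hm, hmf, hsg⟩ := m₀_spec θ
  refine ⟨fun h => ?_, fun h => ?_⟩
  · obtain ⟨h1, h2⟩ := Subgroup.mem_inf.1 h
    refine Subgroup.mem_inf.2 ⟨?_, ?_⟩
    · have hinv : ∀ r ∈ (ree_cls θ).B j, F4.checked.sg (m₀ θ)⁻¹ r ∈ (ree_cls θ).NB j := by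
        intro r hr
        have hlt := (ree_cls θ).B_lt hj r hr
        have hn := F4.checked.root.neg_lt r hlt
        have e : F4.checked.sg (m₀ θ)⁻¹ r = chevF4.neg r := by
          conv_lhs => rw [← F4.checked.root.neg_neg' hlt, ← hsg _ hn]
          exact F4.checked.sg_inv_sg hm hn
        rw [e]
        exact ⟨hn, by rw [F4.checked.root.neg_neg' hlt]; exact hr⟩
      have h3 := F4.checked.conj_mem_of_image (inv_mem hm) ((ree_cls θ).B_lt hj) hinv h1
      simpa [mul_assoc] using h3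
    · have h3 := mul_mem (mul_mem (inv_mem hmf) h2) hmf
      simpa [mul_assoc] using h3
  · obtain ⟨h1, h2⟩ := Subgroup.mem_inf.1 h
    exact Subgroup.mem_inf.2 ⟨F4.checked.conj_mem_of_image hm (fun r hr => hr.1)
      (fun r hr => by rw [hsg r hr.1]; exact hr.2) h1, mul_mem (mul_mem hmf h2) (inv_mem hmf)⟩

theorem negC_disjoint {g : GL chevF4.Idx K} (h0 : g ∈ (ree_cls θ).negC 0)
    (h1 : g ∈ (ree_cls θ).negC 1) : g = 1 := by
  have r0 : 0 < chevF4.rank := by rw [rank_eq']; omega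
  have r1 : 1 < chevF4.rank := by rw [rank_eq']; omega
  have h0' := (Subgroup.mem_inf.1 ((m₀_conj θ hθ hK r0 g).2 h0)).1
  have h1' := (Subgroup.mem_inf.1 ((m₀_conj θ hθ hK r1 g).2 h1)).1
  have hdis : ∀ r ∈ (ree_cls θ).B 0, r ∉ (ree_cls θ).B 1 :=
    (by decide : ∀ r ∈ reeSpec.base 0, r ∉ reeSpec.base 1)
  exact conj_eq_one_iff.1 (F4.checked.eq_one_of_grp_disjoint ((ree_cls θ).B_closed r0)
    ((ree_cls θ).B_closed r1) hdis h0' h1')

theorem class_cases {k : ℕ} (hk : k < chevF4.rank) :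
    (ree_cls θ).negC k = (ree_cls θ).negC 0 ∨ (ree_cls θ).negC k = (ree_cls θ).negC 1 := by
  have h4 : k < 4 := rank_eq' ▸ hk
  interval_cases k
  exacts [Or.inl rfl, Or.inr rfl, Or.inr rfl, Or.inl rfl]

theorem stab_negC (hm : 1 ≤ m) {φ : RF θ ≃* RF θ} (hφ : Stab θ φ) :
    Sends φ ((ree_cls θ).negC 0) ((ree_cls θ).negC 0) ∧
      Sends φ ((ree_cls θ).negC 1) ((ree_cls θ).negC 1) := by
  classical
  have r0 : 0 < chevF4.rank := by rw [rank_eq']; omega
  have r1 : 1 < chevF4.rank := by rw [rank_eq']; omega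
  have hq : 1 < Nat.card K := Finite.one_lt_card
  have hc : ∀ j, Nat.card ↥(((ree_cls θ).negC j).subgroupOf (reeTwist θ).fixed) =
      Nat.card ↥((ree_cls θ).negC j) := fun j =>
    Nat.card_congr (Subgroup.subgroupOfEquivOfLe inf_le_right).toEquiv
  have c0 : Nat.card ↥((ree_cls θ).negC 0) = Nat.card K := by
    rw [(ree_cls θ).card_negC r0, card_posC_zero θ hθ hK]
  have c1 : Nat.card ↥((ree_cls θ).negC 1) = Nat.card K ^ 2 := by
    rw [(ree_cls θ).card_negC r1, card_posC_one θ hθ hK]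
  -- an inclusion between subgroups of equal order
  have hsend : ∀ j, (∀ g : RF θ, (φ g : GL chevF4.Idx K) ∈ (ree_cls θ).negC j →
      (g : GL chevF4.Idx K) ∈ (ree_cls θ).negC j) →
      Sends φ ((ree_cls θ).negC j) ((ree_cls θ).negC j) := by
    intro j h
    apply sends_of_map_eq
    refine (Subgroup.eq_of_le_of_card_ge (fun g hg => Subgroup.mem_map.2
      ⟨φ.symm g, Subgroup.mem_subgroupOf.2 (h _ ?_), by simp⟩) ?_).symm
    · simpa using Subgroup.mem_subgroupOf.1 hg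
    · rw [Subgroup.card_map_of_injective φ.injective]
  have h0 : Sends φ ((ree_cls θ).negC 0) ((ree_cls θ).negC 0) := by
    obtain ⟨k, hk, h⟩ := (ree_cls θ).exists_negC_map (gens θ hθ hK) hφ.1 hφ.2 r0
    rcases class_cases θ hθ hK hk with e | e
    · exact hsend 0 (fun g hg => h g (e ▸ hg))
    · exfalso
      have hle : ((ree_cls θ).negC 1).subgroupOf (reeTwist θ).fixed ≤
          (((ree_cls θ).negC 0).subgroupOf (reeTwist θ).fixed).map φ.toMonoidHom := fun g hg =>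
        ⟨φ.symm g, Subgroup.mem_subgroupOf.2 (h _ (by
          rw [e]; simpa using Subgroup.mem_subgroupOf.1 hg)), by simp⟩
      have := Subgroup.card_le_of_le hle
      rw [Subgroup.card_map_of_injective φ.injective, hc, hc, c0, c1] at this
      nlinarith
  refine ⟨h0, ?_⟩
  obtain ⟨k, hk, h⟩ := (ree_cls θ).exists_negC_map (gens θ hθ hK) hφ.1 hφ.2 r1
  rcases class_cases θ hθ hK hk with e | e
  · exfalso
    have h1 : nE (K := K) m 1 ∈ (ree_cls θ).negC 1 := by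
      have hn := nE_mem θ hθ hK 1
      have h2 := h (φ (φ.symm (nG θ hθ hK 1))) (by
        rw [e]; exact (h0 _).2 (by rw [MulEquiv.apply_symm_apply]; exact hn))
      rwa [MulEquiv.apply_symm_apply] at h2
    exact one_ne_zero (nE_inj ((negC_disjoint θ hθ hK (nE_mem θ hθ hK 1) h1).trans nE_zero.symm))
  · exact hsend 1 (fun g hg => h g (e ▸ hg))

theorem stab_posC (hm : 1 ≤ m) {φ : RF θ ≃* RF θ} (hφ : Stab θ φ) {j : ℕ} (hj : j = 0 ∨ j = 1) :
    Sends φ ((ree_cls θ).posC j) ((ree_cls θ).posC j) := by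
  have rj : j < chevF4.rank := by rw [rank_eq']; omega
  obtain ⟨hmm, hmf, -⟩ := m₀_spec θ
  have hflip := (ree_cls θ).flip_sends (gens θ hθ hK) hmm hmf (m₀_long θ) hφ.1 hφ.2
  have hη := stab_negC θ hθ hK hm (φ := (ree_cls θ).flipAut hmf φ) hflip
  have hηj : Sends ((ree_cls θ).flipAut hmf φ) ((ree_cls θ).negC j) ((ree_cls θ).negC j) := by
    rcases hj with rfl | rfl
    exacts [hη.1, hη.2]
  intro g
  set N₀ : RF θ := ⟨m₀ θ, hmf⟩ with hN₀
  have e : ∀ x : RF θ, (x : GL chevF4.Idx K) =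
      m₀ θ * ((N₀⁻¹ * x * N₀ : RF θ) : GL chevF4.Idx K) * (m₀ θ)⁻¹ := fun x => by
    simp [N₀, mul_assoc]
  rw [e (φ g), e g, m₀_conj θ hθ hK rj, m₀_conj θ hθ hK rj,
    show N₀⁻¹ * φ g * N₀ = (ree_cls θ).flipAut hmf φ (N₀⁻¹ * g * N₀) by
      simp [Cls.flipAut, N₀, mul_assoc]]
  exact hηj _

theorem stab_diag {φ : RF θ ≃* RF θ} (hφ : Stab θ φ) :
    Sends φ (chevF4.diagonalSubgroup K) (chevF4.diagonalSubgroup K) :=
  (ree_cls θ).sends_diag (gens θ hθ hK) (m₀_spec θ).1 (m₀_spec θ).2.1 (m₀_long θ) hφ.1 hφ.2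

/-- An automorphism fixing `U`, `V`, the standard short and long elements acts as a field automorphism. -/
theorem exists_field (hm : 1 ≤ m) {φ : RF θ ≃* RF θ} (hφ : Stab θ φ)
    (ha : φ (aG θ hθ hK 1) = aG θ hθ hK 1) (hb : ∃ c, φ (bG θ hθ hK 1 0) = bG θ hθ hK 1 c) :
    ∃ σ : K ≃+* K, (∀ t, φ (aG θ hθ hK t) = aG θ hθ hK (σ t)) ∧
      (∀ t, φ (nG θ hθ hK t) = nG θ hθ hK (σ t)) ∧
      (∀ t u, φ (bG θ hθ hK t u) = bG θ hθ hK (σ t) (σ u)) := by
  classical
  obtain ⟨c, hb⟩ := hb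
  have hA : ∀ t, ∃ s, φ (aG θ hθ hK t) = aG θ hθ hK s := fun t => by
    obtain ⟨s, hs⟩ := mem_posC_zero θ hθ hK
      ((stab_posC θ hθ hK hm hφ (Or.inl rfl) (aG θ hθ hK t)).2 (aE_mem θ hθ hK t))
    exact ⟨s, Subtype.ext hs⟩
  have hN : ∀ t, ∃ s, φ (nG θ hθ hK t) = nG θ hθ hK s := fun t => by
    obtain ⟨s, hs⟩ := mem_negC_zero θ hθ hK
      (((stab_negC θ hθ hK hm hφ).1 (nG θ hθ hK t)).2 (nE_mem θ hθ hK t))
    exact ⟨s, Subtype.ext hs⟩
  have hB : ∀ t u, ∃ s v, φ (bG θ hθ hK t u) = bG θ hθ hK s v := fun t u => by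
    obtain ⟨s, v, hs⟩ := mem_posC_one θ hθ hK
      ((stab_posC θ hθ hK hm hφ (Or.inr rfl) (bG θ hθ hK t u)).2 (bE_mem θ hθ hK t u))
    exact ⟨s, v, Subtype.ext hs⟩
  choose f hf using hA
  choose f' hf' using hN
  choose G₁ G₂ hG using hB
  have f_add : ∀ t s, f (t + s) = f t + f s := fun t s => aG_inj θ hθ hK (by
    rw [← hf, show aG θ hθ hK (t + s) = aG θ hθ hK t * aG θ hθ hK s from Subtype.ext (aE_add t s).symm,
      map_mul, hf, hf]
    exact Subtype.ext (aE_add _ _))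
  have f'_inj : Function.Injective f' := fun t s h => nE_inj (congrArg Subtype.val
    (φ.injective (show φ (nG θ hθ hK t) = φ (nG θ hθ hK s) by rw [hf', hf', h])))
  have f_inj : Function.Injective f := fun t s h => aG_inj θ hθ hK
    (φ.injective (by rw [hf, hf, h]))
  have f_one : f 1 = 1 := aG_inj θ hθ hK (by rw [← hf]; exact ha)
  have hd0 : ∀ {d : RF θ} {z₁ z₂ : K}, (d : GL chevF4.Idx K) ∈ chevF4.diagonalSubgroup K →
      Par m (d : GL chevF4.Idx K) z₁ z₂ → ∀ t,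
      φ d * aG θ hθ hK (f t) * (φ d)⁻¹ = aG θ hθ hK (f (z₁ * t)) ∧
      φ d * nG θ hθ hK (f' t) * (φ d)⁻¹ = nG θ hθ hK (f' (z₁⁻¹ * t)) ∧
      ∀ u, φ d * bG θ hθ hK (G₁ t u) (G₂ t u) * (φ d)⁻¹ =
        bG θ hθ hK (G₁ (z₂ * t) (z₂ ^ (2 ^ m + 1) * u)) (G₂ (z₂ * t) (z₂ ^ (2 ^ m + 1) * u)) := by
    intro d z₁ z₂ hd hp t
    refine ⟨?_, ?_, fun u => ?_⟩
    · rw [← hf, ← hf, ← map_mul, ← map_inv, ← map_mul]
      exact congrArg φ (Subtype.ext (hp.conjA t))
    · rw [← hf', ← hf', ← map_mul, ← map_inv, ← map_mul]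
      exact congrArg φ (Subtype.ext (hp.conjN t))
    · rw [← hG, ← hG, ← map_mul, ← map_inv, ← map_mul]
      exact congrArg φ (Subtype.ext (hp.conjB t u))
  -- the elements `b(0, u)`
  have g_zero : ∀ u, G₁ 0 u = 0 := fun u => by
    have h1 := congrArg φ (show bG θ hθ hK 0 u * bG θ hθ hK 0 u = bG θ hθ hK 0 0 from by
      rw [bG_mul]; simp [CharTwo.add_self_eq_zero])
    rw [map_mul, hG, show bG θ hθ hK (0 : K) 0 = 1 from Subtype.ext (bE_zero hK), map_one,
      ← show bG θ hθ hK (0 : K) 0 = 1 from Subtype.ext (bE_zero hK), bG_mul] at h1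
    have h2 := (bG_inj θ hθ hK h1).2
    rw [CharTwo.add_self_eq_zero, zero_add, ← pow_succ] at h2
    exact eq_zero_of_pow_eq_zero h2
  have g_indep : ∀ t u, G₁ t u = G₁ t 0 ∧ G₂ t u = G₂ t 0 + G₂ 0 u := fun t u => by
    have h1 := congrArg φ (show bG θ hθ hK t u = bG θ hθ hK t 0 * bG θ hθ hK 0 u from by
      rw [bG_mul]; simp)
    rw [map_mul, hG, hG, hG, bG_mul, g_zero] at h1
    obtain ⟨e1, e2⟩ := bG_inj θ hθ hK h1
    exact ⟨by simpa using e1, by simpa using e2⟩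
  set g : K → K := fun t => G₁ t 0 with hgdef
  set κ : K → K := fun u => G₂ 0 u with hκdef
  have g_add : ∀ t s, g (t + s) = g t + g s := fun t s => by
    have h1 := congrArg φ (bG_mul θ hθ hK t 0 s 0)
    rw [map_mul, hG, hG, hG, bG_mul] at h1
    exact (((bG_inj θ hθ hK h1).1.trans (g_indep _ _).1)).symm
  have κ_sq : ∀ t, κ (t ^ (2 ^ m + 1)) = g t ^ (2 ^ m + 1) := fun t => by
    have h1 := congrArg φ (show bG θ hθ hK t 0 * bG θ hθ hK t 0 = bG θ hθ hK 0 (t ^ (2 ^ m + 1)) from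
      Subtype.ext (bE_sq hK t 0))
    rw [map_mul, hG, hG, show bG θ hθ hK (G₁ t 0) (G₂ t 0) * bG θ hθ hK (G₁ t 0) (G₂ t 0) =
      bG θ hθ hK 0 (G₁ t 0 ^ (2 ^ m + 1)) from Subtype.ext (bE_sq hK _ _)] at h1
    exact ((bG_inj θ hθ hK h1).2).symm
  have g_one : g 1 = 1 ∧ G₂ 1 0 = c := bG_inj θ hθ hK (by rw [← hG]; exact hb)
  have g_ne : ∀ t, t ≠ 0 → g t ≠ 0 := fun t ht h => ht (pow_succ_inj θ hθ hK (t := t) (s := 0) (by
    have h1 := κ_sq t
    rw [h, zero_pow (Nat.succ_ne_zero _)] at h1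
    have h2 : φ (bG θ hθ hK 0 (t ^ (2 ^ m + 1))) = φ (bG θ hθ hK 0 0) := by
      rw [hG, show bG θ hθ hK (0 : K) 0 = 1 from Subtype.ext (bE_zero hK), map_one,
        ← show bG θ hθ hK (0 : K) 0 = 1 from Subtype.ext (bE_zero hK), g_zero,
        show G₂ 0 (t ^ (2 ^ m + 1)) = 0 from h1]
    rw [(bG_inj θ hθ hK (φ.injective h2)).2, zero_pow (Nat.succ_ne_zero _)]))
  -- multiplicativity
  have htor : ∀ {z₁ z₂ : K}, z₁ ≠ 0 → z₂ ≠ 0 → ∀ t,
      f (z₁ * t) = f z₁ * f t ∧ f' (z₁⁻¹ * t) = (f z₁)⁻¹ * f' t ∧ g (z₂ * t) = g z₂ * g t ∧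
        G₂ (z₂ * t) 0 = g z₂ ^ (2 ^ m + 1) * G₂ t 0 := by
    intro z₁ z₂ h1 h2 t
    obtain ⟨d, hd, hdf, χ, hχ, e, e1, e2⟩ := exists_diag θ hθ hK h1 h2
    have hp := par_of_chr θ hθ hK hd hdf hχ e
    rw [e1, e2] at hp
    set dd : RF θ := ⟨d, hdf⟩
    have hd' : (φ dd : GL chevF4.Idx K) ∈ chevF4.diagonalSubgroup K := (stab_diag θ hθ hK hφ dd).2 hd
    obtain ⟨y₁, y₂, hp'⟩ := exists_par θ hθ hK hd' (φ dd).2
    have q : ∀ s, y₁ * f s = f (z₁ * s) ∧ y₁⁻¹ * f' s = f' (z₁⁻¹ * s) ∧ y₂ * g s = g (z₂ * s) ∧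
        y₂ ^ (2 ^ m + 1) * G₂ s 0 = G₂ (z₂ * s) 0 := by
      intro s
      obtain ⟨q1, q2, q3⟩ := hd0 (d := dd) hd hp s
      refine ⟨aG_inj θ hθ hK (Eq.trans (Subtype.ext (hp'.conjA _)).symm q1),
        nE_inj (congrArg Subtype.val (Eq.trans (Subtype.ext (hp'.conjN _) :
          φ dd * nG θ hθ hK (f' s) * (φ dd)⁻¹ = nG θ hθ hK (y₁⁻¹ * f' s)).symm q2)), ?_⟩
      have q4 := q3 0
      rw [mul_zero] at q4
      exact bG_inj θ hθ hK (Eq.trans (Subtype.ext (hp'.conjB _ _)).symm q4)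
    have u1 : y₁ = f z₁ := by have := (q 1).1; rwa [f_one, mul_one, mul_one] at this
    have u2 : y₂ = g z₂ := by have := (q 1).2.2.1; rwa [g_one.1, mul_one, mul_one] at this
    obtain ⟨a1, a2, a3, a4⟩ := q t
    exact ⟨by rw [← a1, u1], by rw [← a2, u1], by rw [← a3, u2], by rw [← a4, u2]⟩
  have f0 : f 0 = 0 := by have := f_add 0 0; rw [add_zero] at this; exact left_eq_add.1 this
  have g0 : g 0 = 0 := g_zero 0
  have f_mul : ∀ t s, f (t * s) = f t * f s := fun t s => by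
    by_cases ht : t = 0
    · simp [ht, f0]
    · exact (htor ht one_ne_zero s).1
  have g_mul : ∀ t s, g (t * s) = g t * g s := fun t s => by
    by_cases ht : t = 0
    · simp [ht, g0]
    · exact (htor one_ne_zero ht s).2.2.1
  let σ : K ≃+* K := RingEquiv.ofBijective
    ({ toFun := f, map_one' := f_one, map_mul' := f_mul, map_zero' := f0, map_add' := f_add } : K →+* K)
    (Finite.injective_iff_bijective.1 f_inj)
  let gh : K →+* K :=
    { toFun := g, map_one' := g_one.1, map_mul' := g_mul, map_zero' := g0, map_add' := g_add }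
  have hκ : ∀ u, κ u = g u := fun u => by
    obtain ⟨t, rfl⟩ := (Finite.injective_iff_surjective.1
      (show Function.Injective fun t : K => t ^ (2 ^ m + 1) from fun a b h => pow_succ_inj θ hθ hK h)) u
    rw [κ_sq]
    exact (map_pow gh t _).symm
  -- the second coordinate
  have hc : c = 0 := by
    obtain ⟨x, hx0, hx⟩ := exists_generic θ hθ hK hm
    have hg2 : ∀ t, G₂ t 0 = g t ^ (2 ^ m + 1) * c := fun t => by
      by_cases ht : t = 0
      · subst ht
        rw [g0, zero_pow (Nat.succ_ne_zero _), zero_mul]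
        show κ 0 = 0
        rw [hκ, g0]
      · have := (htor one_ne_zero ht 1).2.2.2
        rw [mul_one, g_one.2] at this
        exact this
    have h1 := congrArg φ (show bG θ hθ hK x 0 * bG θ hθ hK 1 0 = bG θ hθ hK (x + 1) (x ^ 2 ^ m) by
      rw [bG_mul]; simp)
    rw [map_mul, hG, hG, hG, bG_mul] at h1
    have h2 := (bG_inj θ hθ hK h1).2
    rw [(g_indep (x + 1) (x ^ 2 ^ m)).2, hg2 x, hg2 1, hg2 (x + 1)] at h2
    change _ = g (x + 1) ^ (2 ^ m + 1) * c + κ (x ^ 2 ^ m) at h2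
    rw [show G₁ x 0 = g x from rfl, show G₁ 1 0 = g 1 from rfl, hκ, g_add, g_one.1,
      show g (x ^ 2 ^ m) = g x ^ 2 ^ m from map_pow gh x _, mul_one, one_pow, one_mul,
      pow_succ (g x + 1), add_pow_char_pow, one_pow, pow_succ (g x)] at h2
    have h3 : c * (g x ^ 2 ^ m + g x) = 0 := by linear_combination -h2
    rcases mul_eq_zero.1 h3 with h4 | h4
    · exact h4
    exfalso
    rw [CharTwo.add_eq_zero, ← show g (x ^ 2 ^ m) = g x ^ 2 ^ m from map_pow gh x _] at h4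
    have h5 : x ^ 2 ^ m = x := gh.injective h4
    have he : 2 ≤ 2 ^ m := le_self_pow₀ (by norm_num) (by omega)
    refine hx (2 ^ m - 1) (by omega) (by omega) ((mul_eq_right₀ hx0).1 ?_)
    rw [← pow_succ, Nat.sub_add_cancel (by omega), h5]
  subst hc
  have hbG : ∀ t u, φ (bG θ hθ hK t u) = bG θ hθ hK (g t) (g u) := fun t u => by
    rw [hG, (g_indep t u).1, (g_indep t u).2, show G₂ 0 u = g u from hκ u]
    congr 1
    by_cases ht : t = 0
    · subst ht
      rw [show G₂ (0 : K) 0 = 0 from (hκ 0).trans g0, zero_add]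
    · have := (htor one_ne_zero ht 1).2.2.2
      rw [mul_one, g_one.2, mul_zero] at this
      rw [this, zero_add]
  have hc' : f' 1 = 1 := by
    have h := congrArg φ (show aG θ hθ hK 1 * nG θ hθ hK 1 * aG θ hθ hK 1 =
        nG θ hθ hK 1 * aG θ hθ hK 1 * nG θ hθ hK 1 by
      obtain ⟨ψ, hψ⟩ := exists_slTwo θ hθ hK
      refine Subtype.ext ?_
      show aE m 1 * nE m 1 * aE m 1 = nE m 1 * aE m 1 * nE m 1
      rw [← (hψ 1).1, ← (hψ 1).2, ← map_mul, ← map_mul, ← map_mul, ← map_mul]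
      congr 1
      ext i j
      fin_cases i <;> fin_cases j <;>
        simp [RootPair.val_upT, RootPair.val_loT, Matrix.SpecialLinearGroup.coe_mul, Matrix.mul_apply,
          Fin.sum_univ_two, CharTwo.add_self_eq_zero])
    rw [map_mul, map_mul, map_mul, map_mul, hf, hf', f_one] at h
    have hne : f' 1 ≠ 0 := fun h0 => by
      have h1 : φ (nG θ hθ hK 1) = φ 1 := by
        rw [hf', h0, map_one]; exact Subtype.ext nE_zero
      exact one_ne_zero (nE_inj ((congrArg Subtype.val (φ.injective h1)).trans nE_zero.symm))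
    exact braid_param θ hθ hK hne (congrArg Subtype.val h)
  have hf'σ : ∀ t, f' t = f t := fun t => by
    by_cases ht : t = 0
    · subst ht
      have h1 : φ (nG θ hθ hK 0) = 1 := by
        rw [show nG θ hθ hK (0 : K) = 1 from Subtype.ext nE_zero, map_one]
      rw [hf'] at h1
      rw [f0]
      exact nE_inj ((congrArg Subtype.val h1).trans nE_zero.symm)
    · have := (htor (inv_ne_zero ht) one_ne_zero 1).2.1
      rw [inv_inv, mul_one, hc', mul_one] at this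
      rw [this]
      exact inv_eq_of_mul_eq_one_left (by rw [← f_mul, mul_inv_cancel₀ ht, f_one])
  have hgf : ∀ y, g y = f y := fun y => by
    by_cases hy : y = 0
    · rw [hy, f0, g0]
    have hy' := inv_ne_zero hy
    set h₀ : K → RF θ := fun y => aG θ hθ hK y * nG θ hθ hK y⁻¹ * aG θ hθ hK y *
      (aG θ hθ hK 1 * nG θ hθ hK 1 * aG θ hθ hK 1) with hh₀
    have hφh : φ (h₀ y⁻¹) = h₀ (f y⁻¹) := by
      simp only [hh₀, map_mul, hf, hf', hf'σ, f_one]
      rw [inv_inv, show (f y⁻¹)⁻¹ = f y from inv_eq_of_mul_eq_one_right (by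
        rw [← f_mul, inv_mul_cancel₀ hy, f_one])]
    have hconj : ∀ z : K, z ≠ 0 → h₀ z * bG θ hθ hK 1 0 * (h₀ z)⁻¹ = bG θ hθ hK z⁻¹ 0 := fun z hz => by
      refine Subtype.ext ?_
      have := hEl_conj θ hθ hK hz 1 0
      rw [mul_one, mul_zero] at this
      exact this
    have h1 := congrArg φ (hconj _ hy')
    rw [map_mul, map_mul, map_inv, hφh, hb, hbG, show bG θ hθ hK (1 : K) 0 = bG θ hθ hK 1 0 from rfl,
      hconj _ (fun h0 => hy' (f_inj (h0.trans f0.symm))), inv_inv] at h1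
    have h2 := (bG_inj θ hθ hK h1).1
    rw [← h2]
    exact inv_eq_of_mul_eq_one_left (by rw [← f_mul, mul_inv_cancel₀ hy, f_one])
  refine ⟨σ, fun t => hf t, fun t => (hf' t).trans (by rw [hf'σ]; rfl), fun t u => ?_⟩
  rw [hbG, hgf, hgf]
  rfl

theorem quad_ids :
    (ree_cls θ).wN 1 * (ree_cls θ).wN 1 = 1 ∧
    (ree_cls θ).wN 1 * bE m 1 0 * (ree_cls θ).wN 1 = bE m 1 0 * (ree_cls θ).wN 1 * bE m 0 1 ∧
    ∃ v ∈ (ree_cls θ).negC 1, (ree_cls θ).wN 1 = bE m 1 0 * bE m 0 1 * v * bE m 0 1 := by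
  have r1 : 1 < chevF4.rank := by rw [rank_eq']; omega
  have hlt : ∀ a ∈ [1, 2, 1, 2], a < chevF4.rank := by rw [rank_eq']; decide
  have hw : (ree_cls θ).wN 1 = F4.checked.wordN K [1, 2, 1, 2] := rfl
  obtain ⟨ew, hwl⟩ := F4.checked.wg_nLets (1 : K) 1 hlt
  have h2 : 2 ^ m + 1 ≠ 0 := Nat.succ_ne_zero _
  have h3 : 2 * 2 ^ m ≠ 0 := by positivity
  have hones : ∀ r : List ℕ, F4.checked.wg (realize (1 : K) 1 (oneLets r)) =
      (r.map fun a => F4.checked.xg a (1 : K)).prod := by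
    intro r
    induction r with
    | nil => rfl
    | cons a r ih =>
      simp only [oneLets, List.map_cons, List.prod_cons, realize, F4.checked.wg_cons] at ih ⊢
      rw [ih]
      simp
  have hwlets : ∀ r : List ℕ, (∀ a ∈ r, a < 48) → ∀ L ∈ oneLets r, L.r < chevF4.nroots := by
    intro r hr L hL
    obtain ⟨a, ha, rfl⟩ := List.mem_map.1 hL
    exact lt48 (hr a ha)
  have hx : bE (K := K) m 1 0 = F4.checked.wg (realize (1 : K) 1 (oneLets [27, 25, 28])) := by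
    rw [hones, bE_eq]
    simp [zero_pow h3, F4.checked.xg_zero, mul_assoc]
  have hy : bE (K := K) m 0 1 = F4.checked.wg (realize (1 : K) 1 (oneLets [28, 30])) := by
    rw [hones, bE_eq]
    simp [zero_pow h2, zero_pow (Nat.two_pow_pos m).ne', F4.checked.xg_zero, mul_assoc]
  have hW : F4.checked.wordN K [1, 2, 1, 2] = F4.checked.wg (realize (1 : K) 1 (F4.fast.nLets [1, 2, 1, 2])) :=
    ew.symm
  have happ : ∀ l l' : List Let, F4.checked.wg (realize (1 : K) 1 (l ++ l')) =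
      F4.checked.wg (realize 1 1 l) * F4.checked.wg (realize 1 1 l') := fun l l' => by
    rw [realize, List.map_append, F4.checked.val_wg_append]; rfl
  refine ⟨?_, ?_, ?_⟩
  · rw [hw, hW, ← happ, show (1 : GL chevF4.Idx K) = F4.checked.wg (realize (1 : K) 1 ([] : List Let)) from
      F4.checked.wg_nil.symm]
    refine F4.checked.wg_eq_of_sameMod (p := 2) (1 : K) 1 ?_ (by simp) (by decide +kernel)
    simp only [List.mem_append, or_self]
    exact hwl
  · rw [hw, hW, hx, hy, ← happ, ← happ, ← happ, ← happ]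
    refine F4.checked.wg_eq_of_sameMod (p := 2) (1 : K) 1 ?_ ?_ (by decide +kernel) <;>
      (simp only [List.mem_append]; rintro L ((h | h) | h))
    exacts [hwl L h, hwlets _ (by decide) L h, hwl L h,
      hwlets _ (by decide) L h, hwl L h, hwlets _ (by decide) L h]
  · refine ⟨F4.checked.wg (realize (1 : K) 1 (oneLets [20, 22, 19])), ?_, ?_⟩
    · refine Subgroup.mem_inf.2 ⟨?_, ?_⟩
      · refine F4.checked.wg_mem _ fun p hp => ?_
        obtain ⟨L, hL, rfl⟩ := List.mem_map.1 hp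
        obtain ⟨a, ha, rfl⟩ := List.mem_map.1 hL
        have h48 : a < 48 := (by decide : ∀ x ∈ [20, 22, 19], x < 48) a ha
        refine ⟨lt48 h48, ?_⟩
        rw [F4.checked.tables.neg a (lt48 h48)]
        exact (by decide +kernel : ∀ x ∈ [20, 22, 19], F4.fast.ng x ∈ reeSpec.base 1) a ha
      · have := act_quadWord θ hθ (hper' hK) (a := 20) (b := 22) (c := 19) (d := 17) (by omega) (by omega)
          (by omega) (by omega) rfl rfl rfl rfl rfl rfl rfl rfl
          (by decide) (by decide +kernel) (by decide) (by decide +kernel) commT_facts.2.2.2.2.2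
          (by decide) (by decide) commT_facts.2.2.2.1 (1 : K) 0
        rw [hones]
        simpa [zero_pow h3, F4.checked.xg_zero, mul_assoc] using this
    · rw [hw, hW, hx, hy, ← happ, ← happ, ← happ]
      refine F4.checked.wg_eq_of_sameMod (p := 2) (1 : K) 1 hwl ?_ (by decide +kernel)
      simp only [List.mem_append]
      rintro L (((h | h) | h) | h) <;> exact hwlets _ (by decide) L h

set_option maxHeartbeats 1000000 in
/-- An automorphism fixing the classes of both nodes and `X₋₀` is trivial. -/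
theorem eq_one_of_fix (hm : 1 ≤ m) {φ : MulAut (RF θ)} (hφ : Stab θ φ)
    (ha : ∀ t, φ (aG θ hθ hK t) = aG θ hθ hK t) (hn : ∀ t, φ (nG θ hθ hK t) = nG θ hθ hK t)
    (hb : ∀ t u, φ (bG θ hθ hK t u) = bG θ hθ hK t u) : φ = 1 := by
  have r1 : 1 < chevF4.rank := by rw [rank_eq']; omega
  have hH : ∀ d : RF θ, (d : GL chevF4.Idx K) ∈ chevF4.diagonalSubgroup K → φ d = d := by
    intro d hd
    have hd' := (stab_diag θ hθ hK hφ d).2 hd
    obtain ⟨z₁, z₂, hp⟩ := exists_par θ hθ hK hd d.2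
    obtain ⟨y₁, y₂, hp'⟩ := exists_par θ hθ hK hd' (φ d).2
    have e1 : y₁ = z₁ := by
      have h := congrArg φ (show d * aG θ hθ hK 1 * d⁻¹ = aG θ hθ hK (z₁ * 1) from Subtype.ext (hp.conjA 1))
      rw [map_mul, map_mul, map_inv, ha, ha] at h
      simpa using aG_inj θ hθ hK ((Subtype.ext (hp'.conjA 1) :
        φ d * aG θ hθ hK 1 * (φ d)⁻¹ = aG θ hθ hK (y₁ * 1)).symm.trans h)
    have e2 : y₂ = z₂ := by
      have h := congrArg φ (show d * bG θ hθ hK 1 0 * d⁻¹ =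
        bG θ hθ hK (z₂ * 1) (z₂ ^ (2 ^ m + 1) * 0) from Subtype.ext (hp.conjB 1 0))
      rw [map_mul, map_mul, map_inv, hb, hb] at h
      simpa using (bG_inj θ hθ hK ((Subtype.ext (hp'.conjB 1 0) : φ d * bG θ hθ hK 1 0 * (φ d)⁻¹ =
        bG θ hθ hK (y₂ * 1) (y₂ ^ (2 ^ m + 1) * 0)).symm.trans h)).1
    subst e1 e2
    have hone : d⁻¹ * φ d = 1 := by
      refine Subtype.ext (eq_one_of_par θ hθ hK (mul_mem (inv_mem hd) hd') (d⁻¹ * φ d).2 ?_)
      have hne1 := hp.ne₁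
      have hne2 := hp.ne₂
      refine ⟨one_ne_zero, one_ne_zero, fun t => ?_, fun t => ?_, fun t u => ?_⟩
      · rw [show ((d⁻¹ * φ d : RF θ) : GL chevF4.Idx K) * aE m t * ((d⁻¹ * φ d : RF θ) : GL chevF4.Idx K)⁻¹ =
          (d : GL chevF4.Idx K)⁻¹ * ((φ d : GL chevF4.Idx K) * aE m t * (φ d : GL chevF4.Idx K)⁻¹) * d by
            push_cast; group, hp'.conjA, ← hp.conjA, one_mul]
        group
      · rw [show ((d⁻¹ * φ d : RF θ) : GL chevF4.Idx K) * nE m t * ((d⁻¹ * φ d : RF θ) : GL chevF4.Idx K)⁻¹ =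
          (d : GL chevF4.Idx K)⁻¹ * ((φ d : GL chevF4.Idx K) * nE m t * (φ d : GL chevF4.Idx K)⁻¹) * d by
            push_cast; group, hp'.conjN, ← hp.conjN, inv_one, one_mul]
        group
      · rw [show ((d⁻¹ * φ d : RF θ) : GL chevF4.Idx K) * bE m t u * ((d⁻¹ * φ d : RF θ) : GL chevF4.Idx K)⁻¹ =
          (d : GL chevF4.Idx K)⁻¹ * ((φ d : GL chevF4.Idx K) * bE m t u * (φ d : GL chevF4.Idx K)⁻¹) * d by
            push_cast; group, hp'.conjB, ← hp.conjB, one_mul, one_pow, one_mul]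
        group
    exact (inv_mul_eq_one.1 hone).symm
  -- the representative of the long node
  obtain ⟨hw2, hwx, v, hv, hwv⟩ := quad_ids θ hθ hK
  set W : GL chevF4.Idx K := (ree_cls θ).wN 1 with hWdef
  set w : RF θ := ⟨W, (ree_cls θ).wN_fixed r1⟩ with hwdef
  have hWm := (ree_cls θ).wN_mem_monomial (K := K) r1
  set vv : RF θ := ⟨v, (Subgroup.mem_inf.1 hv).2⟩
  have hwv' : w = bG θ hθ hK 1 0 * bG θ hθ hK 0 1 * vv * bG θ hθ hK 0 1 := Subtype.ext hwv
  have hP : φ w ∈ (ree_cls θ).parC (gens θ hθ hK) 1 r1 := by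
    rw [hwv', map_mul, map_mul, map_mul, hb, hb]
    have hbP : ∀ t u, bG θ hθ hK t u ∈ (ree_cls θ).parC (gens θ hθ hK) 1 r1 := fun t u =>
      BN.le_parabolic _ _ (Subgroup.mem_inf.2 ⟨Subgroup.mem_sup_left (bG_pos θ hθ hK t u), (bG θ hθ hK t u).2⟩)
    exact mul_mem (mul_mem (mul_mem (hbP _ _) (hbP _ _))
      ((ree_cls θ).negC_mem_parC _ r1 (((stab_negC θ hθ hK hm hφ).2 vv).2 hv))) (hbP _ _)
  set x := bG θ hθ hK (1 : K) 0 with hxdef
  have hxw : (w * x * w⁻¹ : RF θ).1 ∈ (ree_cls θ).negC 1 := by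
    rw [← (ree_cls θ).map_negC r1]
    exact ⟨_, bE_mem θ hθ hK 1 0, rfl⟩
  have hx1 : x ≠ 1 := fun h => one_ne_zero (bE_inj ((congrArg Subtype.val h).trans (bE_zero hK).symm)).1
  obtain ⟨h₀, hh₀, hφw⟩ : ∃ h₀ : RF θ, (h₀ : GL chevF4.Idx K) ∈ chevF4.diagonalSubgroup K ∧
      φ w = h₀ * w := by
    rcases (ree_cls θ).mem_parC (gens θ hθ hK) r1 hP with hB | ⟨b, hb1, hbf, y, hy, e⟩
    · exfalso
      have h1 : (φ (w * x * w⁻¹)).1 ∈ chevF4.borelSubgroup K := by
        rw [map_mul, map_mul, map_inv, hxdef, hb]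
        exact mul_mem (mul_mem hB (Subgroup.mem_sup_left (bG_pos θ hθ hK _ _))) (inv_mem hB)
      have h2 : (φ (w * x * w⁻¹)).1 ∈ chevF4.negUnipotent K :=
        (hφ.2 _).2 ((ree_cls θ).negC_le_neg r1 hxw)
      have h3 := Subgroup.mem_inf.2 ⟨h1, h2⟩
      rw [F4.checked.borel_inf_neg, Subgroup.mem_bot, OneMemClass.coe_eq_one, MulEquiv.map_eq_one_iff,
        conj_eq_one_iff] at h3
      exact hx1 h3
    · obtain ⟨u, hu, huf, d₁, hd₁, hd₁f, rfl⟩ := (reeTwist θ).fixed_borel hb1 hbf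
      have key : ∀ d ∈ chevF4.diagonalSubgroup K, d ∈ (reeTwist θ).fixed →
          d * y = y * d ∧ (W * d * W⁻¹) * u = u * (W * d * W⁻¹) := by
        intro d hd hdf
        set dd : RF θ := ⟨d, hdf⟩
        have hd' : W * d * W⁻¹ ∈ chevF4.diagonalSubgroup K := F4.checked.mono_conj_diag hWm _ hd
        have h1 := hH (w * dd * w⁻¹) hd'
        rw [map_mul, map_mul, map_inv, hH dd hd] at h1
        have h2 : (φ w).1 * d = W * d * W⁻¹ * (φ w).1 := by
          have := congrArg Subtype.val (mul_inv_eq_iff_eq_mul.1 h1)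
          exact this
        rw [e] at h2
        have hdd' : d₁ * (W * d * W⁻¹) = (W * d * W⁻¹) * d₁ := F4.checked.diag_comm hd₁ hd'
        have h3 : (u * d₁ * (W * d * W⁻¹)) * W * (d⁻¹ * y * d) = (W * d * W⁻¹ * u * d₁) * W * y := by
          calc (u * d₁ * (W * d * W⁻¹)) * W * (d⁻¹ * y * d) = u * d₁ * W * y * d := by group
            _ = W * d * W⁻¹ * (u * d₁ * W * y) := h2
            _ = _ := by group
        have hyB : y ∈ grp chevF4 K (F4.checked.inv W) := by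
          rw [(ree_cls θ).inv_wN r1]; exact (Subgroup.mem_inf.1 hy).1
        have hyd : d⁻¹ * y * d ∈ grp chevF4 K (F4.checked.inv W) := by
          have := F4.checked.diag_normalizes (fun r hr => hr.1.1) (inv_mem hd) hyB
          simpa using this
        have huB : u ∈ chevF4.borelSubgroup K := Subgroup.mem_sup_left hu
        obtain ⟨-, h4⟩ := F4.checked.bnu_unique
          (mul_mem (mul_mem huB (Subgroup.mem_sup_right hd₁)) (Subgroup.mem_sup_right hd'))
          (mul_mem (mul_mem (Subgroup.mem_sup_right hd') huB) (Subgroup.mem_sup_right hd₁))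
          hWm hWm hyd hyB h3
        obtain ⟨e1, e2⟩ := h4 rfl
        refine ⟨?_, ?_⟩
        · calc d * y = d * (d⁻¹ * y * d) := by rw [e2]
            _ = y * d := by group
        · rw [mul_assoc u, hdd', ← mul_assoc] at e1
          exact (mul_right_cancel e1).symm
      have hy1 : y = 1 := eq_one_of_centralized θ hθ hK hm ((ree_cls θ).posC_le_pos r1 hy)
        fun d hd hdf => (key d hd hdf).1
      have hu1 : u = 1 := eq_one_of_centralized θ hθ hK hm hu fun d hd hdf => by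
        have hd' : W⁻¹ * d * W ∈ chevF4.diagonalSubgroup K := by
          simpa using F4.checked.mono_conj_diag (inv_mem hWm) _ hd
        have h1 := (key _ hd' (mul_mem (mul_mem (inv_mem ((ree_cls θ).wN_fixed r1)) hdf)
          ((ree_cls θ).wN_fixed r1))).2
        rwa [show W * (W⁻¹ * d * W) * W⁻¹ = d by group] at h1
      refine ⟨⟨d₁, hd₁f⟩, hd₁, Subtype.ext ?_⟩
      rw [e, hy1, hu1, one_mul, mul_one]
      rfl
  set h : RF θ := w⁻¹ * h₀ * w with hhdef
  have hhd : (h : GL chevF4.Idx K) ∈ chevF4.diagonalSubgroup K := by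
    show W⁻¹ * (h₀ : GL chevF4.Idx K) * W ∈ _
    simpa using F4.checked.mono_conj_diag (inv_mem hWm) _ hh₀
  have hφw' : φ w = w * h := by rw [hφw, hhdef]; group
  have hww : w * w = 1 := Subtype.ext hw2
  have hhwh : h * w * h = w := by
    have h1 := congrArg φ hww
    rw [map_mul, map_one, hφw'] at h1
    calc h * w * h = w⁻¹ * (w * h * (w * h)) := by group
      _ = w⁻¹ := by rw [h1, mul_one]
      _ = w := inv_eq_of_mul_eq_one_right hww
  set y := bG θ hθ hK (0 : K) 1 with hydef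
  have hwx' : w * x * w = x * w * y := Subtype.ext hwx
  have hq : w * (x⁻¹ * (h * x * h⁻¹)) * w⁻¹ = y⁻¹ * (h * y * h⁻¹) * h * 1 := by
    have h1 := congrArg φ hwx'
    rw [map_mul, map_mul, map_mul, map_mul, hφw', hxdef, hydef, hb, hb, ← hxdef, ← hydef] at h1
    exact rel_of_invol hww hhwh hwx' h1
  have hxu : (x⁻¹ * (h * x * h⁻¹) : RF θ).1 ∈ (ree_cls θ).posC 1 := by
    obtain ⟨z₁, z₂, hp⟩ := exists_par θ hθ hK hhd h.2
    exact mul_mem (inv_mem (bE_mem θ hθ hK 1 0)) (by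
      show (h : GL chevF4.Idx K) * bE m 1 0 * (h : GL chevF4.Idx K)⁻¹ ∈ _
      rw [hp.conjB]; exact bE_mem θ hθ hK _ _)
  have hone : h = 1 := by
    have h1 : (y⁻¹ * (h * y * h⁻¹) : RF θ).1 ∈ chevF4.posUnipotent K :=
      mul_mem (inv_mem (bG_pos θ hθ hK _ _)) ((stab_conj_diag θ hθ hK hhd).1 _ |>.2 (bG_pos θ hθ hK _ _))
    have h2 : (y⁻¹ * (h * y * h⁻¹) * h * 1 : RF θ).1 ∈ chevF4.borelSubgroup K :=
      mul_mem (mul_mem (Subgroup.mem_sup_left h1) (Subgroup.mem_sup_right hhd)) (one_mem _)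
    have h3 : (w * (x⁻¹ * (h * x * h⁻¹)) * w⁻¹ : RF θ).1 ∈ chevF4.negUnipotent K := by
      refine (ree_cls θ).negC_le_neg r1 ?_
      rw [← (ree_cls θ).map_negC r1]
      exact ⟨_, hxu, rfl⟩
    rw [hq] at h3
    have h4 := Subgroup.mem_inf.2 ⟨h2, h3⟩
    rw [F4.checked.borel_inf_neg, Subgroup.mem_bot, OneMemClass.coe_eq_one, mul_one] at h4
    have h5 : (h : GL chevF4.Idx K) ∈ chevF4.posUnipotent K ⊓ chevF4.diagonalSubgroup K := by
      refine Subgroup.mem_inf.2 ⟨?_, hhd⟩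
      rw [eq_inv_of_mul_eq_one_right h4]
      exact inv_mem h1
    rw [F4.checked.pos_inf_diag, Subgroup.mem_bot, OneMemClass.coe_eq_one] at h5
    exact h5
  have hφW : φ w = w := by rw [hφw', hone, mul_one]
  -- generators
  have hpos : ∀ j < chevF4.rank, ∀ g : RF θ,
      (g : GL chevF4.Idx K) ∈ (ree_cls θ).posC j → φ g = g := by
    intro j hj g hg
    have h4 : j < 4 := rank_eq' ▸ hj
    interval_cases j
    · obtain ⟨t, e⟩ := mem_posC_zero θ hθ hK hg
      rw [show g = aG θ hθ hK t from Subtype.ext e, ha]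
    · obtain ⟨t, u, e⟩ := mem_posC_one θ hθ hK hg
      rw [show g = bG θ hθ hK t u from Subtype.ext e, hb]
    · obtain ⟨t, u, e⟩ := mem_posC_one θ hθ hK hg
      rw [show g = bG θ hθ hK t u from Subtype.ext e, hb]
    · obtain ⟨t, e⟩ := mem_posC_zero θ hθ hK hg
      rw [show g = aG θ hθ hK t from Subtype.ext e, ha]
  have hneg : ∀ j < chevF4.rank, ∀ g : RF θ,
      (g : GL chevF4.Idx K) ∈ (ree_cls θ).negC j → φ g = g := by
    intro j hj g hg
    rcases class_cases θ hθ hK hj with e | e <;> rw [e] at hg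
    · obtain ⟨t, e⟩ := mem_negC_zero θ hθ hK hg
      rw [show g = nG θ hθ hK t from Subtype.ext e, hn]
    · rw [← (ree_cls θ).map_negC r1] at hg
      obtain ⟨z, hz, e'⟩ := hg
      set zz : RF θ := ⟨z, (Subgroup.mem_inf.1 hz).2⟩
      rw [show g = w * zz * w⁻¹ from Subtype.ext e'.symm, map_mul, map_mul, map_inv, hφW, hpos 1 r1 zz hz]
  refine MulEquiv.ext fun g => ?_
  let S : Subgroup (GL chevF4.Idx K) :=
    (MonoidHom.eqLocus φ.toMonoidHom (MonoidHom.id (RF θ))).map (reeTwist θ).fixed.subtype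
  have hle : (reeTwist θ).fixed ≤ S := by
    refine (gens θ hθ hK).le_gen.trans ((Subgroup.closure_le _).2 ?_)
    rintro z ⟨j, hj, hz | hz⟩
    · exact ⟨⟨z, (Subgroup.mem_inf.1 hz).2⟩, hpos j hj _ hz, rfl⟩
    · exact ⟨⟨z, (Subgroup.mem_inf.1 hz).2⟩, hneg j hj _ hz, rfl⟩
  obtain ⟨z, hz, e⟩ := hle g.2
  obtain rfl : z = g := Subtype.ext e
  exact hz

theorem exists_sylow : ∃ P : Sylow 2 (RF θ),
    (P : Subgroup (RF θ)) = (chevF4.posUnipotent K).subgroupOf (reeTwist θ).fixed := by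
  haveI : Fact (Nat.Prime 2) := ⟨Nat.prime_two⟩
  set U := (chevF4.posUnipotent K).subgroupOf (reeTwist θ).fixed with hU
  have hc : Nat.card ↥U = 2 ^ ((2 * m + 1) * 12) := by
    rw [show U = (chevF4.posUnipotent K ⊓ (reeTwist θ).fixed).subgroupOf _ from
      (Subgroup.inf_subgroupOf_right _ _).symm,
      Nat.card_congr (Subgroup.subgroupOfEquivOfLe inf_le_right).toEquiv, card_pos_fixed θ hθ hK, hK,
      ← pow_mul]
  have hindex : ¬ 2 ∣ U.index := by
    have h := U.card_mul_index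
    have hcard : Nat.card (RF θ) = _ := (congrArg (fun H : Subgroup (GL chevF4.Idx K) => Nat.card ↥H)
      (eq_fixed θ hθ hK)).symm.trans (card_ree θ hθ hK)
    rw [hc, hcard, ← pow_mul, mul_assoc, mul_assoc, mul_assoc, Nat.mul_left_cancel_iff (by positivity)] at h
    rw [h]
    simp only [Nat.prime_two.dvd_mul]
    have h2 : 2 ∣ 2 ^ (2 * m + 1) := dvd_pow_self 2 (by omega)
    have h3 : 2 ∣ (2 ^ (2 * m + 1)) ^ 3 := h2.trans (dvd_pow_self _ (by norm_num))
    have h4 : 2 ∣ (2 ^ (2 * m + 1)) ^ 4 := h2.trans (dvd_pow_self _ (by norm_num))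
    have h6 : 2 ∣ (2 ^ (2 * m + 1)) ^ 6 := h2.trans (dvd_pow_self _ (by norm_num))
    have h1 : 1 ≤ 2 ^ (2 * m + 1) := Nat.one_le_two_pow
    have h5 : 1 ≤ (2 ^ (2 * m + 1)) ^ 4 := Nat.one_le_pow _ _ (by omega)
    rintro (h | h | h | h) <;> omega
  exact ⟨(IsPGroup.of_card hc).toSylow hindex, rfl⟩

/-- `Out(²F₄(q))`. -/
theorem card_out (hm : 1 ≤ m) : Nat.card (Cfsg.Out (RF θ)) = 2 * m + 1 := by
  classical
  haveI : Fact (Nat.Prime 2) := ⟨Nat.prime_two⟩
  let ψ : (K ≃+* K) →* Cfsg.Out (RF θ) :=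
    (QuotientGroup.mk' (Cfsg.Inn (RF θ))).comp (fieldF θ hθ hK)
  obtain ⟨hmm, hmf, hsg⟩ := m₀_spec θ
  have hb : Function.Bijective ψ := by
    constructor
    · rw [injective_iff_map_eq_one]
      intro σ hσ
      obtain ⟨x, hx⟩ := (QuotientGroup.eq_one_iff _).1 hσ
      have hx' : ∀ g : RF θ, x * g * x⁻¹ = fieldF θ hθ hK σ g := fun g => DFunLike.congr_fun hx g
      have hst := stab_fieldF θ hθ hK σ
      have hxd : (x : GL chevF4.Idx K) ∈ chevF4.diagonalSubgroup K := by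
        rw [(ree_cls θ).diag_iff (gens θ hθ hK) hmm (m₀_long θ)]
        obtain ⟨hmV, -⟩ := (ree_cls θ).swap_iff (gens θ hθ hK) hmm (m₀_long θ)
        refine ⟨(ree_cls θ).mem_borel_of_normalizes (gens θ hθ hK) x.2 fun y hy hyf => ?_,
          (ree_cls θ).mem_borel_of_normalizes (gens θ hθ hK) (mul_mem (mul_mem (inv_mem hmf) x.2) hmf)
            fun y hy hyf => ?_⟩
        · have := (hst.1 ⟨y, hyf⟩).2 hy
          rw [← hx'] at this
          exact this
        · rw [show (m₀ θ)⁻¹ * (x : GL chevF4.Idx K) * m₀ θ * y * ((m₀ θ)⁻¹ * (x : GL chevF4.Idx K) * m₀ θ)⁻¹ =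
            (m₀ θ)⁻¹ * ((x : GL chevF4.Idx K) * (m₀ θ * y * (m₀ θ)⁻¹) * (x : GL chevF4.Idx K)⁻¹) * m₀ θ by group,
            ← hmV]
          have h1 := (hst.2 ⟨m₀ θ * y * (m₀ θ)⁻¹, mul_mem (mul_mem hmf hyf) (inv_mem hmf)⟩).2 ((hmV y).2 hy)
          rw [← hx'] at h1
          simpa [mul_assoc] using h1
      obtain ⟨z₁, z₂, hp⟩ := exists_par θ hθ hK hxd x.2
      have hσt : ∀ t, σ t = z₁ * t := fun t => aG_inj θ hθ hK (by
        rw [← fieldF_aG, ← hx']
        exact Subtype.ext (hp.conjA t))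
      have hz : z₁ = 1 := by simpa using (hσt 1).symm
      exact RingEquiv.ext fun t => by rw [hσt t, hz, one_mul]; rfl
    · intro q
      obtain ⟨φ, rfl⟩ := QuotientGroup.mk'_surjective _ q
      obtain ⟨P, hP⟩ := exists_sylow θ hθ hK
      obtain ⟨x, hx1, hx2⟩ := (ree_cls θ).exists_inner_fix (gens θ hθ hK) 2 P hP hmm hmf (m₀_long θ) φ
      set φ₁ : MulAut (RF θ) := MulAut.conj x * φ with hφ₁
      have hφ₁s : Stab θ φ₁ := ⟨hx1, hx2⟩
      obtain ⟨a, ha⟩ := mem_posC_zero θ hθ hK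
        ((stab_posC θ hθ hK hm hφ₁s (Or.inl rfl) (aG θ hθ hK 1)).2 (aE_mem θ hθ hK 1))
      obtain ⟨b, c, hbc⟩ := mem_posC_one θ hθ hK
        ((stab_posC θ hθ hK hm hφ₁s (Or.inr rfl) (bG θ hθ hK 1 0)).2 (bE_mem θ hθ hK 1 0))
      have ha' : φ₁ (aG θ hθ hK 1) = aG θ hθ hK a := Subtype.ext ha
      have hb' : φ₁ (bG θ hθ hK 1 0) = bG θ hθ hK b c := Subtype.ext hbc
      have ha0 : a ≠ 0 := fun h0 => one_ne_zero (aG_inj θ hθ hK (φ₁.injective (ha'.trans (by
        rw [h0, show aG θ hθ hK (0 : K) = 1 from Subtype.ext aE_zero, map_one]))))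
      have hb0 : b ≠ 0 := fun h0 => one_ne_zero (bG_inj θ hθ hK (φ₁.injective
        (show φ₁ (bG θ hθ hK 0 1) = φ₁ (bG θ hθ hK 0 0) from by
          have e : bG θ hθ hK (1 : K) 0 * bG θ hθ hK 1 0 = bG θ hθ hK 0 1 := by
            rw [bG_mul, CharTwo.add_self_eq_zero]; simp
          rw [← e, map_mul, hb', h0, bG_mul, CharTwo.add_self_eq_zero, CharTwo.add_self_eq_zero,
            zero_pow (Nat.two_pow_pos m).ne', zero_mul, add_zero,
            show bG θ hθ hK (0 : K) 0 = 1 from Subtype.ext (bE_zero hK), map_one]))).2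
      obtain ⟨d, hd, hdf, χ, hχ, e, e1, e2⟩ := exists_diag θ hθ hK (inv_ne_zero ha0) (inv_ne_zero hb0)
      have hp := par_of_chr θ hθ hK hd hdf hχ e
      rw [e1, e2] at hp
      set dd : RF θ := ⟨d, hdf⟩
      set φ₂ : MulAut (RF θ) := MulAut.conj dd * φ₁ with hφ₂
      have hφ₂s : Stab θ φ₂ := stab_mul θ hθ hK (stab_conj_diag θ hθ hK (d := dd) hd) hφ₁s
      obtain ⟨σ, hσa, hσn, hσb⟩ := exists_field θ hθ hK hm hφ₂s
        (by
          show dd * φ₁ (aG θ hθ hK 1) * dd⁻¹ = _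
          rw [ha']
          exact Subtype.ext ((hp.conjA a).trans (by rw [inv_mul_cancel₀ ha0]; rfl)))
        ⟨b⁻¹ ^ (2 ^ m + 1) * c, by
          show dd * φ₁ (bG θ hθ hK 1 0) * dd⁻¹ = _
          rw [hb']
          exact Subtype.ext ((hp.conjB b c).trans (by rw [inv_mul_cancel₀ hb0]; rfl))⟩
      refine ⟨σ, ?_⟩
      have h3 : fieldF θ hθ hK σ⁻¹ * φ₂ = 1 := by
        refine eq_one_of_fix θ hθ hK hm (stab_mul θ hθ hK (stab_fieldF θ hθ hK _) hφ₂s) (fun t => ?_)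
          (fun t => ?_) (fun t u => ?_)
        · rw [MulAut.mul_apply, hσa, fieldF_aG]; congr 1; exact σ.symm_apply_apply t
        · rw [MulAut.mul_apply, hσn, fieldF_nG]; congr 1; exact σ.symm_apply_apply t
        · rw [MulAut.mul_apply, hσb, fieldF_bG]; congr 1 <;> exact σ.symm_apply_apply _
      have h4 : φ₂ = fieldF θ hθ hK σ := by
        rw [map_inv] at h3
        exact (inv_mul_eq_one.1 h3).symm
      show QuotientGroup.mk' _ (fieldF θ hθ hK σ) = QuotientGroup.mk' _ φ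
      have hI : ∀ z : RF θ, QuotientGroup.mk' (Cfsg.Inn (RF θ)) (MulAut.conj z) = 1 := fun z =>
        (QuotientGroup.eq_one_iff _).2 ⟨z, rfl⟩
      rw [← h4, hφ₂, hφ₁, map_mul, map_mul, hI, hI, one_mul, one_mul]
  rw [← Nat.card_congr (Equiv.ofBijective ψ hb)]
  exact card_ringAut 2 (2 * m + 1) hK

end Cfsg.Agent.Lib.Chev.F4
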