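import Cfsg.Agent.Lib.Chev.TwistF4ReeResults
import Cfsg.Agent.Lib.Chev.TitsParity
import Cfsg.Agent.Lib.Chev.ClsSteinberg
import Cfsg.Agent.Lib.BN.StPrimes

/-!
Primes of elements commuting with an involution in the large Ree groups.
-/

set_option autoImplicit false
set_option maxRecDepth 100000

namespace Cfsg.Agent.Lib.Chev.F4

open Cfsg.Lie Cfsg.Agent.Lib Cfsg.Agent.Lib.Chev

theorem node_words : ∀ j : Fin 4, reeSpec.word j.1 = reeSpec.word 0 ∨ reeSpec.word j.1 = reeSpec.word 1 := by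
  decide +kernel

variable {K : Type*} [Field K] [CharP K 2] [Fintype K] (θ : K ≃+* K) {m : ℕ}
  (hθ : ∀ t : K, θ t = t ^ 2 ^ m) (hK : Fintype.card K = 2 ^ (2 * m + 1))
include hθ hK

local notation "τ₁" => reeTwist θ
local notation "O₁" => ree_cls θ
local notation "G₁" => twistedF4 K (2 ^ m)
local notation "BQ" => Cls.bnPairC (ree_cls θ) (ree_gens θ hθ hK) (diag_fixed_le θ hθ hK)

/-- An involution is conjugate into the unipotent group. -/
theorem exists_conj_unipotent (a : ↥G₁) (ha : orderOf a = 2) :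
    ∃ g : ↥G₁, ((g * a * g⁻¹ : ↥G₁) : GL chevF4.Idx K) ∈ chevF4.posUnipotent K := by
  classical
  haveI : Fact (Nat.Prime 2) := ⟨Nat.prime_two⟩
  let U : Subgroup ↥G₁ := (chevF4.posUnipotent K ⊓ Twist.fixed τ₁).subgroupOf G₁
  have hE := eq_fixed θ hθ hK
  obtain ⟨q, hq⟩ : ∃ q, q = 2 ^ (2 * m + 1) := ⟨_, rfl⟩
  have hU : Nat.card ↥U = 2 ^ ((2 * m + 1) * 12) := by
    rw [Nat.card_congr (Subgroup.subgroupOfEquivOfLe
      (show chevF4.posUnipotent K ⊓ Twist.fixed τ₁ ≤ G₁ from fun g hg => hE.ge (Subgroup.mem_inf.1 hg).2)).toEquiv,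
      card_pos_fixed θ hθ hK, hK, ← pow_mul]
  have hcard := card_ree θ hθ hK
  rw [← hq] at hcard
  have hodd : Odd ((q - 1) * (q ^ 3 + 1) * (q ^ 4 - 1) * (q ^ 6 + 1)) := by
    have he : Even q := hq ▸ (Nat.even_pow.2 ⟨even_two, by omega⟩)
    have h1 : 1 ≤ q := hq ▸ Nat.one_le_two_pow
    have h4 : 1 ≤ q ^ 4 := Nat.one_le_pow _ _ (by omega)
    refine ((((Nat.odd_sub h1).2 ?_).mul ?_).mul ((Nat.odd_sub h4).2 ?_)).mul ?_
    · simpa using he
    · exact (Nat.even_pow.2 ⟨he, by norm_num⟩).add_one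
    · simpa using (Nat.even_pow.2 ⟨he, (by norm_num : 4 ≠ 0)⟩)
    · exact (Nat.even_pow.2 ⟨he, by norm_num⟩).add_one
  have hfac : (Nat.card ↥G₁).factorization 2 = (2 * m + 1) * 12 := by
    rw [hcard, show q ^ 12 * (q - 1) * (q ^ 3 + 1) * (q ^ 4 - 1) * (q ^ 6 + 1) =
      2 ^ ((2 * m + 1) * 12) * ((q - 1) * (q ^ 3 + 1) * (q ^ 4 - 1) * (q ^ 6 + 1)) by
        rw [hq, ← pow_mul]; ring,
      Nat.factorization_mul (by positivity) hodd.pos.ne', Finsupp.add_apply,
      Nat.Prime.factorization_pow Nat.prime_two, Finsupp.single_eq_same,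
      Nat.factorization_eq_zero_of_not_dvd (by rw [← even_iff_two_dvd]; exact Nat.not_even_iff_odd.2 hodd),
      add_zero]
  let P : Sylow 2 ↥G₁ := Sylow.ofCard U (by rw [hfac]; exact hU)
  have hp : IsPGroup 2 ↥(Subgroup.zpowers a) :=
    IsPGroup.of_card (n := 1) (by rw [Nat.card_zpowers, ha, pow_one])
  obtain ⟨S, hS⟩ := hp.exists_le_sylow
  obtain ⟨g, hg⟩ := MulAction.exists_smul_eq ↥G₁ S P
  refine ⟨g, ?_⟩
  have h1 : g * a * g⁻¹ ∈ (P : Subgroup ↥G₁) := by
    rw [← hg, Sylow.smul_def, Sylow.pointwise_smul_def, Subgroup.mem_pointwise_smul_iff_inv_smul_mem]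
    simpa [mul_assoc] using hS (Subgroup.mem_zpowers a)
  exact (Subgroup.mem_inf.1 h1).1

/-- The order of the Borel subgroup. -/
theorem card_B_ree : Nat.card ↥(BQ).B = (2 ^ (2 * m + 1)) ^ 12 * (2 ^ (2 * m + 1) - 1) ^ 2 := by
  show Nat.card ↥((chevF4.borelSubgroup K ⊓ G₁).subgroupOf G₁) = _
  rw [Nat.card_congr (Subgroup.subgroupOfEquivOfLe inf_le_right).toEquiv, eq_fixed θ hθ hK,
    (O₁).card_borel_fixed, card_pos_fixed θ hθ hK, card_diag_fixed θ hθ hK, hK]

/-- The order of a minimal parabolic subgroup. -/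
theorem card_panel {j : ℕ} (hj : j < 4) {s : ↥G₁} (hs : (s : GL chevF4.Idx K) = Cls.wN O₁ j) :
    Nat.card ↥((BQ).parabolic {s}) =
      Nat.card ↥(BQ).B * (Nat.card ↥(grp chevF4 K (Cls.B O₁ j) ⊓ Twist.fixed τ₁) + 1) := by
  classical
  have hjr : j < chevF4.rank := rank_eq'.symm ▸ hj
  have hE := eq_fixed θ hθ hK
  have hsS : s ∈ (BQ).S := ⟨j, hjr, hs⟩
  set Pj := (BQ).parabolic {s}
  have hBP : (BQ).B ≤ Pj := BN.le_parabolic _ _
  have hsP : s ∈ Pj := BN.subset_parabolic _ _ rfl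
  let X := ↥(grp chevF4 K (Cls.B O₁ j) ⊓ Twist.fixed τ₁)
  let el : X → ↥G₁ := fun x => ⟨x.1, hE.ge (Subgroup.mem_inf.1 x.2).2⟩
  have helB : ∀ x, el x ∈ (BQ).B := fun x => Subgroup.mem_inf.2 ⟨Subgroup.mem_sup_left (by
    rw [posUnipotent_eq]; exact grp_mem_mono (Subgroup.mem_inf.1 x.2).1 ((O₁).B_pos hjr)), (el x).2⟩
  let f : Option X → ↥Pj ⧸ (BQ).B.subgroupOf Pj := fun o => match o with
    | none => ((1 : ↥Pj) : ↥Pj ⧸ (BQ).B.subgroupOf Pj)
    | some x => ((⟨el x * s, mul_mem (hBP (helB x)) hsP⟩ : ↥Pj) : ↥Pj ⧸ (BQ).B.subgroupOf Pj)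
  have hm := (O₁).wN_mem_monomial hjr
  have hsf := (O₁).wN_fixed hjr
  have hinj : Function.Injective f := by
    have hone : ∀ x, el x * s ∉ (BQ).B := fun x h =>
      BN.not_mem_B BQ ⟨s, hsS⟩ ((Subgroup.mul_mem_cancel_left _ (helB x)).1 h)
    rintro (_ | x) (_ | y) h
    · rfl
    · have h' := Subgroup.mem_subgroupOf.1 (QuotientGroup.eq.1 h)
      simp only [inv_one, one_mul] at h'
      exact absurd h' (hone y)
    · have h' := Subgroup.mem_subgroupOf.1 (QuotientGroup.eq.1 h.symm)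
      simp only [inv_one, one_mul] at h'
      exact absurd h' (hone x)
    · have h' := Subgroup.mem_subgroupOf.1 (QuotientGroup.eq.1 h)
      refine congrArg some (Subtype.ext ?_)
      have h1 := (Subgroup.mem_inf.1 (Subgroup.mem_subgroupOf.1 h')).1
      push_cast [el] at h1
      rw [hs] at h1
      set z := (x.1 : GL chevF4.Idx K)⁻¹ * y.1
      have hz : z ∈ grp chevF4 K (Cls.B O₁ j) := mul_mem (inv_mem (Subgroup.mem_inf.1 x.2).1) (Subgroup.mem_inf.1 y.2).1
      have hsq : Cls.wN O₁ j * Cls.wN O₁ j ∈ chevF4.borelSubgroup K :=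
        Subgroup.mem_sup_right ((O₁).wN_sq_mem hjr)
      have h2 : Cls.wN O₁ j * z * (Cls.wN O₁ j)⁻¹ ∈ chevF4.borelSubgroup K := by
        have := mul_mem (mul_mem hsq h1) (inv_mem hsq)
        simpa [z, mul_assoc] using this
      have h3 : Cls.wN O₁ j * z * (Cls.wN O₁ j)⁻¹ ∈ chevF4.borelSubgroup K ⊓ chevF4.negUnipotent K := by
        refine Subgroup.mem_inf.2 ⟨h2, ?_⟩
        rw [negUnipotent_eq]
        exact grp_mem_mono ((O₁).wN_conj_B hjr hz) ((O₁).NB_neg hjr)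
      rw [F4.checked.borel_inf_neg, Subgroup.mem_bot, conj_eq_one_iff] at h3
      exact inv_mul_eq_one.1 h3
  have hsurj : Function.Surjective f := by
    intro c
    induction c using QuotientGroup.induction_on with
    | _ g =>
    obtain ⟨L, hL, hc⟩ := BN.exists_word_of_mem_parabolic BQ (Set.singleton_subset_iff.2 hsS) g.2
    have hw : BN.word BQ L = 1 ∨ BN.word BQ L = BN.si BQ ⟨s, hsS⟩ := by
      clear hc
      induction L with
      | nil => exact Or.inl rfl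
      | cons r L ih =>
        rw [show r = ⟨s, hsS⟩ from Subtype.ext (hL r (by simp)), BN.word_cons]
        rcases ih fun x hx => hL x (by simp [hx]) with h | h <;> rw [h]
        · exact Or.inr (mul_one _)
        · exact Or.inl (BN.si_mul_self _ _)
    rcases hw with h | h <;> rw [h] at hc
    · refine ⟨none, QuotientGroup.eq.2 ?_⟩
      simp only [inv_one, one_mul]
      exact Subgroup.mem_subgroupOf.2 ((BN.mem_cell_one BQ).1 hc)
    · obtain ⟨b, hb, b', hb', e⟩ := (BN.mem_cell_cls BQ (n := ⟨s, (BQ).subset hsS⟩)).1 hc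
      obtain ⟨hb1, hb2⟩ := Subgroup.mem_inf.1 (Subgroup.mem_subgroupOf.1 hb)
      obtain ⟨u, hu, huf, d, hd, hdf, ebd⟩ := (τ₁).fixed_borel hb1 (hE.le hb2)
      obtain ⟨hRc, hρR, y, hy, hyf, x, hx, hxf, eyx⟩ := (O₁).exists_split_outB hjr (inv_mem hu) (inv_mem huf)
      let x' : X := ⟨x⁻¹, Subgroup.mem_inf.2 ⟨inv_mem hx, inv_mem hxf⟩⟩
      refine ⟨some x', QuotientGroup.eq.2 (Subgroup.mem_subgroupOf.2 (Subgroup.mem_inf.2 ⟨?_, by rw [Subgroup.subtype_apply]; exact Subtype.prop _⟩))⟩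
      rw [Subgroup.subtype_apply]
      push_cast [el, x']
      rw [show ((g : ↥G₁) : GL chevF4.Idx K) = (b : GL chevF4.Idx K) * s * b' by rw [e]; push_cast; rfl, hs, ebd,
        show u = x⁻¹ * y⁻¹ by rw [← mul_inv_rev, ← eyx, inv_inv]]
      have h1 : (Cls.wN O₁ j)⁻¹ * y⁻¹ * Cls.wN O₁ j ∈ chevF4.borelSubgroup K := by
        refine Subgroup.mem_sup_left ?_
        rw [posUnipotent_eq]
        have := F4.checked.conj_mem_of_image (S' := {r | chevF4.IsPosRoot r}) (inv_mem hm) (fun r hr => hr.1.1)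
          (fun r hr => by
            rw [(O₁).sg_wN_inv hjr hr.1.1]
            exact ((O₁).sg_wN_out hjr hr.1 hr.2).1) (inv_mem hy)
        rwa [inv_inv] at this
      have h2 : (Cls.wN O₁ j)⁻¹ * d * Cls.wN O₁ j ∈ chevF4.borelSubgroup K := by
        refine Subgroup.mem_sup_right ?_
        have := F4.checked.mono_conj_diag (inv_mem hm) d hd
        rwa [inv_inv] at this
      have := mul_mem (mul_mem h1 h2) (Subgroup.mem_inf.1 (Subgroup.mem_subgroupOf.1 hb')).1
      simpa [mul_assoc] using this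
  have hc := (Subgroup.card_eq_card_quotient_mul_card_subgroup ((BQ).B.subgroupOf Pj))
  rw [← Nat.card_congr (Equiv.ofBijective f ⟨hinj, hsurj⟩), Nat.card_congr (Subgroup.subgroupOfEquivOfLe hBP).toEquiv,
    Finite.card_option] at hc
  rw [hc, mul_comm]

/-- The primes of elements commuting with an involution. -/
theorem primes_commute_invol (a b : ↥G₁) (ha : orderOf a = 2) (hab : Commute a b) :
    (orderOf b).primeFactors ⊆ (2 ^ (2 * m + 1) * ((2 ^ (2 * m + 1)) ^ 4 - 1)).primeFactors := by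
  classical
  obtain ⟨q, hq⟩ : ∃ q, q = 2 ^ (2 * m + 1) := ⟨_, rfl⟩
  rw [← hq]
  have hq2 : 2 ≤ q := hq ▸ Nat.le_self_pow (by omega) 2
  intro r hr
  rw [Nat.mem_primeFactors] at hr
  obtain ⟨hrp, hrd, hb0⟩ := hr
  haveI : Fact r.Prime := ⟨hrp⟩
  have hne : q * (q ^ 4 - 1) ≠ 0 := by
    have := Nat.pow_le_pow_left hq2 4
    exact Nat.mul_ne_zero (by omega) (by omega)
  suffices hdvd : r ∣ q * (q ^ 4 - 1) from Nat.mem_primeFactors.2 ⟨hrp, hdvd, hne⟩
  have hx : orderOf (b ^ (orderOf b / r)) = r := orderOf_pow_orderOf_div hb0 hrd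
  obtain ⟨g, hg⟩ := exists_conj_unipotent θ hθ hK a ha
  have ha1 : g * a * g⁻¹ ≠ 1 := fun h => by
    rw [conj_eq_one_iff] at h
    rw [h, orderOf_one] at ha
    omega
  haveI : Fintype ↥G₁ := Fintype.ofFinite _
  have h0 := (O₁).stC_eq_zero (ree_gens θ hθ hK) (diag_fixed_le θ hθ hK) hg ha1
  obtain ⟨J, hJ, hJr⟩ := BN.exists_parabolic_of_commute BQ (x := g * b ^ (orderOf b / r) * g⁻¹)
    (b := g * a * g⁻¹) (r := r) (by rw [← MulAut.conj_apply, MulEquiv.orderOf_eq]; exact hx)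
    (by
      have := (hab.pow_right (orderOf b / r)).symm.map (MulAut.conj g).toMonoidHom
      simpa using this) h0
  -- the parabolic is contained in a minimal one
  obtain ⟨j, hj, s, hs, hle⟩ : ∃ j, j < 4 ∧ ∃ s : ↥G₁, (s : GL chevF4.Idx K) = Cls.wN O₁ j ∧
      (BQ).parabolic (Subtype.val '' (J : Set (BQ).S)) ≤ (BQ).parabolic {s} := by
    obtain ⟨s, hsJ⟩ : ∃ s : (BQ).S, s ∉ (J : Set (BQ).S) := by
      by_contra h
      push Not at h
      exact hJ (Set.eq_univ_of_forall h)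
    obtain ⟨i, hi, ei⟩ := s.2
    have hi4 : i < 4 := rank_eq' ▸ hi
    -- the other node
    obtain ⟨k, hk, hk'⟩ : ∃ k, k < 4 ∧ ∀ l < 4, reeSpec.word l = reeSpec.word i ∨ reeSpec.word l = reeSpec.word k := by
      rcases node_words ⟨i, hi4⟩ with h | h
      · exact ⟨1, by norm_num, fun l hl => (node_words ⟨l, hl⟩).imp (·.trans h.symm) id⟩
      · exact ⟨0, by norm_num, fun l hl => (node_words ⟨l, hl⟩).symm.imp (·.trans h.symm) id⟩
    have hkr : k < chevF4.rank := rank_eq'.symm ▸ hk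
    refine ⟨k, hk, ⟨Cls.wN O₁ k, (ree_gens θ hθ hK).wN_mem k hkr⟩, rfl, ?_⟩
    refine sup_le_sup_left ((Subgroup.closure_mono ?_)) _
    rintro _ ⟨t, ht, rfl⟩
    obtain ⟨l, hl, el⟩ := t.2
    rcases hk' l (rank_eq' ▸ hl) with h | h
    · refine absurd ?_ hsJ
      rwa [show s = t from Subtype.ext (Subtype.ext (by rw [ei, el]; simp only [Cls.wN, ree_cls, h]))]
    · exact Subtype.ext (by rw [el]; simp only [Cls.wN, ree_cls, h])
  have h1 := hJr.trans (Subgroup.card_dvd_of_le hle)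
  rw [card_panel θ hθ hK hj hs, card_B_ree θ hθ hK, ← hq] at h1
  set c := Nat.card ↥(grp chevF4 K (Cls.B O₁ j) ⊓ Twist.fixed τ₁)
  have hc := card_base θ hθ hK j (rank_eq'.symm ▸ hj)
  rw [Nat.card_eq_fintype_card (α := K), hK, ← hq] at hc
  have hc' : c = q ∨ c = q ^ 2 := by
    have : (reeSpec.base j).length = 2 ∨ (reeSpec.base j).length = 4 :=
      (by decide : ∀ j < 4, (reeSpec.base j).length = 2 ∨ (reeSpec.base j).length = 4) j hj
    rcases this with e | e <;> rw [e] at hc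
    · exact Or.inl (Nat.pow_left_injective (by norm_num) hc)
    · exact Or.inr (Nat.pow_left_injective (by norm_num) (hc.trans (by ring)))
  have hf : q ^ 4 - 1 = (q - 1) * (q + 1) * (q ^ 2 + 1) := by
    have h1 : 1 ≤ q := by omega
    have h4 : 1 ≤ q ^ 4 := Nat.one_le_pow _ _ (by omega)
    zify [h1, h4]
    ring
  rw [hf]
  rcases (Nat.Prime.dvd_mul hrp).1 h1 with h | h
  · rcases (Nat.Prime.dvd_mul hrp).1 h with h | h
    · exact (hrp.dvd_of_dvd_pow h).mul_right _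
    · exact (((hrp.dvd_of_dvd_pow h).mul_right _).mul_right _).mul_left _
  · rcases hc' with e | e <;> rw [e] at h
    · exact ((h.mul_left _).mul_right _).mul_left _
    · exact (h.mul_left _).mul_left _

end Cfsg.Agent.Lib.Chev.F4
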