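import Cfsg.Agent.Lib.Chev.TwistPerfect
import Cfsg.Agent.Lib.Chev.TwistU

/-!
Generation of graph-field twisted groups by two elements: tools.
-/

set_option autoImplicit false

namespace Cfsg.Agent.Lib.Chev

open Cfsg.Lie Cfsg.Agent.Lib

/-- Moving a product across an element, with central error terms. -/
theorem swap_one {G α β : Type*} [Group G] (f : α → G) (g : β → G) (w : α → β → G) (a : α) :
    ∀ Y : List β, (∀ b ∈ Y, g b * f a = f a * g b * w a b) →
      (∀ b ∈ Y, ∀ b' ∈ Y, Commute (w a b) (g b')) →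
      (Y.map g).prod * f a = f a * (Y.map g).prod * (Y.map (w a)).prod
  | [], _, _ => by simp
  | b :: Y, h, hc => by
    have ih := swap_one f g w a Y (fun b hb => h b (by simp [hb]))
      (fun b hb b' hb' => hc b (by simp [hb]) b' (by simp [hb']))
    have hw : Commute (w a b) (Y.map g).prod := Commute.list_prod_right _ _ fun x hx => by
      obtain ⟨b', hb', rfl⟩ := List.mem_map.1 hx
      exact hc b (by simp) b' (by simp [hb'])
    simp only [List.map_cons, List.prod_cons]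
    calc g b * (Y.map g).prod * f a = g b * f a * ((Y.map g).prod * (Y.map (w a)).prod) := by
          rw [mul_assoc (g b), ih]; group
      _ = f a * g b * (w a b * (Y.map g).prod) * (Y.map (w a)).prod := by rw [h b (by simp)]; group
      _ = _ := by rw [hw.eq]; group

/-- The commutator of two products, with central error terms. -/
theorem swap_all {G α β : Type*} [Group G] (f : α → G) (g : β → G) (w : α → β → G) (Y : List β) :
    ∀ X : List α, (∀ a ∈ X, ∀ b ∈ Y, g b * f a = f a * g b * w a b) →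
      (∀ a ∈ X, ∀ b ∈ Y, ∀ b' ∈ Y, Commute (w a b) (g b')) →
      (∀ a ∈ X, ∀ b ∈ Y, ∀ a' ∈ X, Commute (w a b) (f a')) →
      (∀ a ∈ X, ∀ b ∈ Y, ∀ a' ∈ X, ∀ b' ∈ Y, Commute (w a b) (w a' b')) →
      (Y.map g).prod * (X.map f).prod =
        (X.map f).prod * (Y.map g).prod * (X.map fun a => (Y.map (w a)).prod).prod
  | [], _, _, _, _ => by simp
  | a :: X, h, h1, h2, h3 => by
    have ih := swap_all f g w Y X (fun a ha => h a (by simp [ha])) (fun a ha => h1 a (by simp [ha]))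
      (fun a ha b hb a' ha' => h2 a (by simp [ha]) b hb a' (by simp [ha']))
      (fun a ha b hb a' ha' => h3 a (by simp [ha]) b hb a' (by simp [ha']))
    have hone := swap_one f g w a Y (h a (by simp)) (h1 a (by simp))
    have hcf : Commute (Y.map (w a)).prod (X.map f).prod := Commute.list_prod_left _ _ fun x hx => by
      obtain ⟨b, hb, rfl⟩ := List.mem_map.1 hx
      refine Commute.list_prod_right _ _ fun y hy => ?_
      obtain ⟨a', ha', rfl⟩ := List.mem_map.1 hy
      exact h2 a (by simp) b hb a' (by simp [ha'])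
    have hcw : Commute (Y.map (w a)).prod (X.map fun a => (Y.map (w a)).prod).prod :=
      Commute.list_prod_left _ _ fun x hx => by
        obtain ⟨b, hb, rfl⟩ := List.mem_map.1 hx
        refine Commute.list_prod_right _ _ fun y hy => ?_
        obtain ⟨a', ha', rfl⟩ := List.mem_map.1 hy
        refine Commute.list_prod_right _ _ fun z hz => ?_
        obtain ⟨b', hb', rfl⟩ := List.mem_map.1 hz
        exact h3 a (by simp) b hb a' (by simp [ha']) b' hb'
    simp only [List.map_cons, List.prod_cons]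
    calc (Y.map g).prod * (f a * (X.map f).prod)
        = f a * (Y.map g).prod * ((Y.map (w a)).prod * (X.map f).prod) := by
          rw [← mul_assoc, hone]; group
      _ = f a * ((Y.map g).prod * (X.map f).prod) * (Y.map (w a)).prod := by rw [hcf.eq]; group
      _ = f a * ((X.map f).prod * (Y.map g).prod) *
            ((X.map fun a => (Y.map (w a)).prod).prod * (Y.map (w a)).prod) := by rw [ih]; group
      _ = _ := by rw [← hcw.eq]; group

/-- The roots in an orbit, listed. -/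
def orbR (ρ : ℕ → ℕ) (dd r : ℕ) : List ℕ := (List.range dd).map fun i => ρ^[i] r

/-- All terms of the commutators between two orbits. -/
def pterms (D : ChevalleyDatum) (ρ : ℕ → ℕ) (dd r s : ℕ) : List (ℕ × ℕ × (ℕ × ℤ × ℕ × ℕ)) :=
  ((List.range dd).map fun i => ((List.range dd).map fun k =>
    (D.commTerms (ρ^[i] r) (ρ^[k] s)).map fun c => (i, k, c)).flatten).flatten

/-- Two roots whose elements commute. -/
def comOK (D : ChevalleyDatum) (z w : ℕ) : Bool :=
  z == w || ((D.commTerms z w).isEmpty && w != D.neg z)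

/-- The data of a commutator of two orbits landing in a third one. -/
def stepCheck (D : ChevalleyDatum) (T : Fast) (ρ : ℕ → ℕ) (dd r s γ : ℕ) : Bool :=
  r < D.nroots && s < D.nroots && γ < D.nroots && decide (0 < T.key γ) && ρ r != r && ρ s != s &&
  ((List.range dd).all fun i => (List.range dd).all fun k =>
    ρ^[k] s != ρ^[i] r && ρ^[k] s != D.neg (ρ^[i] r)) &&
  (pterms D ρ dd r s).all fun e => (orbR ρ (if ρ γ = γ then 1 else dd) γ).contains e.2.2.1 &&
    e.2.2.2.2.1 == 1 && e.2.2.2.2.2 == 1 &&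
    ((orbR ρ dd r ++ orbR ρ dd s ++ (pterms D ρ dd r s).map fun e => e.2.2.1).all fun w => comOK D e.2.2.1 w)

theorem frobIter {K : Type*} [Field K] {φ : K ≃+* K} {q : ℕ} (hφ : ∀ t, φ t = t ^ q) {t : K} {i : ℕ} :
    φ^[i] t = t ^ q ^ i := by
  induction i with
  | zero => rw [Function.iterate_zero, id, pow_zero, pow_one]
  | succ i ih => rw [Function.iterate_succ_apply', ih, hφ, ← pow_mul, ← pow_succ]

namespace Checked

variable {D : ChevalleyDatum} {T : Fast} {F : Type*} [Field F] (C : Checked D T)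
include C

theorem commute_of_comOK {z w : ℕ} (hz : z < D.nroots) (hw : w < D.nroots) (h : comOK D z w = true) (t u : F) :
    Commute (C.xg z t) (C.xg w u) := by
  simp only [comOK, Bool.or_eq_true, beq_iff_eq, Bool.and_eq_true, List.isEmpty_iff, bne_iff_ne] at h
  by_cases hzw : z = w
  · subst hzw
    show C.xg z t * C.xg z u = C.xg z u * C.xg z t
    rw [C.xg_add hz, C.xg_add hz, add_comm]
  · obtain ⟨he, hn⟩ := h.resolve_left hzw
    have hcm := C.comm hz hw (Ne.symm hzw) hn t u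
    rw [ChevalleyDatum.commWord, he, List.map_nil, C.wg_nil, mul_one] at hcm
    exact hcm.symm

theorem split_root (γ : ℕ) (hγ : γ < D.nroots) : ∀ l : List (ℕ × F), (∀ p ∈ l, ∀ a : F, Commute (C.xg γ a) (C.xg p.1 p.2)) →
    C.wg l = C.xg γ ((l.filter fun p => p.1 == γ).map Prod.snd).sum * C.wg (l.filter fun p => p.1 != γ)
  | [], _ => by simp [C.wg_nil, C.xg_zero]
  | p :: l, h => by
    have ih := split_root γ hγ l fun q hq => h q (by simp [hq])
    rw [C.wg_cons, ih]
    by_cases hp : p.1 = γ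
    · rw [List.filter_cons_of_pos (by simp [hp]), List.filter_cons_of_neg (by simp [hp]), List.map_cons,
        List.sum_cons, ← C.xg_add hγ, hp, mul_assoc]
    · rw [List.filter_cons_of_neg (by simp [hp]), List.filter_cons_of_pos (by simp [hp]), C.wg_cons,
        ← mul_assoc, ← (h p (by simp) _).eq, mul_assoc]

theorem wg_flatten (L : List (List (ℕ × F))) : C.wg L.flatten = (L.map C.wg).prod := by
  simp only [Checked.wg, List.map_flatten, List.prod_flatten, List.map_map]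
  rfl

end Checked

namespace Orth

variable {D : ChevalleyDatum} {T : Fast} {C : Checked D T} {K : Type*} [Field K] {τ : Twist C K}
  {dd : ℕ} (O : Orth τ dd)
include O

/-- All valid elements of an orbit root group lie in `H`. -/
def Full (_ : Orth τ dd) (H : Subgroup (GL D.Idx K)) (r : ℕ) : Prop :=
  r < D.nroots ∧ ∀ t : K, τ.Valid dd r t → τ.orbEl dd r t ∈ H

variable {H : Subgroup (GL D.Idx K)}

theorem full_ρ {r : ℕ} (h : O.Full H r) : O.Full H (τ.ρ r) :=
  ⟨τ.ρ_lt r h.1, fun _ ht => O.mem_of_base_ρ h.1 h.2 ht⟩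

theorem full_transport {n : GL D.Idx K} (hn : n ∈ D.monomialSubgroup K) (hf : n ∈ τ.fixed) (hH : n ∈ H) {r : ℕ}
    (h : O.Full H r) : O.Full H (C.sg n r) := by
  refine ⟨C.sg_lt hn h.1, fun t ht => ?_⟩
  obtain ⟨c, hc, he⟩ := O.transport hf hn h.1
  have ht' : t = c * (c⁻¹ * t) := by rw [mul_inv_cancel_left₀ hc]
  rw [ht'] at ht ⊢
  rw [(he _).2]
  exact mul_mem (mul_mem hH (h.2 _ ((he _).1.1 ht))) (inv_mem hH)

/-- The product of orbit reflections along a list of nodes. -/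
noncomputable def nJ (_ : Orth τ dd) (J : List ℕ) : GL D.Idx K := (J.map (τ.wN dd)).prod

theorem nJ_spec {G₁ : Subgroup (GL D.Idx K)} (G : Gens τ dd G₁) : ∀ (J : List ℕ), (∀ j ∈ J, j < D.rank) →
    O.nJ J ∈ D.monomialSubgroup K ∧ O.nJ J ∈ τ.fixed ∧ O.nJ J ∈ G₁ ∧
      ∀ r < D.nroots, C.sg (O.nJ J) r = J.foldr (fun j x => T.orbW (O.orbList j) x) r
  | [], _ => ⟨one_mem _, one_mem _, one_mem _, fun r hr => C.sg_one hr⟩
  | j :: J, h => by
    obtain ⟨h1, h2, h3, h4⟩ := nJ_spec G J fun i hi => h i (by simp [hi])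
    have hj := h j (by simp)
    have e : O.nJ (j :: J) = τ.wN dd j * O.nJ J := by simp [nJ]
    rw [e]
    refine ⟨mul_mem (O.wN_mem_monomial hj) h1, mul_mem (O.wN_fixed hj) h2, mul_mem (O.wN_mem G hj) h3,
      fun r hr => ?_⟩
    rw [C.sg_mul (O.wN_mem_monomial hj) h1 hr, O.sg_wN_w hj (C.sg_lt h1 hr), h4 r hr]
    rfl

/-- Every root reached from a seed is full. -/
theorem full_reach {G₁ : Subgroup (GL D.Idx K)} (G : Gens τ dd G₁) {J : List ℕ}
    (hJ : ∀ j ∈ J, j < D.rank) (hn : O.nJ J ∈ H) {ρ : ℕ → ℕ} (hρ : τ.ρ = ρ) (cyc : ℕ → ℕ)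
    (hcyc : ∀ r, cyc r = J.foldr (fun j x => T.orbW (O.orbList j) x) r) {seeds : List ℕ}
    (hseed : ∀ s ∈ seeds, O.Full H s) {d m t : ℕ}
    (hck : (seeds.any fun s => (List.range d).any fun i => (List.range m).any fun k =>
      ρ^[i] (cyc^[k] s) == t) = true) : O.Full H t := by
  subst hρ
  simp only [List.any_eq_true, List.mem_range, beq_iff_eq] at hck
  obtain ⟨s, hs, i, -, k, -, rfl⟩ := hck
  obtain ⟨h1, h2, -, h4⟩ := O.nJ_spec G J hJ
  have hcy : ∀ k, O.Full H (cyc^[k] s) := by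
    intro k
    induction k with
    | zero => exact hseed s hs
    | succ k ih =>
      rw [Function.iterate_succ_apply', hcyc, ← h4 _ ih.1]
      exact O.full_transport h1 h2 hn ih
  induction i with
  | zero => exact hcy k
  | succ i ih => rw [Function.iterate_succ_apply']; exact O.full_ρ ih

theorem orbEl_eq_wg {r : ℕ} (hr : r < D.nroots) (t : K) :
    τ.orbEl dd r t = C.wg ((List.range (τ.len dd r)).map fun i => (τ.ρ^[i] r, τ.cf i r t)) := by
  rw [Twist.orbEl, Twist.orbProd, Checked.wg, List.map_map]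
  congr 1
  exact List.map_congr_left fun i _ => τ.iter_xg hr t i

/-- The value of the commutator of two orbit elements at a root. -/
def stepVal (τ : Twist C K) (D' : ChevalleyDatum) (ρ : ℕ → ℕ) (dd r s γ : ℕ) (t u : K) : K :=
  (((pterms D' ρ dd r s).filter fun e => e.2.2.1 == γ).map fun e =>
    (e.2.2.2.1 : K) * (-τ.cf e.1 r t) * τ.cf e.2.1 s u).sum

/-- A commutator of two orbit elements. -/
theorem commStep {ρ : ℕ → ℕ} (hρ : τ.ρ = ρ) {r s γ : ℕ} (hck : stepCheck D T ρ dd r s γ = true)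
    (hr : O.Full H r) (hs : O.Full H s) {t u : K} (ht : τ.Valid dd r t) (hu : τ.Valid dd s u) :
    τ.Valid dd γ (stepVal τ D ρ dd r s γ t u) ∧ τ.orbEl dd γ (stepVal τ D ρ dd r s γ t u) ∈ H := by
  subst hρ
  simp only [stepCheck, Bool.and_eq_true, decide_eq_true_eq, bne_iff_ne, List.all_eq_true,
    List.mem_range, beq_iff_eq, List.contains_iff_mem] at hck
  obtain ⟨⟨⟨⟨⟨⟨⟨hr0, hs0⟩, hγ0⟩, hkey⟩, hρr⟩, hρs⟩, hne⟩, hterms⟩ := hck
  have hγ : D.IsPosRoot γ := (C.root.pos_iff γ).2 ⟨hγ0, hkey⟩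
  have hlr : τ.len dd r = dd := if_neg hρr
  have hls : τ.len dd s = dd := if_neg hρs
  set fx : ℕ → GL D.Idx K := fun i => C.xg (τ.ρ^[i] r) (τ.cf i r t) with hfx
  set gy : ℕ → GL D.Idx K := fun k => C.xg (τ.ρ^[k] s) (τ.cf k s u) with hgy
  set w : ℕ → ℕ → GL D.Idx K := fun i k =>
    C.wg (D.commWord K (τ.ρ^[i] r) (τ.ρ^[k] s) (τ.cf i r t) (τ.cf k s u)) with hw
  have hmem : ∀ {i k : ℕ}, i < dd → k < dd → ∀ c ∈ D.commTerms (τ.ρ^[i] r) (τ.ρ^[k] s),
      (i, k, c) ∈ pterms D τ.ρ dd r s := by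
    intro i k hi hk c hc
    simp only [pterms, List.mem_flatten, List.mem_map, List.mem_range]
    exact ⟨_, ⟨i, hi, rfl⟩, by
      simp only [List.mem_flatten, List.mem_map, List.mem_range]
      exact ⟨_, ⟨k, hk, rfl⟩, List.mem_map.2 ⟨c, hc, rfl⟩⟩⟩
  have hout : ∀ e ∈ pterms D τ.ρ dd r s, e.2.2.1 ∈ O.orbit γ ∧ e.2.2.1 < D.nroots := by
    intro e he
    obtain ⟨⟨⟨h1, -⟩, -⟩, -⟩ := hterms e he
    obtain ⟨i, hi, hie⟩ := List.mem_map.1 h1
    refine ⟨⟨i, List.mem_range.1 hi, hie.symm⟩, hie ▸ τ.ρ_iter_lt hγ0 i⟩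
  -- an error term commutes with any element on a listed root
  have hcw : ∀ {i k : ℕ}, i < dd → k < dd → ∀ z ∈ orbR τ.ρ dd r ++ orbR τ.ρ dd s ++
      (pterms D τ.ρ dd r s).map (fun e => e.2.2.1), z < D.nroots → ∀ a : K, Commute (w i k) (C.xg z a) := by
    intro i k hi hk z hz hzl a
    refine Commute.list_prod_left _ _ fun x hx => ?_
    obtain ⟨p, hp, rfl⟩ := List.mem_map.1 hx
    obtain ⟨c, hc, rfl⟩ := List.mem_map.1 hp
    obtain ⟨-, hall⟩ := hterms _ (hmem hi hk c hc)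
    exact C.commute_of_comOK (hout _ (hmem hi hk c hc)).2 hzl (hall z hz) _ _
  have hswap := swap_all fx gy w (List.range dd) (List.range dd)
    (fun i hi k hk => by
      obtain ⟨h1, h2⟩ := hne i (List.mem_range.1 hi) k (List.mem_range.1 hk)
      exact C.comm (τ.ρ_iter_lt hr0 i) (τ.ρ_iter_lt hs0 k) h1 h2 _ _)
    (fun i hi k hk k' hk' => hcw (List.mem_range.1 hi) (List.mem_range.1 hk) _
      (List.mem_append_left _ (List.mem_append_right _ (List.mem_map.2 ⟨k', hk', rfl⟩))) (τ.ρ_iter_lt hs0 k') _)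
    (fun i hi k hk i' hi' => hcw (List.mem_range.1 hi) (List.mem_range.1 hk) _
      (List.mem_append_left _ (List.mem_append_left _ (List.mem_map.2 ⟨i', hi', rfl⟩))) (τ.ρ_iter_lt hr0 i') _)
    (fun i hi k hk i' hi' k' hk' => by
      refine Commute.list_prod_right _ _ fun x hx => ?_
      obtain ⟨p, hp, rfl⟩ := List.mem_map.1 hx
      obtain ⟨c, hc, rfl⟩ := List.mem_map.1 hp
      have he := hmem (List.mem_range.1 hi') (List.mem_range.1 hk') c hc
      exact hcw (List.mem_range.1 hi) (List.mem_range.1 hk) _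
        (List.mem_append_right _ (List.mem_map.2 ⟨_, he, rfl⟩)) (hout _ he).2 _)
  set L := (pterms D τ.ρ dd r s).map fun e =>
    (e.2.2.1, (e.2.2.2.1 : K) * (-τ.cf e.1 r t) * τ.cf e.2.1 s u) with hL
  have hW : ((List.range dd).map fun i => ((List.range dd).map (w i)).prod).prod = C.wg L := by
    rw [hL]
    simp only [pterms, List.map_flatten, List.map_map, C.wg_flatten, Function.comp_def]
    congr 1
    refine List.map_congr_left fun i hi => ?_
    congr 1
    refine List.map_congr_left fun k hk => ?_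
    simp only [hw]
    congr 1
    refine List.map_congr_left fun c hc => ?_
    obtain ⟨⟨⟨-, hci⟩, hcj⟩, -⟩ := hterms _ (hmem (List.mem_range.1 hi) (List.mem_range.1 hk) c hc)
    simp only at hci hcj
    rw [hci, hcj, pow_one, pow_one]
  have hX : ((List.range dd).map fx).prod = τ.orbEl dd r t := by
    rw [O.orbEl_eq_wg hr0, hlr, Checked.wg, List.map_map]; rfl
  have hY : ((List.range dd).map gy).prod = τ.orbEl dd s u := by
    rw [O.orbEl_eq_wg hs0, hls, Checked.wg, List.map_map]; rfl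
  rw [hX, hY, hW] at hswap
  have hWeq : C.wg L = (τ.orbEl dd r t * τ.orbEl dd s u)⁻¹ * (τ.orbEl dd s u * τ.orbEl dd r t) := by
    rw [hswap]; group
  have hWH : C.wg L ∈ H := by
    rw [hWeq]; exact mul_mem (inv_mem (mul_mem (hr.2 t ht) (hs.2 u hu))) (mul_mem (hs.2 u hu) (hr.2 t ht))
  have hWf : C.wg L ∈ τ.fixed := by
    have hXf := O.orbEl_fixed hr0 ht
    have hYf := O.orbEl_fixed hs0 hu
    rw [hWeq]; exact mul_mem (inv_mem (mul_mem hXf hYf)) (mul_mem hYf hXf)
  have hLorb : ∀ p ∈ L, p.1 ∈ O.orbit γ := fun p hp => by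
    obtain ⟨e, he, rfl⟩ := List.mem_map.1 hp
    exact (hout e he).1
  have hWg : C.wg L ∈ grp D K (O.orbit γ) := list_prod_mem fun x hx => by
    obtain ⟨p, hp, rfl⟩ := List.mem_map.1 hx
    exact C.xg_mem (hLorb p hp) _
  obtain ⟨v, hv, hWv⟩ := O.fixed_orbit hγ hWg hWf
  -- compare the coordinates at γ
  have hsp : ∀ l : List (ℕ × K), (∀ p ∈ l, p.1 ∈ O.orbit γ) →
      ∃ b ∈ grp D K (O.orbit γ \ {γ}), C.wg l = C.xg γ ((l.filter fun p => p.1 == γ).map Prod.snd).sum * b := by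
    intro l hl
    refine ⟨_, ?_, C.split_root γ hγ0 l fun p hp a => ?_⟩
    · refine list_prod_mem fun x hx => ?_
      obtain ⟨p, hp, rfl⟩ := List.mem_map.1 hx
      rw [List.mem_filter, bne_iff_ne] at hp
      exact C.xg_mem (S := O.orbit γ \ {γ}) ⟨hl p hp.1, hp.2⟩ _
    · obtain ⟨i, hi, e⟩ := hl p hp
      rw [e]
      exact O.commute_iter (i := 0) hγ0 a p.2 O.dd_pos (hi.trans_le (O.len_le _))
  obtain ⟨b1, hb1, e1⟩ := hsp L hLorb
  obtain ⟨b2, hb2, e2⟩ := hsp ((List.range (τ.len dd γ)).map fun i => (τ.ρ^[i] γ, τ.cf i γ v)) (fun p hp => by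
    obtain ⟨i, hi, rfl⟩ := List.mem_map.1 hp
    exact ⟨i, List.mem_range.1 hi, rfl⟩)
  rw [← O.orbEl_eq_wg hγ0, ← hWv, e1] at e2
  have hsum : (((List.range (τ.len dd γ)).map fun i => (τ.ρ^[i] γ, τ.cf i γ v)).filter fun p => p.1 == γ).map Prod.snd = [v] := by
    obtain ⟨m, hm⟩ : ∃ m, τ.len dd γ = m + 1 := ⟨τ.len dd γ - 1, by have := O.len_pos (τ := τ) γ; omega⟩
    rw [hm, List.range_succ_eq_map, List.map_cons, List.filter_cons_of_pos (by simp), List.map_cons,
      List.filter_eq_nil_iff.2 ?_]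
    · rfl
    · intro p hp
      simp only [List.map_map, List.mem_map, List.mem_range, Function.comp_apply] at hp
      obtain ⟨i, hi, rfl⟩ := hp
      simp only [beq_iff_eq]
      intro e
      exact Nat.succ_ne_zero i (O.distinct_len hγ0 (hm ▸ Nat.succ_lt_succ hi) (O.len_pos γ) e)
  obtain ⟨hx, -⟩ := C.mul_unique_of_disjoint (C.closedSet_singleton hγ) (O.closed_sub_orbit hγ Set.diff_subset)
    (fun x hx hx' => hx'.2 hx) (C.xg_mem (S := {γ}) rfl _) (C.xg_mem (S := {γ}) rfl _) hb1 hb2 e2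
  have hval := C.xg_inj hγ0 hx
  rw [hsum, List.sum_singleton] at hval
  have hv' : stepVal τ D τ.ρ dd r s γ t u = v := by
    rw [← hval, hL, List.filter_map, List.map_map]
    rfl
  rw [hv']
  exact ⟨hv, hWv ▸ hWH⟩

theorem valid_all [Fintype K] {q : ℕ} (hK : Fintype.card K = q ^ dd)
    (hq : ∀ j < D.rank, Nat.card {t : K // τ.Valid dd (D.simple j) t} = q ^ τ.len dd (D.simple j))
    {r : ℕ} (hr : D.IsPosRoot r) (hne : τ.ρ r ≠ r) (t : K) : τ.Valid dd r t := by
  classical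
  have h := O.card_valid hq hr
  rw [show τ.len dd r = dd from if_neg hne, ← hK, Nat.card_eq_fintype_card, Fintype.card_subtype] at h
  exact (Finset.mem_filter.1 ((Finset.eq_univ_of_card _ h).symm ▸ Finset.mem_univ t)).2

theorem cf_eq {φ : K ≃+* K} (hf : ∀ r, τ.f r = φ) (r : ℕ) :
    ∀ i, ∃ e : K, e ≠ 0 ∧ ∀ t, τ.cf i r t = e * φ^[i] t
  | 0 => ⟨1, one_ne_zero, fun t => (one_mul t).symm⟩
  | i + 1 => by
    obtain ⟨e, he, h⟩ := cf_eq hf r i
    refine ⟨((sgn (τ.ε (τ.ρ^[i] r)) : ℤ) : K) * φ e, mul_ne_zero ?_ ((map_ne_zero _).2 he), fun t => ?_⟩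
    · cases τ.ε (τ.ρ^[i] r) <;> simp [sgn]
    · rw [Twist.cf, h, hf, map_mul, Function.iterate_succ_apply', mul_assoc]

/-- A commutator giving a moved orbit. -/
theorem full_short [Fintype K] {q : ℕ} (hK : Fintype.card K = q ^ dd)
    (hq : ∀ j < D.rank, Nat.card {t : K // τ.Valid dd (D.simple j) t} = q ^ τ.len dd (D.simple j))
    {ρ : ℕ → ℕ} (hρ : τ.ρ = ρ) {r s γ : ℕ} {k : ℕ} {c : ℤ}
    (hck : stepCheck D T ρ dd r s γ = true ∧ 0 < T.key r ∧ 0 < T.key s ∧ c.natAbs = 1 ∧
      ((pterms D ρ dd r s).filter fun e => e.2.2.1 == γ) = [(0, 0, (k, c, 1, 1))])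
    (hr : O.Full H r) (hs : O.Full H s) : O.Full H γ := by
  obtain ⟨hck, hkr, hks, hc, hfil⟩ := hck
  have hck' := hck
  simp only [stepCheck, Bool.and_eq_true, decide_eq_true_eq, bne_iff_ne] at hck'
  obtain ⟨⟨⟨⟨⟨⟨⟨hr0, hs0⟩, hγ0⟩, -⟩, hρr⟩, hρs⟩, -⟩, -⟩ := hck'
  subst hρ
  refine ⟨hγ0, fun v _ => ?_⟩
  have hcc : (c : K) * (c : K) = 1 := by
    rcases Int.natAbs_eq_iff.1 hc with rfl | rfl <;> simp
  have h := (O.commStep rfl hck hr hs (t := -((c : K) * v)) (u := 1)
    (O.valid_all hK hq ((C.root.pos_iff r).2 ⟨hr0, hkr⟩) hρr _) (O.valid_all hK hq ((C.root.pos_iff s).2 ⟨hs0, hks⟩) hρs _)).2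
  simp only [stepVal, hfil, List.map_singleton, List.sum_singleton, Twist.cf, neg_neg, mul_one, ← mul_assoc,
    hcc, one_mul] at h
  exact h

/-- A commutator giving a fixed root. -/
theorem full_long [Fintype K] {q : ℕ} (hq2 : 2 ≤ q) (hdd : 0 < dd) (hK : Fintype.card K = q ^ dd)
    (hq : ∀ j < D.rank, Nat.card {t : K // τ.Valid dd (D.simple j) t} = q ^ τ.len dd (D.simple j))
    {φ : K ≃+* K} (hf : ∀ r, τ.f r = φ) (hφ : ∀ t, φ t = t ^ q)
    {ρ : ℕ → ℕ} (hρ : τ.ρ = ρ) {r s γ : ℕ}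
    (hck : stepCheck D T ρ dd r s γ = true ∧ 0 < T.key r ∧ 0 < T.key s ∧ ρ γ = γ ∧
      (((pterms D ρ dd r s).filter fun e => e.2.2.1 == γ).map fun e => e.1).Nodup ∧
      (∃ e ∈ (pterms D ρ dd r s).filter (fun e => e.2.2.1 == γ), e.1 = 0 ∧ e.2.2.2.1.natAbs = 1) ∧
      ∀ e ∈ (pterms D ρ dd r s).filter (fun e => e.2.2.1 == γ), e.1 < dd)
    (hr : O.Full H r) (hs : O.Full H s) : O.Full H γ := by
  classical
  obtain ⟨hck, hkr, hks, hργ, hnd, ⟨e0, he0, he00, hc0⟩, hlt⟩ := hck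
  have hck' := hck
  simp only [stepCheck, Bool.and_eq_true, decide_eq_true_eq, bne_iff_ne] at hck'
  obtain ⟨⟨⟨⟨⟨⟨⟨hr0, hs0⟩, hγ0⟩, -⟩, hρr⟩, hρs⟩, -⟩, -⟩ := hck'
  subst hρ
  refine ⟨hγ0, fun v hv => ?_⟩
  have hvr := O.valid_all hK hq ((C.root.pos_iff r).2 ⟨hr0, hkr⟩) hρr
  have hvs := O.valid_all hK hq ((C.root.pos_iff s).2 ⟨hs0, hks⟩) hρs
  set L := (pterms D τ.ρ dd r s).filter fun e => e.2.2.1 == γ with hLdef
  have hcf := fun i => O.cf_eq hf r i
  choose ee hee0 hee using hcf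
  have hcs : ∀ k, τ.cf k s 1 ≠ 0 := fun k => by
    obtain ⟨e, he, h⟩ := O.cf_eq hf s k
    rw [h, frobIter hφ, one_pow, mul_one]
    exact he
  -- the value as a function of t
  let d : ℕ × ℕ × (ℕ × ℤ × ℕ × ℕ) → K := fun e => -((e.2.2.2.1 : K) * ee e.1 * τ.cf e.2.1 s 1)
  have hval : ∀ t : K, stepVal τ D τ.ρ dd r s γ t 1 = (L.map fun e => d e * t ^ q ^ e.1).sum := by
    intro t
    refine congrArg List.sum (List.map_congr_left fun e _ => ?_)
    simp only [d, hee, frobIter hφ]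
    ring
  obtain ⟨t0, ht0⟩ : ∃ t : K, stepVal τ D τ.ρ dd r s γ t 1 ≠ 0 := by
    by_contra hall
    push Not at hall
    let P : Polynomial K := (L.map fun e => Polynomial.monomial (q ^ e.1) (d e)).sum
    have hdeg : P.natDegree ≤ q ^ (dd - 1) := by
      refine List.sum_induction (fun x : Polynomial K => x.natDegree ≤ q ^ (dd - 1))
        (fun x y hx hy => Polynomial.natDegree_add_le_of_degree_le hx hy) (by simp) fun x hx => ?_
      obtain ⟨e, he, rfl⟩ := List.mem_map.1 hx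
      exact (Polynomial.natDegree_monomial_le _).trans (Nat.pow_le_pow_right (by omega) (by have := hlt _ he; omega))
    have hcoef : P.coeff 1 = d e0 := by
      have hgen : ∀ M : List (ℕ × ℕ × (ℕ × ℤ × ℕ × ℕ)), (M.map fun e => e.1).Nodup → e0 ∈ M →
          ((M.map fun e => Polynomial.monomial (q ^ e.1) (d e)).sum).coeff 1 = d e0 := by
        intro M
        induction M with
        | nil => simp
        | cons a M ih =>
          intro hn hm
          simp only [List.map_cons, List.nodup_cons] at hn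
          simp only [List.map_cons, List.sum_cons, Polynomial.coeff_add, Polynomial.coeff_monomial]
          rcases List.mem_cons.1 hm with rfl | hm
          · have h0 : ((M.map fun e => Polynomial.monomial (q ^ e.1) (d e)).sum).coeff 1 = 0 := by
              have : ∀ M' : List (ℕ × ℕ × (ℕ × ℤ × ℕ × ℕ)), (∀ e ∈ M', e.1 ≠ 0) →
                  ((M'.map fun e => Polynomial.monomial (q ^ e.1) (d e)).sum).coeff 1 = 0 := by
                intro M' hM'
                induction M' with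
                | nil => simp
                | cons b M' ih' =>
                  simp only [List.map_cons, List.sum_cons, Polynomial.coeff_add, Polynomial.coeff_monomial]
                  rw [ih' fun e he => hM' e (by simp [he]), if_neg, add_zero]
                  exact (Nat.one_lt_pow (hM' b (by simp)) (by omega)).ne'
              exact this M fun e he h0 => hn.1 (List.mem_map.2 ⟨e, he, h0.trans he00.symm⟩)
            rw [h0, he00, pow_zero, if_pos rfl, add_zero]
          · have hne : a.1 ≠ 0 := fun h0 => hn.1 (List.mem_map.2 ⟨e0, hm, he00.trans h0.symm⟩)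
            rw [ih hn.2 hm, if_neg (Nat.one_lt_pow hne (by omega)).ne', zero_add]
      exact hgen L hnd he0
    have hP0 : P ≠ 0 := by
      intro h
      rw [h, Polynomial.coeff_zero] at hcoef
      have : d e0 ≠ 0 := by
        refine neg_ne_zero.2 (mul_ne_zero (mul_ne_zero ?_ (hee0 _)) (hcs _))
        rcases Int.natAbs_eq_iff.1 hc0 with h | h <;> rw [h] <;> simp
      exact this hcoef.symm
    have hroots : (Finset.univ : Finset K).val ⊆ P.roots := fun t _ => by
      rw [Polynomial.mem_roots hP0, Polynomial.IsRoot.def]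
      simp only [P, Polynomial.eval_listSum, List.map_map]
      have := hall t
      rw [hval] at this
      simpa [Function.comp_def] using this
    have := (Multiset.card_le_card ((Multiset.le_iff_subset Finset.univ.nodup).2 hroots)).trans
      ((Polynomial.card_roots' P).trans hdeg)
    rw [← Finset.card_def, Finset.card_univ, hK] at this
    exact absurd this (not_le.2 (Nat.pow_lt_pow_right (by omega) (by omega)))
  obtain ⟨hv0, -⟩ := O.commStep rfl hck hr hs (hvr t0) (hvs 1)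
  set v0 := stepVal τ D τ.ρ dd r s γ t0 1 with hv0def
  -- the ratio is fixed by φ
  have hfix : φ (v / v0) = v / v0 := by
    have hl : τ.len dd γ = 1 := if_pos hργ
    rw [Twist.Valid, hl, τ.iter_xg hγ0] at hv hv0
    simp only [Twist.cf, Function.iterate_one, Function.iterate_zero, id, hργ, hf] at hv hv0
    have h1 := C.xg_inj hγ0 hv
    have h2 := C.xg_inj hγ0 hv0
    rw [map_div₀]
    set σ : K := ((sgn (τ.ε γ) : ℤ) : K)
    have hσ : σ ≠ 0 := by simp only [σ]; cases τ.ε γ <;> simp [sgn]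
    rw [← mul_div_mul_left (φ v) (φ v0) hσ, h1, h2]
  have hmul : stepVal τ D τ.ρ dd r s γ ((v / v0) * t0) 1 = v := by
    have hpow : ∀ i, (v / v0) ^ q ^ i = v / v0 := by
      intro i
      induction i with
      | zero => rw [pow_zero, pow_one]
      | succ i ih => rw [pow_succ, pow_mul, ih, ← hφ, hfix]
    rw [hval]
    have h2 : (L.map fun e => d e * (v / v0 * t0) ^ q ^ e.1) = L.map fun e => v / v0 * (d e * t0 ^ q ^ e.1) :=
      List.map_congr_left fun e _ => by rw [mul_pow, hpow]; ring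
    rw [h2, List.sum_map_mul_left, ← hval, ← hv0def, div_mul_cancel₀ _ ht0]
  have h := (O.commStep rfl hck hr hs (hvr ((v / v0) * t0)) (hvs 1)).2
  rwa [hmul] at h

/-- The commutator trick. -/
theorem trick {h n : GL D.Idx K} (hh : h ∈ D.diagonalSubgroup K) (hhf : h ∈ τ.fixed) (hhH : h ∈ H)
    (hn : n ∈ D.monomialSubgroup K) (hnf : n ∈ τ.fixed) {S r0 : ℕ} (hr0 : r0 < D.nroots) (hS : C.sg n r0 = S)
    (hvS : ∀ t : K, τ.Valid dd S t) (hy : τ.orbEl dd S 1 * n ∈ H) {α β : K}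
    (hα : ∀ t : K, h * C.xg S t * h⁻¹ = C.xg S (α * t))
    (hβ : ∀ t : K, h * C.xg r0 t * h⁻¹ = C.xg r0 (β * t)) (hα1 : α ≠ 1) (hβ1 : β ≠ 1)
    (hsq : ∀ x : K, x ≠ 0 → ∃ k : ℕ, α ^ k = x ^ 2) (htwo : ∀ c : K, ∃ x y : K, x ^ 2 + y ^ 2 = c) :
    O.Full H S ∧ n ∈ H := by
  have hSlt : S < D.nroots := hS ▸ C.sg_lt hn hr0
  have hx := fun t : K => C.xg_mem_group (F := K) hSlt t
  obtain ⟨d, hd, hconj⟩ := C.sg_conj hn hr0
  rw [hS] at hconj
  set h' := n * h * n⁻¹ with hh'
  have hh'f : h' ∈ τ.fixed := mul_mem (mul_mem hnf hhf) (inv_mem hnf)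
  have hcomm : h * h' = h' * h := C.diag_comm hh (C.mono_conj_diag hn h hh)
  have hact : ∀ t : K, h' * C.xg S t * h'⁻¹ = C.xg S (β * t) := fun t => by
    have h1 : C.xg S t = n * C.xg r0 (d⁻¹ * t) * n⁻¹ := by rw [hconj, mul_inv_cancel_left₀ hd]
    rw [h1, show h' * (n * C.xg r0 (d⁻¹ * t) * n⁻¹) * h'⁻¹ = n * (h * C.xg r0 (d⁻¹ * t) * h⁻¹) * n⁻¹ by
      rw [hh']; group, hβ, hconj, mul_left_comm, mul_inv_cancel_left₀ hd]
  have hE : ∀ {g : GL D.Idx K} {c : K}, g ∈ τ.fixed → (∀ t : K, g * C.xg S t * g⁻¹ = C.xg S (c * t)) →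
      ∀ t : K, g * τ.orbEl dd S t * g⁻¹ = τ.orbEl dd S (c * t) := fun hg hgc t => by
    rw [Twist.orbEl, Twist.orbEl, ← τ.orbProd_conj hg (hx t), hgc]
  set E := τ.orbEl dd S with hEdef
  have hg1 : E 1 * n * h * (E 1 * n)⁻¹ = E (1 - β) * h' := by
    rw [show E 1 * n * h * (E 1 * n)⁻¹ = E 1 * (h' * (E 1)⁻¹ * h'⁻¹) * h' by rw [hh']; group,
      hEdef, ← O.orbEl_neg' hSlt, hE hh'f hact, ← O.orbEl_add hSlt, mul_neg, mul_one, sub_eq_add_neg]
  have hcm : h * (E (1 - β) * h') * h⁻¹ * (E (1 - β) * h')⁻¹ = E ((α - 1) * (1 - β)) := by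
    calc h * (E (1 - β) * h') * h⁻¹ * (E (1 - β) * h')⁻¹
        = h * E (1 - β) * h⁻¹ * ((h * h') * (h' * h)⁻¹) * (E (1 - β))⁻¹ := by group
      _ = E ((α - 1) * (1 - β)) := by
        rw [hcomm, mul_inv_cancel, mul_one, hEdef, hE hhf hα, ← O.orbEl_neg' hSlt, ← O.orbEl_add hSlt]
        congr 1; ring
  have hv0 : E ((α - 1) * (1 - β)) ∈ H := by
    rw [← hcm, ← hg1]
    exact mul_mem (mul_mem (mul_mem hhH (mul_mem (mul_mem hy hhH) (inv_mem hy))) (inv_mem hhH))
      (inv_mem (mul_mem (mul_mem hy hhH) (inv_mem hy)))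
  set v0 := (α - 1) * (1 - β)
  have hv00 : v0 ≠ 0 := mul_ne_zero (sub_ne_zero.2 hα1) (sub_ne_zero.2 (Ne.symm hβ1))
  have hpow : ∀ k : ℕ, E (α ^ k * v0) ∈ H := by
    intro k
    induction k with
    | zero => simpa using hv0
    | succ k ih =>
      have := mul_mem (mul_mem hhH ih) (inv_mem hhH)
      rw [hEdef, hE hhf hα] at this
      rwa [pow_succ', mul_assoc]
  have hsqv : ∀ x : K, E (x ^ 2 * v0) ∈ H := fun x => by
    by_cases h0 : x = 0
    · rw [h0, zero_pow two_ne_zero, zero_mul, hEdef, O.orbEl_zero hSlt]; exact one_mem _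
    · obtain ⟨k, hk⟩ := hsq x h0; exact hk ▸ hpow k
  have hfull : O.Full H S := ⟨hSlt, fun t _ => by
    obtain ⟨x, y, hxy⟩ := htwo (t * v0⁻¹)
    have := mul_mem (hsqv x) (hsqv y)
    rwa [hEdef, ← O.orbEl_add hSlt, ← add_mul, hxy, inv_mul_cancel_right₀ hv00] at this⟩
  exact ⟨hfull, (H.mul_mem_cancel_left (hfull.2 1 (hvS 1))).1 hy⟩

theorem orbProd_mem_diag {g : GL D.Idx K} (hg : g ∈ D.diagonalSubgroup K) (d : ℕ) :
    τ.orbProd d g ∈ D.diagonalSubgroup K := by
  have hit : ∀ i, τ.act^[i] g ∈ D.diagonalSubgroup K := by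
    intro i
    induction i with
    | zero => exact hg
    | succ i ih => rw [Function.iterate_succ_apply']; exact τ.act_diag ih
  refine list_prod_mem fun x hx => ?_
  obtain ⟨i, -, rfl⟩ := List.mem_map.1 hx
  exact hit i

end Orth

/-- Every element of a finite field is a sum of two squares. -/
theorem exists_two_squares {K : Type*} [Field K] [Fintype K] (c : K) : ∃ x y : K, x ^ 2 + y ^ 2 = c := by
  by_cases h : ringChar K = 2
  · obtain ⟨r, hr⟩ := FiniteField.isSquare_of_char_two h c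
    exact ⟨r, 0, by rw [hr]; ring⟩
  · obtain ⟨a, b, hab⟩ := FiniteField.exists_root_sum_quadratic (f := (Polynomial.X ^ 2 : Polynomial K))
      (g := (Polynomial.X ^ 2 - Polynomial.C c : Polynomial K)) (Polynomial.degree_X_pow 2)
      (Polynomial.degree_X_pow_sub_C (by norm_num) c) (FiniteField.odd_card_of_char_ne_two h)
    refine ⟨a, b, ?_⟩
    simp at hab
    linear_combination hab

end Cfsg.Agent.Lib.Chev
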