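import Cfsg.Agent.Lib.Chev.BN
import Cfsg.Agent.Lib.Chev.CoxWord

/-!
Generation by two elements: from `x_M(1) n` and a second element, by certificates on roots.
-/

set_option autoImplicit false

namespace Cfsg.Agent.Lib.Chev

open Cfsg.Lie Cfsg.Agent.Lib

namespace Fast

variable (T : Fast)

/-- parameters of a certificate -/
structure Par where
  /-- the word of the monomial element -/
  c : List ℕ
  /-- the root of the unipotent factor -/
  M : ℕ
  /-- an integer vanishing in the field -/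
  p : ℕ
  /-- absolute values of invertible coefficients -/
  al : List ℕ
  /-- the field has two elements -/
  small : Bool

/-- coefficients not known to vanish -/
def nz (P : Par) (c : ℤ) : Bool := !(P.p != 0 && c.natAbs % P.p == 0)

/-- extend by the only unknown root of a product -/
def hit (cov : List ℕ) (l : List (ℕ × Bool)) : List ℕ :=
  match l.filter fun t => !cov.contains t.1 with
  | [(k, true)] => k :: cov
  | _ => cov

/-- one step of a certificate -/
def gstep (D : ChevalleyDatum) (P : Par) (cov : List ℕ) (op : ℕ × ℕ × ℕ) : List ℕ :=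
  let r := op.2.1
  if cov.contains r then
    match op.1 with
    | 0 =>
      let z := T.word P.c r
      if P.small && z == P.M then P.M :: cov
      else if P.small && z != T.ng P.M then
        hit cov ((z, true) :: ((D.commTerms P.M z).filter fun t => nz P t.2.1).map fun t => (t.1, P.al.contains t.2.1.natAbs))
      else cov
    | 1 =>
      let ci := T.word P.c.reverse
      if P.small && r == P.M then ci P.M :: cov
      else if P.small && r != T.ng P.M then
        hit cov ((ci r, true) :: ((D.commTerms P.M r).filter fun t => nz P t.2.1).map fun t => (ci t.1, P.al.contains t.2.1.natAbs))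
      else cov
    | 2 => if cov.contains P.M then T.word P.c r :: cov else cov
    | 3 => if cov.contains P.M then T.word P.c.reverse r :: cov else cov
    | _ =>
      let s := op.2.2
      if cov.contains s && s != r && s != T.ng r then
        hit cov (((D.commTerms r s).filter fun t => nz P t.2.1).map fun t =>
          (t.1, P.al.contains t.2.1.natAbs && (t.2.2.1 == 1 || t.2.2.2 == 1)))
      else cov
  else cov

/-- a certificate of generation -/
def gcheck (D : ChevalleyDatum) (P : Par) (seeds : List ℕ) (ops : List (ℕ × ℕ × ℕ)) : Bool :=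
  let cov := ops.foldl (gstep T D P) seeds
  (List.range T.n).all fun r => cov.contains r

end Fast

namespace Checked

variable {D : ChevalleyDatum} {T : Fast} {F : Type*} [Field F] (C : Checked D T)
include C

/-- A monomial element along a word. -/
def nc (C : Checked D T) (F : Type*) [Field F] (c : List ℕ) : GL D.Idx F := (c.map fun i => (C.ng i : GL D.Idx F)).prod

theorem word_lt (c : List ℕ) (hc : ∀ i ∈ c, i < D.rank) {r : ℕ} (hr : r < D.nroots) : T.word c r < D.nroots := by
  induction c with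
  | nil => exact hr
  | cons i c ih =>
    have h1 := ih fun j hj => hc j (List.mem_cons_of_mem _ hj)
    have hi := hc i (List.mem_cons_self ..)
    show T.w i (T.word c r) < D.nroots
    rw [← C.refl i hi _ h1]
    exact C.root.refl_lt i hi _ h1

theorem word_rev (c : List ℕ) (hc : ∀ i ∈ c, i < D.rank) {r : ℕ} (hr : r < D.nroots) :
    T.word c (T.word c.reverse r) = r := by
  induction c generalizing r with
  | nil => rfl
  | cons i c ih =>
    have hc' : ∀ j ∈ c, j < D.rank := fun j hj => hc j (List.mem_cons_of_mem _ hj)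
    have hi := hc i (List.mem_cons_self ..)
    have hw : T.w i r < D.nroots := by rw [← C.refl i hi r hr]; exact C.root.refl_lt i hi r hr
    rw [List.reverse_cons]
    show T.w i (T.word c ((c.reverse ++ [i]).foldr (fun j x => T.w j x) r)) = r
    rw [List.foldr_append]
    show T.w i (T.word c (T.word c.reverse (T.w i r))) = r
    rw [ih hc' hw, ← C.refl i hi r hr, ← C.refl i hi _ (C.root.refl_lt i hi r hr), C.root.refl_refl i hi r hr]

theorem nc_conj (c : List ℕ) (hc : ∀ i ∈ c, i < D.rank) {r : ℕ} (hr : r < D.nroots) :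
    ∃ e : F, e ≠ 0 ∧ ∀ t : F, C.nc F c * C.xg r t * (C.nc F c)⁻¹ = C.xg (T.word c r) (e * t) := by
  induction c with
  | nil => exact ⟨1, one_ne_zero, fun t => by simp [nc, Fast.word]⟩
  | cons i c ih =>
    have hc' : ∀ j ∈ c, j < D.rank := fun j hj => hc j (List.mem_cons_of_mem _ hj)
    obtain ⟨e, he, h⟩ := ih hc'
    have hi := hc i (List.mem_cons_self ..)
    have hs := C.word_lt c hc' hr
    refine ⟨eta T F i (T.word c r) * e, mul_ne_zero (eta_ne_zero _ _) he, fun t => ?_⟩
    have : C.nc F (i :: c) = C.ng i * C.nc F c := by simp [nc]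
    rw [this, mul_inv_rev, show C.ng i * C.nc F c * C.xg r t * ((C.nc F c)⁻¹ * (C.ng i)⁻¹) =
      C.ng i * (C.nc F c * C.xg r t * (C.nc F c)⁻¹) * (C.ng i)⁻¹ by group, h, C.ng_xg hi hs,
      mul_inv_cancel_right, C.refl i hi _ hs, mul_assoc]
    rfl

theorem nc_conj' (c : List ℕ) (hc : ∀ i ∈ c, i < D.rank) {r : ℕ} (hr : r < D.nroots) :
    ∃ e : F, e ≠ 0 ∧ ∀ t : F, (C.nc F c)⁻¹ * C.xg r t * C.nc F c = C.xg (T.word c.reverse r) (e * t) := by
  have hc' : ∀ i ∈ c.reverse, i < D.rank := fun i hi => hc i (List.mem_reverse.1 hi)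
  obtain ⟨e, he, h⟩ := C.nc_conj (F := F) c hc (C.word_lt c.reverse hc' hr)
  rw [C.word_rev c hc hr] at h
  refine ⟨e⁻¹, inv_ne_zero he, fun t => ?_⟩
  have := h (e⁻¹ * t)
  rw [mul_inv_cancel_left₀ he] at this
  rw [← this]
  group

theorem nc_mem_group (c : List ℕ) (hc : ∀ i ∈ c, i < D.rank) : C.nc F c ∈ D.group F := by
  refine Subgroup.list_prod_mem _ fun x hx => ?_
  obtain ⟨i, hi, rfl⟩ := List.mem_map.1 hx
  exact C.ng_mem_group (hc i hi)

/-- If a product of root elements lies in `H`, so does the only factor not known to be there. -/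
theorem mem_of_wg {H : Subgroup (GL D.Idx F)} {α : Type} (g : α → ℕ × F) : ∀ {l : List α}, C.wg (l.map g) ∈ H →
    ∀ (f : α → Bool), (∀ a ∈ l, f a = false → C.xg (g a).1 (g a).2 ∈ H) → ∀ p, l.filter f = [p] →
    C.xg (g p).1 (g p).2 ∈ H := by
  intro l
  induction l with
  | nil => intro _ f _ p hp; simp at hp
  | cons a l ih =>
    intro hw f hf p hp
    rw [List.map_cons, C.wg_cons] at hw
    cases hfa : f a with
    | false =>
      rw [List.filter_cons_of_neg (by simp [hfa])] at hp
      exact ih ((H.mul_mem_cancel_left (hf a (List.mem_cons_self ..) hfa)).1 hw) f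
        (fun q hq => hf q (List.mem_cons_of_mem _ hq)) p hp
    | true =>
      rw [List.filter_cons_of_pos (by simp [hfa])] at hp
      obtain ⟨rfl, hnil⟩ := List.cons.inj hp
      have hrest : C.wg (l.map g) ∈ H := by
        refine Subgroup.list_prod_mem _ fun x hx => ?_
        rw [List.map_map] at hx
        obtain ⟨q, hq, rfl⟩ := List.mem_map.1 hx
        refine hf q (List.mem_cons_of_mem _ hq) ?_
        by_contra h
        have := List.mem_filter.2 ⟨hq, (by simpa using h : f q = true)⟩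
        rw [hnil] at this
        exact (List.mem_nil_iff q).1 this
      exact (H.mul_mem_cancel_right hrest).1 hw

theorem commTerms_pos {r s : ℕ} : ∀ t ∈ D.commTerms r s, t.2.2.1 ≠ 0 := by
  intro t ht
  unfold ChevalleyDatum.commTerms at ht
  simp only [List.mem_filterMap, List.mem_cons, List.not_mem_nil, or_false] at ht
  obtain ⟨c, hc, hmap⟩ := ht
  obtain ⟨k, -, rfl⟩ := Option.map_eq_some_iff.1 hmap
  rcases hc with rfl | rfl | rfl | rfl | rfl | rfl | rfl <;> simp

section cert

variable {H : Subgroup (GL D.Idx F)} {P : Fast.Par}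
  (hc : ∀ i ∈ P.c, i < D.rank) (hM : P.M < D.nroots) (hp : (P.p : F) = 0)
  (hal : ∀ z : ℤ, z.natAbs ∈ P.al → (z : F) ≠ 0) (hsmall : P.small = true → ∀ t : F, t = 0 ∨ t = 1)
  (hb : C.xg P.M 1 * C.nc F P.c ∈ H)

include hp in
theorem nz_sound {z : ℤ} (h : Fast.nz P z = false) : (z : F) = 0 := by
  simp only [Fast.nz, Bool.not_eq_false', Bool.and_eq_true, bne_iff_ne, beq_iff_eq] at h
  obtain ⟨k, hk⟩ := Int.natCast_dvd.2 (Nat.dvd_of_mod_eq_zero h.2)
  rw [hk, Int.cast_mul, Int.cast_natCast, hp, zero_mul]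

include hp in
/-- Soundness of `hit`: a product in `H` gives the only unknown factor. -/
theorem hit_sound {cov : List ℕ} (hcov : ∀ k ∈ cov, k < D.nroots ∧ ∀ t : F, C.xg k t ∈ H)
    {α : Type} {β : Type*} (l : List α) (root : α → ℕ) (flag : α → Bool) (co : α → ℤ) (val : β → α → F)
    (hlt : ∀ a ∈ l, root a < D.nroots)
    (hval : ∀ u : β, ∀ a ∈ l, (co a : F) = 0 → val u a = 0)
    (hmem : ∀ u : β, C.wg (l.map fun a => (root a, val u a)) ∈ H)
    (hfull : ∀ a ∈ l, Fast.nz P (co a) = true → flag a = true → (∀ u : β, C.xg (root a) (val u a) ∈ H) →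
      ∀ t : F, C.xg (root a) t ∈ H) :
    ∀ k ∈ Fast.hit cov ((l.filter fun a => Fast.nz P (co a)).map fun a => (root a, flag a)),
      k < D.nroots ∧ ∀ t : F, C.xg k t ∈ H := by
  unfold Fast.hit
  split
  · rename_i k h
    intro x hx
    rcases List.mem_cons.1 hx with rfl | hx
    swap
    · exact hcov _ hx
    rw [List.filter_map, List.filter_filter, List.map_eq_singleton_iff] at h
    obtain ⟨a, ha, hax⟩ := h
    obtain ⟨rfl, hfl⟩ := Prod.mk.inj hax
    have hmem' : a ∈ l ∧ _ := List.mem_filter.1 (ha ▸ List.mem_singleton_self a)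
    simp only [Function.comp_apply, Bool.and_eq_true] at hmem'
    refine ⟨hlt a hmem'.1, hfull a hmem'.1 hmem'.2.2 hfl fun u => ?_⟩
    refine C.mem_of_wg (fun a => (root a, val u a)) (hmem u) _ (fun q hq hq' => ?_) a ha
    simp only [Function.comp_apply, Bool.and_eq_false_iff, Bool.not_eq_false'] at hq'
    rcases hq' with h1 | h1
    · exact (hcov _ (List.contains_iff_mem.1 h1)).2 _
    · show C.xg (root q) (val u q) ∈ H
      rw [hval u q hq (C.nz_sound hp h1), C.xg_zero]
      exact one_mem _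
  · exact hcov

include hsmall in
theorem full_of_ne (hs : P.small = true) {r : ℕ} {v : F} (hv : v ≠ 0) (h : C.xg r v ∈ H) :
    ∀ t : F, C.xg r t ∈ H := by
  have hv1 : v = 1 := (hsmall hs v).resolve_left hv
  intro t
  rcases hsmall hs t with rfl | rfl
  · rw [C.xg_zero]; exact one_mem _
  · exact hv1 ▸ h

include hc hM hb in
theorem nc_mem {cov : List ℕ} (hcov : ∀ k ∈ cov, k < D.nroots ∧ ∀ t : F, C.xg k t ∈ H) (h : cov.contains P.M = true) :
    C.nc F P.c ∈ H :=
  (H.mul_mem_cancel_left ((hcov _ (List.contains_iff_mem.1 h)).2 1)).1 hb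

include hc hM hp hal hsmall hb in
theorem gstep_sound {cov : List ℕ} (op : ℕ × ℕ × ℕ) (hcov : ∀ k ∈ cov, k < D.nroots ∧ ∀ t : F, C.xg k t ∈ H) :
    ∀ k ∈ Fast.gstep T D P cov op, k < D.nroots ∧ ∀ t : F, C.xg k t ∈ H := by
  obtain ⟨kind, r, s⟩ := op
  unfold Fast.gstep
  dsimp only
  by_cases hrc : cov.contains r = true
  swap
  · rw [if_neg hrc]; exact hcov
  rw [if_pos hrc]
  obtain ⟨hr, hrH⟩ := hcov r (List.contains_iff_mem.1 hrc)
  have hci : ∀ i ∈ P.c.reverse, i < D.rank := fun i hi => hc i (List.mem_reverse.1 hi)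
  have cons : ∀ {z : ℕ}, z < D.nroots → (∀ t : F, C.xg z t ∈ H) →
      ∀ k ∈ z :: cov, k < D.nroots ∧ ∀ t : F, C.xg k t ∈ H := fun hz h k hk => by
    rcases List.mem_cons.1 hk with rfl | hk
    exacts [⟨hz, h⟩, hcov k hk]
  have alne : ∀ {z : ℤ}, P.al.contains z.natAbs = true → (z : F) ≠ 0 := fun h => hal _ (List.contains_iff_mem.1 h)
  split
  · -- conjugation by b
    set z := T.word P.c r with hz
    have hzlt : z < D.nroots := C.word_lt P.c hc hr
    obtain ⟨e, he, hconj⟩ := C.nc_conj (F := F) P.c hc hr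
    have hbz : ∀ u : F, C.xg P.M 1 * C.xg z u * (C.xg P.M 1)⁻¹ ∈ H := fun u => by
      have := mul_mem (mul_mem hb (hrH (e⁻¹ * u))) (inv_mem hb)
      rw [mul_inv_rev, show C.xg P.M 1 * C.nc F P.c * C.xg r (e⁻¹ * u) * ((C.nc F P.c)⁻¹ * (C.xg P.M 1)⁻¹) =
        C.xg P.M 1 * (C.nc F P.c * C.xg r (e⁻¹ * u) * (C.nc F P.c)⁻¹) * (C.xg P.M 1)⁻¹ by group, hconj,
        mul_inv_cancel_left₀ he] at this
      exact this
    split_ifs with h1 h2
    · simp only [Bool.and_eq_true, beq_iff_eq] at h1
      have hzM : z = P.M := h1.2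
      refine cons hM (C.full_of_ne hsmall h1.1 one_ne_zero ?_)
      have := hbz 1
      rwa [hzM, mul_inv_cancel_right] at this
    · simp only [Bool.and_eq_true, bne_iff_ne, ← hz] at h1 h2
      have hzM : z ≠ P.M := fun e => h1 ⟨h2.1, by simpa using e⟩
      have hzn : z ≠ D.neg P.M := by rw [C.tables.neg _ hM]; exact h2.2
      have hW : ∀ u : F, C.wg (((z, (1 : ℤ), 0, 1) :: D.commTerms P.M z).map fun t =>
          (t.1, (t.2.1 : F) * u ^ t.2.2.2)) ∈ H := by
        intro u
        have h := hbz u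
        have hcm := C.comm hM hzlt hzM hzn (-1 : F) u
        rw [show C.xg P.M (1 : F) * C.xg z u * (C.xg P.M (1 : F))⁻¹ =
            C.xg P.M 1 * (C.xg z u * C.xg P.M (-1)) by rw [C.xg_inv, mul_assoc], hcm,
          ← mul_assoc, ← mul_assoc, C.xg_add hM, add_neg_cancel, C.xg_zero, one_mul] at h
        rw [List.map_cons, C.wg_cons]
        simp only [Int.cast_one, one_mul, pow_one]
        convert h using 3
        rw [ChevalleyDatum.commWord]
        exact List.map_congr_left fun t _ => by simp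
      by_cases hz1 : Fast.nz P 1 = true
      swap
      · exfalso
        exact one_ne_zero ((Int.cast_one (R := F)).symm.trans (C.nz_sound hp (by simpa using hz1)))
      have key := C.hit_sound hp hcov ((z, (1 : ℤ), 0, 1) :: D.commTerms P.M z) (fun t => t.1)
        (fun t => t.2.2.1 == 0 || P.al.contains t.2.1.natAbs) (fun t => t.2.1)
        (fun u t => (t.2.1 : F) * u ^ t.2.2.2) (fun a ha => by
          rcases List.mem_cons.1 ha with rfl | ha
          exacts [hzlt, C.commTerms_lt hM hzlt a ha]) (fun u a _ h0 => by rw [h0, zero_mul]) hW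
        (fun a ha _ hfl hu => by
          refine C.full_of_ne hsmall h2.1 ?_ (hu (1 : F))
          rw [one_pow, mul_one]
          rcases List.mem_cons.1 ha with rfl | ha
          · rw [Int.cast_one]; exact one_ne_zero
          · simp only [Bool.or_eq_true, beq_iff_eq, C.commTerms_pos a ha, false_or] at hfl
            exact alne hfl)
      refine fun k hk => key k ?_
      rw [List.filter_cons_of_pos (by exact hz1), List.map_cons]
      convert hk using 3
      · rfl
      refine List.map_congr_left fun t ht => ?_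
      simp only [Prod.mk.injEq, true_and]
      have := C.commTerms_pos t (List.mem_of_mem_filter ht)
      simp [this]
    · exact hcov
  · -- conjugation by the inverse of b
    obtain ⟨e, he, hconj⟩ := C.nc_conj' (F := F) P.c hc hM
    have hbr : ∀ u : F, (C.nc F P.c)⁻¹ * (C.xg P.M (-1) * C.xg r u * C.xg P.M 1) * C.nc F P.c ∈ H := fun u => by
      have := mul_mem (mul_mem (inv_mem hb) (hrH u)) hb
      rw [mul_inv_rev, C.xg_inv] at this
      simpa only [mul_assoc] using this
    split_ifs with h1 h2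
    · simp only [Bool.and_eq_true, beq_iff_eq] at h1
      refine cons (C.word_lt _ hci hM) (C.full_of_ne hsmall h1.1 he ?_)
      have := hbr 1
      rwa [h1.2, C.xg_add hM, C.xg_add hM, show (-1 : F) + 1 + 1 = 1 by ring, hconj, mul_one] at this
    · simp only [Bool.and_eq_true, bne_iff_ne] at h1 h2
      have hrM : r ≠ P.M := fun e => h1 ⟨h2.1, by simpa using e⟩
      have hrn : r ≠ D.neg P.M := by rw [C.tables.neg _ hM]; exact h2.2
      have hex : ∀ k : ℕ, ∃ e : F, k < D.nroots → e ≠ 0 ∧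
          ∀ t : F, (C.nc F P.c)⁻¹ * C.xg k t * C.nc F P.c = C.xg (T.word P.c.reverse k) (e * t) := by
        intro k
        by_cases hk : k < D.nroots
        · obtain ⟨e, h⟩ := C.nc_conj' (F := F) P.c hc hk; exact ⟨e, fun _ => h⟩
        · exact ⟨1, fun h => absurd h hk⟩
      choose ee hee using hex
      set L := (r, (1 : ℤ), 0, 1) :: D.commTerms P.M r with hLdef
      have hLlt : ∀ a ∈ L, a.1 < D.nroots := by
        intro a ha
        rcases List.mem_cons.1 ha with rfl | ha
        exacts [hr, C.commTerms_lt hM hr a ha]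
      have hconjwg : ∀ (l : List (ℕ × ℤ × ℕ × ℕ)), (∀ a ∈ l, a.1 < D.nroots) → ∀ v : ℕ × ℤ × ℕ × ℕ → F,
          (C.nc F P.c)⁻¹ * C.wg (l.map fun a => (a.1, v a)) * C.nc F P.c =
            C.wg (l.map fun a => (T.word P.c.reverse a.1, ee a.1 * v a)) := by
        intro l
        induction l with
        | nil => intro _ v; simp [C.wg_nil]
        | cons a l ih =>
          intro hl v
          rw [List.map_cons, List.map_cons, C.wg_cons, C.wg_cons, ← (hee a.1 (hl a (List.mem_cons_self ..))).2,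
            ← ih (fun b hb => hl b (List.mem_cons_of_mem _ hb)) v]
          group
      have hW : ∀ u : F, C.wg (L.map fun t =>
          (T.word P.c.reverse t.1, ee t.1 * ((t.2.1 : F) * (-1) ^ t.2.2.1 * u ^ t.2.2.2))) ∈ H := by
        intro u
        rw [← hconjwg L hLlt]
        convert hbr u using 3
        rw [mul_assoc (C.xg P.M (-1)), C.comm hM hr hrM hrn (1 : F) u, ← mul_assoc, ← mul_assoc, C.xg_add hM,
          neg_add_cancel, C.xg_zero, one_mul, hLdef, List.map_cons, C.wg_cons]
        simp only [Int.cast_one, pow_zero, pow_one, one_mul]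
        rfl
      by_cases hz1 : Fast.nz P 1 = true
      swap
      · exfalso
        exact one_ne_zero ((Int.cast_one (R := F)).symm.trans (C.nz_sound hp (by simpa using hz1)))
      have key := C.hit_sound hp hcov L (fun t => T.word P.c.reverse t.1)
        (fun t => t.2.2.1 == 0 || P.al.contains t.2.1.natAbs) (fun t => t.2.1)
        (fun u t => ee t.1 * ((t.2.1 : F) * (-1) ^ t.2.2.1 * u ^ t.2.2.2))
        (fun a ha => C.word_lt _ hci (hLlt a ha))
        (fun u a _ h0 => by rw [h0, zero_mul, zero_mul, mul_zero]) hW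
        (fun a ha _ hfl hu => by
          refine C.full_of_ne hsmall h2.1 ?_ (hu 1)
          rw [one_pow, mul_one]
          refine mul_ne_zero (hee _ (hLlt a ha)).1 (mul_ne_zero ?_ (pow_ne_zero _ (neg_ne_zero.2 one_ne_zero)))
          rcases List.mem_cons.1 ha with rfl | ha
          · rw [Int.cast_one]; exact one_ne_zero
          · simp only [Bool.or_eq_true, beq_iff_eq, C.commTerms_pos a ha, false_or] at hfl
            exact alne hfl)
      refine fun k hk => key k ?_
      rw [hLdef, List.filter_cons_of_pos (by exact hz1), List.map_cons]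
      convert hk using 3
      · rfl
      refine List.map_congr_left fun t ht => ?_
      simp only [Prod.mk.injEq, true_and]
      have := C.commTerms_pos t (List.mem_of_mem_filter ht)
      simp [this]
    · exact hcov
  · -- the monomial element
    split_ifs with h1
    · obtain ⟨e, he, hconj⟩ := C.nc_conj (F := F) P.c hc hr
      have hn := C.nc_mem hc hM hb hcov h1
      refine cons (C.word_lt _ hc hr) fun t => ?_
      have := mul_mem (mul_mem hn (hrH (e⁻¹ * t))) (inv_mem hn)
      rwa [hconj, mul_inv_cancel_left₀ he] at this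
    · exact hcov
  · -- its inverse
    split_ifs with h1
    · obtain ⟨e, he, hconj⟩ := C.nc_conj' (F := F) P.c hc hr
      have hn := C.nc_mem hc hM hb hcov h1
      refine cons (C.word_lt _ hci hr) fun t => ?_
      have := mul_mem (mul_mem (inv_mem hn) (hrH (e⁻¹ * t))) hn
      rwa [hconj, mul_inv_cancel_left₀ he] at this
    · exact hcov
  · -- commutators
    split_ifs with h1
    · simp only [Bool.and_eq_true, bne_iff_ne] at h1
      obtain ⟨⟨h0, hne⟩, hn⟩ := h1
      obtain ⟨hs, hsH⟩ := hcov s (List.contains_iff_mem.1 h0)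
      have hneg : s ≠ D.neg r := by rw [C.tables.neg _ hr]; exact hn
      have hW : ∀ t u : F, C.wg ((D.commTerms r s).map fun c =>
          (c.1, (c.2.1 : F) * (-t) ^ c.2.2.1 * u ^ c.2.2.2)) ∈ H := by
        intro t u
        have h := C.comm hr hs hne hneg t u
        have hh := mul_mem (hsH u) (hrH t)
        rw [h] at hh
        exact (H.mul_mem_cancel_left (mul_mem (hrH t) (hsH u))).1 hh
      intro k hk
      refine C.hit_sound hp hcov (D.commTerms r s) (fun t => t.1)
        (fun t => P.al.contains t.2.1.natAbs && (t.2.2.1 == 1 || t.2.2.2 == 1)) (fun t => t.2.1)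
        (fun (q : F × F) t => (t.2.1 : F) * (-q.1) ^ t.2.2.1 * q.2 ^ t.2.2.2) (fun a ha => C.commTerms_lt hr hs a ha)
        (fun q a _ h0 => by rw [h0, zero_mul, zero_mul]) (fun q => hW q.1 q.2) (fun a _ _ hfl hu t => ?_) k hk
      simp only [Bool.and_eq_true, Bool.or_eq_true, beq_iff_eq] at hfl
      have hc0 := alne hfl.1
      rcases hfl.2 with hij | hij
      · have := hu (-((a.2.1 : F)⁻¹ * t), 1)
        simp only [hij, neg_neg, pow_one, one_pow, mul_one, mul_inv_cancel_left₀ hc0] at this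
        exact this
      · have := hu (-1, (a.2.1 : F)⁻¹ * t)
        simp only [hij, neg_neg, pow_one, one_pow, mul_one, mul_inv_cancel_left₀ hc0] at this
        exact this
    · exact hcov

include hc hM hp hal hsmall hb in
/-- Generation from a certificate. -/
theorem group_le_of_gcheck {seeds : List ℕ} (hseed : ∀ k ∈ seeds, k < D.nroots ∧ ∀ t : F, C.xg k t ∈ H)
    (ops : List (ℕ × ℕ × ℕ)) (h : Fast.gcheck T D P seeds ops = true) : D.group F ≤ H := by
  have hall : ∀ (ops : List (ℕ × ℕ × ℕ)) (cov : List ℕ), (∀ k ∈ cov, k < D.nroots ∧ ∀ t : F, C.xg k t ∈ H) →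
      ∀ k ∈ ops.foldl (Fast.gstep T D P) cov, k < D.nroots ∧ ∀ t : F, C.xg k t ∈ H := by
    intro ops
    induction ops with
    | nil => exact fun cov hc => hc
    | cons op ops ih => exact fun cov h' => ih _ (C.gstep_sound hc hM hp hal hsmall hb op h')
  simp only [Fast.gcheck, List.all_eq_true, List.mem_range, List.contains_iff_mem] at h
  exact C.group_le fun r hr => (hall ops seeds hseed r (h r (C.tables.nroots ▸ hr))).2

end cert

end Checked

end Cfsg.Agent.Lib.Chev

namespace Cfsg.Agent.Lib.Chev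

open Cfsg.Lie Cfsg.Agent.Lib

/-- A generator of the units raised to a power prime to the order reaches every unit. -/
theorem exists_pow_eq {G : Type*} [Group G] [Finite G] {g : G} (hg : ∀ x : G, x ∈ Subgroup.zpowers g) {e : ℤ}
    (he : Nat.Coprime e.natAbs (Nat.card G)) (x : G) : ∃ k : ℕ, (g ^ e) ^ k = x := by
  refine (Submonoid.mem_powers_iff x (g ^ e)).1 (mem_powers_iff_mem_zpowers.2 ?_)
  obtain ⟨m, rfl⟩ := hg x
  obtain ⟨a, b, hab⟩ := (Int.isCoprime_iff_nat_coprime (a := e) (b := (Nat.card G : ℤ))).2 (by simpa using he)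
  refine ⟨a * m, ?_⟩
  show (g ^ e) ^ (a * m) = g ^ m
  rw [← zpow_mul]
  have h1 : g ^ ((Nat.card G : ℤ) * (b * m)) = 1 := by rw [zpow_mul, zpow_natCast, pow_card_eq_one', one_zpow]
  calc g ^ (e * (a * m)) = g ^ (e * (a * m)) * g ^ ((Nat.card G : ℤ) * (b * m)) := by rw [h1, mul_one]
    _ = g ^ m := by rw [← zpow_add]; congr 1; linear_combination m * hab

theorem exists_gen_units (F : Type*) [Field F] [Finite F] : ∃ g : Fˣ, ∀ x : Fˣ, x ∈ Subgroup.zpowers g :=
  (inferInstance : IsCyclic Fˣ).exists_generator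

namespace Checked

variable {D : ChevalleyDatum} {T : Fast} {F : Type*} [Field F] (C : Checked D T)
include C

theorem hg_conj {b : ℕ} (hb : b < D.nroots) {θ : F} (hθ : θ ≠ 0) {r : ℕ} (hr : r < D.nroots) (t : F) :
    C.hg b θ * C.xg r t * (C.hg b θ)⁻¹ = C.xg r (θ ^ pair D b r * t) := by
  rw [mul_inv_eq_iff_eq_mul]
  refine Units.ext ?_
  rw [Units.val_mul, Units.val_mul, C.val_hg, C.val_xg, C.val_xg, C.hMat_eq hb hθ]
  exact C.dg_x (C.isChr_pair b hθ) hr t

theorem nc_mem_monomial (c : List ℕ) (hc : ∀ i ∈ c, i < D.rank) : C.nc F c ∈ D.monomialSubgroup F := by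
  refine Subgroup.list_prod_mem _ fun x hx => ?_
  obtain ⟨i, hi, rfl⟩ := List.mem_map.1 hx
  exact C.ng_mem (hc i hi)

theorem nc_pow_conj_mem {H : Subgroup (GL D.Idx F)} {c : List ℕ} (hc : ∀ i ∈ c, i < D.rank) (hn : C.nc F c ∈ H)
    {r : ℕ} (hr : r < D.nroots) {t : F} (ht : t ≠ 0) (h : C.xg r t ∈ H) :
    ∀ k : ℕ, (fun s => T.word c s)^[k] r < D.nroots ∧ ∃ d : F, d ≠ 0 ∧ C.xg ((fun s => T.word c s)^[k] r) d ∈ H := by
  intro k
  induction k with
  | zero => exact ⟨hr, t, ht, h⟩
  | succ k ih =>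
    obtain ⟨hlt, d, hd, hm⟩ := ih
    obtain ⟨e, he, hconj⟩ := C.nc_conj (F := F) c hc hlt
    rw [Function.iterate_succ_apply']
    refine ⟨C.word_lt c hc hlt, e * d, mul_ne_zero he hd, ?_⟩
    rw [← hconj]
    exact mul_mem (mul_mem hn hm) (inv_mem hn)

variable [Finite F] {g : Fˣ} (hgen : ∀ x : Fˣ, x ∈ Subgroup.zpowers g)

include hgen in
/-- One element of a root subgroup and a torus element give the root subgroup. -/
theorem spread {H : Subgroup (GL D.Idx F)} {b : ℕ} (hb : b < D.nroots) (hh : C.hg b (g : F) ∈ H) {r : ℕ}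
    (hr : r < D.nroots) (he : Nat.Coprime (pair D b r).natAbs (Nat.card Fˣ)) {t : F} (ht : t ≠ 0)
    (h : C.xg r t ∈ H) : ∀ u : F, C.xg r u ∈ H := by
  intro u
  by_cases hu : u = 0
  · rw [hu, C.xg_zero]; exact one_mem _
  obtain ⟨k, hk⟩ := exists_pow_eq hgen he (Units.mk0 (u * t⁻¹) (mul_ne_zero hu (inv_ne_zero ht)))
  have hstep : ∀ k : ℕ, C.xg r ((((g : F) ^ pair D b r) ^ k) * t) ∈ H := by
    intro k
    induction k with
    | zero => simpa using h
    | succ k ih =>
      have := mul_mem (mul_mem hh ih) (inv_mem hh)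
      rw [C.hg_conj hb g.ne_zero hr] at this
      rwa [pow_succ', mul_assoc]
  have h2 : ((g : F) ^ pair D b r) ^ k = u * t⁻¹ := by
    have := congrArg Units.val hk
    simpa using this
  have := hstep k
  rwa [h2, inv_mul_cancel_right₀ ht] at this

include hgen in
/-- The commutator trick: `h` and `x_S(1) n` give the root subgroup of `S` and `n`. -/
theorem trick {H : Subgroup (GL D.Idx F)} {b S r0 : ℕ} (hb : b < D.nroots) (hr0 : r0 < D.nroots) {c : List ℕ}
    (hc : ∀ i ∈ c, i < D.rank) (hS : T.word c r0 = S) (eS : (pair D b S).natAbs = 1)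
    (e0 : (pair D b r0).natAbs = 1) (hq : (g : F) ≠ 1) (hh : C.hg b (g : F) ∈ H) (hy : C.xg S 1 * C.nc F c ∈ H) :
    (∀ u : F, C.xg S u ∈ H) ∧ C.nc F c ∈ H := by
  have hSlt : S < D.nroots := hS ▸ C.word_lt c hc hr0
  set θ := (g : F) with hθd
  have hθ : θ ≠ 0 := g.ne_zero
  have hne : ∀ e : ℤ, e.natAbs = 1 → θ ^ e ≠ 1 := by
    intro e he
    rcases Int.natAbs_eq_iff.1 he with rfl | rfl
    · simpa using hq
    · simpa using hq
  obtain ⟨d, hd, hconj⟩ := C.nc_conj (F := F) c hc hr0
  rw [hS] at hconj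
  set n := C.nc F c with hn
  set h := C.hg b θ with hhd
  set h' := n * h * n⁻¹ with hh'
  have hdiag : h ∈ D.diagonalSubgroup F := C.hg_mem hb hθ
  have hcomm : h * h' = h' * h :=
    C.diag_comm hdiag (C.mono_conj_diag (C.nc_mem_monomial c hc) h hdiag)
  have hact : ∀ t : F, h' * C.xg S t * h'⁻¹ = C.xg S (θ ^ pair D b r0 * t) := by
    intro t
    have h1 : C.xg S t = n * C.xg r0 (d⁻¹ * t) * n⁻¹ := by rw [hconj, mul_inv_cancel_left₀ hd]
    rw [h1, show h' * (n * C.xg r0 (d⁻¹ * t) * n⁻¹) * h'⁻¹ = n * (h * C.xg r0 (d⁻¹ * t) * h⁻¹) * n⁻¹ by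
      rw [hh']; group, C.hg_conj hb hθ hr0, hconj, mul_left_comm, mul_inv_cancel_left₀ hd]
  set β := θ ^ pair D b r0
  set α := θ ^ pair D b S
  have hg1 : C.xg S 1 * n * h * (C.xg S 1 * n)⁻¹ = C.xg S (1 - β) * h' := by
    rw [show C.xg S 1 * n * h * (C.xg S 1 * n)⁻¹ = C.xg S 1 * (h' * (C.xg S 1)⁻¹ * h'⁻¹) * h' by
      rw [hh']; group, C.xg_inv, hact, C.xg_add hSlt, mul_neg, mul_one, sub_eq_add_neg]
  have hcm : h * (C.xg S (1 - β) * h') * h⁻¹ * (C.xg S (1 - β) * h')⁻¹ = C.xg S ((α - 1) * (1 - β)) := by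
    calc h * (C.xg S (1 - β) * h') * h⁻¹ * (C.xg S (1 - β) * h')⁻¹
        = h * C.xg S (1 - β) * h⁻¹ * ((h * h') * (h' * h)⁻¹) * (C.xg S (1 - β))⁻¹ := by group
      _ = C.xg S ((α - 1) * (1 - β)) := by
        rw [hcomm, mul_inv_cancel, mul_one, C.hg_conj hb hθ hSlt, C.xg_inv, C.xg_add hSlt]
        congr 1; ring
  have hmem : C.xg S ((α - 1) * (1 - β)) ∈ H := by
    rw [← hcm, ← hg1]
    exact mul_mem (mul_mem (mul_mem hh (mul_mem (mul_mem hy hh) (inv_mem hy))) (inv_mem hh))
      (inv_mem (mul_mem (mul_mem hy hh) (inv_mem hy)))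
  have hfull := C.spread hgen hb hh hSlt (by rw [eS]; exact Nat.coprime_one_left _)
    (mul_ne_zero (sub_ne_zero.2 (hne _ eS)) (sub_ne_zero.2 (hne _ e0).symm)) hmem
  exact ⟨hfull, (H.mul_mem_cancel_left (hfull 1)).1 hy⟩

omit [Finite F] in
/-- Two generators of the group inside `GL` give two generators of the group. -/
theorem exists_pair (a b : GL D.Idx F) (ha : a ∈ D.group F) (hb : b ∈ D.group F)
    (h : D.group F ≤ Subgroup.closure {a, b}) :
    ∃ x y : ↥(D.group F), Subgroup.closure ({x, y} : Set ↥(D.group F)) = ⊤ := by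
  refine ⟨⟨a, ha⟩, ⟨b, hb⟩, Subgroup.map_injective (D.group F).subtype_injective ?_⟩
  rw [MonoidHom.map_closure, ← MonoidHom.range_eq_map, Subgroup.range_subtype, Set.image_pair]
  exact le_antisymm ((Subgroup.closure_le _).2 (Set.insert_subset ha (Set.singleton_subset_iff.2 hb))) h

omit [Finite F] in
/-- Over the field with two elements. -/
theorem two_small (h2 : ∀ t : F, t = 0 ∨ t = 1) (c : List ℕ) (L M : ℕ) (ops : List (ℕ × ℕ × ℕ))
    (hdat : (∀ i ∈ c, i < D.rank) ∧ L < D.nroots ∧ M < D.nroots ∧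
      Fast.gcheck T D ⟨c, M, 2, [1], true⟩ [L] ops = true) :
    ∃ x y : ↥(D.group F), Subgroup.closure ({x, y} : Set ↥(D.group F)) = ⊤ := by
  obtain ⟨hc, hL, hM, hcheck⟩ := hdat
  have hp : ((2 : ℕ) : F) = 0 := by
    rcases h2 (-1) with h | h
    · exact absurd h (neg_ne_zero.2 one_ne_zero)
    · rw [Nat.cast_ofNat, ← one_add_one_eq_two, add_eq_zero_iff_eq_neg]
      exact h.symm
  refine C.exists_pair (C.xg L 1) (C.xg M 1 * C.nc F c) (C.xg_mem_group hL _)
    (mul_mem (C.xg_mem_group hM _) (C.nc_mem_group c hc)) ?_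
  refine C.group_le_of_gcheck (P := ⟨c, M, 2, [1], true⟩) hc hM hp (fun z hz => ?_) (fun _ => h2)
    (Subgroup.subset_closure (Or.inr rfl)) (fun k hk => ?_) ops hcheck
  · simp only [List.mem_singleton] at hz
    rcases Int.natAbs_eq_iff.1 hz with rfl | rfl <;> simp
  · rw [List.mem_singleton] at hk
    subst hk
    refine ⟨hL, fun t => ?_⟩
    rcases h2 t with rfl | rfl
    · rw [C.xg_zero]; exact one_mem _
    · exact Subgroup.subset_closure (Or.inl rfl)

/-- A torus element and `x_S(1) n`. -/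
theorem two_good (hq : ∃ x : F, x ≠ 0 ∧ x ≠ 1) (c : List ℕ) (b S r0 : ℕ) (al : List ℕ)
    (hal : ∀ z : ℤ, z.natAbs ∈ al → (z : F) ≠ 0) (ops : List (ℕ × ℕ × ℕ))
    (hdat : (∀ i ∈ c, i < D.rank) ∧ b < D.nroots ∧ r0 < D.nroots ∧ T.word c r0 = S ∧
      (pair D b S).natAbs = 1 ∧ (pair D b r0).natAbs = 1 ∧
      Fast.gcheck T D ⟨c, S, 0, al, false⟩ [S] ops = true) :
    ∃ x y : ↥(D.group F), Subgroup.closure ({x, y} : Set ↥(D.group F)) = ⊤ := by
  obtain ⟨hc, hb, hr0, hS, eS, e0, hcheck⟩ := hdat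
  obtain ⟨g, hgen⟩ := exists_gen_units F
  have hg1 : (g : F) ≠ 1 := by
    intro h
    obtain ⟨x, hx0, hx1⟩ := hq
    obtain ⟨k, hk⟩ := hgen (Units.mk0 x hx0)
    refine hx1 ?_
    have := congrArg Units.val hk
    simpa [h] using this.symm
  have hSlt : S < D.nroots := hS ▸ C.word_lt c hc hr0
  refine C.exists_pair (C.hg b (g : F)) (C.xg S 1 * C.nc F c)
    (C.diag_le_group (C.hg_mem hb g.ne_zero)) (mul_mem (C.xg_mem_group hSlt _) (C.nc_mem_group c hc)) ?_
  obtain ⟨hfull, -⟩ := C.trick (H := Subgroup.closure {C.hg b (g : F), C.xg S 1 * C.nc F c}) hgen hb hr0 hc hS eS e0 hg1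
    (Subgroup.subset_closure (Or.inl rfl))
    (Subgroup.subset_closure (Or.inr rfl))
  refine C.group_le_of_gcheck (P := ⟨c, S, 0, al, false⟩) hc hSlt Nat.cast_zero hal (fun h => Bool.noConfusion h)
    (Subgroup.subset_closure (Or.inr rfl)) (fun k hk => ?_) ops hcheck
  rw [List.mem_singleton] at hk
  subst hk
  exact ⟨hSlt, hfull⟩

/-- `h x_L(1)` and `x_S(1) n`. -/
theorem two_bad (hq : ∃ x : F, x ≠ 0 ∧ x ≠ 1) (c : List ℕ) (b S r0 L k : ℕ) (p : ℕ) (hp : (p : F) = 0)
    (hcop : p ≠ 0 → Nat.Coprime p (Nat.card Fˣ)) (ops : List (ℕ × ℕ × ℕ))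
    (hdat : (∀ i ∈ c, i < D.rank) ∧ b < D.nroots ∧ r0 < D.nroots ∧ L < D.nroots ∧ T.word c r0 = S ∧
      (pair D b S).natAbs = 1 ∧ (pair D b r0).natAbs = 1 ∧ pair D b L = 0 ∧
      ((pair D b ((fun s => T.word c s)^[k] L)).natAbs = 1 ∨
        p ≠ 0 ∧ (pair D b ((fun s => T.word c s)^[k] L)).natAbs = p) ∧
      Fast.gcheck T D ⟨c, S, p, [1], false⟩ [S, (fun s => T.word c s)^[k] L] ops = true) :
    ∃ x y : ↥(D.group F), Subgroup.closure ({x, y} : Set ↥(D.group F)) = ⊤ := by
  obtain ⟨hc, hb, hr0, hL, hS, eS, e0, eL, eL', hcheck⟩ := hdat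
  obtain ⟨g, hgen⟩ := exists_gen_units F
  have hg1 : (g : F) ≠ 1 := by
    intro h
    obtain ⟨x, hx0, hx1⟩ := hq
    obtain ⟨k, hk⟩ := hgen (Units.mk0 x hx0)
    refine hx1 ?_
    have := congrArg Units.val hk
    simpa [h] using this.symm
  have hSlt : S < D.nroots := hS ▸ C.word_lt c hc hr0
  set θ := (g : F) with hθd
  have hθ : θ ≠ 0 := g.ne_zero
  set a := C.hg b θ * C.xg L 1
  set y := C.xg S 1 * C.nc F c
  refine C.exists_pair a y (mul_mem (C.diag_le_group (C.hg_mem hb hθ)) (C.xg_mem_group hL _))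
    (mul_mem (C.xg_mem_group hSlt _) (C.nc_mem_group c hc)) ?_
  haveI : Fintype F := Fintype.ofFinite F
  have hcom : Commute (C.hg b θ) (C.xg L 1) := by
    have h := C.hg_conj hb hθ hL (1 : F)
    rw [eL, zpow_zero, one_mul, mul_inv_eq_iff_eq_mul] at h
    exact h
  have hhq : C.hg b θ ^ Fintype.card F = C.hg b θ := by
    have hpw : ∀ m : ℕ, C.hg b θ ^ (m + 1) = C.hg b (θ ^ (m + 1)) := by
      intro m
      induction m with
      | zero => rw [pow_one, pow_one]
      | succ m ih =>
        rw [pow_succ, ih]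
        refine Units.ext ?_
        rw [Units.val_mul, C.val_hg, C.val_hg, C.val_hg, C.hMat_mul hb (pow_ne_zero _ hθ) hθ, ← pow_succ]
    obtain ⟨m, hm⟩ := Nat.exists_eq_succ_of_ne_zero (Fintype.card_ne_zero (α := F))
    have h := hpw m
    rw [← Nat.succ_eq_add_one, ← hm, FiniteField.pow_card] at h
    exact h
  have hxq : C.xg L (1 : F) ^ Fintype.card F = 1 := by
    have hpw : ∀ m : ℕ, C.xg L (1 : F) ^ m = C.xg L (m : F) := by
      intro m
      induction m with
      | zero => rw [pow_zero, Nat.cast_zero, C.xg_zero]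
      | succ m ih => rw [pow_succ, ih, C.xg_add hL, Nat.cast_succ]
    rw [hpw, FiniteField.cast_card_eq_zero, C.xg_zero]
  have hh : C.hg b θ ∈ Subgroup.closure ({a, y} : Set (GL D.Idx F)) := by
    have : a ^ Fintype.card F = C.hg b θ := by rw [hcom.mul_pow, hhq, hxq, mul_one]
    rw [← this]
    exact pow_mem (Subgroup.subset_closure (Set.mem_insert _ _) : a ∈ Subgroup.closure ({a, y} : Set (GL D.Idx F))) _
  have hxL : C.xg L (1 : F) ∈ Subgroup.closure ({a, y} : Set (GL D.Idx F)) :=
    ((Subgroup.closure ({a, y} : Set (GL D.Idx F))).mul_mem_cancel_left hh).1 (Subgroup.subset_closure (Or.inl rfl))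
  obtain ⟨hfull, hn⟩ := C.trick hgen hb hr0 hc hS eS e0 hg1 hh (Subgroup.subset_closure (Or.inr rfl))
  obtain ⟨hlt, d, hd, hxd⟩ := C.nc_pow_conj_mem hc hn hL one_ne_zero hxL k
  have hfull' := C.spread hgen hb hh hlt (by
    rcases eL' with h | ⟨h0, h⟩
    · rw [h]; exact Nat.coprime_one_left _
    · rw [h]; exact hcop h0) hd hxd
  refine C.group_le_of_gcheck (P := ⟨c, S, p, [1], false⟩) hc hSlt hp (fun z hz => ?_) (fun h => Bool.noConfusion h)
    (Subgroup.subset_closure (Or.inr rfl)) (fun k' hk => ?_) ops hcheck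
  · simp only [List.mem_singleton] at hz
    rcases Int.natAbs_eq_iff.1 hz with rfl | rfl <;> simp
  · simp only [List.mem_cons, List.not_mem_nil, or_false] at hk
    rcases hk with rfl | rfl
    exacts [⟨hSlt, hfull⟩, ⟨hlt, hfull'⟩]

end Checked

end Cfsg.Agent.Lib.Chev
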